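import Cfsg.Agent.CLAS.AschOr3

/-!
Aschbacher's theorem for the orthogonal groups.
-/

set_option autoImplicit false

namespace CL.Asch

open Matrix Cfsg.Geo Module QuadraticMap CL.Orth
open scoped Kronecker MatrixGroups commutatorElement

variable {F : Type*} [Field F] {ι κ μ : Type} [Fintype ι] [DecidableEq ι] [Fintype κ] [DecidableEq κ]
  [Fintype μ] [DecidableEq μ] {Q : QuadraticForm F (ι → F)} {σ : F →+* F}

local notation "ρ" => RingHom.id F

theorem dec_plus_iff [Finite F] (h2 : (2 : F) ≠ 0) (hQ : (polarBilin Q).Nondegenerate) {t m k : ℕ}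
    {D : Fin t → Submodule F (ι → F)} (hD : IsOrthogonalMDecomposition Q m D) (ht : Even t)
    (hk : Fintype.card ι = 2 * k) : IsPlusTypeOn Q ⊤ ↔ sqSign (-1 : F) ^ k = 1 := by
  rw [plusOn_top_iff, isPlus_iff_dsc h2 hQ (m := k) (by simpa using hk),
    (dec_type hD ⟨0, by have := hD.decomp.decomp.two_le; omega⟩).1, Int.units_pow_eq_pow_mod_two,
    Nat.even_iff.mp ht, pow_zero, eq_comm]

theorem Nil2.plus [Fintype F] (hQ : (polarBilin Q).Nondegenerate) (hn : Fintype.card ι = 8)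
    {H N : Subgroup (GL ι F)} (hN : Nil2 H N)
    (hH : ∀ h ∈ N, ∀ v, Q ((h : Matrix ι ι F) *ᵥ v) = Q v) : IsPlusTypeOn Q ⊤ := by
  have hn2 : 2 ≤ Fintype.card ι := by omega
  haveI := nonempty_of_two_le hn2
  have hG := herm_gq hQ
  have hNG := fun x hx => isSim_of_isometry (hH x hx)
  obtain ⟨-, -, hq, -, h1, -⟩ := hN.bilinear hn2 hG.det_ne hNG
  have h2 := two_ne_zero_of_odd hq
  obtain ⟨x, hx, hxs⟩ := exists_nonscalar_of_alg_top hn2 hN.top
  obtain ⟨c, hc⟩ := mem_scalars'.mp (h1 x hx)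
  rw [pow_two, Units.val_mul] at hc
  have h3 : c * c = 1 := IsSim.scalar hG.det_ne (by simpa [hc] using (hNG x hx).mul (hNG x hx))
  have h4 : IsAdj ρ (gq Q) x (c • (x : Matrix ι ι F)) := by
    convert (hNG x hx).isAdj_inv using 1
    refine (Units.inv_eq_of_mul_eq_one_right ?_).symm
    rw [Matrix.mul_smul, hc, smul_smul, h3, one_smul]
  have hirr := irr_of_alg_top hN.top
  have hZ := commAlg_single hG.invol (fun h hh => conj_eq_smul_of_comm hN.comm hh hx) h4 hxs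
  rcases hZ.cases hG hirr (fun h hh => ⟨1, hNG h hh⟩) with ⟨t, e, ht, he, -, hadj⟩ |
    ⟨e, -, he, hadj⟩ | ⟨d, hd, hZd⟩
  · obtain ⟨m, hm⟩ := he.orth_decomp hQ hH ht hadj
    have h5 := card_eq_of_isMDecomposition hm.decomp.decomp
    refine (dec_plus_iff h2 hQ hm (k := 4) ?_ hn).mpr (by rw [Int.units_pow_eq_pow_mod_two, pow_zero])
    have h6 : t ∣ 2 ^ 3 := ⟨m, by omega⟩
    obtain ⟨k, -, rfl⟩ := (Nat.dvd_prime_pow Nat.prime_two).mp h6
    exact even_two.pow_of_ne_zero (by rintro rfl; simp at ht)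
  · obtain ⟨m, hm⟩ := he.isMDecomposition le_rfl
    exact plus_of_pair hm (ts_pair_quad hn2 hQ hirr hH he hadj 0)
  have hxZ : (x : Matrix ι ι F) ∈ Algebra.adjoin F {(x : Matrix ι ι F)} := Algebra.self_mem_adjoin_singleton _ _
  obtain rfl : c = -1 := (mul_self_eq_one_iff.mp h3).resolve_left (by
    rintro rfl
    rcases eq_pm_one_of_field hG.det_ne hZd hxZ (hNG x hx) (by simpa using h4) with h | h
    exacts [hxs ⟨1, by rw [h, one_smul]⟩, hxs ⟨-1, by rw [h, neg_one_smul]⟩])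
  have h5 : ∀ k ∈ Algebra.adjoin F {(x : Matrix ι ι F)},
      ∃ a b : F, k = a • (1 : Matrix ι ι F) + b • (x : Matrix ι ι F) := fun k hk => by
    induction hk using Algebra.adjoin_induction with
    | mem y hy => exact ⟨0, 1, by simpa using hy⟩
    | algebraMap r => exact ⟨r, 0, by simp [Algebra.algebraMap_eq_smul_one]⟩
    | add y z _ _ hy hz =>
      obtain ⟨a, b, rfl⟩ := hy
      obtain ⟨a', b', rfl⟩ := hz
      exact ⟨a + a', b + b', by module⟩
    | mul y z _ _ hy hz =>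
      obtain ⟨a, b, rfl⟩ := hy
      obtain ⟨a', b', rfl⟩ := hz
      exact ⟨a * a' - b * b', a * b' + b * a', by
        simp only [add_mul, mul_add, smul_mul_smul_comm, hc, one_mul, mul_one]; module⟩
  have h6 : d ∣ 2 ^ 3 := by have := finrank_dvd_of_isFieldSubalgebra hZd; rwa [hn] at this
  obtain ⟨k, -, rfl⟩ := (Nat.dvd_prime_pow Nat.prime_two).mp h6
  refine (uni_type hQ hZd (even_two.pow_of_ne_zero (by rintro rfl; simp at hd)) hZ.adj
    fun k hk v hv => ?_).mpr (by simp [hn])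
  obtain ⟨a, b, rfl⟩ := h5 k hk
  have h7 := isAdj_iff.mp h4 v v
  rw [smul_mulVec, gf_smul_right, hG.symm, ← polar_eq_gf, RingHom.id_apply] at h7
  rw [Matrix.add_mulVec, smul_mulVec, smul_mulVec, one_mulVec, Q_add, Q_smul, Q_smul, hH x hx, hv,
    polar_smul_left', polar_smul_right']
  grind

/-- the classes of subgroups of an orthogonal group -/
inductive OrCase [Fintype F] (Q : QuadraticForm F (ι → F)) (H : Subgroup (GL ι F)) : Prop
  | ts (W : Submodule F (ι → F)) (h0 : W ≠ ⊥) (h : IsTotallySingularQuad Q W)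
      (hle : H ≤ subspaceStabilizer W)
  | pt (hq : ¬ Odd (Fintype.card F)) (v : ι → F) (h : Q v ≠ 0)
      (hle : H ≤ subspaceStabilizer (Submodule.span F {v}))
  | nd (W U : Submodule F (ι → F)) (h : OrthSplit (RingHom.id F) (gq Q) W U)
      (hd : finrank F W ≤ finrank F U) (hW : H ≤ subspaceStabilizer W) (hU : H ≤ subspaceStabilizer U)
      (hD : H ≤ decompositionStabilizer ![W, U])
  | dec (t m : ℕ) (D : Fin t → Submodule F (ι → F)) (h : IsOrthogonalMDecomposition Q m D)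
      (hm : m = 1 → (Fintype.card F).Prime) (hle : H ≤ decompositionStabilizer D)
  | pair (m : ℕ) (D : Fin 2 → Submodule F (ι → F)) (h : IsMDecomposition m D)
      (hts : ∀ i, IsTotallySingularQuad Q (D i)) (hle : H ≤ decompositionStabilizer D)
  | fld (r : ℕ) (K : Subalgebra F (Matrix ι ι F)) (hr : r.Prime) (hK : IsFieldSubalgebra r K)
      (hs : ∀ x ∈ K, IsAdj (RingHom.id F) (gq Q) x x) (h1 : Fintype.card ι ≠ r)
      (h2 : Fintype.card ι = 2 * r → r = 2) (hle : H ≤ subalgebraNormalizer K)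
  | uni (K : Subalgebra F (Matrix ι ι F)) (hK : IsFieldSubalgebra 2 K)
      (ha : ∀ x ∈ K, ∃ y ∈ K, IsAdj (RingHom.id F) (gq Q) x y)
      (hs : ¬ ∀ x ∈ K, IsAdj (RingHom.id F) (gq Q) x x)
      (hc : ∀ k ∈ K, ∃ c : F, ∀ v, Q (k *ᵥ v) = c * Q v) (hle : H ≤ subalgebraNormalizer K)
  | tensO (hq : Odd (Fintype.card F)) (k l : ℕ) (φ : Matrix (Fin k) (Fin k) F →ₐ[F] Matrix ι ι F)
      (ψ : Matrix (Fin l) (Fin l) F →ₐ[F] Matrix ι ι F) (G₁ : Matrix (Fin k) (Fin k) F)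
      (G₂ : Matrix (Fin l) (Fin l) F) (h : TPForm (RingHom.id F) (gq Q) H φ ψ 1 1 G₁ G₂) (hk : 3 ≤ k)
      (hkl : k < l) (hex : ¬ (Fintype.card F = 3 ∧ k = 3))
      (h4 : k = 3 → l = 4 → ¬ IsPlusTypeOn (fun v => gf (RingHom.id F) G₂ v v) ⊤)
  | tensS (k l : ℕ) (e : ι ≃ Fin k × Fin l) (P : GL ι F) (f₁ : (Fin k → F) → (Fin k → F) → F)
      (f₂ : (Fin l → F) → (Fin l → F) → F) (hk : 2 ≤ k) (hkl : k < l) (h₁ : IsSymplecticForm f₁)
      (h₂ : IsSymplecticForm f₂) (hk2 : Even k) (hl2 : Even l)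
      (h : IsTensorFormStructure id (polar Q) f₁ f₂ e P)
      (hp : ∀ x y, Q (cvec e P (pv2 x y)) = 0) (hle : H ≤ tensorProductSubgroup k l e P)
  | sub (F₀ : Subfield F) (r : ℕ) (P : GL ι F) (ζ : F) (hr : r.Prime)
      (hc : Fintype.card F = Nat.card F₀ ^ r) (h0 : ζ ≠ 0)
      (h : IsQuadFormRationalStructure (fun v => ζ * Q v) F₀ P) (hle : H ≤ subfieldSubgroup F₀ P)
  | pow (hq : Odd (Fintype.card F)) (m t : ℕ)
      (φ : Fin t → (Matrix (Fin m) (Fin m) F →ₐ[F] Matrix ι ι F)) (G₁ : Matrix (Fin m) (Fin m) F)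
      (h : TFForm (RingHom.id F) (gq Q) H φ 1 G₁) (hm : 3 ≤ m) (hex : ¬ (Fintype.card F = 3 ∧ m = 3))
  | big (he : Even (Fintype.card ι)) (h : Fintype.card ι ≤ 12 → Fintype.card ι = 8 ∧ IsPlusTypeOn Q ⊤)
  | res (h : InOrthogonalResidualClass H)

theorem orth_comm [Fintype F] (hn : 5 ≤ Fintype.card ι) (hQ : (polarBilin Q).Nondegenerate)
    {H : Subgroup (GL ι F)} (hirr : Irr H) (hH : ∀ h ∈ H, ∀ v, Q ((h : Matrix ι ι F) *ᵥ v) = Q v)
    {Z : Subalgebra F (Matrix ι ι F)} (hZ : CommAlg ρ (gq Q) H Z) : OrCase Q H := by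
  have hn2 : 2 ≤ Fintype.card ι := by omega
  haveI := nonempty_of_two_le hn2
  have hG := herm_gq hQ
  have hH1 := fun x hx => isSim_of_isometry (hH x hx)
  have key : ∀ Z, CommAlg ρ (gq Q) H Z → OrCase Q H ∨ ∃ d, Odd d ∧ 2 ≤ d ∧ IsFieldSubalgebra d Z := by
    intro Z hZ
    rcases hZ.cases hG hirr (fun h hh => ⟨1, hH1 h hh⟩) with ⟨t, e, ht, he, -, hadj⟩ |
      ⟨e, heZ, he, hadj⟩ | ⟨d, hd, hZd⟩
    · obtain ⟨m, hm⟩ := he.orth_decomp hQ hH ht hadj
      by_cases h : m = 1 → (Fintype.card F).Prime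
      · exact Or.inl (.dec t m _ hm h he.le_stabilizer)
      · push Not at h
        obtain ⟨rfl, h⟩ := h
        obtain ⟨F₀, r, P, ζ, h1, h2, h3, h4, h5⟩ := frame_subfield h hm hH he.le_stabilizer
        exact Or.inl (.sub F₀ r P ζ h1 h2 h3 h4 h5)
    · obtain ⟨m, hm⟩ := he.isMDecomposition le_rfl
      exact Or.inl (.pair m _ hm (ts_pair_quad hn2 hQ hirr hH he hadj) he.le_stabilizer)
    · rcases d.even_or_odd with h | h
      swap
      · exact Or.inr ⟨d, h, hd, hZd⟩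
      obtain ⟨K, hK, -, hKZ⟩ := hZ.subfield hG hZd h.two_dvd le_rfl
      by_cases hs : ∀ x ∈ K, IsAdj ρ (gq Q) x x
      · exact Or.inl (.fld 2 K Nat.prime_two hK hs (by omega) (fun _ => rfl)
          (le_subalgebraNormalizer hKZ.norm))
      · exact Or.inl (.uni K hK hKZ.adj hs (uni_quad hn2 hQ hirr hH hK hKZ hs)
          (le_subalgebraNormalizer hKZ.norm))
  rcases key Z hZ with h | ⟨d, hodd, hd, hZd⟩
  · exact h
  obtain ⟨r, hr, hrd⟩ := Nat.exists_prime_and_dvd (show d ≠ 1 by omega)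
  obtain ⟨K, hK, -, hKZ⟩ := hZ.subfield hG hZd hrd hr.two_le
  have hro := hodd.of_dvd_nat hrd
  have hs := (selfAdj_or_even hG hK hKZ.adj).resolve_right (Nat.not_even_iff_odd.mpr hro)
  by_cases h1 : Fintype.card ι = r
  · obtain ⟨Z', h2, h3⟩ := singer_commAlg hn2 (h1 ▸ hro) hG hirr hH1 (h1 ▸ hK) hKZ
    exact (key Z' h2).resolve_right fun ⟨d, _, _, h⟩ => h3 d h
  by_cases h2 : Fintype.card ι = 2 * r
  · obtain ⟨Z', h3, h4⟩ := half_commAlg hQ hH hK h2 hKZ hs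
    exact (key Z' h3).resolve_right fun ⟨d, h5, _, h⟩ =>
      h4 ((selfAdj_or_even hG h h3.adj).resolve_right (Nat.not_even_iff_odd.mpr h5))
  exact .fld r K hr hK hs h1 (fun h => absurd h h2) (le_subalgebraNormalizer hKZ.norm)

theorem sq_big {n k : ℕ} (hn : 5 ≤ n) (h : n = k * k) (hk : Even k) : Even n ∧ ¬ n ≤ 12 := by
  refine ⟨h ▸ hk.mul_left k, fun h1 => ?_⟩
  obtain ⟨a, rfl⟩ := hk
  rcases Nat.lt_or_ge a 2 with h2 | h2
  · interval_cases a <;> omega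
  · nlinarith

theorem orth_tensor [Fintype F] (hn : 5 ≤ Fintype.card ι) (hQ : (polarBilin Q).Nondegenerate)
    {H : Subgroup (GL ι F)} (hirr : Irr H) (hH : ∀ h ∈ H, ∀ v, Q ((h : Matrix ι ι F) *ᵥ v) = Q v)
    (hdet : ∀ h ∈ H, (h : Matrix ι ι F).det = 1) {k l : ℕ}
    {φ : Matrix (Fin k) (Fin k) F →ₐ[F] Matrix ι ι F} {ψ : Matrix (Fin l) (Fin l) F →ₐ[F] Matrix ι ι F}
    {ε₁ ε₂ : F} {G₁ G₂} (h : TPForm ρ (gq Q) H φ ψ ε₁ ε₂ G₁ G₂) : OrCase Q H := by
  wlog hkl : k ≤ l generalizing k l φ ψ ε₁ ε₂ G₁ G₂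
  · exact this h.symm (by omega)
  have hn2 : 2 ≤ Fintype.card ι := by omega
  haveI := nonempty_of_two_le hn2
  have hG := herm_gq hQ
  have hH1 := fun x hx => isSim_of_isometry (hH x hx)
  have hH' : ∀ h ∈ H, ∃ c, IsSim ρ (gq Q) c (h : Matrix ι ι F) := fun h hh => ⟨1, hH1 h hh⟩
  have alt : ∀ {k l : ℕ} {φ : Matrix (Fin k) (Fin k) F →ₐ[F] Matrix ι ι F}
      {ψ : Matrix (Fin l) (Fin l) F →ₐ[F] Matrix ι ι F} {ε₁ ε₂ : F} {G₁ G₂},
      TPForm ρ (gq Q) H φ ψ ε₁ ε₂ G₁ G₂ → k ≤ l → (∀ v, gf ρ G₁ v v = 0) → (∀ v, gf ρ G₂ v v = 0) →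
      (∃ (d : F) (u : Matrix (Fin k) (Fin k) F), ∀ v, Q v = d * gf ρ (gq Q) (φ u *ᵥ v) v) →
      OrCase Q H := by
    rintro k l φ ψ ε₁ ε₂ G₁ G₂ h hkl h1 h2 ⟨d, u, h3⟩
    have h4 := even_card_of_gf h.herm₁.det_ne h1
    have h5 := even_card_of_gf h.herm₂.det_ne h2
    rw [Fintype.card_fin] at h4 h5
    rcases hkl.lt_or_eq with hkl | rfl
    · obtain ⟨e, P, c, h6, -, h7, h8, h9⟩ := h.exists_coord hG
      refine .tensS k l e P _ _ h.pair.two_le_k hkl (isSymplecticForm_gf h.herm₁.det_ne h1)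
        (isSymplecticForm_gf h.herm₂.det_ne h2) h4 h5
        (by rw [polar_eq_gf]; exact isTensorFormStructure_of h8 h9) (fun x y => ?_) h7
      rw [h3, h6, gf_coord h9, kronL_apply, kron_mulVec_pv2, gf_kron_pv2, one_mulVec, h2]; simp
    · have := sq_big hn h.pair.card h4
      exact .big this.1 fun h => absurd h this.2
  by_cases hq : Odd (Fintype.card F)
  swap
  · have h2 := two_eq_zero_of_not_odd hq
    obtain ⟨h3, h4, u, hu, hu'⟩ := h.exists_u h2 hG hirr hH'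
    exact alt h hkl h3 h4 ⟨1, u, fun v => by rw [one_mul]; exact quad_eq_of_u hn2 h2 hQ hirr hH hu hu' v⟩
  have h2 := two_ne_zero_of_odd hq
  have eps : ∀ {k l : ℕ} {φ : Matrix (Fin k) (Fin k) F →ₐ[F] Matrix ι ι F}
      {ψ : Matrix (Fin l) (Fin l) F →ₐ[F] Matrix ι ι F} {ε₁ ε₂ : F} {G₁ G₂},
      TPForm ρ (gq Q) H φ ψ ε₁ ε₂ G₁ G₂ → k ≤ l → OrCase Q H ∨ (ε₁ = 1 ∧ ε₂ = 1 ∧ 3 ≤ k) := by
    intro k l φ ψ ε₁ ε₂ G₁ G₂ h hkl
    have h1 := h.eps hG
    rcases h.herm₁.eps with rfl | ⟨rfl, -⟩ <;> rcases h.herm₂.eps with rfl | ⟨rfl, -⟩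
    · by_cases hk : 3 ≤ k
      · exact Or.inr ⟨rfl, rfl, hk⟩
      obtain rfl : k = 2 := by have := h.pair.two_le_k; omega
      obtain ⟨s, -, hs⟩ := exists_skew_two h2 h.herm₁
      exact Or.inl (orth_comm hn hQ hirr hH (h.commAlg hH' hs))
    · exact absurd (by linear_combination h1) h2
    · exact absurd (by linear_combination h1) h2
    · exact Or.inl (alt h hkl (h.herm₁.alt_of_two_ne h2) (h.herm₂.alt_of_two_ne h2) ⟨2⁻¹, 1, fun v => by
        rw [map_one, one_mulVec, gf_gq_self, inv_mul_cancel_left₀ h2]⟩)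
  rcases eps h hkl with h1 | ⟨rfl, rfl, hk⟩
  · exact h1
  by_cases hex : Fintype.card F = 3 ∧ k = 3
  · obtain ⟨h3, rfl⟩ := hex
    obtain ⟨D, hD, -⟩ := exists_frame_three h3 h.herm₁
    exact orth_comm hn hQ hirr hH (h.commAlg hH' hD)
  rcases hkl.lt_or_eq with hkl | rfl
  · by_cases h4 : k = 3 → l = 4 → ¬ IsPlusTypeOn (fun v => gf (RingHom.id F) G₂ v v) ⊤
    · exact .tensO hq k l φ ψ G₁ G₂ h hk hkl hex h4
    push Not at h4
    obtain ⟨rfl, rfl, h4⟩ := h4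
    obtain ⟨α, β, -, -, -, h5, -, h6⟩ := h.split_four h2 hG h4 hH1
    obtain ⟨l, γ, h7⟩ := exists_tensorPair' (H := H) (φ := α) le_rfl (by omega) fun g hg =>
      ((h6 g hg).resolve_right fun h => h2 (by linear_combination (hdet g hg).symm.trans h.2.2)).1
    obtain ⟨ε₁, ε₂, G₃, G₄, h8⟩ := h7.exists_form hG fun x => ⟨_, (h5 _ _).mp (isAdj_J2 x)⟩
    exact (eps h8 h7.two_le_l).resolve_right (by omega)
  · rcases k.even_or_odd with he | ho
    · have := sq_big hn h.pair.card he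
      exact .big this.1 fun h => absurd h this.2
    obtain ⟨c, a, hc, ha⟩ := exists_congr_odd h2 h.herm₂ h.herm₁ (by simpa using ho)
    exact .pow hq k 2 _ G₁ (h.congr h.herm₁ hc ha).fam hk hex

/-- Aschbacher's theorem for orthogonal groups. -/
theorem orth_cases [Fintype F] (hn : 5 ≤ Fintype.card ι) (hQ : (polarBilin Q).Nondegenerate)
    {H : Subgroup (GL ι F)} (hH : ∀ h ∈ H, ∀ v, Q ((h : Matrix ι ι F) *ᵥ v) = Q v)
    (hdet : ∀ h ∈ H, (h : Matrix ι ι F).det = 1) : OrCase Q H := by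
  have hn2 : 2 ≤ Fintype.card ι := by omega
  haveI := nonempty_of_two_le hn2
  have hG := herm_gq hQ
  have hH1 := fun x hx => isSim_of_isometry (hH x hx)
  have hH' : ∀ h ∈ H, ∃ c, IsSim ρ (gq Q) c (h : Matrix ι ι F) := fun h hh => ⟨1, hH1 h hh⟩
  by_cases hirr : Irr H
  swap
  · rcases reducible_cases hG hH' hirr with ⟨W, h0, h, hW⟩ | ⟨W, U, h, hle, hW, hU⟩
    · rcases ts_or_pt hH h0 h hW with ⟨U, h1, h2, h3⟩ | ⟨h1, v, h2, h3⟩
      exacts [.ts U h1 h2 h3, .pt h1 v h2 h3]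
    · exact .nd W U h hle (le_subspaceStabilizer hW) (le_subspaceStabilizer hU) (le_decomp_pair hW hU)
  rcases core hn2 H hirr with ⟨N, hNH, hN, z, hz, hz1, hz2⟩ | ⟨N, hNH, hN, k, φ, hk, hkn, hφ⟩ |
    ⟨N, hNH, hN, htop, hc⟩ | ⟨N, hN⟩ | ⟨m, t, φ, hφ⟩ | ⟨N, hN, htop, hsc⟩
  · exact orth_comm hn hQ hirr hH (commAlg_zalg hG hN (fun x hx => hH1 x (hNH hx)) hz hz1 hz2)
  · obtain ⟨l, ψ, h⟩ := exists_tensorPair hN hk hkn hφ
    obtain ⟨ε₁, ε₂, G₁, G₂, h⟩ := h.exists_form hG fun x => by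
      obtain ⟨y, hy, hy'⟩ := isAdj_alg hG.invol (fun x hx => hH1 x (hNH hx)) (φ x) (hφ ▸ ⟨x, rfl⟩)
      rw [← hφ] at hy
      obtain ⟨y, rfl⟩ := hy
      exact ⟨y, hy'⟩
    exact orth_tensor hn hQ hirr hH hdet h
  · obtain ⟨F₀, r, P, ζ, h1, h2, h3, h4, h5⟩ := exists_quad_subfield hn2 hQ hN htop hc
      fun x hx => hH x (hNH hx)
    exact .sub F₀ r P ζ h1 h2 h3 h4 h5
  · obtain ⟨-, -, -, -, -, k, hk, h6, -⟩ := hN.bilinear hn2 hG.det_ne fun x hx => hH1 x (hN.le hx)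
    refine .big (h6 ▸ even_two.pow_of_ne_zero (by omega)) fun h => ?_
    have h7 := (pow_bound h6 le_rfl (by
      by_contra h8
      have : 2 ^ k ≤ 2 ^ 2 := Nat.pow_le_pow_right two_pos (by omega)
      omega) h).1
    exact ⟨h7, hN.plus hQ h7 fun x hx => hH x (hN.le hx)⟩
  · obtain ⟨ε₁, G₁, h⟩ := hφ.exists_form hG hH1
    have hb : (∀ v, gf ρ G₁ v v = 0) → Even (Fintype.card ι) ∧
        (Fintype.card ι ≤ 12 → Fintype.card ι = 8 ∧ m = 2 ∧ t = 3) := fun h1 => by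
      have h2 := even_card_of_gf h.herm.det_ne h1
      have h3 := hφ.two_le_t
      rw [Fintype.card_fin] at h2
      refine ⟨hφ.card ▸ h2.pow_of_ne_zero (by omega), fun h4 => pow_bound hφ.card hφ.two_le_m ?_ h4⟩
      by_contra h5
      obtain rfl : t = 2 := by omega
      exact (sq_big hn (hφ.card.trans (pow_two m)) h2).2 h4
    by_cases hq : Odd (Fintype.card F)
    swap
    · have h2 := two_eq_zero_of_not_odd hq
      obtain ⟨h3, u, hu, hu'⟩ := h.exists_u h2 hG (alt_gq h2) hH' ⟨0, by have := hφ.two_le_t; omega⟩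
      refine .big (hb h3).1 fun h4 => ?_
      obtain ⟨h5, rfl, rfl⟩ := (hb h3).2 h4
      obtain ⟨e, P, c, h6, -, -, h7⟩ := h.exists_coord hG
      refine ⟨h5, plus_of_coord e P (fun a => a 0 = 0) (by decide) (fun a _ => ?_) fun a b ha hb => ?_⟩
      · rw [quad_eq_of_u hn2 h2 hQ hirr hH hu hu', h6, gf_coord h7, single_eq_pvT,
          gf_embT_zero (by omega) h3, mul_zero]
      · rw [polar_eq_gf, ← gf_cpull, h7, gf_smul_gram, gf_single, pureM_apply,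
          Finset.prod_eq_zero (Finset.mem_univ 0) (by rw [ha, hb, ← gf_single (σ := ρ) G₁, h3]), mul_zero]
    have h2 := two_ne_zero_of_odd hq
    have h1 := h.eps hG
    rcases h.herm.eps with rfl | ⟨rfl, -⟩
    · by_cases hm : 3 ≤ m
      · by_cases hex : Fintype.card F = 3 ∧ m = 3
        · obtain ⟨h3, rfl⟩ := hex
          obtain ⟨D, hD, -⟩ := exists_frame_three h3 h.herm
          exact orth_comm hn hQ hirr hH (h.commAlg hG hH' hD)
        · exact .pow hq m t φ G₁ h hm hex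
      obtain rfl : m = 2 := by have := hφ.two_le_m; omega
      obtain ⟨s, -, hs⟩ := exists_skew_two h2 h.herm
      exact orth_comm hn hQ hirr hH (h.commAlg hG hH' hs)
    · have h3 := hb (h.herm.alt_of_two_ne h2)
      refine .big h3.1 fun h4 => ?_
      obtain ⟨-, rfl, rfl⟩ := h3.2 h4
      exact absurd (by linear_combination h1) h2
  · refine .res ⟨N, hN, ?_⟩
    rintro ⟨τ, f, hf, h⟩
    exact not_id_of_unitary hf fun a => fixed_of_two_forms hsc (herm_of_unitary hf).invol hG.invol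
      (herm_of_unitary hf).det_ne hG.det_ne (isSim_of_fixesForm (by rwa [← eq_gf_of_unitary hf]))
      (fun x hx => hH1 x (hN.le hx)) a

end CL.Asch
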