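/-
Stabilisers of tensor decompositions that are not maximal.
-/
import Cfsg.Agent.CLAS.NonMaxDec
import Cfsg.Agent.CLAS.AschTForm

set_option autoImplicit false

namespace CL.Witt

open Module

variable {F : Type*} [Field F] {T : FormType F} {V : Type*} [AddCommGroup V] [Module F V]
  {W U : Type*} [AddCommGroup W] [Module F W] [AddCommGroup U] [Module F U]

/-- The bilinear map `t` admits contractions with linear functionals in the first variable. -/
def Contr (t : W →ₗ[F] U →ₗ[F] V) : Prop :=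
  ∀ φ : W →ₗ[F] F, ∃ L : V →ₗ[F] U, ∀ x y, L (t x y) = φ x • y

/-- The map `g` is a tensor product of linear bijections. -/
def IsKron (t : W →ₗ[F] U →ₗ[F] V) (g : V ≃ₗ[F] V) : Prop :=
  ∃ (a : W ≃ₗ[F] W) (b : U ≃ₗ[F] U), ∀ x y, g (t x y) = t (a x) (b y)

variable {t : W →ₗ[F] U →ₗ[F] V}

theorem IsKron.flip {g : V ≃ₗ[F] V} (h : IsKron t g) : IsKron t.flip g :=
  let ⟨a, b, h⟩ := h; ⟨b, a, fun x y => h y x⟩

theorem Contr.eq_of_eq (h : Contr t) {x x' : W} {y : U} (hy : y ≠ 0) (e : t x y = t x' y) :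
    x = x' := by
  rw [← sub_eq_zero, ← Module.forall_dual_apply_eq_zero_iff F]
  intro φ
  obtain ⟨L, hL⟩ := h φ
  have := congrArg L e
  rw [hL, hL] at this
  rw [map_sub, smul_left_injective F hy this, sub_self]

theorem Contr.injective (h : Contr t) {x : W} (hx : x ≠ 0) : Function.Injective (t x) := by
  obtain ⟨φ, hφ⟩ := Module.Projective.exists_dual_eq_one F hx
  obtain ⟨L, hL⟩ := h φ
  intro y y' e
  simpa [hL, hφ] using congrArg L e

theorem Contr.fix (h : Contr t) {g : V ≃ₗ[F] V} (hg : IsKron t g) {w₁ w₂ : W} (h2 : w₂ ≠ 0)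
    (hw : ∀ y, g (t w₂ y) = t w₂ y) {y₀ : U} (hy : y₀ ≠ 0) (h1 : g (t w₁ y₀) = t w₁ y₀) (y : U) :
    g (t w₁ y) = t w₁ y := by
  obtain ⟨a, b, hab⟩ := hg
  obtain ⟨φ, hφ⟩ := Module.Projective.exists_dual_eq_one F h2
  obtain ⟨L, hL⟩ := h φ
  have e : ∀ y, φ (a w₂) • b y = y := fun y => by simpa [hab, hL, hφ] using congrArg L (hw y)
  have hc : φ (a w₂) ≠ 0 := fun h0 => hy (by rw [← e y₀, h0, zero_smul])
  have e' : ∀ y, g (t w₁ y) = t ((φ (a w₂))⁻¹ • a w₁) y := fun y => by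
    conv_rhs => rw [← e y]
    simp [hab, smul_smul, hc]
  rw [e', h.eq_of_eq hy ((e' y₀).symm.trans h1)]

namespace Form

variable {f : Form T V} {r : W → W → Prop} {s : U → U → Prop}

theorem IsKron.rel_iff (hB : ∀ x y x' y', f.B (t x y) (t x' y') = 0 ↔ r x x' ∨ s y y')
    {w w' : W} (hw : ¬ r w w') {y y' : U} (hy : ¬ s y y') {g : V ≃ₗ[F] V} (hg : g ∈ f.O)
    {a : W ≃ₗ[F] W} {b : U ≃ₗ[F] U} (hab : ∀ x y, g (t x y) = t (a x) (b y)) (x x' : W) :
    r (a x) (a x') ↔ r x x' := by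
  have key : ∀ x x', r (a x) (a x') ∨ s (b y) (b y') ↔ r x x' := fun x x' => by
    rw [← hB, ← hab, ← hab, mem_O_B hg, hB, or_iff_left hy]
  rw [← key x x', or_iff_left fun h => hw ((key w w').1 (Or.inr h))]

theorem exists_between_tensor [Finite V] [FiniteDimensional F V] (hf : f.Nondeg) (h3 : f.Iso3)
    (ht : Contr t)
    (hB : ∀ x y x' y', f.B (t x y) (t x' y') = 0 ↔ r x x' ∨ s y y')
    (hs : ∀ y, y ≠ 0 → ∃ y', ¬ s y y') (hU : 3 ≤ finrank F U) {P : W → Prop}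
    (hP : ∀ a : W ≃ₗ[F] W, (∀ x x', r (a x) (a x') ↔ r x x') → ∀ x, P x → P (a x))
    {w₁ w₂ : W} (h1 : ¬ r w₁ w₁) (h2 : ¬ r w₂ w₂) (h12 : r w₁ w₂) (hP1 : P w₁)
    (hfr : ∀ x, P x → x ∈ F ∙ w₁ ∨ r w₁ x) {S : Subgroup (V ≃ₗ[F] V)}
    (hS : ∀ g ∈ S, IsKron t g) : ∃ K, S ⊓ f.E ≤ K ∧ ¬ K ⊓ f.E ≤ S ∧ ¬ f.E ≤ K := by
  have ne : ∀ {w}, ¬ r w w → w ≠ 0 := by
    rintro _ hw rfl
    obtain ⟨y, hy⟩ := exists_ne_zero_of_finrank_pos' (F := F) (U := U) (by omega)
    obtain ⟨y', hy'⟩ := hs y hy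
    exact not_or_intro hw hy' ((hB 0 y 0 y').1 (by simp))
  have nd : ∀ {w}, ¬ r w w → (f.restrict (LinearMap.range (t w))).Nondeg := by
    rintro w hw ⟨_, y, rfl⟩ hy
    by_contra h0
    obtain ⟨y', hy'⟩ := hs y (by rintro rfl; simp at h0)
    exact not_or_intro hw hy' ((hB _ _ _ _).1 (hy ⟨_, y', rfl⟩))
  have dim : ∀ {w}, ¬ r w w → 3 ≤ finrank F (LinearMap.range (t w)) := fun hw => by
    rwa [LinearMap.finrank_range_of_inj (ht.injective (ne hw))]
  have perp : ∀ {x}, r w₁ x → ∀ y, t x y ∈ f.perp (LinearMap.range (t w₁)) := by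
    rintro x hx y _ ⟨y', rfl⟩
    exact (hB _ _ _ _).2 (Or.inl hx)
  have mem : ∀ {x}, x ∈ F ∙ w₁ → ∀ y, t x y ∈ LinearMap.range (t w₁) := fun hx y => by
    obtain ⟨c, rfl⟩ := Submodule.mem_span_singleton.1 hx
    exact ⟨c • y, by simp⟩
  obtain ⟨u, hu, hu0, huq⟩ := h3 _ (dim h1)
  refine ⟨pstab F fun v => ∃ x y, P x ∧ v = t x y, le_pstab_of ?_, fun H => ?_, fun H => ?_⟩
  · rintro g ⟨hg, hgE⟩ _ ⟨x, y, hx, rfl⟩
    obtain ⟨a, b, hab⟩ := hS g hg
    obtain ⟨y₀, hy⟩ := exists_ne_zero_of_finrank_pos' (F := F) (U := U) (by omega)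
    obtain ⟨y', hy'⟩ := hs y₀ hy
    exact ⟨_, _, hP a (IsKron.rel_iff hB h1 hy' (E_le_O hgE) hab) x hx, hab x y⟩
  · obtain ⟨v, hv, hvu⟩ : ∃ v ∈ LinearMap.range (t w₁) ⊓ f.perp (F ∙ u), v ∉ F ∙ u := by
      refine SetLike.not_le_iff_exists.1 fun h => ?_
      have h4 := Submodule.finrank_mono h
      have h5 := Submodule.finrank_sup_add_finrank_inf_eq (LinearMap.range (t w₁)) (f.perp (F ∙ u))
      have h6 := Submodule.finrank_le (LinearMap.range (t w₁) ⊔ f.perp (F ∙ u))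
      have h7 := hf.finrank_add_finrank_perp (F ∙ u)
      have h8 := dim h1
      rw [finrank_span_singleton hu0] at h4 h7
      omega
    obtain ⟨a, ha⟩ := exists_eichOK (f := f) huq (f.mem_perp_span_singleton.1 hv.2)
    have fix : ∀ z ∈ f.perp (LinearMap.range (t w₁)), f.ei u v a z = z := fun z hz =>
      ha.ei_apply_fix (hz u hu) (hz v hv.1)
    have hK := hS _ (H (x := f.ei u v a) ⟨mem_pstab_of_finite ?_, ei_mem_E u v a⟩)
    · obtain ⟨⟨_, y, rfl⟩, hy⟩ := (nd h1).exists_B_eq (x := ⟨u, hu⟩) (by simpa using hu0) 1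
      obtain ⟨y₀, rfl⟩ := hu
      have := ht.fix hK (ne h2) (fun y => fix _ (perp h12 y)) (by rintro rfl; simp at hu0)
        ha.ei_apply_u y
      rw [ha.ei_apply, show f.B (t w₁ y₀) (t w₁ y) = 1 from hy, one_smul, add_sub_assoc,
        add_eq_left, sub_eq_zero] at this
      exact hvu (Submodule.mem_span_singleton.2 ⟨_, this.symm⟩)
    · rintro _ ⟨x, y, hx, rfl⟩
      rcases hfr x hx with h | h
      · obtain ⟨y', hy'⟩ : f.ei u v a (t x y) ∈ LinearMap.range (t w₁) := by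
          rw [ha.ei_apply]
          exact sub_mem (add_mem (mem h y) (Submodule.smul_mem _ _ hv.1)) (Submodule.smul_mem _ _ hu)
        exact ⟨_, _, hP1, hy'.symm⟩
      · exact ⟨_, _, hx, fix _ (perp h y)⟩
  · obtain ⟨_, ⟨y₂, rfl⟩, hu0', huq'⟩ := h3 _ (dim h2)
    obtain ⟨b, hb⟩ := (nd h1).exists_B_eq (x := ⟨u, hu⟩) (by simpa using hu0) 1
    obtain ⟨a, ha⟩ := exists_eichOK (f := f) huq' (f.B_eq_zero_symm (perp h12 y₂ b b.2))
    have disj := Submodule.disjoint_def.1 ((f.restrict_nondeg_iff _).1 (nd h1))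
    obtain ⟨y, hy⟩ := id hu
    obtain ⟨x, y', hx, e⟩ := (H (ei_mem_E _ _ a) u).1 ⟨_, _, hP1, hy.symm⟩
    rw [ha.ei_apply_of_perp (f.B_eq_zero_symm (perp h12 y₂ u hu))] at e
    rcases hfr x hx with h | h
    · have h4 := disj _ (sub_mem hu (e ▸ mem h y')) (by
        rw [sub_sub_cancel]; exact Submodule.smul_mem _ _ (perp h12 y₂))
      rw [sub_sub_cancel, smul_eq_zero, or_iff_left hu0', mul_eq_zero, or_iff_right T.ε_ne_zero,
        B_eq_zero_comm] at h4
      exact one_ne_zero (hb.symm.trans h4)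
    · exact hu0 (disj _ hu (by
        rw [sub_eq_iff_eq_add.1 e]
        exact add_mem (perp h y') (Submodule.smul_mem _ _ (perp h12 y₂))))
where
  exists_ne_zero_of_finrank_pos' {F U : Type _} [Field F] [AddCommGroup U] [Module F U]
      (h : 0 < finrank F U) : ∃ y : U, y ≠ 0 :=
    have := Module.nontrivial_of_finrank_pos h
    exists_ne 0

end Form

/-- A non-isotropic vector with anisotropic orthogonal complement. -/
def FrVec (r : W → W → Prop) (x : W) : Prop := ¬ r x x ∧ ∀ y, r x y → r y y → y = 0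

theorem FrVec.map {r : W → W → Prop} (a : W ≃ₗ[F] W) (ha : ∀ x x', r (a x) (a x') ↔ r x x') (x : W)
    (h : FrVec r x) : FrVec r (a x) := ⟨fun h' => h.1 ((ha _ _).1 h'), fun y h1 h2 => by
  obtain ⟨y, rfl⟩ := a.surjective y
  rw [h.2 y ((ha _ _).1 h1) ((ha _ _).1 h2), map_zero]⟩

end CL.Witt

namespace CL.FGL

open Module Matrix Cfsg Cfsg.Geo CL.Witt CL.Witt.Form CL.Orth CL.Asch
open scoped Kronecker

variable {F : Type*} [Field F] {ι κ μ : Type} [Fintype ι] [DecidableEq ι] [Fintype κ]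
  [DecidableEq κ] [Fintype μ] [DecidableEq μ] {T : FormType F}

/-- The pure tensors in the coordinates `e`, `P`. -/
def tens (e : ι ≃ κ × μ) (P : GL ι F) : (κ → F) →ₗ[F] (μ → F) →ₗ[F] (ι → F) :=
  (LinearMap.mk₂ F (fun x y (a : κ × μ) => x a.1 * y a.2) (fun _ _ _ => by ext; simp [add_mul])
    (fun _ _ _ => by ext; simp [mul_assoc]) (fun _ _ _ => by ext; simp [mul_add])
    (fun _ _ _ => by ext; simp [mul_left_comm])).compr₂ (cvec e P).toLinearMap

omit [DecidableEq κ] [DecidableEq μ] [Fintype κ] [Fintype μ] in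
theorem tens_apply (e : ι ≃ κ × μ) (P : GL ι F) (x : κ → F) (y : μ → F) :
    tens e P x y = cvec e P fun a => x a.1 * y a.2 := rfl

omit [DecidableEq κ] [DecidableEq μ] [Fintype κ] [Fintype μ] in
theorem contr_tens (e : ι ≃ κ × μ) (P : GL ι F) : Contr (tens e P) := fun φ =>
  ⟨(LinearMap.pi fun j => φ ∘ₗ LinearMap.funLeft F F fun i => (i, j)) ∘ₗ (cvec e P).symm.toLinearMap,
    fun x y => by
      ext j
      simp only [tens_apply, LinearMap.comp_apply, LinearEquiv.coe_coe, LinearEquiv.symm_apply_apply,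
        LinearMap.pi_apply, Pi.smul_apply, smul_eq_mul]
      rw [mul_comm, ← smul_eq_mul, ← map_smul]
      congr 1; ext i; simp [mul_comm]⟩

omit [DecidableEq κ] [DecidableEq μ] [Fintype κ] [Fintype μ] in
theorem contr_tens_flip (e : ι ≃ κ × μ) (P : GL ι F) : Contr (tens e P).flip := fun φ =>
  ⟨(LinearMap.pi fun i => φ ∘ₗ LinearMap.funLeft F F fun j => (i, j)) ∘ₗ (cvec e P).symm.toLinearMap,
    fun x y => by
      ext j
      simp only [tens_apply, LinearMap.comp_apply, LinearEquiv.coe_coe, LinearEquiv.symm_apply_apply,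
        LinearMap.pi_apply, Pi.smul_apply, smul_eq_mul, LinearMap.flip_apply]
      rw [mul_comm, ← smul_eq_mul, ← map_smul]
      congr 1⟩

omit [DecidableEq κ] [DecidableEq μ] in
theorem kronecker_mulVec_pure (a : Matrix κ κ F) (b : Matrix μ μ F) (x : κ → F) (y : μ → F) :
    (a ⊗ₖ b) *ᵥ (fun c => x c.1 * y c.2) = fun c => (a *ᵥ x) c.1 * (b *ᵥ y) c.2 := by
  ext c
  simp only [mulVec, dotProduct, Fintype.sum_prod_type, Finset.sum_mul_sum]
  exact Finset.sum_congr rfl fun i _ => Finset.sum_congr rfl fun j _ => mul_mul_mul_comm _ _ _ _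

theorem coord_kron_tens (e : ι ≃ κ × μ) (P : GL ι F) (a : Matrix κ κ F) (b : Matrix μ μ F)
    (x : κ → F) (y : μ → F) : coord e P (a ⊗ₖ b) *ᵥ tens e P x y = tens e P (a *ᵥ x) (b *ᵥ y) := by
  rw [tens_apply, coord_mulVec, kronecker_mulVec_pure, tens_apply]

theorem isKron_of_mem {n₁ n₂ : ℕ} {e : ι ≃ Fin n₁ × Fin n₂} {P : GL ι F} {g : GL ι F}
    (hg : g ∈ tensorProductSubgroup n₁ n₂ e P) : IsKron (tens e P) (glEquiv ι F g) := by
  obtain ⟨a, b, h⟩ := (mem_tensorProductSubgroup_iff e P g).1 hg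
  exact ⟨glEquiv _ F a, glEquiv _ F b, fun x y => by
    rw [glEquiv_apply, h, coord_kron_tens]; rfl⟩

theorem form_tens {σ : F →+* F} {n₁ n₂ : ℕ} {e : ι ≃ Fin n₁ × Fin n₂} {P : GL ι F}
    {b : (ι → F) → (ι → F) → F} {f₁ : (Fin n₁ → F) → (Fin n₁ → F) → F}
    {f₂ : (Fin n₂ → F) → (Fin n₂ → F) → F} (h₁ : f₁ = gf σ (gramMatrix f₁))
    (h₂ : f₂ = gf σ (gramMatrix f₂)) (hT : IsTensorFormStructure σ b f₁ f₂ e P) :
    ∃ c, c ≠ 0 ∧ ∀ x y x' y', b (tens e P x y) (tens e P x' y') = c * (f₁ x x' * f₂ y y') := by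
  obtain ⟨c, hc, h⟩ := hT
  refine ⟨c, hc, fun x y x' y' => (h (fun a => x a.1 * y a.2) fun a => x' a.1 * y' a.2).trans ?_⟩
  conv_rhs => rw [h₁, h₂, gf_eq_sum, gf_eq_sum]
  congr 1
  simp only [formOfGram, Fintype.sum_prod_type, Finset.sum_mul_sum, kroneckerMap_apply, map_mul]
  refine Finset.sum_congr rfl fun i _ => Finset.sum_congr rfl fun j _ => ?_
  refine Finset.sum_congr rfl fun k _ => Finset.sum_congr rfl fun l _ => ?_
  ring

theorem exists_between_of_le {G H : Type*} [Group G] [Group H] (e : G ≃* H) {Ω S : Subgroup G}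
    {Ω' : Subgroup H} (hΩ : ∀ g, g ∈ Ω ↔ e g ∈ Ω')
    (h : ∃ K, S.map e.toMonoidHom ⊓ Ω' ≤ K ∧ ¬ K ⊓ Ω' ≤ S.map e.toMonoidHom ∧ ¬ Ω' ≤ K) :
    ∃ K : Subgroup G, S ⊓ Ω < K ∧ K < Ω :=
  let ⟨_, h1, h2, h3⟩ := h
  exists_between_of_equiv e hΩ (fun _ _ => (Subgroup.mem_map_iff_mem e.injective).symm) h1 h2 h3

variable [Fintype F]

theorem exists_frame_three (hq : Fintype.card F = 3) {f₁ : (Fin 3 → F) → (Fin 3 → F) → F}
    (hf : IsSymmetricForm f₁) : ∃ w₁ w₂, f₁ w₂ w₂ ≠ 0 ∧ f₁ w₁ w₂ = 0 ∧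
      FrVec (fun x y => f₁ x y = 0) w₁ ∧
      ∀ x, FrVec (fun x y => f₁ x y = 0) x → x ∈ F ∙ w₁ ∨ f₁ w₁ x = 0 := by
  have h3 : (3 : F) = 0 := by simpa [hq] using FiniteField.cast_card_eq_zero F
  have h2 : (2 : F) ≠ 0 := fun h => one_ne_zero (α := F) (by linear_combination h3 - h)
  have hG := herm_of_bilinear hf.bilinear hf.nondegenerate (Or.inl rfl) (by simpa using hf.symm)
  have hQ := hG.isQuad h2
  have hp := polar_gf hG
  rw [← IsBilinearForm.eq_gf hf.bilinear] at hQ hp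
  obtain ⟨c, φ, hc, hφ⟩ := odd_classification ((ofQuad_nondeg_iff _).1 (quadOf_nondeg hQ)) (m := 1)
    (by simp)
  have key : ∀ x y, f₁ (φ x) (φ y) = 0 ↔ 2 * x (.inl ()) * y (.inl ()) +
      x (.inr (.inl 0)) * y (.inr (.inr 0)) + x (.inr (.inr 0)) * y (.inr (.inl 0)) = 0 := by
    intro x y
    have h1 : QuadraticMap.polar (quadOf hQ) (φ x) (φ y) = 2 * f₁ (φ x) (φ y) := by
      rw [coe_quadOf, hp, gf_smul_gram, ← IsBilinearForm.eq_gf hf.bilinear]
    rw [← mul_eq_zero_iff_left h2, ← h1, QuadraticMap.polar, ← map_add, hφ, hφ, hφ,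
      ← mul_eq_zero_iff_left hc (b := _ + _)]
    simp only [QOdd_apply, Finset.univ_unique, Finset.sum_singleton, Pi.add_apply,
      Fin.default_eq_zero]
    constructor <;> intro h <;> linear_combination h
  have sq := sq_eq_one_of_card_le_three hq.le
  let v : F → F → F → Unit ⊕ (Fin 1 ⊕ Fin 1) → F := fun a b c =>
    Sum.elim (fun _ => a) (Sum.elim (fun _ => b) fun _ => c)
  have hv : ∀ x, ∃ a b c, x = v a b c := fun x => ⟨x (.inl ()), x (.inr (.inl 0)), x (.inr (.inr 0)),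
    by ext (i | i | i) <;> simp [v, Subsingleton.elim i 0]⟩
  refine ⟨φ (v 0 1 (-1)), φ (v 1 1 1), ?_, ?_, ⟨?_, fun y => ?_⟩, fun x => ?_⟩
  · rw [Ne, key]; simp only [v, Sum.elim_inl, Sum.elim_inr]
    exact fun h => one_ne_zero (α := F) (by linear_combination h - h3)
  · rw [key]; simp [v]
  · simp only [key, v, Sum.elim_inl, Sum.elim_inr]
    exact fun h => h2 (by linear_combination -h)
  · obtain ⟨y, rfl⟩ := φ.surjective y
    obtain ⟨a, b, c, rfl⟩ := hv y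
    simp only [key, v, Sum.elim_inl, Sum.elim_inr]
    intro h4 h5
    obtain rfl : c = b := by linear_combination h4
    have ha : a = 0 := by
      by_contra ha
      by_cases hc : c = 0
      · exact h2 (by linear_combination h5 - 2 * sq a ha - 2 * c * hc)
      · exact one_ne_zero (α := F) (by linear_combination h5 - 2 * sq a ha - 2 * sq c hc - h3)
    have hc : c = 0 := by
      by_contra hc
      exact h2 (by linear_combination h5 - 2 * sq c hc - 2 * a * ha)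
    rw [ha, hc, map_eq_zero_iff _ φ.injective]
    ext (i | i | i) <;> rfl
  · obtain ⟨x, rfl⟩ := φ.surjective x
    obtain ⟨a, b, c, rfl⟩ := hv x
    rintro ⟨h4, h5⟩
    simp only [key, v, Sum.elim_inl, Sum.elim_inr] at h4 ⊢
    have h6 : a ^ 2 + b * c ≠ 0 := fun h => h4 (by linear_combination 2 * h)
    rcases mul_self_eq_one_iff.1 (sq _ h6) with h7 | h7
    · exfalso
      have h8 : ∀ s : F, s * s = 1 → s - a = 0 := fun s hs => by
        have := h5 (φ (v ((s - a) * c) ((s - a) ^ 2) (-c ^ 2)))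
          (by simp only [key, v, Sum.elim_inl, Sum.elim_inr]; linear_combination c * hs - c * h7)
          (by simp only [key, v, Sum.elim_inl, Sum.elim_inr]; ring)
        rw [map_eq_zero_iff _ φ.injective] at this
        exact pow_eq_zero_iff two_ne_zero |>.1 (congrFun this (.inr (.inl 0)))
      exact h2 (by linear_combination h8 1 (by ring) - h8 (-1) (by ring))
    · refine (frame_card3 hq 0 1 (-1) a b c (by ring) h7).imp (fun ⟨d, h1, h2, h3⟩ => ?_) id
      refine Submodule.mem_span_singleton.2 ⟨d, ?_⟩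
      rw [← map_smul, ← h1, ← h2, ← h3]
      congr 1
      ext (i | i | i) <;> rfl

theorem between_three (hq : Fintype.card F = 3) {f : Form T (ι → F)} (hf : f.Nondeg) (h3 : f.Iso3)
    {t : (Fin 3 → F) →ₗ[F] (μ → F) →ₗ[F] (ι → F)} (ht : Contr t)
    {f₁ : (Fin 3 → F) → (Fin 3 → F) → F} (hf₁ : IsSymmetricForm f₁) {f₂ : (μ → F) → (μ → F) → F}
    (hf₂ : IsNondegenerateForm f₂) (hμ : 3 ≤ Fintype.card μ)
    (hB : ∀ x y x' y', f.B (t x y) (t x' y') = 0 ↔ f₁ x x' = 0 ∨ f₂ y y' = 0) {Ω S : Subgroup (GL ι F)}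
    (hΩ : ∀ g, g ∈ Ω ↔ glEquiv ι F g ∈ f.E) (hS : ∀ g ∈ S, IsKron t (glEquiv ι F g)) :
    ∃ K, S ⊓ Ω < K ∧ K < Ω := by
  obtain ⟨w₁, w₂, h2, h12, h1, hfr⟩ := exists_frame_three hq hf₁
  exact exists_between_of_le _ hΩ (exists_between_tensor hf h3 ht hB (fun y hy => (hf₂ y hy).2)
    (by simpa) (FrVec.map (r := fun x y => f₁ x y = 0)) h1.1 h2 h12 h1 hfr (by rintro _ ⟨g, hg, rfl⟩; exact hS g hg))

theorem quad_between_three (hq : Fintype.card F = 3) {Q : QuadraticForm F (ι → F)}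
    (hQ : (ofQuad Q).Nondeg) {n₂ : ℕ} (h2 : 3 ≤ n₂) {e : ι ≃ Fin 3 × Fin n₂} {P : GL ι F}
    {f₁ : (Fin 3 → F) → (Fin 3 → F) → F} {f₂ : (Fin n₂ → F) → (Fin n₂ → F) → F}
    (hf₁ : IsSymmetricForm f₁) (hf₂ : IsSymmetricForm f₂)
    (hT : IsTensorFormStructure id (QuadraticMap.polar Q) f₁ f₂ e P) :
    ∃ K, tensorProductSubgroup 3 n₂ e P ⊓ omegaGL Q < K ∧ K < omegaGL Q := by
  obtain ⟨c, hc, h⟩ := form_tens (IsBilinearForm.eq_gf hf₁.bilinear)
    (IsBilinearForm.eq_gf hf₂.bilinear) hT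
  exact between_three hq hQ (quad_iso3 _) (contr_tens e P) hf₁ hf₂.nondegenerate (by simpa)
    (fun x y x' y' => by rw [ofQuad_B, h]; simp [hc])
    (fun _ => mem_omegaGL_iff_E Q hQ (by rw [Fintype.card_congr e]; simp; omega))
    fun _ => isKron_of_mem

theorem herm_between_two {n n₂ : ℕ} (hF : Fintype.card F = 2 ^ 2) (h2 : 3 ≤ n₂)
    {e : Fin n ≃ Fin 2 × Fin n₂} {P : GL (Fin n) F} {f₁ : (Fin 2 → F) → (Fin 2 → F) → F}
    {f₂ : (Fin n₂ → F) → (Fin n₂ → F) → F} (hf₁ : IsUnitaryFormPow 2 f₁) (hf₂ : IsUnitaryFormPow 2 f₂)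
    (hT : IsTensorFormStructure (fun x : F => x ^ 2) (hermForm n F 2) f₁ f₂ e P) :
    ∃ K, tensorProductSubgroup 2 n₂ e P ⊓ (GU n F 2 ⊓ specialLinear (Fin n) F) < K ∧
      K < GU n F 2 ⊓ specialLinear (Fin n) F := by
  have add : ∀ {k} {f : (Fin k → F) → (Fin k → F) → F}, IsUnitaryFormPow 2 f → ∀ v x y,
      f v (x + y) = f v x + f v y := fun hf v x y => by
    rw [hf.herm, hf.add_left, SqField.add_pow_q hF, ← hf.herm, ← hf.herm]
  have smul : ∀ {k} {f : (Fin k → F) → (Fin k → F) → F}, IsUnitaryFormPow 2 f → ∀ (c : F) v x,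
      f v (c • x) = Uni.sig hF c * f v x := fun hf c v x => by
    rw [hf.herm, hf.smul_left, mul_pow, ← hf.herm]; rfl
  obtain ⟨c, hc, h⟩ := form_tens (σ := Uni.sig hF)
    (eq_gf_of_semilinear hf₁.add_left hf₁.smul_left (add hf₁) (smul hf₁))
    (eq_gf_of_semilinear hf₂.add_left hf₂.smul_left (add hf₂) (smul hf₂)) hT
  let g := Form.ofHerm (Uni.sig_ne_id hF) (Uni.sig_sig hF) (LinearMap.mk₂'ₛₗ (Uni.sig hF)
    (RingHom.id F) (fun x y => f₁ y x) (fun x x' y => add hf₁ y x x') (fun c x y => smul hf₁ c y x)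
    (fun x y y' => hf₁.add_left y y' x) fun c x y => hf₁.smul_left c y x)
    ⟨fun x y => (hf₁.herm x y).symm⟩
  have hg : g.Nondeg := fun x hx => by
    by_contra h0
    obtain ⟨y, hy⟩ := (hf₁.nondegenerate x h0).1
    exact hy (hx y)
  have hN : ∀ a, a ≠ 0 → a * Uni.sig hF a = 1 := fun a ha => by
    have := FiniteField.pow_card_sub_one_eq_one a ha
    rw [hF] at this
    rw [Uni.sig_apply, ← this]; ring
  obtain ⟨w, hw⟩ := Uni.exists_isON (Uni.sig_ne_id hF) hg (k := 2) (by simp)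
  have fr := herm_frame hN (W := ⊤) ((g.restrict_nondeg_iff _).2 (by simp [g.perp_top hg])) (by simp)
  refine exists_between_of_le _ (fun _ => mem_SU_iff_E hF) (exists_between_tensor
    (Uni.std_nondeg hF _) (herm_iso3 (Uni.sig_ne_id hF) _) (contr_tens e P)
    (r := fun x y => g.B x y = 0) (s := fun x y => f₂ y x = 0) (fun x y x' y' => ?_)
    (fun y hy => (hf₂.nondegenerate y hy).1) (by simpa) (P := fun x => g.B x x ≠ 0)
    (fun a ha x hx => mt (ha x x).1 hx) (w₁ := w 0) (w₂ := w 1) (by simp [hw.self]) (by simp [hw.self])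
    (by simpa using hw 0 1) (by simp [hw.self]) (fun x hx => ?_)
    (by rintro _ ⟨g, hg, rfl⟩; exact isKron_of_mem hg))
  · rw [Uni.std_B_eq_hermForm, h]; simp only [mul_eq_zero, hc, false_or]; rfl
  · refine fr _ trivial _ trivial ((herm_q _ _).trans (hw.self 0)) ((herm_q _ _).trans ?_)
    have h4 := g.herm_symm x x
    rw [Uni.sig_apply] at h4
    exact mul_left_cancel₀ hx (by rw [← sq, ← h4, mul_one])

/-! ### A two-dimensional factor over the field with two elements -/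

section two

theorem mem_normalizer_zpowers_of {G : Type*} [Group G] [Finite G] {g w : G}
    (h : g * w * g⁻¹ ∈ Subgroup.zpowers w) :
    g ∈ Subgroup.normalizer (Subgroup.zpowers w : Set G) := by
  refine Subgroup.mem_normalizer_fintype ?_
  rintro _ ⟨k, rfl⟩
  simpa using zpow_mem h k

variable (hq : Fintype.card F = 2) {n₂ : ℕ} (e : ι ≃ Fin 2 × Fin n₂) (P : GL ι F)
include hq

theorem eq_omega_or {M : Matrix (Fin 2) (Fin 2) F} (h : M * M = M + 1) :
    M = !![0, 1; 1, 1] ∨ M = !![0, 1; 1, 1] * !![0, 1; 1, 1] := by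
  have h2 := one_add_one_of_card_two hq
  have h0 := congrFun (congrFun h 0) 0
  have h1 := congrFun (congrFun h 0) 1
  rw [eta_fin_two M]
  simp only [mul_apply, Fin.sum_univ_two, Matrix.add_apply, one_apply_eq, one_apply_ne zero_ne_one] at h0 h1
  rcases eq_zero_or_one_of_card_two hq (M 0 0) with a | a <;>
    rcases eq_zero_or_one_of_card_two hq (M 0 1) with b | b <;>
    rcases eq_zero_or_one_of_card_two hq (M 1 0) with c | c <;>
    rcases eq_zero_or_one_of_card_two hq (M 1 1) with d | d <;> simp_all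

omit [Fintype F] hq in
theorem tens_inj {a b c d : Fin n₂ → F} : tens e P ![1, 0] a + tens e P ![0, 1] b =
    tens e P ![1, 0] c + tens e P ![0, 1] d ↔ a = c ∧ b = d := by
  refine ⟨fun h => ?_, by rintro ⟨rfl, rfl⟩; rfl⟩
  simp only [tens_apply, ← map_add, (cvec e P).injective.eq_iff] at h
  exact ⟨funext fun j => by simpa using congrFun h (0, j),
    funext fun j => by simpa using congrFun h (1, j)⟩

omit [Fintype F] hq in
theorem tens_eq (x : Fin 2 → F) (y : Fin n₂ → F) :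
    tens e P x y = tens e P ![1, 0] (x 0 • y) + tens e P ![0, 1] (x 1 • y) := by
  rw [tens_apply, tens_apply, tens_apply, ← map_add]
  congr 1
  ext ⟨i, j⟩; fin_cases i <;> simp

omit [Fintype F] hq in
theorem exists_eq_tens (v : ι → F) : ∃ y₁ y₂, v = tens e P ![1, 0] y₁ + tens e P ![0, 1] y₂ := by
  obtain ⟨v, rfl⟩ := (cvec e P).surjective v
  refine ⟨fun j => v (0, j), fun j => v (1, j), ?_⟩
  rw [tens_apply, tens_apply, ← map_add]
  congr 1
  ext ⟨i, j⟩
  fin_cases i <;> simp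

theorem exists_omega : ∃ w : GL ι F,
    (w : Matrix ι ι F) = coord e P (!![0, 1; 1, 1] ⊗ₖ 1) ∧
    (∀ a b, (w : Matrix ι ι F) *ᵥ (tens e P ![1, 0] a + tens e P ![0, 1] b) =
      tens e P ![1, 0] b + tens e P ![0, 1] (a + b)) ∧
    ∀ {Ω : Subgroup (GL ι F)} {g g' : GL ι F}, g ∈ Ω → g' ∈ Ω → g * w = w * g →
      (∃ x y y₁ y₂, (g : Matrix ι ι F) *ᵥ tens e P x y = tens e P ![1, 0] y₁ + tens e P ![0, 1] y₂ ∧
        y₁ ≠ 0 ∧ y₂ ≠ 0 ∧ y₁ ≠ y₂) →
      (∃ y₁ y₂, (g' : Matrix ι ι F) *ᵥ tens e P ![1, 0] y₁ = tens e P ![1, 0] y₁ ∧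
        (g' : Matrix ι ι F) *ᵥ tens e P ![0, 1] y₁ = tens e P ![1, 0] y₂ + tens e P ![0, 1] y₁ ∧
        y₁ ≠ 0 ∧ y₂ ≠ 0 ∧ y₁ ≠ y₂) →
      ∃ K, tensorProductSubgroup 2 n₂ e P ⊓ Ω < K ∧ K < Ω := by
  have h2 := one_add_one_of_card_two hq
  set ω : Matrix (Fin 2) (Fin 2) F := !![0, 1; 1, 1]
  have hω : ω * ω = ω + 1 := by
    ext i j; fin_cases i <;> fin_cases j <;> simp [ω, h2]
  have hω3 : ω * (ω * ω) = 1 := by
    ext i j; fin_cases i <;> fin_cases j <;> simp [ω, h2]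
  have hm : ∀ a b : Matrix (Fin 2) (Fin 2) F, ∀ c d : Matrix (Fin n₂) (Fin n₂) F,
      coord e P (a ⊗ₖ c) * coord e P (b ⊗ₖ d) = coord e P ((a * b) ⊗ₖ (c * d)) := fun a b c d => by
    rw [← map_mul, mul_kronecker_mul]
  let w : GL ι F := ⟨coord e P (ω ⊗ₖ 1), coord e P ((ω * ω) ⊗ₖ 1), by simp [hm, hω3],
    by simp [hm, mul_assoc, hω3]⟩
  have hw : ∀ a b, (w : Matrix ι ι F) *ᵥ (tens e P ![1, 0] a + tens e P ![0, 1] b) =
      tens e P ![1, 0] b + tens e P ![0, 1] (a + b) := fun a b => by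
    simp only [w, mulVec_add, coord_kron_tens, one_mulVec]
    rw [tens_eq e P (ω *ᵥ ![1, 0]), tens_eq e P (ω *ᵥ ![0, 1])]
    simp [ω, add_left_comm]
  have hw3 : w ^ 3 = 1 := Units.ext (by simp [pow_three, w, hm, hω3])
  refine ⟨w, rfl, hw, fun {Ω g g'} hg hg' hgw ⟨x, y, y₁, y₂, hx, a1, a2, a3⟩
    ⟨z₁, z₂, hz1, hz2, b1, b2, b3⟩ => ⟨Subgroup.normalizer (Subgroup.zpowers w : Set (GL ι F)) ⊓ Ω,
      lt_of_le_of_ne (inf_le_inf_right _ fun g hg => ?_) fun H => ?_,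
      lt_of_le_of_ne inf_le_right fun H => ?_⟩⟩
  · obtain ⟨a, b, h⟩ := (mem_tensorProductSubgroup_iff e P g).1 hg
    refine mem_normalizer_zpowers_of ?_
    have h3 := eq_omega_or hq (M := a * ω * (a⁻¹ : GL _ F)) (by
      simp only [mul_assoc, Units.inv_mul_cancel_left]
      rw [← mul_assoc ω, hω]
      simp [mul_add, add_mul])
    rw [Units.mul_inv_eq_iff_eq_mul, Units.mul_inv_eq_iff_eq_mul] at h3
    rcases h3 with h3 | h3
    · refine ⟨1, eq_mul_inv_of_mul_eq (Units.ext ?_)⟩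
      simp only [zpow_one, Units.val_mul, h, w, hm, h3, ω, one_mul, mul_one]
    · refine ⟨2, eq_mul_inv_of_mul_eq (Units.ext ?_)⟩
      simp only [zpow_two, Units.val_mul, h, w, hm, h3, ω, one_mul, mul_one]
  · obtain ⟨a, b, hab⟩ := isKron_of_mem (H.ge ⟨mem_normalizer_zpowers_of
      (by rw [hgw, mul_inv_cancel_right]; exact Subgroup.mem_zpowers w), hg⟩).1
    obtain ⟨rfl, rfl⟩ := (tens_inj e P).1 ((hx.symm.trans (hab x y)).trans (tens_eq e P _ _))
    rcases eq_zero_or_one_of_card_two hq (a x 0) with h | h <;>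
      rcases eq_zero_or_one_of_card_two hq (a x 1) with h' | h' <;> simp [h, h'] at a1 a2 a3
  · obtain ⟨k, hk⟩ := (Subgroup.mem_normalizer_iff.1 (H.ge hg').1 w).1 (Subgroup.mem_zpowers w)
    have h1 := hw z₁ 0
    have h4 := hw 0 z₁
    simp only [map_zero, add_zero, zero_add] at h1 h4
    have h3 := congrArg (fun g : GL ι F => (g : Matrix ι ι F) *ᵥ tens e P ![1, 0] z₁)
      (eq_mul_inv_iff_mul_eq.1 hk)
    simp only [Units.val_mul, ← mulVec_mulVec, hz1, h1, hz2] at h3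
    rw [zpow_eq_zpow_emod k (n := 3) (by exact_mod_cast hw3)] at h3
    have : k % 3 = 0 ∨ k % 3 = 1 ∨ k % 3 = 2 := by omega
    rcases this with h | h | h <;> rw [h] at h3
    · exact b1 ((tens_inj e P (a := z₁) (b := 0)).1 (by simpa using h3)).2.symm
    · exact b2 ((tens_inj e P (a := 0) (b := z₁) (d := z₁)).1 (by simpa [h1] using h3)).1.symm
    · rw [zpow_two, Units.val_mul, ← mulVec_mulVec, h1, h4] at h3
      exact b3 ((tens_inj e P).1 h3).1

theorem sl_between_two (h2 : 2 ≤ n₂) : ∃ K, tensorProductSubgroup 2 n₂ e P ⊓ specialLinear ι F < K ∧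
    K < specialLinear ι F := by
  have hSL : ∀ g : GL ι F, g ∈ specialLinear ι F := fun g =>
    mem_specialLinear.2 ((eq_zero_or_one_of_card_two hq _).resolve_left (by
      rw [det_glEquiv]; exact g.det_ne_zero))
  obtain ⟨w, hw, -, h3⟩ := exists_omega hq e P
  let i : Fin n₂ := ⟨0, by omega⟩
  let j : Fin n₂ := ⟨1, by omega⟩
  have hij : i ≠ j := by simp [i, j]
  let u : Matrix (Fin 2) (Fin 2) F → GL ι F := fun a =>
    ⟨1 + coord e P (a ⊗ₖ single i j 1), 1 - coord e P (a ⊗ₖ single i j 1), by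
      simp [mul_sub, add_mul, ← map_mul, ← mul_kronecker_mul, single_mul_single_of_ne _ _ _ _ hij.symm],
      by simp [sub_mul, mul_add, ← map_mul, ← mul_kronecker_mul,
        single_mul_single_of_ne _ _ _ _ hij.symm]⟩
  have hu : ∀ a x y, (u a : Matrix ι ι F) *ᵥ tens e P x y =
      tens e P x y + tens e P (a *ᵥ x) (Pi.single i (y j)) := fun a x y => by
    simp only [u, add_mulVec, one_mulVec, coord_kron_tens, single_mulVec, one_mul]; rfl
  have hne : (Pi.single j 1 : Fin n₂ → F) ≠ Pi.single i 1 := fun h => by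
    simpa [hij] using congrFun h i
  refine h3 (hSL (u !![0, 1; 1, 1])) (hSL (u !![0, 1; 0, 0])) (Units.ext ?_)
    ⟨![1, 0], Pi.single j 1, Pi.single j 1, Pi.single i 1, ?_, by simp, by simp, hne⟩
    ⟨Pi.single j 1, Pi.single i 1, ?_, ?_, by simp, by simp, hne⟩
  · simp only [Units.val_mul, u, hw, add_mul, mul_add, one_mul, mul_one, ← map_mul,
      ← mul_kronecker_mul]
  · rw [hu, tens_eq e P (_ *ᵥ _)]; simp
  · rw [hu, tens_eq e P (_ *ᵥ _)]; simp
  · rw [hu, tens_eq e P (_ *ᵥ _)]; simp [add_comm]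

theorem quad_between_two {Q : QuadraticForm F (ι → F)} (hQ : (ofQuad Q).Nondeg) (h5 : 5 ≤ n₂)
    {f₁ : (Fin 2 → F) → (Fin 2 → F) → F} {f₂ : (Fin n₂ → F) → (Fin n₂ → F) → F}
    (hf₁ : IsSymplecticForm f₁) (hf₂ : IsSymplecticForm f₂)
    (hT : IsTensorFormStructure id (QuadraticMap.polar Q) f₁ f₂ e P)
    (hpure : ∀ x y, Q (tens e P x y) = 0) :
    ∃ K, tensorProductSubgroup 2 n₂ e P ⊓ omegaGL Q < K ∧ K < omegaGL Q := by
  have h11 := one_add_one_of_card_two hq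
  have h2 : (2 : F) = 0 := by rw [← h11]; norm_num
  obtain ⟨c, hc, h⟩ := form_tens (IsBilinearForm.eq_gf hf₁.bilinear)
    (IsBilinearForm.eq_gf hf₂.bilinear) hT
  obtain rfl := (eq_zero_or_one_of_card_two hq c).resolve_left hc
  let g := Form.ofAlt (LinearMap.mk₂ F f₂ hf₂.bilinear.add_left hf₂.bilinear.smul_left
    hf₂.bilinear.add_right fun c x y => hf₂.bilinear.smul_right c x y) hf₂.alternating
  have hg : g.Nondeg := fun x hx => by
    by_contra h0
    obtain ⟨y, hy⟩ := (hf₂.nondegenerate x h0).2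
    exact hy (hx y)
  have h12 : f₁ ![1, 0] ![0, 1] = 1 := (eq_zero_or_one_of_card_two hq _).resolve_left fun h0 => by
    obtain ⟨x, hx⟩ := (hf₁.nondegenerate ![1, 0] (by simp)).2
    refine hx ?_
    rw [show x = x 0 • ![1, 0] + x 1 • ![0, 1] by ext i; fin_cases i <;> simp,
      hf₁.bilinear.add_right, hf₁.bilinear.smul_right, hf₁.bilinear.smul_right, h0, hf₁.alternating]
    simp
  have h21 : f₁ ![0, 1] ![1, 0] = 1 := by rw [hf₁.skew, h12]; linear_combination -h2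
  have hB : ∀ x y x' y', (ofQuad Q).B (tens e P x y) (tens e P x' y') = f₁ x x' * g.B y y' :=
    fun x y x' y' => (h x y x' y').trans (one_mul _)
  have hQ' : ∀ a b, (ofQuad Q).q (tens e P ![1, 0] a + tens e P ![0, 1] b) = g.B a b := fun a b => by
    rw [quad_q_add, hB, h12, ofQuad_q, ofQuad_q, hpure, hpure]; simp
  obtain ⟨w, -, hw, h3⟩ := exists_omega hq e P
  have hwq : glEquiv ι F w ∈ (ofQuad Q).O := (quad_isIsom_iff _ _ _).2 fun v => by
    obtain ⟨a, b, rfl⟩ := exists_eq_tens e P v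
    rw [LinearEquiv.coe_coe, glEquiv_apply, hw, hQ', hQ', B_add_right, g.alt_B_self, g.alt_symm]
    linear_combination (-g.B a b) * h2
  have hww : ∀ v, glEquiv ι F w (glEquiv ι F w v) = glEquiv ι F w v + v := fun v => by
    obtain ⟨a, b, rfl⟩ := exists_eq_tens e P v
    rw [glEquiv_apply, glEquiv_apply, hw, hw]
    simp only [map_add]
    abel
  have hΩ : ∀ u v a, (glEquiv ι F).symm ((ofQuad Q).ei u v a) ∈ omegaGL Q := fun u v a =>
    (mem_omegaGL_iff_E Q hQ (by rw [Fintype.card_congr e]; simp; omega)).2 (by simp [ei_mem_E])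
  have hs : ∀ g v, (((glEquiv ι F).symm g : GL ι F) : Matrix ι ι F) *ᵥ v = g v := fun g v => by
    rw [← glEquiv_apply, MulEquiv.apply_symm_apply]
  obtain ⟨x, y, x', y', -, -, a1, -, -, a2, a3, a4, a5, a6⟩ := (alt_iso3 g).idx2 hg (by simpa)
  set u := tens e P ![1, 0] x + tens e P ![0, 1] x'
  have hu : (ofQuad Q).q u = 0 := by rw [hQ', a3]
  have hu' : (ofQuad Q).EichOK u (glEquiv ι F w u) 0 := by
    refine ⟨hu, ?_, by rw [mem_O_q hwq, hu, map_zero]⟩
    have := mem_O_q hwq (glEquiv ι F w u)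
    rwa [hww, add_comm, quad_q_add, mem_O_q hwq, hu, zero_add, zero_add] at this
  have hv : (ofQuad Q).EichOK (tens e P ![1, 0] x') (tens e P ![1, 0] y) 0 :=
    ⟨hpure _ _, by simp [hB, hf₁.alternating], by simp [ofQuad_q, hpure]⟩
  have hx0 : x ≠ 0 := by rintro rfl; simp at a1
  have hx0' : x' ≠ 0 := by rintro rfl; simp at a2
  refine h3 (hΩ u (glEquiv ι F w u) 0) (hΩ (tens e P ![1, 0] x') (tens e P ![1, 0] y) 0)
    ((glEquiv ι F).injective (LinearEquiv.ext fun v => ?_)) ⟨![1, 0], y, y + x, x', ?_, ?_, hx0', ?_⟩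
    ⟨x, x', ?_, ?_, hx0, hx0', ?_⟩
  · have := mem_O_B hwq u (glEquiv ι F w v)
    rw [hww, B_add_right, mem_O_B hwq] at this
    simp only [map_mul, MulEquiv.apply_symm_apply, LinearEquiv.mul_apply, hu'.ei_apply, map_sub,
      map_add, map_smul, hww, mem_O_B hwq, ← this, FormType.quad_ε]
    linear_combination (norm := module) (h2 * (ofQuad Q).B (glEquiv ι F w u) v) • glEquiv ι F w u -
      (h2 * (ofQuad Q).B u v) • u
  · rw [hs, hu'.ei_apply, glEquiv_apply, hw]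
    simp only [u, LinearMap.add_apply, hB, hf₁.alternating, h21, a1, g.B_eq_zero_symm a5,
      FormType.quad_ε, map_add]
    linear_combination (norm := module) (-h2) • (tens e P ![1, 0] x + tens e P ![0, 1] x')
  · exact fun h => by simpa [a1, g.alt_B_self] using congrArg (g.B x) h
  · exact fun h => by simpa [a1, g.alt_B_self, a3] using congrArg (g.B x) h
  · rw [hs, hv.ei_apply_fix] <;> simp [hB, hf₁.alternating]
  · rw [hs, hv.ei_apply_of_perp (by rw [hB, g.B_eq_zero_symm a3, mul_zero]), hB, h12, g.alt_symm, a1]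
    simp [add_comm, FormType.quad_ε]
  · rintro rfl
    exact one_ne_zero (a1.symm.trans (g.B_eq_zero_symm a5))

end two

end CL.FGL
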