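import Cfsg.Agent.CLAS.AschOr4
import Cfsg.Agent.CLAS.NonMaxDec
import Cfsg.Agent.CLAS.TensorNonMax

/-!
Maximal subgroups of the orthogonal groups of small dimension, the lists.
-/

set_option autoImplicit false

namespace CL.Asch

open Matrix Cfsg.Geo Module QuadraticMap CL.Orth
open scoped Kronecker MatrixGroups commutatorElement

variable {F : Type*} [Field F] {ι κ μ : Type} [Fintype ι] [DecidableEq ι] [Fintype κ] [DecidableEq κ]
  [Fintype μ] [DecidableEq μ] {Q : QuadraticForm F (ι → F)} {σ : F →+* F}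

local notation "ρ" => RingHom.id F

theorem QOdd_rat (m : ℕ) (F₀ : Subfield F) : IsQuadFormRationalStructure (QOdd m F) F₀ 1 := fun u hu => by
  rw [Units.val_one, one_mulVec, QOdd_apply]
  exact F₀.add_mem (F₀.pow_mem (hu _) 2) (F₀.sum_mem fun i _ => F₀.mul_mem (hu _) (hu _))

theorem card_odd_index (m : ℕ) : Fintype.card (Unit ⊕ (Fin m ⊕ Fin m)) = 2 * m + 1 := by
  simp; omega

theorem OrthSplit.nondeg_quad (hQ : (polarBilin Q).Nondegenerate) {W U : Submodule F (ι → F)}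
    (h : OrthSplit ρ (gq Q) W U) : IsNondegenerateOn (polar Q) W := by
  rw [polar_eq_gf]; exact h.nondeg (herm_gq hQ)

theorem isSelfAdjointFor_of {K : Subalgebra F (Matrix ι ι F)} (h : ∀ x ∈ K, IsAdj ρ (gq Q) x x) :
    IsSelfAdjointFor (polar Q) K := by
  rw [polar_eq_gf]; exact fun k hk => isAdj_iff.mp (h k hk)

theorem TPForm.quad_coord (hQ : (polarBilin Q).Nondegenerate) {H : Subgroup (GL ι F)} {k l : ℕ}
    {φ : Matrix (Fin k) (Fin k) F →ₐ[F] Matrix ι ι F} {ψ : Matrix (Fin l) (Fin l) F →ₐ[F] Matrix ι ι F}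
    {G₁ G₂} (h : TPForm ρ (gq Q) H φ ψ 1 1 G₁ G₂) : ∃ (e : ι ≃ Fin k × Fin l) (P : GL ι F),
      IsTensorFormStructure id (polar Q) (gf ρ G₁) (gf ρ G₂) e P ∧ H ≤ tensorProductSubgroup k l e P := by
  obtain ⟨e, P, c, -, -, hle, hc0, hP⟩ := h.exists_coord (herm_gq hQ)
  exact ⟨e, P, by rw [polar_eq_gf]; exact isTensorFormStructure_of hc0 hP, hle⟩

theorem TFForm.quad_coord (hQ : (polarBilin Q).Nondegenerate) {H : Subgroup (GL ι F)} {m t : ℕ}
    {φ : Fin t → (Matrix (Fin m) (Fin m) F →ₐ[F] Matrix ι ι F)} {G₁}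
    (h : TFForm ρ (gq Q) H φ 1 G₁) : ∃ (e : ι ≃ (Fin t → Fin m)) (P : GL ι F),
      IsTensorPowerFormStructure id (polar Q) (gf ρ G₁) e P ∧ H ≤ tensorWreathSubgroup m t e P := by
  obtain ⟨e, P, c, -, hle, hc0, hP⟩ := h.exists_coord (herm_gq hQ)
  exact ⟨e, P, by rw [polar_eq_gf]; exact isTensorPowerFormStructure_of hc0 hP, hle⟩

/-- Aschbacher's theorem in odd dimension -/
theorem orth_odd_cases [Fintype F] (hq : Odd (Fintype.card F)) {m : ℕ} (hm : 2 ≤ m)
    {H : Subgroup (GL (Unit ⊕ (Fin m ⊕ Fin m)) F)} (hH : H ≤ omegaGL (QOdd m F)) :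
    (∃ M, InOrthogonalOddClass m F M ∧ H ≤ M) ∨ InOrthogonalResidualClass H := by
  have hc := card_odd_index m
  have hQ := QOdd_nondeg m F (two_ne_zero_of_odd hq)
  have hI := hH.trans (omegaGL_le _)
  haveI : Nonempty (Unit ⊕ (Fin m ⊕ Fin m)) := inferInstance
  simp only [InOrthogonalOddClass, ← coe_QOdd]
  cases orth_cases (by omega) hQ (fun h hh => Orth.mem_isometryGroup.mp (hI hh)) (fun h hh => det_of_mem_omega (hH hh)) with
  | ts W h0 h hle => exact .inl ⟨_, .inl ⟨W, h0, h, rfl⟩, le_inf hle hI⟩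
  | pt hq' => exact absurd hq hq'
  | nd W U h hd hW => exact .inl ⟨_, .inr (.inl ⟨W, h.ne₁, h.ne_top, h.nondeg_quad hQ, rfl⟩), le_inf hW hI⟩
  | dec t k D h h1 hle =>
    by_cases hk : k = 1
    · subst hk
      exact .inl ⟨_, .inr (.inr (.inr (.inl ⟨t, D, h1 rfl, h, rfl⟩))), le_inf hle hI⟩
    · exact .inl ⟨_, .inr (.inr (.inl ⟨t, k, D, by have := h.decomp.decomp.pos; omega, h, rfl⟩)),
        le_inf hle hI⟩
  | pair k D h => have := card_eq_of_isMDecomposition h; omega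
  | fld r K hr hK hs h1 _ hle =>
    exact .inl ⟨_, .inr (.inr (.inr (.inr (.inl ⟨r, K, hr, hc ▸ h1, hK, isSelfAdjointFor_of hs, rfl⟩)))),
      le_inf hle hI⟩
  | uni K hK => have := finrank_dvd_of_isFieldSubalgebra hK; omega
  | tensO _ k l φ ψ G₁ G₂ h hk hkl =>
    obtain ⟨e, P, h1, hle⟩ := h.quad_coord hQ
    exact .inl ⟨_, .inr (.inr (.inr (.inr (.inr (.inl ⟨k, l, e, P, _, _, hk, hkl, h.herm₁.isSymmetricForm,
      h.herm₂.isSymmetricForm, h1, rfl⟩))))), le_inf hle hI⟩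
  | tensS k l e P _ _ _ _ _ _ hk =>
    have h1 := hk.mul_right l
    rw [← Fintype.card_fin k, ← Fintype.card_fin l, ← Fintype.card_prod, ← Fintype.card_congr e, hc] at h1
    simp at h1
  | sub F₀ r P ζ hr h1 h0 h hle =>
    obtain ⟨P', h2, h3⟩ := quadRat_odd hQ (by simp [hc]) h0 (QOdd_rat m F₀) h
    exact .inl ⟨_, .inr (.inr (.inr (.inr (.inr (.inr (.inl ⟨F₀, r, P', hr, h1, h2, rfl⟩)))))),
      le_inf (h3 ▸ hle) hI⟩
  | pow _ k t φ G₁ h hk hex =>
    obtain ⟨e, P, h1, hle⟩ := h.quad_coord hQ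
    exact .inl ⟨_, .inr (.inr (.inr (.inr (.inr (.inr (.inr ⟨k, t, e, P, _, hk, h.fam.two_le_t, hex,
      h.herm.isSymmetricForm, h1, rfl⟩)))))), le_inf hle hI⟩
  | big he => simp [hc] at he
  | res h => exact .inr h

theorem plus_iff_sq [Finite F] (h2 : (2 : F) ≠ 0) (hQ : (polarBilin Q).Nondegenerate)
    (hn : 4 ∣ Fintype.card ι) : IsPlusTypeOn Q ⊤ ↔ IsSquare (gq Q).det := by
  obtain ⟨k, hk⟩ := hn
  rw [plusOn_top_iff, isPlus_iff_dsc h2 hQ (m := 2 * k) (by simp [hk]; omega), dsc_eq_gq hQ, pow_mul,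
    Int.units_sq, one_pow, sqSign_eq_one_iff]

theorem TPForm.plus_three_four [Finite F] (h2 : (2 : F) ≠ 0) (hQ : (polarBilin Q).Nondegenerate)
    {H : Subgroup (GL ι F)} {φ : Matrix (Fin 3) (Fin 3) F →ₐ[F] Matrix ι ι F}
    {ψ : Matrix (Fin 4) (Fin 4) F →ₐ[F] Matrix ι ι F} {G₁ G₂} (h : TPForm ρ (gq Q) H φ ψ 1 1 G₁ G₂)
    (hp : IsPlusTypeOn Q ⊤) : IsPlusTypeOn (fun v => gf ρ G₂ v v) ⊤ := by
  obtain ⟨e, P, c, -, -, -, hc, hP⟩ := h.exists_coord (herm_gq hQ)
  have h1 := congrArg det hP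
  obtain ⟨a, ha⟩ := (plus_iff_sq h2 hQ (by simp [h.pair.card])).mp hp
  rw [cpull, det_submatrix_equiv_self, det_gpull, det_smul, det_kronecker, ha] at h1
  have h3 := h.herm₁.det_ne
  have h4 := h.herm₂.det_ne
  refine (plus_iff_sq h2 (nondeg_quadOf (h.herm₂.isQuad h2)) (by simp)).mpr ?_
  rw [gq, FGL.coe_quadOf, polar_gf h.herm₂, gramMatrix_gf, det_smul]
  refine ⟨4 * (P : Matrix ι ι F).det * a / (c ^ 6 * G₁.det ^ 2 * G₂.det), ?_⟩
  simp only [Fintype.card_prod, Fintype.card_fin, RingHom.id_apply] at h1 ⊢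
  field_simp
  linear_combination -16 * h1

theorem plus_of_pure {l : ℕ} {e : ι ≃ Fin 2 × Fin l} {P : GL ι F}
    (hp : ∀ x y, Q (cvec e P (pv2 x y)) = 0) : IsPlusTypeOn Q ⊤ := by
  refine plus_of_coord e P (fun a => a.1 = 0) (by
    rw [Fintype.card_congr (Equiv.prodSubtypeFstEquivSubtypeProd (p := fun a : Fin 2 => a = 0))]
    simp) (fun a _ => by rw [← Prod.mk.eta (p := a), single_eq_pv2, hp]) ?_
  rintro ⟨_, a⟩ ⟨_, b⟩ rfl rfl
  have : pv2 (Pi.single (0 : Fin 2) (1 : F)) (Pi.single a 1) + pv2 (Pi.single (0 : Fin 2) 1) (Pi.single b 1) =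
      pv2 (Pi.single (0 : Fin 2) 1) (Pi.single a 1 + Pi.single b 1) := by
    funext p; simp [pv2, mul_add]
  rw [single_eq_pv2, single_eq_pv2, polar, ← map_add, this, hp, hp, hp]; simp

/-- the maximal subgroups of an orthogonal group of small dimension -/
inductive OrMax [Fintype F] (Q : QuadraticForm F (ι → F)) (H : Subgroup (GL ι F)) : Prop
  | ts (W : Submodule F (ι → F)) (h0 : W ≠ ⊥) (h : IsTotallySingularQuad Q W)
      (hp : IsPlusTypeOn Q ⊤ → 2 * (finrank F W + 1) ≠ Fintype.card ι)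
      (he : H = subspaceStabilizer W ⊓ omegaGL Q)
  | pt (hq : ¬ Odd (Fintype.card F)) (v : ι → F) (h : Q v ≠ 0)
      (he : H = subspaceStabilizer (Submodule.span F {v}) ⊓ omegaGL Q)
  | nd (W U : Submodule F (ι → F)) (h0 : W ≠ ⊥) (h1 : W ≠ ⊤) (h0' : U ≠ ⊥)
      (h : IsNondegenerateOn (polar Q) W) (h' : IsNondegenerateOn (polar Q) U)
      (hd : finrank F W ≤ finrank F U) (hn : finrank F W + finrank F U = Fintype.card ι)
      (hodd : Odd (finrank F W) → Odd (Fintype.card F))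
      (hpl : finrank F W = 2 → IsPlusTypeOn Q W → 4 ≤ Fintype.card F)
      (ht : dsc Q = dsc (Q.restrict W) * dsc (Q.restrict U) ∧ (Even (finrank F W) → Even (finrank F U) →
        (IsPlusTypeOn Q ⊤ ↔ (IsPlusTypeOn Q W ↔ IsPlusTypeOn Q U))))
      (hW : H = subspaceStabilizer W ⊓ omegaGL Q) (hU : H = subspaceStabilizer U ⊓ omegaGL Q)
      (hD : finrank F W = finrank F U → IsNondegenerateMDecomposition (polar Q) (finrank F W) ![W, U] ∧
        H = decompositionStabilizer ![W, U] ⊓ omegaGL Q)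
  | dec (t m : ℕ) (D : Fin t → Submodule F (ι → F)) (h : IsOrthogonalMDecomposition Q m D)
      (hn : Fintype.card ι = t * m) (ht : 2 ≤ t) (hm : m = 1 → (Fintype.card F).Prime)
      (hodd : Odd m → Odd (Fintype.card F)) (h2 : m = 2 → Fintype.card F ≠ 3)
      (h2' : m = 2 → (∀ i, IsPlusTypeOn Q (D i)) → 7 ≤ Fintype.card F)
      (h3 : m = 3 → 5 ≤ Fintype.card F)
      (h4 : m = 4 → 3 ≤ t → (∀ i, IsPlusTypeOn Q (D i)) → 3 ≤ Fintype.card F)
      (he : H = decompositionStabilizer D ⊓ omegaGL Q)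
  | pair (m : ℕ) (D : Fin 2 → Submodule F (ι → F)) (h : IsMDecomposition m D)
      (hts : ∀ i, IsTotallySingularQuad Q (D i)) (hn : Fintype.card ι = 2 * m) (hm : Even m)
      (hp : IsPlusTypeOn Q ⊤) (he : H = decompositionStabilizer D ⊓ omegaGL Q)
  | fld (r : ℕ) (K : Subalgebra F (Matrix ι ι F)) (hr : r.Prime) (hK : IsFieldSubalgebra r K)
      (hs : IsSelfAdjointFor (polar Q) K) (hd : r ∣ Fintype.card ι) (h1 : Fintype.card ι ≠ r)
      (h2 : Fintype.card ι = 2 * r → r = 2) (h3 : ¬ Odd (Fintype.card F) → 2 * r ∣ Fintype.card ι)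
      (he : H = subalgebraNormalizer K ⊓ omegaGL Q)
  | uni (K : Subalgebra F (Matrix ι ι F)) (hK : IsFieldSubalgebra 2 K)
      (ha : IsAdjointClosedFor (polar Q) K) (hs : ¬ IsSelfAdjointFor (polar Q) K)
      (hc : ∀ k ∈ K, ∃ c : F, ∀ v, Q (k *ᵥ v) = c * Q v) (hn : 2 ∣ Fintype.card ι)
      (hp : IsPlusTypeOn Q ⊤ ↔ 4 ∣ Fintype.card ι) (he : H = subalgebraNormalizer K ⊓ omegaGL Q)
  | tensO (hn : Fintype.card ι = 12) (hp : ¬ IsPlusTypeOn Q ⊤) (h : Odd (Fintype.card F) ∧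
      5 ≤ Fintype.card F ∧ ∃ (e : ι ≃ Fin 3 × Fin 4) (P : GL ι F) (f₁ : (Fin 3 → F) → (Fin 3 → F) → F)
      (f₂ : (Fin 4 → F) → (Fin 4 → F) → F), IsSymmetricForm f₁ ∧ IsSymmetricForm f₂ ∧
      ¬ IsPlusTypeOn (fun v : Fin 4 → F => f₂ v v) ⊤ ∧ IsTensorFormStructure id (polar Q) f₁ f₂ e P ∧
      H = tensorProductSubgroup 3 4 e P ⊓ omegaGL Q)
  | tensS (hn : Fintype.card ι = 12) (hp : IsPlusTypeOn Q ⊤) (h : 3 ≤ Fintype.card F ∧
      ∃ (e : ι ≃ Fin 2 × Fin 6) (P : GL ι F) (f₁ : (Fin 2 → F) → (Fin 2 → F) → F)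
      (f₂ : (Fin 6 → F) → (Fin 6 → F) → F), IsSymplecticForm f₁ ∧ IsSymplecticForm f₂ ∧
      IsTensorFormStructure id (polar Q) f₁ f₂ e P ∧ (∀ (x₁ : Fin 2 → F) (x₂ : Fin 6 → F),
        Q ((P : Matrix ι ι F) *ᵥ ((fun a : Fin 2 × Fin 6 => x₁ a.1 * x₂ a.2) ∘ e)) = 0) ∧
      H = tensorProductSubgroup 2 6 e P ⊓ omegaGL Q)
  | sub (F₀ : Subfield F) (r : ℕ) (P : GL ι F) (ζ : F) (hr : r.Prime)
      (hc : Fintype.card F = Nat.card F₀ ^ r) (h0 : ζ ≠ 0)
      (h : IsQuadFormRationalStructure (fun v => ζ * Q v) F₀ P)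
      (hp : Even (Fintype.card ι) → ¬ IsPlusTypeOn Q ⊤ → Odd r)
      (he : H = subfieldSubgroup F₀ P ⊓ omegaGL Q)
  | pow (hn : Fintype.card ι = 9) (h : 5 ≤ Fintype.card F ∧ ∃ (e : ι ≃ (Fin 2 → Fin 3)) (P : GL ι F)
      (f₁ : (Fin 3 → F) → (Fin 3 → F) → F), IsSymmetricForm f₁ ∧
      IsTensorPowerFormStructure id (polar Q) f₁ e P ∧ H = tensorWreathSubgroup 3 2 e P ⊓ omegaGL Q)
  | big (hn : Fintype.card ι = 8) (hp : IsPlusTypeOn Q ⊤)
  | res (h : InOrthogonalResidualClass H)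

theorem odd_of_nondeg [Fintype F] {W : Submodule F (ι → F)} (h : IsNondegenerateOn (polar Q) W)
    (hW : Odd (finrank F W)) : Odd (Fintype.card F) := by
  by_contra hq
  exact Orth.two_ne_zero_of_odd (nondeg_restrict h) hW (two_eq_zero_of_not_odd hq)

theorem orth_max_cases [Fintype F] (hn : 7 ≤ Fintype.card ι) (hn' : Fintype.card ι ≤ 12)
    (hQ : (polarBilin Q).Nondegenerate) {H : Subgroup (GL ι F)} (hH : IsMaximalIn (omegaGL Q) H) :
    OrMax Q H := by
  have h5 : 5 ≤ Fintype.card ι := by omega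
  haveI := nonempty_of_two_le (show 2 ≤ Fintype.card ι by omega)
  have hG := herm_gq hQ
  have hA := amb_omega hQ h5
  have hf := (Witt.Form.ofQuad_nondeg_iff Q).mpr hQ
  have hq1 := Fintype.one_lt_card (α := F)
  have hnb := IsMaximalIn.not_between hH
  cases orth_cases h5 hQ (fun h hh => Orth.mem_isometryGroup.mp (omegaGL_le _ (hH.1.le hh)))
    (fun h hh => det_of_mem_omega (hH.1.le hh)) with
  | ts W h0 h hle =>
    have he := IsMaximalIn.eq_inf hH hle (hA.not_le_subspace h0 (by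
      rintro rfl
      have := two_mul_finrank_le_of_singular hQ h
      simp at this; omega))
    exact .ts W h0 h (fun hp hd => hnb (he ▸ FGL.submax_not_maximal Q hf h5 hp h hd)) he
  | pt hq v h hle =>
    have h0 : v ≠ 0 := by rintro rfl; simp at h
    exact .pt hq v h (IsMaximalIn.eq_inf hH hle (hA.not_le_subspace (by simpa using h0) fun h1 => by
      have := finrank_span_singleton_le v
      rw [h1] at this; simp at this; omega))
  | nd W U h hd hW hU hD =>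
    have h1 := h.nondeg_quad hQ
    have h2 := (h.symm hG).nondeg_quad hQ
    have he := IsMaximalIn.eq_inf hH hW (hA.not_le_subspace h.ne₁ h.ne_top)
    refine .nd W U h.ne₁ h.ne_top h.ne₂ h1 h2 hd h.finrank (odd_of_nondeg h1) (fun h3 h4 => ?_)
      (split_type h.compl (by rw [polar_eq_gf]; exact h.orth) h1 h2) he
      (IsMaximalIn.eq_inf hH hU (hA.not_le_subspace h.ne₂ (h.symm hG).ne_top)) fun h3 =>
        ⟨by rw [polar_eq_gf]; exact h.decomp hG h3,
          IsMaximalIn.eq_inf hH hD (hA.not_le_pair (h.decomp hG h3).decomp)⟩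
    by_contra h6
    exact hnb (he ▸ FGL.plane_not_maximal Q hf h5 (by omega) h3 h1 h4)
  | dec t m D h hm hle =>
    have h1 := card_eq_of_isMDecomposition h.decomp.decomp
    have h2 := h.decomp.decomp.two_le
    have he := IsMaximalIn.eq_inf hH hle (hA.not_le_decomp (polar_eq_gf Q ▸ h.decomp) (by
      rcases Nat.lt_or_ge m 3 with h | h
      · omega
      · nlinarith))
    have hb := fun ht hc => hnb (he ▸ FGL.exists_of_between (FGL.quad_between Q hf h ht hc)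
      fun g => FGL.mem_omegaGL_iff_E Q hf h5)
    have hodd : Odd m → Odd (Fintype.card F) := fun h3 => odd_of_nondeg
      (h.decomp.nondegenerate ⟨0, by omega⟩) (by rwa [h.decomp.decomp.finrank_eq])
    refine .dec t m D h h1 h2 hm hodd (fun h3 h4 => hb (by subst h3; omega) (.inl ⟨h3, .inl h4⟩))
      (fun h3 h4 => ?_) (fun h3 => five_le_of_odd (hodd (by rw [h3]; decide)) fun h4 =>
        hb (by subst h3; omega) (.inr (.inl ⟨h3, h4⟩))) (fun h3 h4 h6 => ?_) he
    · by_contra h6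
      have := card_ne_six (F := F)
      exact hb (by subst h3; omega) (.inl ⟨h3, (em _).imp_right fun h7 => ⟨h4, by omega⟩⟩)
    · by_contra h7
      exact hb h4 (.inr (.inr ⟨h3, by omega, h6⟩))
  | pair m D h hts hle =>
    have h1 := card_eq_of_isMDecomposition h
    have he := IsMaximalIn.eq_inf hH hle (hA.not_le_pair h)
    exact .pair m D h hts h1 (Nat.not_odd_iff_even.mp fun h2 =>
      hnb (he ▸ FGL.pair_not_maximal Q hf h5 h1.symm h2 h hts)) (plus_of_pair h (hts 0)) he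
  | fld r K hr hK hs h1 h2 hle =>
    exact .fld r K hr hK (isSelfAdjointFor_of hs) (finrank_dvd_of_isFieldSubalgebra hK) h1 h2
      (fun hq => two_mul_dvd_of_selfAdj hG hK hs fun k hk => alt_of_selfAdj_field hG
        (alt_gq (two_eq_zero_of_not_odd hq)) hK (fun x hx => ⟨x, hx, hs x hx⟩) hk (hs k hk))
      (IsMaximalIn.eq_inf hH hle (hA.not_le_field hK hr.two_le))
  | uni K hK ha hs hc hle =>
    exact .uni K hK (by
        rw [polar_eq_gf]; exact fun k hk => (ha k hk).imp fun y hy => ⟨hy.1, isAdj_iff.mp hy.2⟩)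
      (by rw [polar_eq_gf]; exact fun h => hs fun k hk => isAdj_iff.mpr (h k hk)) hc
      (finrank_dvd_of_isFieldSubalgebra hK) (uni_type hQ hK even_two ha fun k hk v hv => by
        obtain ⟨c, h⟩ := hc k hk; rw [h, hv, mul_zero])
      (IsMaximalIn.eq_inf hH hle (hA.not_le_field hK le_rfl))
  | tensO hq k l φ ψ G₁ G₂ h hk hkl hex h4 =>
    have h1 := h.pair.card
    obtain rfl : k = 3 := by nlinarith
    obtain rfl : l = 4 := by omega
    obtain ⟨e, P, h2, hle⟩ := h.quad_coord hQ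
    exact .tensO h1 (mt (h.plus_three_four (two_ne_zero_of_odd hq) hQ) (h4 rfl rfl))
      ⟨hq, five_le_of_odd hq fun h => hex ⟨h, rfl⟩, e, P, _, _, h.herm₁.isSymmetricForm,
        h.herm₂.isSymmetricForm, h4 rfl rfl, h2,
        IsMaximalIn.eq_inf hH hle (hA.not_le_tensor e P (by omega) (by omega) (by omega))⟩
  | tensS k l e P f₁ f₂ hk hkl h₁ h₂ hk2 hl2 h hp hle =>
    have h1 : Fintype.card ι = k * l := by simp [Fintype.card_congr e]
    obtain rfl : k = 2 := by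
      by_contra h3
      have := Nat.mul_le_mul (show 4 ≤ k by obtain ⟨a, rfl⟩ := hk2; omega) hkl.le
      have : 4 ≤ k := by obtain ⟨a, rfl⟩ := hk2; omega
      nlinarith
    have h2 := plus_of_pure hp
    by_cases h3 : l = 4
    · exact .big (by omega) h2
    obtain rfl : l = 6 := by obtain ⟨a, rfl⟩ := hl2; omega
    have he := IsMaximalIn.eq_inf hH hle (hA.not_le_tensor e P (by omega) (by omega) (by omega))
    refine .tensS h1 h2 ⟨?_, e, P, f₁, f₂, h₁, h₂, h, hp, he⟩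
    by_contra h4
    exact hnb (he ▸ FGL.quad_between_two (by omega) e P hf (by omega) h₁ h₂ h hp)
  | sub F₀ r P ζ hr hc h0 h hle =>
    refine .sub F₀ r P ζ hr hc h0 h (fun h1 h2 => hr.odd_of_ne_two ?_) (IsMaximalIn.eq_inf hH hle
      (hA.not_le_subfield (exists_not_mem_subfield hr hc) P (by omega)))
    rintro rfl
    obtain ⟨k, hk⟩ := h1
    exact h2 (plus_of_sq hQ (m := k - 1) (by omega) hc h0 h)
  | pow hq m t φ G₁ h hm hex =>
    have h1 := h.fam.card
    obtain rfl : t = 2 := by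
      by_contra h2
      have := (pow_bound h1 (by omega) (by have := h.fam.two_le_t; omega) hn').2.1
      omega
    obtain rfl : m = 3 := by nlinarith
    obtain ⟨e, P, h2, hle⟩ := h.quad_coord hQ
    exact .pow h1 ⟨five_le_of_odd hq fun h => hex ⟨h, rfl⟩, e, P, _, h.herm.isSymmetricForm, h2,
      IsMaximalIn.eq_inf hH hle (hA.not_le_wreath e P (by omega) (by omega))⟩
  | big _ h => exact .big (h hn').1 (h hn').2
  | res h => exact .res h

theorem dec_plus_four [Fintype F] (hQ : (polarBilin Q).Nondegenerate) (hn : 4 ∣ Fintype.card ι) {t m : ℕ}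
    {D : Fin t → Submodule F (ι → F)} (hD : IsOrthogonalMDecomposition Q m D) (ht : Even t)
    (hodd : Odd m → Odd (Fintype.card F)) : IsPlusTypeOn Q ⊤ := by
  rcases m.even_or_odd with h | h
  · exact ((dec_type hD ⟨0, by have := hD.decomp.decomp.two_le; omega⟩).2 h).mpr (.inr ht)
  obtain ⟨k, hk⟩ := hn
  exact (dec_plus_iff (two_ne_zero_of_odd (hodd h)) hQ hD ht (k := 2 * k) (by omega)).mpr
    (by rw [pow_mul, Int.units_sq, one_pow])

theorem dec_odd_iff [Finite F] {t m : ℕ} {D : Fin t → Submodule F (ι → F)}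
    (hD : IsOrthogonalMDecomposition Q m D) (ht : Odd t) (hm : Even m) (i : Fin t) :
    IsPlusTypeOn Q ⊤ ↔ IsPlusTypeOn Q (D i) := by
  simpa [Nat.not_even_iff_odd.mpr ht] using (dec_type hD i).2 hm

theorem dec_all_or {t m : ℕ} {D : Fin t → Submodule F (ι → F)}
    (hD : IsOrthogonalMDecomposition Q m D) :
    (∀ i, IsPlusTypeOn Q (D i)) ∨ ∀ i, ¬ IsPlusTypeOn Q (D i) := by
  by_contra h
  push Not at h
  obtain ⟨⟨i, hi⟩, j, hj⟩ := h
  exact hi ((AreIsometricFor.plus_iff (hD.isometric j i)).mp hj)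

theorem dec_ten [Fintype F] (hQ : (polarBilin Q).Nondegenerate) (hq : Odd (Fintype.card F))
    (hn : Fintype.card ι = 10) {t m : ℕ} {D : Fin t → Submodule F (ι → F)}
    (hD : IsOrthogonalMDecomposition Q m D) (ht : Even t) :
    (IsPlusTypeOn Q ⊤ ↔ Fintype.card F % 4 = 1) ∧ (¬ IsPlusTypeOn Q ⊤ ↔ Fintype.card F % 4 = 3) := by
  rw [dec_plus_iff (two_ne_zero_of_odd hq) hQ hD ht (k := 5) hn, sqSign_neg_one hq]
  obtain ⟨k, hk⟩ := hq
  split_ifs with h
  · simp [h]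
  · simp [show Fintype.card F % 4 = 3 by omega, Odd.neg_one_pow (show Odd 5 by decide)]

theorem nd_ten [Fintype F] (hQ : (polarBilin Q).Nondegenerate) (hq : Odd (Fintype.card F))
    (hn : Fintype.card ι = 10) {W U : Submodule F (ι → F)} (h : IsNondegenerateOn (polar Q) W)
    (h' : IsNondegenerateOn (polar Q) U) (hd : finrank F W = finrank F U)
    (ht : dsc Q = dsc (Q.restrict W) * dsc (Q.restrict U)) (hi : ¬ AreIsometricFor Q W U) :
    (IsPlusTypeOn Q ⊤ ↔ Fintype.card F % 4 = 3) ∧ (¬ IsPlusTypeOn Q ⊤ ↔ Fintype.card F % 4 = 1) := by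
  have h2 := two_ne_zero_of_odd hq
  have h1 : dsc (Q.restrict W) ≠ dsc (Q.restrict U) := fun h1 =>
    hi (exists_isometry_of_dsc_eq h2 (nondeg_restrict h) (nondeg_restrict h') hd h1)
  have h3 : dsc Q = -1 := by
    rw [ht]
    rcases Int.units_eq_one_or (dsc (Q.restrict W)) with h | h <;>
      rcases Int.units_eq_one_or (dsc (Q.restrict U)) with h' | h' <;> simp_all
  rw [plusOn_top_iff, isPlus_iff_dsc h2 hQ (m := 5) (by simpa using hn), sqSign_neg_one hq, h3]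
  obtain ⟨k, hk⟩ := hq
  split_ifs with h
  · simp [h]
  · simp [show Fintype.card F % 4 = 3 by omega, Odd.neg_one_pow (show Odd 5 by decide)]

end CL.Asch
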