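import Cfsg.Agent.CLAS.AschSu4

/-!
Explicit models: frames, pairs of totally isotropic planes and orthogonal subfield groups in small
unitary groups.
-/

set_option autoImplicit false

namespace CL.Asch

open Matrix Cfsg.Geo
open scoped Kronecker MatrixGroups commutatorElement

variable {F : Type*} [Field F] {ι κ μ : Type} [Fintype ι] [DecidableEq ι] [Fintype κ] [DecidableEq κ]
  [Fintype μ] [DecidableEq μ] {σ : F →+* F} {q : ℕ}

local notation "ρ" => RingHom.id F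

theorem frame_act {n : ℕ} {g : GL (Fin n) F} (hg : g ∈ suG σ 1) (h : Pattern id g) (v : Fin n → F) :
    ∃ s : Equiv.Perm (Fin n), (∀ i, (g.1 *ᵥ v) (s i) * σ ((g.1 *ᵥ v) (s i)) = v i * σ (v i)) ∧
      (∏ i, (g.1 *ᵥ v) i) * ∏ i, (g.1 *ᵥ v) i = (∏ i, v i) * ∏ i, v i := by
  obtain ⟨s, hs⟩ := h
  have h1 : g.1 = (diagonal fun b => g.1 (s b) b).submatrix s.symm id := by
    ext a b
    by_cases h : a = s b
    · simp [h]
    · rw [hs a b h, submatrix_apply, diagonal_apply_ne _ (by simpa [Equiv.symm_apply_eq] using h)]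
  have h2 : ∀ (v : Fin n → F) i, (g.1 *ᵥ v) (s i) = g.1 (s i) i * v i := fun v i => by
    rw [mulVec, dotProduct]
    exact Finset.sum_eq_single i (fun b _ hb => by rw [hs _ b (s.injective.ne hb.symm), zero_mul]) (by simp)
  have h3 : ∀ i, g.1 (s i) i * σ (g.1 (s i) i) = 1 := fun i => by
    have := congrFun (congrFun (mem_suG.mp hg).1 i) i
    rw [Matrix.mul_one, mul_apply, Finset.sum_eq_single (s i) (fun b _ hb => by
      rw [transpose_apply, hs b i hb, zero_mul]) (by simp)] at this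
    simpa using this
  have h4 := (mem_suG.mp hg).2
  rw [h1, det_permute, det_diagonal] at h4
  have h5 : (((Equiv.Perm.sign s.symm : ℤˣ) : ℤ) : F) * ((Equiv.Perm.sign s.symm : ℤˣ) : ℤ) = 1 := by
    rw [← Int.cast_mul, ← Units.val_mul, Int.units_mul_self]; simp
  refine ⟨s, fun i => by rw [h2, map_mul]; linear_combination v i * σ (v i) * h3 i, ?_⟩
  rw [← Equiv.prod_comp s]
  simp only [h2, Finset.prod_mul_distrib]
  generalize ∏ i, g.1 (s i) i = c at h4
  generalize ∏ i, v i = d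
  grind

/-- Gram matrix of a pair of totally isotropic subspaces -/
def pairG (m : ℕ) (F : Type*) [Field F] : Matrix (Fin m × Fin 2) (Fin m × Fin 2) F :=
  of fun a b => if a.1 = b.1 ∧ a.2 ≠ b.2 then 1 else 0

theorem gf_pairG {m : ℕ} (u v : Fin m × Fin 2 → F) :
    gf σ (pairG m F) u v = ∑ a, (u (a, 0) * σ (v (a, 1)) + u (a, 1) * σ (v (a, 0))) := by
  simp [gf_eq_sum, pairG, Fintype.sum_prod_type, ite_and]

theorem pair_coord {G : Matrix ι ι F} (hG : Herm σ 1 G) {m : ℕ} {D : Fin 2 → Submodule F (ι → F)}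
    (hD : IsMDecomposition m D) (hts : ∀ i, IsTotallySingularFor (gf σ G) (D i)) :
    ∃ (e : ι ≃ Fin m × Fin 2) (P : GL ι F), cpull σ G e P = pairG m F ∧
      (∀ a, cvec e P (Pi.single a 1) ∈ D a.2) ∧ ∀ i u, cvec e P u ∈ D i → ∀ a, a.2 ≠ i → u a = 0 := by
  obtain ⟨e, P, hP⟩ := exists_block_coord hD
  let u : Fin m → ι → F := fun a => cvec e P (Pi.single (a, 0) 1)
  have hu : ∀ a, u a ∈ D 0 := fun a => (hP _ _).mpr fun b j hj => by simp [hj]
  have key : ∀ a, ∃ w ∈ D 1, ∀ b, gf σ G (u b) w = if b = a then 1 else 0 := fun a => by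
    obtain ⟨v, hv⟩ := (mulVec_surjective_iff_isUnit.mpr ((isUnit_iff_isUnit_det _).mpr
      (hG.cpull e P).det_ne.isUnit)) (Pi.single (a, 0) 1)
    obtain ⟨y, hy, w, hw, h⟩ := IsMDecomposition.exists_add hD (cvec e P (σ ∘ v))
    refine ⟨w, hw, fun b => ?_⟩
    have h1 := gf_cpull (σ := σ) G e P (Pi.single (b, 0) 1) (σ ∘ v)
    rw [h, gf_add_right, hts 0 _ (hu b) _ hy, zero_add, gf,
      show σ ∘ σ ∘ v = v from funext fun _ => hG.invol _, hv] at h1
    rw [← h1]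
    simp [Pi.single_apply, eq_comm]
  choose w hw h1 using key
  let b : Fin m × Fin 2 → ι → F := fun p => ![u, w] p.2 p.1
  have hb : ∀ p, b p ∈ D p.2 := fun ⟨a, i⟩ => by
    fin_cases i
    exacts [hu a, hw a]
  have h2 : gres σ G b = pairG m F := by
    ext ⟨a, i⟩ ⟨c, j⟩
    fin_cases i <;> fin_cases j
    · simpa [pairG, gres, b] using hts 0 _ (hu a) _ (hu c)
    · simpa [pairG, gres, b] using h1 c a
    · simpa [pairG, gres, b, h1, apply_ite σ, eq_comm] using hG.swap' (w a) (u c)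
    · simpa [pairG, gres, b] using hts 1 _ (hw a) _ (hw c)
  obtain ⟨e', P', h3, h4⟩ := exists_coord_of_gram hG.surj G (Fintype.card_congr e) b (by
    rw [h2]
    refine det_ne_zero_of_right_inverse (B := pairG m F) ?_
    ext ⟨a, i⟩ ⟨c, j⟩
    fin_cases i <;> fin_cases j <;> simp [pairG, mul_apply, Fintype.sum_prod_type, one_apply, ite_and])
  have h5 : ∀ p, cvec e' P' (Pi.single p 1) = b p := fun p => by simp [h3, Pi.single_apply]
  refine ⟨e', P', h4.trans h2, fun p => h5 p ▸ hb p, fun i v hv ⟨a, j⟩ hj => ?_⟩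
  have h6 := hts i _ hv _ (hb (a, i))
  rw [← h5, ← gf_cpull, h4, h2, gf_pairG] at h6
  fin_cases i <;> fin_cases j <;> first | exact absurd rfl hj | simpa [Pi.single_apply, apply_ite σ] using h6

theorem pair_model (hq : ∀ a d : F, a * σ d = 1 → a * d = 1 → a = d) :
    ∀ g ∈ suG σ (pairG 2 F), Pattern Prod.snd g →
      g ∈ similarityGroup (gf ρ (blockDiagonal fun _ : Fin 2 => J2 F)) := by
  rintro g hg ⟨s, hs⟩
  let A : Fin 2 → Matrix (Fin 2) (Fin 2) F := fun i => of fun b a => g.1 (b, s i) (a, i)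
  have h1 : g.1 = blockMon s A := by
    ext ⟨b, j⟩ ⟨a, i⟩
    rw [blockMon_apply]
    split_ifs with h
    · rw [h]; rfl
    · exact hs _ _ h
  have h2 : (A 0)ᵀ * (A 1).map σ = 1 := by
    ext a b
    have := isSim_one_iff.mp (mem_suG.mp hg).1 (Pi.single (a, 0) 1) (Pi.single (b, 1) 1)
    rw [gf_pairG, gf_pairG, h1] at this
    rcases (by decide : ∀ s : Equiv.Perm (Fin 2), (s 0 = 0 ∧ s 1 = 1) ∨ (s 0 = 1 ∧ s 1 = 0)) s with
      h | h <;>
    simpa [blockMon_apply, h.1, h.2, mul_apply, one_apply, Pi.single_apply, apply_ite σ, eq_comm] using this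
  have h3 := congrArg det h2
  rw [det_mul, det_transpose, det_one, ← RingHom.mapMatrix_apply, ← RingHom.map_det] at h3
  have h4 := (mem_suG.mp hg).2
  rw [h1, det_blockMon, Fintype.card_fin, ← Int.cast_pow, ← Units.val_pow_eq_pow_val, Int.units_sq,
    Fin.prod_univ_two] at h4
  have h5 := hq _ _ h3 (by simpa using h4)
  refine (mem_similarityGroup ((herm_J2 (F := F)).blockDiagonal 2).det_ne).mpr ⟨(A 0).det, ?_⟩
  rw [h1]
  refine isSim_blockMon s fun i => ?_
  fin_cases i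
  exacts [isSim_J2 _, h5 ▸ isSim_J2 _]

/-- matrices that are real up to a scalar -/
def RealUp (σ : F →+* F) (g : GL κ F) : Prop := ∃ m : F, g.1.map σ = m • g.1

theorem real_act {g : GL (Fin 3) F} (hg : g ∈ suG σ 1) (h : RealUp σ g) (v : Fin 3 → F) :
    gf σ 1 (g.1 *ᵥ v) (g.1 *ᵥ v) = gf σ 1 v v ∧ ((g.1 *ᵥ v) ⬝ᵥ (g.1 *ᵥ v)) ^ 3 = (v ⬝ᵥ v) ^ 3 ∧
      (((g.1 *ᵥ v) ⬝ᵥ (g.1 *ᵥ v)) • σ ∘ (g.1 *ᵥ v) = g.1 *ᵥ v ↔ (v ⬝ᵥ v) • σ ∘ v = v) := by
  obtain ⟨m, hm⟩ := h
  obtain ⟨h1, h2⟩ := mem_suG.mp hg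
  have h3 : m ^ 3 = 1 := by
    have := congrArg det hm
    rw [← RingHom.mapMatrix_apply, ← RingHom.map_det, det_smul, h2] at this
    simpa using this.symm
  have h4 : m * ((g.1 *ᵥ v) ⬝ᵥ (g.1 *ᵥ v)) = v ⬝ᵥ v := by
    rw [IsSim, hm, Matrix.mul_one, one_smul] at h1
    rw [← smul_eq_mul, ← dotProduct_smul, ← smul_mulVec, dotProduct_mulVec, vecMul_mulVec, h1, vecMul_one]
  refine ⟨isSim_one_iff.mp h1 v v, by rw [← h4, mul_pow, h3, one_mul], ?_⟩
  rw [comp_mulVec, hm, smul_mulVec, smul_smul, mul_comm, h4, ← Matrix.mulVec_smul]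
  exact (mulVec_injective_of_isUnit g.isUnit).eq_iff

section
variable [Fintype F] (hF : Fintype.card F = q ^ 2) (hσ : ∀ a, σ a = a ^ q) {E : Type*} [Field E]
  [Fintype E] {τ : E →+* E} (hE : Fintype.card E = q ^ 2) (hτ : ∀ a, τ a = a ^ q)
  {G : Matrix ι ι F} (hG : Herm σ 1 G)
include hF hσ hG hE hτ

theorem pair_false {m : ℕ} (h : NonMax (suG τ (pairG m E)) (Pattern Prod.snd))
    {D : Fin 2 → Submodule F (ι → F)} (hD : IsMDecomposition m D)
    (hts : ∀ i, IsTotallySingularFor (gf σ G) (D i))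
    (hH : IsMaximalIn (suG σ G) (decompositionStabilizer D ⊓ suG σ G)) : False := by
  obtain ⟨φ, hφ⟩ := exists_phi hF hσ hE hτ
  obtain ⟨e, P, h1, h2, h3⟩ := pair_coord hG hD hts
  exact h.elim (trGL φ e P) (trGL_mem_suG hφ (by rw [h1]; ext; simp [pairG, apply_ite φ])) hH
    fun g hg => pattern_of_decomp Prod.snd h2 h3 φ hg.1

theorem real_false (hq : Odd q) (hn : Odd (Fintype.card ι)) (h : NonMax (suG τ (1 : Matrix ι ι E)) (RealUp τ))
    {F₀ : Subfield F} {P : GL ι F} (hc : Fintype.card F = Nat.card F₀ ^ 2)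
    (hP : IsFormRationalStructure (gf σ G) F₀ 1 P)
    (hH : IsMaximalIn (suG σ G) (subfieldSubgroup F₀ P ⊓ suG σ G)) : False := by
  obtain ⟨φ, hφ⟩ := exists_phi hF hσ hE hτ
  have h0 : ∀ a : F₀, σ a = a := fun a => by
    have := Fintype.ofFinite F₀
    rw [hσ, Nat.pow_left_injective two_ne_zero (hF.symm.trans hc), Nat.card_eq_fintype_card]
    exact congrArg Subtype.val (FiniteField.pow_card a)
  have h1 : ∀ a b, gpull σ G P a b ∈ F₀ := fun a b => by
    have := hP (Pi.single a 1) (Pi.single b 1) (fun i => by rw [Pi.single_apply]; split_ifs <;> simp)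
      fun i => by rw [Pi.single_apply]; split_ifs <;> simp
    rwa [one_mul, ← gf_gpull, gf_single] at this
  let G₁ : Matrix ι ι F₀ := of fun a b => ⟨_, h1 a b⟩
  have h2 : G₁.map F₀.subtype = gpull σ G P := rfl
  have h3 : Herm (RingHom.id F₀) 1 G₁ := by
    refine ⟨fun _ => rfl, fun h => (hG.gpull P).det_ne ?_, ?_, .inl rfl⟩
    · rw [← h2, ← RingHom.mapMatrix_apply, ← RingHom.map_det, h, map_zero]
    · ext a b
      have := congrFun (congrFun (hG.gpull P).herm a) b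
      rw [one_smul] at this ⊢
      exact (h0 (G₁ b a)).symm.trans this
  obtain ⟨c, a, hc0, h4⟩ := exists_congr_odd (F := F₀) (fun h => two_ne_zero_of_odd
    ((odd_card_iff hF hσ).mpr hq) (congrArg Subtype.val h)) h3 (herm_one fun _ => rfl) hn
  obtain ⟨d, hd⟩ := exists_mul_sig hF hσ (h0 c)
  have hd0 : d ≠ 0 := by rintro rfl; exact hc0 (Subtype.ext (by rw [← hd, zero_mul]; rfl))
  let a' : GL ι F := GeneralLinearGroup.map F₀.subtype a
  have h5 : ∀ b : GL ι F₀, ((GeneralLinearGroup.map F₀.subtype b : GL ι F) : Matrix ι ι F).map σ =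
      GeneralLinearGroup.map F₀.subtype b := fun b => by ext i j; exact h0 _
  have h6 : gpull σ G (P * a' * scGL ι d hd0) = 1 := by
    have h7 : gpull σ G (P * a') = (gpull (RingHom.id F₀) G₁ a).map F₀.subtype := by
      rw [gpull, gpull, Units.val_mul, transpose_mul, Matrix.map_mul, h5, Matrix.map_mul, Matrix.map_mul, h2,
        gpull]
      simp only [Matrix.mul_assoc]
      rfl
    rw [gpull_mul_scGL, hd, h7, ← Matrix.map_one F₀.subtype (map_zero _) (map_one _), h4]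
    rfl
  refine h.elim (trGL φ (Equiv.refl _) (P * a' * scGL ι d hd0))
    (trGL_mem_suG hφ (h6.trans (by simp))) hH fun g hg => ?_
  obtain ⟨b, hb0, hb⟩ := (mem_subfieldSubgroup_iff _ _ _).mp hg.1
  have h7 : conjAlgHom P⁻¹ (trGL φ (Equiv.refl _) (P * a' * scGL ι d hd0) g).1 =
      conjAlgHom a' (g.1.map φ) := by
    rw [← conjAlgHom_scalar (scGL_mem d hd0) (g.1.map φ), ← conjAlgHom_mul, ← inv_mul_cancel_left P (a' * _),
      conjAlgHom_mul, ← mul_assoc]
    rfl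
  have h8 : (conjAlgHom a' (g.1.map φ)).map σ = (b / σ b) • conjAlgHom a' (g.1.map φ) := by
    ext i j
    have h8 := h0 ⟨_, h7 ▸ hb i j⟩
    have h9 := (map_ne_zero σ).mpr hb0
    simp only [map_mul, map_apply, Matrix.smul_apply, smul_eq_mul] at h8 ⊢
    field_simp
    linear_combination h8
  rw [← map_smul, conjAlgHom_apply, Matrix.map_mul, Matrix.map_mul, h5, ← map_inv, h5, map_inv,
    ← conjAlgHom_apply] at h8
  refine ⟨φ.symm (b / σ b), ?_⟩
  ext i j
  apply φ.injective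
  simpa [hφ] using congrFun (congrFun (conjAlgHom_injective _ h8) i) j

end

theorem mem_suG_of_pow {G : Matrix κ κ F} (hG : Herm σ 1 G) {g : GL κ F} (k : ℕ) (h : IsSim σ G 1 g.1)
    (hk : g.1 ^ k = 1) (hc : ∀ c : F, c * σ c = 1 → c ^ k = 1 → c = 1) : g ∈ suG σ G :=
  mem_suG.mpr ⟨h, det_eq_one_of_pow hG h hk hc⟩

theorem not_pattern {t : ℕ} {β : κ → Fin t} {g : GL κ F} (a a' b : κ) (h : β a ≠ β a')
    (h1 : g.1 a b ≠ 0) (h2 : g.1 a' b ≠ 0) : ¬ Pattern β g := fun ⟨_, hs⟩ =>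
  h ((by_contra fun h => h1 (hs a b h) : β a = _).trans (by_contra fun h => h2 (hs a' b h) : β a' = _).symm)

theorem herm_pairG (hσ : ∀ a, σ (σ a) = a) {m : ℕ} : Herm σ 1 (pairG m F) := by
  refine ⟨hσ, det_ne_zero_of_right_inverse (B := pairG m F) ?_, ?_, .inl rfl⟩
  · ext ⟨a, i⟩ ⟨c, j⟩
    fin_cases i <;> fin_cases j <;> simp [pairG, mul_apply, Fintype.sum_prod_type, one_apply, ite_and]
  · ext ⟨a, i⟩ ⟨c, j⟩
    simp [pairG, apply_ite σ, eq_comm]

namespace Cod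

variable {E : Type} [Field E] [Finite E] {τ : E →+* E} (C : Cod E τ)

/-- a test invariant under monomial isometries of determinant one -/
noncomputable def frameP (b : ℕ) (Ψ : ℕ → ℕ → Bool) (l : List ℕ) : Bool :=
  Ψ (foldL (fun a r => Nat.add (Nat.pow b (C.mu a (C.fc a))) r) 0 l)
    (C.mu (foldL C.mu 1 l) (foldL C.mu 1 l))

theorem frame_model {n : ℕ} (b : ℕ) (Ψ : ℕ → ℕ → Bool) : ∀ g ∈ suG τ 1, Pattern id g →
    g ∈ Cfsg.stabilizing (Cfsg.glToMat (Fin n) E) (C.set n (C.frameP b Ψ)) := by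
  intro g hg h
  refine mem_stabilizing_of_mapsTo fun v hv => ?_
  obtain ⟨s, h1, h2⟩ := frame_act hg h v
  have key : ∀ v : Fin n → E, C.frameP b Ψ (C.cv v) =
      Ψ (∑ i, Nat.pow b (C.c (v i * τ (v i)))) (C.c ((∏ i, v i) * ∏ i, v i)) := fun v => by
    rw [frameP, C.sum_cv fun a => Nat.pow b (C.mu a (C.fc a)), prod_cv, ← C.mul]
    simp only [C.mul, C.fr]
  change C.frameP b Ψ _ = true at hv ⊢
  rw [key] at hv ⊢
  rw [h2, ← Equiv.sum_comp s]
  simpa only [h1] using hv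

/-- a test invariant under isometries that are real up to a scalar -/
noncomputable def realP (Ψ : ℕ → ℕ → Bool) (l : List ℕ) : Bool :=
  andB (Nat.beq (C.dot l (mapL C.fc l)) 1) (Ψ (C.mu (C.mu (C.dot l l) (C.dot l l)) (C.dot l l))
    (Bool.rec 0 1 (eqL (mapL (fun a => C.mu (C.dot l l) (C.fc a)) l) l)))

theorem real_model (Ψ : ℕ → ℕ → Bool) : ∀ g ∈ suG τ 1, RealUp τ g →
    g ∈ Cfsg.stabilizing (Cfsg.glToMat (Fin 3) E) (C.set 3 (C.realP Ψ)) := by
  classical
  intro g hg h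
  refine mem_stabilizing_of_mapsTo fun v hv => ?_
  obtain ⟨h1, h2, h3⟩ := real_act hg h v
  have key : ∀ v : Fin 3 → E, C.realP Ψ (C.cv v) = andB (Nat.beq (C.c (gf τ 1 v v)) 1)
      (Ψ (C.c ((v ⬝ᵥ v) ^ 3)) (Bool.rec 0 1 (decide ((v ⬝ᵥ v) • τ ∘ v = v)))) := fun v => by
    rw [realP, C.map_cv τ _ C.fr, dot_cv, dot_cv, ← C.mul, ← C.mul, ← pow_three', gf, one_mulVec,
      C.map_cv (fun a => (v ⬝ᵥ v) * τ a) _ fun a => by rw [C.mul, C.fr]]
    congr 3
    rw [Bool.eq_iff_iff, eqL_iff, decide_eq_true_iff]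
    exact ⟨fun h => C.cv_inj h, fun h => congrArg C.cv h⟩
  change C.realP Ψ _ = true at hv ⊢
  rw [key] at hv ⊢
  rw [h1, h2, decide_eq_decide.mpr h3]
  exact hv

end Cod

/-- the frame stabiliser in `SU₄(3)` lies in `4.U₄(2)` -/
theorem nonMax_frame43 : NonMax (suG E9.fr (1 : Matrix (Fin 4) (Fin 4) E9)) (Pattern id) :=
  ⟨_, glOfPow (E9.cod.dm 4 [[2, 2, 2, 1], [2, 2, 1, 2], [2, 1, 2, 2], [2, 1, 1, 1]]) 2 (by decide +kernel),
    glOfPow (E9.cod.dm 4 [[1, 0, 0, 0], [0, 1, 0, 0], [0, 0, 4, 4], [0, 0, 5, 7]]) 2 (by decide +kernel),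
    E9.cod.frame_model 5 (fun s p => orB (andB (Nat.beq s 8) (Nat.beq p 0)) (orB (andB (Nat.beq s 12) (Nat.beq p 0)) (orB (andB (Nat.beq s 20) (Nat.beq p 1)) (orB (andB (Nat.beq s 28) (Nat.beq p 0)) (orB (andB (Nat.beq s 52) (Nat.beq p 0)) (andB (Nat.beq s 100) (Nat.beq p 1))))))),
    mem_suG_of_pow (herm_one (by decide +kernel)) 3 (by unfold IsSim; decide +kernel)
      (by decide +kernel) (by decide +kernel),
    E9.cod.mem_of_pres (L := [[[2, 2, 2, 1], [2, 2, 1, 2], [2, 1, 2, 2], [2, 1, 1, 1]]]) (by decide +kernel) (by decide +kernel),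
    not_pattern 1 2 0 (by decide) (by decide +kernel) (by decide +kernel),
    mem_suG_of_pow (herm_one (by decide +kernel)) 3 (by unfold IsSim; decide +kernel)
      (by decide +kernel) (by decide +kernel),
    E9.cod.not_mem_of (E9.cod.dv 4 [0, 5, 7, 0]) (by decide +kernel) (by decide +kernel)⟩

/-- the frame stabiliser in `SU₆(2)` lies in `3.U₄(3).2` -/
theorem nonMax_frame62 : NonMax (suG E4.fr (1 : Matrix (Fin 6) (Fin 6) E4)) (Pattern id) :=
  ⟨_, glOfPow (E4.cod.dm 6 [[0, 1, 1, 1, 1, 1], [1, 0, 1, 1, 1, 1], [1, 1, 0, 1, 1, 1], [1, 1, 1, 0, 1, 1], [1, 1, 1, 1, 0, 1], [1, 1, 1, 1, 1, 0]]) 1 (by decide +kernel),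
    glOfPow (E4.cod.dm 6 [[1, 0, 0, 0, 0, 0], [0, 1, 0, 0, 0, 0], [0, 0, 0, 1, 1, 1], [0, 0, 1, 0, 1, 1], [0, 0, 1, 1, 0, 1], [0, 0, 1, 1, 1, 0]]) 1 (by decide +kernel),
    E4.cod.frame_model 7 (fun s p => orB (andB (Nat.beq s 18) (Nat.beq p 0)) (andB (Nat.beq s 42) (Nat.beq p 1))),
    mem_suG_of_pow (herm_one (by decide +kernel)) 2 (by unfold IsSim; decide +kernel)
      (by decide +kernel) (by decide +kernel),
    E4.cod.mem_of_pres (L := [[[0, 1, 1, 1, 1, 1], [1, 0, 1, 1, 1, 1], [1, 1, 0, 1, 1, 1], [1, 1, 1, 0, 1, 1], [1, 1, 1, 1, 0, 1], [1, 1, 1, 1, 1, 0]]]) (by decide +kernel) (by decide +kernel),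
    not_pattern 1 2 0 (by decide) (by decide +kernel) (by decide +kernel),
    mem_suG_of_pow (herm_one (by decide +kernel)) 2 (by unfold IsSim; decide +kernel)
      (by decide +kernel) (by decide +kernel),
    E4.cod.not_mem_of (E4.cod.dv 6 [2, 1, 1, 3, 2, 3]) (by decide +kernel) (by decide +kernel)⟩

/-- the frame stabiliser in `SU₃(5)` lies in `3.A₇` -/
theorem nonMax_frame35 : NonMax (suG E25.fr (1 : Matrix (Fin 3) (Fin 3) E25)) (Pattern id) :=
  ⟨_, glOfPow (E25.cod.dm 3 [[3, 4, 4], [4, 3, 4], [4, 4, 3]]) 1 (by decide +kernel),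
    glOfPow (E25.cod.dm 3 [[1, 0, 0], [0, 6, 10], [0, 10, 21]]) 4 (by decide +kernel),
    E25.cod.frame_model 4 (fun s p => orB (andB (Nat.beq s 6) (Nat.beq p 0)) (orB (andB (Nat.beq s 48) (Nat.beq p 2)) (orB (andB (Nat.beq s 129) (Nat.beq p 0)) (orB (andB (Nat.beq s 264) (Nat.beq p 4)) (andB (Nat.beq s 576) (Nat.beq p 2)))))),
    mem_suG.mpr ⟨by unfold IsSim; decide +kernel, by rw [det_fin_three]; decide +kernel⟩,
    E25.cod.mem_of_pres (L := [[[3, 4, 4], [4, 3, 4], [4, 4, 3]]]) (by decide +kernel) (by decide +kernel),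
    not_pattern 1 2 0 (by decide) (by decide +kernel) (by decide +kernel),
    mem_suG.mpr ⟨by unfold IsSim; decide +kernel, by rw [det_fin_three]; decide +kernel⟩,
    E25.cod.not_mem_of (E25.cod.dv 3 [9, 12, 1]) (by decide +kernel) (by decide +kernel)⟩

/-- `SO₃(3)` lies in the frame stabiliser -/
theorem nonMax_real33 : NonMax (suG E9.fr (1 : Matrix (Fin 3) (Fin 3) E9)) (RealUp E9.fr) :=
  ⟨_, glOfPow (E9.cod.dm 3 [[3, 0, 0], [0, 6, 0], [0, 0, 1]]) 3 (by decide +kernel),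
    glOfPow (E9.cod.dm 3 [[1, 0, 0], [0, 4, 4], [0, 5, 7]]) 2 (by decide +kernel),
    E9.cod.real_model (fun s p => orB (andB (Nat.beq s 1) (Nat.beq p 1)) (andB (Nat.beq s 2) (Nat.beq p 1))),
    mem_suG.mpr ⟨by unfold IsSim; decide +kernel, by rw [det_fin_three]; decide +kernel⟩,
    E9.cod.mem_of_pres (L := [[[3, 0, 0], [0, 6, 0], [0, 0, 1]]]) (by decide +kernel) (by decide +kernel),
    by unfold RealUp; decide +kernel,
    mem_suG.mpr ⟨by unfold IsSim; decide +kernel, by rw [det_fin_three]; decide +kernel⟩,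
    E9.cod.not_mem_of (E9.cod.dv 3 [0, 1, 0]) (by decide +kernel) (by decide +kernel)⟩

/-- `3 × SO₃(5)` lies in `3.A₇` -/
theorem nonMax_real35 : NonMax (suG E25.fr (1 : Matrix (Fin 3) (Fin 3) E25)) (RealUp E25.fr) :=
  ⟨_, glOfPow (E25.cod.dm 3 [[12, 0, 0], [0, 17, 0], [0, 0, 1]]) 2 (by decide +kernel),
    glOfPow (E25.cod.dm 3 [[1, 0, 0], [0, 6, 10], [0, 10, 21]]) 4 (by decide +kernel),
    E25.cod.real_model (fun s p => orB (andB (Nat.beq s 0) (Nat.beq p 0)) (orB (andB (Nat.beq s 1) (Nat.beq p 1)) (orB (andB (Nat.beq s 2) (Nat.beq p 0)) (andB (Nat.beq s 4) (Nat.beq p 1))))),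
    mem_suG.mpr ⟨by unfold IsSim; decide +kernel, by rw [det_fin_three]; decide +kernel⟩,
    E25.cod.mem_of_pres (L := [[[12, 0, 0], [0, 17, 0], [0, 0, 1]]]) (by decide +kernel) (by decide +kernel),
    by unfold RealUp; decide +kernel,
    mem_suG.mpr ⟨by unfold IsSim; decide +kernel, by rw [det_fin_three]; decide +kernel⟩,
    E25.cod.not_mem_of (E25.cod.dv 3 [9, 12, 1]) (by decide +kernel) (by decide +kernel)⟩

/-- pairs of isotropic planes in `SU₄(2)` -/
theorem nonMax_pair2 : NonMax (suG E4.fr (pairG 2 E4)) (Pattern Prod.snd) :=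
  ⟨_, glOfPow ((E4.cod.dm 4 [[1, 1, 1, 0], [0, 1, 0, 0], [0, 0, 1, 0], [0, 1, 1, 1]]).submatrix finProdFinEquiv finProdFinEquiv) 1
      (by decide +kernel),
    glOfPow ((E4.cod.dm 4 [[1, 1, 0, 0], [0, 1, 0, 0], [0, 0, 1, 0], [0, 0, 0, 1]]).submatrix finProdFinEquiv finProdFinEquiv) 1
      (by decide +kernel),
    pair_model (by decide +kernel),
    mem_suG_of_pow (herm_pairG (by decide +kernel)) 2
      (by unfold IsSim; decide +kernel) (by decide +kernel) (by decide +kernel),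
    (mem_similarityGroup ((herm_J2 (F := E4)).blockDiagonal 2).det_ne).mpr ⟨1, by unfold IsSim; decide +kernel⟩,
    not_pattern (0, 0) (0, 1) (0, 1) (by decide) (by decide +kernel) (by decide +kernel),
    mem_suG_of_pow (herm_pairG (by decide +kernel)) 2
      (by unfold IsSim; decide +kernel) (by decide +kernel) (by decide +kernel),
    fun h => absurd ((mem_similarityGroup ((herm_J2 (F := E4)).blockDiagonal 2).det_ne).mp h)
      (by unfold IsSim; decide +kernel)⟩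

/-- pairs of isotropic planes in `SU₄(3)` -/
theorem nonMax_pair3 : NonMax (suG E9.fr (pairG 2 E9)) (Pattern Prod.snd) :=
  ⟨_, glOfPow ((E9.cod.dm 4 [[1, 3, 4, 0], [0, 1, 0, 0], [0, 0, 1, 0], [0, 5, 6, 1]]).submatrix finProdFinEquiv finProdFinEquiv) 2
      (by decide +kernel),
    glOfPow ((E9.cod.dm 4 [[1, 3, 0, 0], [0, 1, 0, 0], [0, 0, 1, 0], [0, 0, 0, 1]]).submatrix finProdFinEquiv finProdFinEquiv) 2
      (by decide +kernel),
    pair_model (by decide +kernel),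
    mem_suG_of_pow (herm_pairG (by decide +kernel)) 3
      (by unfold IsSim; decide +kernel) (by decide +kernel) (by decide +kernel),
    (mem_similarityGroup ((herm_J2 (F := E9)).blockDiagonal 2).det_ne).mpr ⟨1, by unfold IsSim; decide +kernel⟩,
    not_pattern (0, 0) (0, 1) (0, 1) (by decide) (by decide +kernel) (by decide +kernel),
    mem_suG_of_pow (herm_pairG (by decide +kernel)) 3
      (by unfold IsSim; decide +kernel) (by decide +kernel) (by decide +kernel),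
    fun h => absurd ((mem_similarityGroup ((herm_J2 (F := E9)).blockDiagonal 2).det_ne).mp h)
      (by unfold IsSim; decide +kernel)⟩

section
variable [Fintype F] (hF : Fintype.card F = q ^ 2) (hσ : ∀ a, σ a = a ^ q)
include hF hσ

theorem ne_three_of_frame {G : Matrix (Fin 4) (Fin 4) F} (hG : Herm σ 1 G)
    {D : Fin 4 → Submodule F (Fin 4 → F)} (hD : IsNondegenerateMDecomposition (gf σ G) 1 D)
    (hH : IsMaximalIn (suG σ G) (decompositionStabilizer D ⊓ suG σ G)) : q ≠ 3 := by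
  rintro rfl
  exact frame_false hF hσ hG (Fintype.card_fin _) E9.card_eq E9.fr_eq nonMax_frame43 hD hH

theorem three_le_of_frame {G : Matrix (Fin 6) (Fin 6) F} (hG : Herm σ 1 G)
    {D : Fin 6 → Submodule F (Fin 6 → F)} (hD : IsNondegenerateMDecomposition (gf σ G) 1 D)
    (hH : IsMaximalIn (suG σ G) (decompositionStabilizer D ⊓ suG σ G)) : 3 ≤ q := by
  refine (two_le_q hF hσ).lt_of_ne fun h => ?_
  subst h
  exact frame_false hF hσ hG (Fintype.card_fin _) E4.card_eq E4.fr_eq nonMax_frame62 hD hH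

theorem ne_five_of_frame {G : Matrix (Fin 3) (Fin 3) F} (hG : Herm σ 1 G)
    {D : Fin 3 → Submodule F (Fin 3 → F)} (hD : IsNondegenerateMDecomposition (gf σ G) 1 D)
    (hH : IsMaximalIn (suG σ G) (decompositionStabilizer D ⊓ suG σ G)) : q ≠ 5 := by
  rintro rfl
  exact frame_false hF hσ hG (Fintype.card_fin _) E25.card_eq E25.fr_eq nonMax_frame35 hD hH

theorem four_le_of_pair {G : Matrix ι ι F} (hG : Herm σ 1 G) {D : Fin 2 → Submodule F (ι → F)}
    (hD : IsMDecomposition 2 D) (hts : ∀ i, IsTotallySingularFor (gf σ G) (D i))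
    (hH : IsMaximalIn (suG σ G) (decompositionStabilizer D ⊓ suG σ G)) : 4 ≤ q := by
  have := two_le_q hF hσ
  by_contra h
  obtain rfl | rfl : q = 2 ∨ q = 3 := by omega
  · exact pair_false hF hσ E4.card_eq E4.fr_eq hG nonMax_pair2 hD hts hH
  · exact pair_false hF hσ E9.card_eq E9.fr_eq hG nonMax_pair3 hD hts hH

theorem seven_le_of_real {G : Matrix (Fin 3) (Fin 3) F} (hG : Herm σ 1 G) (hq : Odd q)
    {F₀ : Subfield F} {P : GL (Fin 3) F} (hc : Fintype.card F = Nat.card F₀ ^ 2)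
    (hP : IsFormRationalStructure (gf σ G) F₀ 1 P)
    (hH : IsMaximalIn (suG σ G) (subfieldSubgroup F₀ P ⊓ suG σ G)) : 7 ≤ q := by
  have := two_le_q hF hσ
  have := Nat.odd_iff.mp hq
  by_contra h
  obtain rfl | rfl : q = 3 ∨ q = 5 := by omega
  · exact real_false hF hσ E9.card_eq E9.fr_eq hG hq (by decide) nonMax_real33 hc hP hH
  · exact real_false hF hσ E25.card_eq E25.fr_eq hG hq (by decide) nonMax_real35 hc hP hH

end

end CL.Asch
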