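import Mathlib

/-!
Pauli systems: subgroups of units of an algebra whose elements square to `± 1` and whose
commutant consists of scalars. Separation lemmas and block elements.
-/

set_option autoImplicit false
set_option maxHeartbeats 200000
set_option linter.unusedSectionVars false

namespace CL.C6

open Subgroup

variable {F A : Type*} [Field F] [Ring A] [Algebra F A]

/-- Central units. -/
abbrev Zc (g : Aˣ) : Prop := g ∈ center Aˣ

theorem Zc.comm {z : Aˣ} (h : Zc z) (g : Aˣ) : Commute z g := (mem_center_iff.1 h g).symm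

theorem zc_neg_one : Zc (-1 : Aˣ) := mem_center_iff.2 fun g => by simp

theorem Zc.neg {z : Aˣ} (h : Zc z) : Zc (-z) := by simpa using mul_mem zc_neg_one h

theorem zc_neg_iff {z : Aˣ} : Zc (-z) ↔ Zc z := ⟨fun h => by simpa using h.neg, Zc.neg⟩

theorem Zc.conj {z : Aˣ} (h : Zc z) (g : Aˣ) : g * z * g⁻¹ = z := by
  rw [← (h.comm g).eq, mul_inv_cancel_right]

theorem zc_conj_iff {z g : Aˣ} : Zc (g * z * g⁻¹) ↔ Zc z :=
  ⟨fun h => by simpa [mul_assoc] using (center Aˣ).normal_of_characteristic.conj_mem _ h g⁻¹,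
    fun h => by rwa [h.conj]⟩

/-- `g` fixes `r` up to sign. -/
def Fx (g r : Aˣ) : Prop := g * r * g⁻¹ = r ∨ g * r * g⁻¹ = -r

theorem conj_of_comm {g r : Aˣ} (h : Commute g r) : g * r * g⁻¹ = r := by
  rw [h.eq, mul_inv_cancel_right]

theorem conj_of_anti {g r : Aˣ} (h : g * r = -(r * g)) : g * r * g⁻¹ = -r := by
  rw [h, neg_mul, mul_inv_cancel_right]

theorem comm_of_conj {g r : Aˣ} (h : g * r * g⁻¹ = r) : Commute g r :=
  mul_inv_eq_iff_eq_mul.1 h

theorem anti_of_conj {g r : Aˣ} (h : g * r * g⁻¹ = -r) : g * r = -(r * g) := by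
  rw [mul_inv_eq_iff_eq_mul.1 h, neg_mul]

theorem fx_iff {g r : Aˣ} : Fx g r ↔ Commute g r ∨ g * r = -(r * g) :=
  ⟨Or.imp comm_of_conj anti_of_conj, Or.imp conj_of_comm conj_of_anti⟩

theorem anti_symm {a b : Aˣ} (h : a * b = -(b * a)) : b * a = -(a * b) := by rw [h, neg_neg]

theorem inv_of_sq_one {a : Aˣ} (h : a * a = 1) : a⁻¹ = a := inv_eq_of_mul_eq_one_right h

theorem inv_of_sq_neg {a : Aˣ} (h : a * a = -1) : a⁻¹ = -a :=
  inv_eq_of_mul_eq_one_right (by rw [mul_neg, h, neg_neg])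

theorem sq_mul_of_comm {a b : Aˣ} (h : Commute a b) : a * b * (a * b) = a * a * (b * b) := by
  rw [mul_assoc, ← mul_assoc b, ← h.eq]; simp only [mul_assoc]

theorem sq_mul_of_anti {a b : Aˣ} (h : a * b = -(b * a)) :
    a * b * (a * b) = -(a * a * (b * b)) := by
  rw [mul_assoc, ← mul_assoc b, anti_symm h]; simp [mul_assoc]

theorem anti_mul_left {a b c : Aˣ} (h : a * c = -(c * a)) (h' : Commute b c) :
    a * b * c = -(c * (a * b)) := by
  rw [mul_assoc, h'.eq, ← mul_assoc, h, neg_mul, mul_assoc]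

theorem anti_mul_right {a b c : Aˣ} (h : Commute a c) (h' : b * c = -(c * b)) :
    a * b * c = -(c * (a * b)) := by
  rw [mul_assoc, h', mul_neg, ← mul_assoc, h.eq, mul_assoc]

theorem comm_mul_anti {a b c : Aˣ} (h : a * c = -(c * a)) (h' : b * c = -(c * b)) :
    Commute (a * b) c := by
  rw [Commute, SemiconjBy, mul_assoc, h', mul_neg, ← mul_assoc, h, neg_mul, neg_neg, mul_assoc]

theorem anti_inv {a c : Aˣ} (h : a * c = -(c * a)) : a⁻¹ * c = -(c * a⁻¹) := by
  rw [← mul_left_cancel_iff (a := a), mul_inv_cancel_left, mul_neg, ← mul_assoc, h]; simp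

theorem anti_neg {a c : Aˣ} (h : a * c = -(c * a)) : -a * c = -(c * -a) := by simp [h]

theorem conj_mul' (g a b : Aˣ) : g * (a * b) * g⁻¹ = g * a * g⁻¹ * (g * b * g⁻¹) := by group

theorem conj_neg' (g a : Aˣ) : g * -a * g⁻¹ = -(g * a * g⁻¹) := by simp

theorem conj_comm_iff {g a b : Aˣ} : Commute (g * a * g⁻¹) (g * b * g⁻¹) ↔ Commute a b :=
  Commute.conj_iff g

theorem conj_sq {g a : Aˣ} {c : Aˣ} (hc : Zc c) (h : a * a = c) :
    g * a * g⁻¹ * (g * a * g⁻¹) = c := by rw [← conj_mul', h, hc.conj]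

theorem Fx.mul_left {g g' r : Aˣ} (h : Fx g r) (h' : Fx g' r) : Fx (g * g') r := by
  have e : g * g' * r * (g * g')⁻¹ = g * (g' * r * g'⁻¹) * g⁻¹ := by group
  rw [Fx, e]
  rcases h with h | h <;> rcases h' with h' | h' <;> simp [h', h]

theorem Fx.mul_right {g r r' : Aˣ} (h : Fx g r) (h' : Fx g r') : Fx g (r * r') := by
  rw [Fx, conj_mul']
  rcases h with h | h <;> rcases h' with h' | h' <;> simp [h', h]

theorem Fx.inv_left {g r : Aˣ} (h : Fx g r) : Fx g⁻¹ r :=
  fx_iff.2 ((fx_iff.1 h).imp Commute.inv_left anti_inv)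

theorem Fx.symm {g r : Aˣ} (h : Fx g r) : Fx r g :=
  fx_iff.2 ((fx_iff.1 h).imp Commute.symm anti_symm)

theorem Fx.inv_right {g r : Aˣ} (h : Fx g r) : Fx g r⁻¹ := h.symm.inv_left.symm

theorem Fx.neg {g r : Aˣ} (h : Fx g r) : Fx g (-r) := by
  rw [Fx, conj_neg']; rcases h with h | h <;> simp [h]

theorem Fx.of_comm {g r : Aˣ} (h : Commute g r) : Fx g r := fx_iff.2 (.inl h)

variable (F) in
/-- A Pauli system. -/
structure PS (R : Subgroup Aˣ) : Prop where
  two : (2 : F) ≠ 0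
  nt : (1 : Aˣ) ≠ -1
  neg : -1 ∈ R
  sq : ∀ r ∈ R, r * r = 1 ∨ r * r = -1
  cent : ∀ a : A, (∀ r ∈ R, a * r = r * a) → ∃ c : F, a = algebraMap F A c

/-- Non-central elements of square one. -/
structure Sing (R : Subgroup Aˣ) (x : Aˣ) : Prop where
  mem : x ∈ R
  sq : x * x = 1
  nc : ¬ Zc x

/-- Elements of square minus one. -/
structure Ns (R : Subgroup Aˣ) (e : Aˣ) : Prop where
  mem : e ∈ R
  sq : e * e = -1

namespace PS

variable {R : Subgroup Aˣ} (h : PS F R) {a b c d : Aˣ}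
include h

theorem neg_mem (ha : a ∈ R) : -a ∈ R := by simpa using mul_mem h.neg ha

theorem ne_neg (a : Aˣ) : a ≠ -a := fun e => h.nt (mul_left_cancel (a := a) (by simpa using e))

theorem nontrivial : Nontrivial A := by
  by_contra H
  exact h.nt (Units.ext ((not_nontrivial_iff_subsingleton.1 H).elim _ _))

theorem not_comm (h1 : a * b = -(b * a)) : ¬ Commute a b := fun h2 =>
  h.ne_neg _ (h2.eq.symm.trans h1)

theorem inv_eq (ha : a ∈ R) : a⁻¹ = a ∨ a⁻¹ = -a := (h.sq a ha).imp inv_of_sq_one inv_of_sq_neg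

theorem pm (ha : a ∈ R) (hb : b ∈ R) : Commute a b ∨ a * b = -(b * a) := by
  have h1 := h.inv_eq (mul_mem ha hb)
  rw [mul_inv_rev] at h1
  rcases h.inv_eq ha with h2 | h2 <;> rcases h.inv_eq hb with h3 | h3 <;> rcases h1 with h1 | h1 <;>
    simp only [h2, h3, mul_neg, neg_mul, neg_neg, neg_inj] at h1
  all_goals first | exact .inl h1.symm | exact .inr h1.symm | exact .inr (anti_symm h1)

theorem anti (ha : a ∈ R) (hb : b ∈ R) (h1 : ¬ Commute a b) : a * b = -(b * a) :=
  (h.pm ha hb).resolve_left h1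

theorem fx (ha : a ∈ R) (hb : b ∈ R) : Fx a b := fx_iff.2 (h.pm ha hb)

theorem fx_comm_mul (h1 : Fx a c) (h2 : Fx b c) :
    Commute (a * b) c ↔ (Commute a c ↔ Commute b c) := by
  rcases fx_iff.1 h1 with h1 | h1 <;> rcases fx_iff.1 h2 with h2 | h2
  · simp [h1, h2]
  · simp [h1, h.not_comm h2, h.not_comm (anti_mul_right h1 h2)]
  · simp [h2, h.not_comm h1, h.not_comm (anti_mul_left h1 h2)]
  · simp [h.not_comm h1, h.not_comm h2, comm_mul_anti h1 h2]

theorem comm_mul (ha : a ∈ R) (hb : b ∈ R) (hc : c ∈ R) :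
    Commute (a * b) c ↔ (Commute a c ↔ Commute b c) := h.fx_comm_mul (h.fx ha hc) (h.fx hb hc)

theorem comm_mul' (ha : a ∈ R) (hb : b ∈ R) (hc : c ∈ R) :
    Commute c (a * b) ↔ (Commute c a ↔ Commute c b) := by
  rw [Commute.symm_iff, h.comm_mul ha hb hc, Commute.symm_iff, Commute.symm_iff (a := b)]

theorem zc_of (h1 : ∀ r ∈ R, Commute a r) : Zc a := by
  obtain ⟨c, hc⟩ := h.cent a fun r hr => congrArg Units.val (h1 r hr).eq
  exact mem_center_iff.2 fun g => Units.ext (by simp [hc, Algebra.commutes])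

theorem sc (hz : Zc a) : ∃ c : F, (a : A) = algebraMap F A c :=
  h.cent a fun r _ => congrArg Units.val (hz.comm r).eq

theorem zc_sq (hz : Zc a) (h1 : a * a = 1) : a = 1 ∨ a = -1 := by
  have := h.nontrivial
  obtain ⟨c, hc⟩ := h.sc hz
  have h2 : c * c = 1 := (algebraMap F A).injective (by
    rw [map_mul, ← hc, map_one, ← Units.val_mul, h1, Units.val_one])
  rcases mul_self_eq_one_iff.1 h2 with rfl | rfl
  exacts [.inl (Units.ext (by simpa using hc)), .inr (Units.ext (by simpa using hc))]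

theorem eq_of_zc (hz : Zc (a * b⁻¹)) (h1 : a * a = b * b) : a = b ∨ a = -b := by
  have h2 : a = a * b⁻¹ * b := by group
  have h3 := h.zc_sq hz (by
    rw [h2, sq_mul_of_comm (hz.comm b)] at h1
    exact mul_right_cancel (h1.trans (one_mul _).symm))
  rcases h3 with h3 | h3 <;> rw [h3] at h2 <;> simp [h2]

theorem not_zc (h1 : a * b = -(b * a)) : ¬ Zc a := fun hz => h.not_comm h1 (hz.comm b)

theorem sep0 (hd : ¬ Zc d) : ∃ w ∈ R, ¬ Commute w d := by
  by_contra! H
  exact hd (h.zc_of fun r hr => (H r hr).symm)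

/-- One step of the separation argument. -/
theorem sep_step {H : Subgroup Aˣ} (ha : ∀ w ∈ H, Fx w a) (hd : ∀ w ∈ H, Fx w d)
    (h1 : ∃ w ∈ H, ¬ Commute w d) (h2 : ∃ w ∈ H, ¬ Commute w (d * a)) :
    ∃ w ∈ H, Commute w a ∧ ¬ Commute w d := by
  obtain ⟨w, hw, h1⟩ := h1
  obtain ⟨v, hv, h2⟩ := h2
  rw [Commute.symm_iff, h.fx_comm_mul (hd v hv).symm (ha v hv).symm, Commute.symm_iff,
    Commute.symm_iff (a := a)] at h2
  have h3 := h.fx_comm_mul (ha w hw) (ha v hv)
  have h4 := h.fx_comm_mul (hd w hw) (hd v hv)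
  by_cases h5 : Commute w a
  · exact ⟨w, hw, h5, h1⟩
  by_cases h6 : Commute v a
  · exact ⟨v, hv, h6, by tauto⟩
  · exact ⟨w * v, mul_mem hw hv, by tauto, by tauto⟩

theorem sep1 (ha : a ∈ R) (hd : d ∈ R) (h1 : ¬ Zc d) (h2 : ¬ Zc (d * a)) :
    ∃ w ∈ R, Commute w a ∧ ¬ Commute w d :=
  h.sep_step (fun _ hw => h.fx hw ha) (fun _ hw => h.fx hw hd) (h.sep0 h1) (h.sep0 h2)

theorem sep2 (ha : a ∈ R) (hb : b ∈ R) (hd : d ∈ R) (h1 : ¬ Zc d) (h2 : ¬ Zc (d * a))
    (h3 : ¬ Zc (d * b)) (h4 : ¬ Zc (d * b * a)) :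
    ∃ w ∈ R, Commute w a ∧ Commute w b ∧ ¬ Commute w d := by
  obtain ⟨w, hw, h5, h6⟩ := h.sep_step (H := R ⊓ centralizer {a}) (a := b) (d := d)
    (fun _ hw => h.fx hw.1 hb) (fun _ hw => h.fx hw.1 hd)
    (let ⟨w, h1, h2, h3⟩ := h.sep1 ha hd h1 h2; ⟨w, ⟨h1, mem_centralizer_singleton_iff.2 h2⟩, h3⟩)
    (let ⟨w, h1, h2, h3⟩ := h.sep1 ha (mul_mem hd hb) h3 h4
     ⟨w, ⟨h1, mem_centralizer_singleton_iff.2 h2⟩, h3⟩)
  exact ⟨w, hw.1, mem_centralizer_singleton_iff.1 hw.2, h5, h6⟩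

/-- Separation. -/
theorem sep (L : List Aˣ) (hL : ∀ a ∈ L, a ∈ R) (hd : d ∈ R)
    (H : ∀ w ∈ R, (∀ a ∈ L, Commute w a) → Commute w d) :
    ∃ s ∈ closure {a | a ∈ L}, Zc (d * s) := by
  induction L generalizing d with
  | nil => exact ⟨1, one_mem _, by simpa using h.zc_of fun r hr => (H r hr (by simp)).symm⟩
  | cons a L ih =>
    have ha := hL a (by simp)
    have hL' : ∀ b ∈ L, b ∈ R := fun b hb => hL b (by simp [hb])
    have hm : closure {b | b ∈ L} ≤ closure {b | b ∈ a :: L} :=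
      closure_mono fun b hb => List.mem_cons_of_mem _ hb
    by_contra! H1
    have key : ∀ d' ∈ R, (∀ s ∈ closure {b | b ∈ L}, ¬ Zc (d' * s)) →
        ∃ w ∈ R ⊓ centralizer {b | b ∈ L}, ¬ Commute w d' := fun d' hd' H2 => by
      by_contra! H3
      obtain ⟨s, hs, h1⟩ := ih hL' hd' fun w hw hw' => H3 w ⟨hw, fun b hb => (hw' b hb).eq.symm⟩
      exact H2 s hs h1
    obtain ⟨w, hw, h1, h2⟩ := h.sep_step (H := R ⊓ centralizer {b | b ∈ L}) (fun _ hw => h.fx hw.1 ha) (fun _ hw => h.fx hw.1 hd)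
      (key d hd fun s hs => H1 s (hm hs)) (key (d * a) (mul_mem hd ha) fun s hs => by
        rw [mul_assoc]; exact H1 _ (mul_mem (subset_closure (by simp)) (hm hs)))
    exact h2 (H w hw.1 fun b hb => by
      rcases List.mem_cons.1 hb with rfl | hb
      exacts [h1, (hw.2 b hb).symm])

theorem two_unit : IsUnit (2 : A) := by
  simpa only [map_ofNat] using (IsUnit.mk0 _ h.two).map (algebraMap F A)

/-- Every sign pattern on a list is realised by an element of `R`. -/
theorem exists_comm (L : List Aˣ) (hL : ∀ a ∈ L, a ∈ R) {g : A}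
    (hg : ∀ a ∈ L, g * a = a * g ∨ g * a = -(a * g)) : ∃ r ∈ R, ∀ a ∈ L, g * r * a = a * (g * r) := by
  induction L with
  | nil => exact ⟨1, one_mem _, by simp⟩
  | cons a L ih =>
    have ha := hL a (by simp)
    have hL' : ∀ b ∈ L, b ∈ R := fun b hb => hL b (by simp [hb])
    obtain ⟨r, hr, h1⟩ := ih hL' fun b hb => hg b (by simp [hb])
    by_cases h2 : g * r * a = a * (g * r)
    · exact ⟨r, hr, by simpa using ⟨h2, h1⟩⟩
    have h3 : g * r * a = -(a * (g * r)) := by
      rcases hg a (by simp) with e | e <;> rcases h.pm hr ha with e' | e' <;>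
        replace e' := congrArg Units.val (show r * a = _ from e') <;>
        simp only [Units.val_mul, Units.val_neg] at e' <;>
        simp only [mul_assoc, e', mul_neg] at h2 ⊢ <;>
        simp only [← mul_assoc, e, neg_mul, neg_neg, not_true_eq_false] at h2 ⊢
    obtain ⟨w, hw, h4, h5⟩ : ∃ w ∈ R, (∀ b ∈ L, Commute w b) ∧ ¬ Commute w a := by
      by_contra! H
      obtain ⟨s, hs, h4⟩ := h.sep L hL' ha H
      have h5 : g * r * s = s * (g * r) := by
        refine closure_induction (p := fun s _ => g * r * (s : Aˣ) = s * (g * r)) h1 (by simp)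
          (fun x y _ _ hx hy => ?_) (fun x _ hx => ?_) hs
        · rw [Units.val_mul, ← mul_assoc, hx, mul_assoc, hy, mul_assoc]
        · exact (Commute.units_inv_right hx).eq
      obtain ⟨c, hc⟩ := h.sc h4
      have h6 : (a : A) = algebraMap F A c * (s⁻¹ : Aˣ) := by rw [← hc]; simp
      exact h2 (by rw [h6]; exact ((Algebra.commute_algebraMap_right c _).mul_right
        (Commute.units_inv_right h5)).eq)
    have h6 := congrArg Units.val (h.anti hw ha h5)
    simp only [Units.val_mul, Units.val_neg] at h6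
    refine ⟨r * w, mul_mem hr hw, fun b hb => ?_⟩
    rw [Units.val_mul, ← mul_assoc, mul_assoc _ (w : A)]
    rcases List.mem_cons.1 hb with rfl | hb
    · rw [h6, mul_neg, ← mul_assoc, h3]; simp [mul_assoc]
    · rw [show (w : A) * b = b * w from congrArg Units.val (h4 b hb).eq, ← mul_assoc, h1 b hb,
        mul_assoc]

theorem exists_list [Finite A] : ∃ L : List Aˣ, ∀ a, a ∈ L ↔ a ∈ R :=
  ⟨(Set.toFinite (R : Set Aˣ)).toFinset.toList, by simp⟩

theorem exists_zc [Finite A] {g : Aˣ} (hg : ∀ r ∈ R, Fx g r) : ∃ r ∈ R, Zc (g * r) := by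
  obtain ⟨L, hL⟩ := h.exists_list
  obtain ⟨r, hr, h1⟩ := h.exists_comm L (fun a => (hL a).1) (g := g) fun a ha =>
    (fx_iff.1 (hg a ((hL a).1 ha))).imp (fun e => congrArg Units.val e.eq)
      fun e => congrArg Units.val e
  exact ⟨r, hr, h.zc_of fun a ha => Units.ext (h1 a ((hL a).2 ha))⟩

theorem span_top [Finite A] : Submodule.span F (Units.val '' (R : Set Aˣ)) = ⊤ := by
  obtain ⟨L, hL⟩ := h.exists_list
  set S := Submodule.span F (Units.val '' (R : Set Aˣ))
  have base : ∀ g : A, (∀ a ∈ L, g * a = a * g ∨ g * a = -(a * g)) → g ∈ S := fun g hg => by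
    obtain ⟨r, hr, h1⟩ := h.exists_comm L (fun a => (hL a).1) hg
    obtain ⟨c, hc⟩ := h.cent _ fun a ha => h1 a ((hL a).2 ha)
    rw [show g = c • ((r⁻¹ : Aˣ) : A) by rw [Algebra.smul_def, ← hc]; simp]
    exact S.smul_mem _ (Submodule.subset_span ⟨_, inv_mem hr, rfl⟩)
  have key : ∀ L' : List Aˣ, (∀ a ∈ L', a ∈ R) → ∀ T : Submodule F A,
      (∀ g : A, (∀ a ∈ L', g * a = a * g ∨ g * a = -(a * g)) → g ∈ T) → T = ⊤ := by
    intro L'
    induction L' with
    | nil => exact fun _ T H => eq_top_iff.2 fun g _ => H g (by simp)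
    | cons a L' ih =>
      refine fun hL' T H => ih (fun b hb => hL' b (by simp [hb])) T fun g hg => ?_
      have ha := hL' a (by simp)
      have e1 : (a : A) * a = 1 ∨ (a : A) * a = -1 := by
        simpa [Units.ext_iff] using h.sq a ha
      have k : ∀ ε : A, ε = 1 ∨ ε = -1 → g + ε * (a * g * a) ∈ T := fun ε hε => H _ fun b hb => by
        rcases List.mem_cons.1 hb with rfl | hb
        · rw [add_mul, mul_add]
          rcases hε with rfl | rfl <;> rcases e1 with e | e <;>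
            simp only [mul_assoc, e, one_mul, neg_mul, mul_neg, mul_one] <;>
            simp only [← mul_assoc, e, one_mul, neg_mul, neg_neg] <;>
            first | (left; abel1) | (right; abel1)
        · have e2 : (a : A) * b = b * a ∨ (a : A) * b = -(b * a) := by
            simpa [Units.ext_iff, Commute, SemiconjBy] using h.pm ha (hL' b (by simp [hb]))
          obtain ⟨s, e3, e4⟩ : ∃ s : A, (a : A) * g * a * b = s * (a * (g * b) * a) ∧
              b * (a * g * a) = s * (a * (b * g) * a) := by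
            rcases e2 with e | e
            · exact ⟨1, by simp [mul_assoc, e], by simp [← mul_assoc, e]⟩
            · exact ⟨-1, by simp [mul_assoc, e], by simp [← mul_assoc, e]⟩
          have e5 : (b : A) * (ε * (a * g * a)) = ε * (b * (a * g * a)) := by
            rcases hε with rfl | rfl <;> simp
          rw [add_mul, mul_add, mul_assoc ε, e5, e3, e4]
          exact (hg b hb).imp (fun e => by rw [e]) fun e => by rw [e]; noncomm_ring
      have := T.smul_mem (2 : F)⁻¹ (T.add_mem (k 1 (.inl rfl)) (k (-1) (.inr rfl)))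
      rwa [show g + 1 * (a * g * a) + (g + -1 * (a * g * a)) = (2 : F) • g by
        rw [two_smul]; noncomm_ring, inv_smul_smul₀ h.two] at this
  exact key L (fun a => (hL a).1) S base

end PS

end CL.C6
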