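import Cfsg.Agent.CLAS.C6A

/-!
Block elements, the units `1 + e` and their products.
-/

set_option autoImplicit false
set_option maxHeartbeats 200000
set_option linter.unusedSectionVars false

namespace CL.C6

open Subgroup

variable {A : Type*} [Ring A]

open Classical in
/-- The unit with value `a`, if there is one. -/
noncomputable def un (a : A) : Aˣ := if h : IsUnit a then h.unit else 1

theorem un_val {a : A} (h : IsUnit a) : (un a : A) = a := by simp [un, h]

theorem un_comm {a : A} {c : Aˣ} (h : (c : A) * a = a * c) : Commute c (un a) := by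
  by_cases h1 : IsUnit a
  · exact Units.ext (by simpa [un_val h1] using h)
  · simp [un, h1]

theorem un_conj (a : A) (g : Aˣ) : g * un a * g⁻¹ = un (g * a * (g⁻¹ : Aˣ)) := by
  by_cases h1 : IsUnit a
  · exact Units.ext (by simp [un_val h1, un_val ((g.isUnit.mul h1).mul g⁻¹.isUnit)])
  · simp [un, h1]

/-- Twice the projection on the fixed space of `x`. -/
def P (x : Aˣ) : A := 1 + x

variable {x y a b c d e f g r a' b' : Aˣ} {p q : A}

theorem val_sq_one (h : x * x = 1) : (x : A) * x = 1 := congrArg Units.val h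

theorem val_sq_neg (h : x * x = -1) : (x : A) * x = -1 := congrArg Units.val h

theorem val_comm (h : Commute a b) : (a : A) * b = b * a := congrArg Units.val h.eq

theorem val_anti (h : a * b = -(b * a)) : (a : A) * b = -(b * a) := congrArg Units.val h

theorem P_mul_self (hx : x * x = 1) : P x * x = P x := by
  rw [P, add_mul, val_sq_one hx, one_mul, add_comm]

theorem P_mul_P (hx : x * x = 1) : P x * P x = 2 * P x := by
  conv_lhs => rw [show P x * P x = P x * (1 + x) from rfl, mul_add, P_mul_self hx, mul_one]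
  rw [two_mul]

theorem P_mul_neg (hx : x * x = 1) : P x * P (-x) = 0 := by
  rw [show P (-x) = 1 + -(x : A) from rfl, mul_add, mul_neg, P_mul_self hx, mul_one, add_neg_cancel]

theorem P_add (x : Aˣ) : P x + P (-x) = 2 := by
  simp only [P, Units.val_neg, ← one_add_one_eq_two]; abel

theorem P_comm (h : Commute x a) : Commute (P x) (a : A) :=
  (Commute.one_left _).add_left (val_comm h)

theorem P_comm_P (h : Commute x y) : Commute (P x) (P y) :=
  (Commute.one_right _).add_right (P_comm h)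

theorem P_anti (h : x * a = -(a * x)) : P x * a = a * P (-x) := by
  simp [P, add_mul, mul_add, val_anti h]

theorem P_conj (g x : Aˣ) : g * P x * (g⁻¹ : Aˣ) = P (g * x * g⁻¹) := by
  simp [P, mul_add, add_mul]

theorem neg_sq' (h : x * x = c) : -x * -x = c := by simpa using h

/-- `a` and `b` agree on the part cut out by `p`. -/
def Eo (p : A) (a b : Aˣ) : Prop := p * a = p * b

namespace Eo

@[refl] theorem refl (p : A) (a : Aˣ) : Eo p a a := rfl

theorem symm (h : Eo p a b) : Eo p b a := Eq.symm h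

theorem trans (h : Eo p a b) (h' : Eo p b c) : Eo p a c := Eq.trans h h'

theorem mul_right (h : Eo p a b) (c : Aˣ) : Eo p (a * c) (b * c) := by
  rw [Eo, Units.val_mul, Units.val_mul, ← mul_assoc, ← mul_assoc, h]

theorem mul_left (h : Eo p a b) (hc : Commute p (c : A)) : Eo p (c * a) (c * b) := by
  rw [Eo, Units.val_mul, Units.val_mul, ← mul_assoc, ← mul_assoc, hc.eq, mul_assoc, mul_assoc, h]

theorem mul (h : Eo p a a') (h' : Eo p b b') (hc : Commute p (a' : A)) : Eo p (a * b) (a' * b') :=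
  (h.mul_right b).trans (h'.mul_left hc)

theorem inv (h : Eo p a b) (hc : Commute p (b : A)) : Eo p a⁻¹ b⁻¹ := by
  simpa using ((h.mul_right a⁻¹).mul_left (c := b⁻¹) hc.units_inv_right).symm

theorem neg (h : Eo p a b) : Eo p (-a) (-b) := by simpa [Eo] using h

theorem left (h : Eo p a b) (q : A) : Eo (q * p) a b := by rw [Eo, mul_assoc, h, mul_assoc]

theorem right (h : Eo p a b) (hq : Commute p q) : Eo (p * q) a b := hq.eq ▸ h.left q

theorem conj (h : Eo p a b) (g : Aˣ) : Eo (g * p * (g⁻¹ : Aˣ)) (g * a * g⁻¹) (g * b * g⁻¹) := by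
  simp only [Eo, Units.val_mul, mul_assoc, Units.inv_mul_cancel_left]
  rw [← mul_assoc p, h, mul_assoc]

theorem conjP (h : Eo (P x) a b) (g : Aˣ) : Eo (P (g * x * g⁻¹)) (g * a * g⁻¹) (g * b * g⁻¹) :=
  P_conj g x ▸ h.conj g

theorem conj' (h : Eo p a b) (hg : Commute p (g : A)) : Eo p (g * a * g⁻¹) (g * b * g⁻¹) :=
  (h.mul_left hg).mul_right _

theorem pow (h : Eo p a b) (hc : Commute p (b : A)) (n : ℕ) : Eo p (a ^ n) (b ^ n) := by
  induction n with
  | zero => simp [refl]
  | succ n ih =>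
    rw [pow_succ, pow_succ]; exact ih.mul h (by simpa using hc.pow_right n)

end Eo

theorem eo_self (hx : x * x = 1) : Eo (P x) x 1 := by simpa [Eo] using P_mul_self hx

theorem eo_neg (hx : x * x = 1) : Eo (P (-x)) x (-1) := by simpa using (eo_self (neg_sq' hx)).neg

variable (A) in
/-- The unit `2`. -/
noncomputable def u2 : Aˣ := un 2

/-- The element acting as `a` on the fixed space of `x` and as `b` on that of `-x`. -/
noncomputable def blk (x a b : Aˣ) : Aˣ := un (((u2 A)⁻¹ : Aˣ) * (P x * a + P (-x) * b))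

/-- The element acting as `a` on the fixed space of `x` and trivially on that of `-x`. -/
noncomputable abbrev ctl (x a : Aˣ) : Aˣ := blk x a 1

/-- The unit `1 + e`. -/
noncomputable def sg (e : Aˣ) : Aˣ := un (P e)

/-- The unit `(1 + e) (1 + f) / 2`. -/
noncomputable def pair (e f : Aˣ) : Aˣ := (u2 A)⁻¹ * sg e * sg f

theorem zc_u2 : Zc (u2 A) := mem_center_iff.2 fun _ => (un_comm (Commute.ofNat_right _ 2).eq).eq

theorem blk_comm (h1 : Commute c x) (h2 : Commute c a) (h3 : Commute c b) :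
    Commute c (blk x a b) :=
  un_comm (Commute.mul_right (val_comm (zc_u2.comm c).symm.inv_right)
    (((P_comm h1.symm).symm.mul_right (val_comm h2)).add_right
      ((P_comm h1.symm.neg_left).symm.mul_right (val_comm h3)))).eq

theorem blk_conj (g x a b : Aˣ) :
    g * blk x a b * g⁻¹ = blk (g * x * g⁻¹) (g * a * g⁻¹) (g * b * g⁻¹) := by
  rw [blk, un_conj, blk, ← conj_neg', ← P_conj, ← P_conj, ← mul_assoc (g : A),
    val_comm (zc_u2.comm g).symm.inv_right]
  simp [mul_add, add_mul, mul_assoc]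

theorem ctl_conj (g x a : Aˣ) : g * ctl x a * g⁻¹ = ctl (g * x * g⁻¹) (g * a * g⁻¹) := by
  simp [blk_conj]

theorem blk_neg (x a b : Aˣ) : blk (-x) a b = blk x b a := by rw [blk, neg_neg, add_comm, blk]

theorem sg_comm (h : Commute c e) : Commute c (sg e) := un_comm (P_comm h.symm).symm.eq

theorem sg_conj (g e : Aˣ) : g * sg e * g⁻¹ = sg (g * e * g⁻¹) := by rw [sg, un_conj, P_conj, sg]

theorem pair_comm (h1 : Commute c e) (h2 : Commute c f) : Commute c (pair e f) :=
  ((zc_u2.comm c).symm.inv_right.mul_right (sg_comm h1)).mul_right (sg_comm h2)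

theorem pair_conj (g e f : Aˣ) : g * pair e f * g⁻¹ = pair (g * e * g⁻¹) (g * f * g⁻¹) := by
  rw [pair, conj_mul', conj_mul', sg_conj, sg_conj, Zc.conj (inv_mem zc_u2), pair]

theorem conj_pair (e f r : Aˣ) :
    pair e f * r * (pair e f)⁻¹ = sg e * (sg f * r * (sg f)⁻¹) * (sg e)⁻¹ := by
  rw [← conj_of_comm (Zc.comm (inv_mem zc_u2) (sg e * (sg f * r * (sg f)⁻¹) * (sg e)⁻¹)), pair]
  group

theorem pair_symm (h : Commute e f) : pair e f = pair f e := by
  rw [pair, pair, mul_assoc, mul_assoc, (sg_comm (sg_comm h.symm).symm).eq]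

variable [h2 : Fact (IsUnit (2 : A))]

theorem u2_val : (u2 A : A) = 2 := un_val h2.out

theorem cancel2 {s t : A} (h : 2 * s = 2 * t) : s = t := h2.out.mul_left_cancel h

theorem ext2 {s t : A} (x : Aˣ) (h : P x * s = P x * t) (h' : P (-x) * s = P (-x) * t) : s = t :=
  cancel2 (by rw [← P_add x, add_mul, add_mul, h, h'])

theorem Eo.ext (h : Eo (P x) a b) (h' : Eo (P (-x)) a b) : a = b := Units.ext (ext2 x h h')

theorem Eo.ext' (h : Eo (P x * p) a b) (h' : Eo (P (-x) * p) a b) : Eo p a b :=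
  ext2 x (by rwa [← mul_assoc, ← mul_assoc]) (by rwa [← mul_assoc, ← mul_assoc])

theorem eq_zero_of_eo (h : Eo p a (-a)) : p = 0 := by
  have h1 : p * a = 0 := cancel2 (by
    rw [two_mul, mul_zero]; exact add_eq_zero_iff_eq_neg.2 (by simpa [Eo] using h))
  simpa using h1

theorem P_ne_zero (h : x ≠ -1) : P x ≠ 0 := fun e =>
  h (Units.ext (eq_neg_of_add_eq_zero_right e))

theorem bv_pos (hx : x * x = 1) (s t : A) :
    P x * (((u2 A)⁻¹ : Aˣ) * (P x * s + P (-x) * t)) = P x * s := by
  rw [← mul_assoc, (P_comm (zc_u2.comm x).symm.inv_right).eq, mul_assoc, mul_add, ← mul_assoc,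
    ← mul_assoc (P x), P_mul_P hx, P_mul_neg hx, zero_mul, add_zero, ← u2_val, mul_assoc,
    Units.inv_mul_cancel_left]

theorem bv_neg (hx : x * x = 1) (s t : A) :
    P (-x) * (((u2 A)⁻¹ : Aˣ) * (P x * s + P (-x) * t)) = P (-x) * t := by
  simpa [add_comm] using bv_pos (neg_sq' hx) t s

theorem blk_val (hx : x * x = 1) (ha : Commute x a) (hb : Commute x b) :
    (blk x a b : A) = ((u2 A)⁻¹ : Aˣ) * (P x * a + P (-x) * b) := by
  have key : ∀ a b : Aˣ, Commute x a → Commute x b →
      ((u2 A)⁻¹ : Aˣ) * (P x * a + P (-x) * b) *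
        (((u2 A)⁻¹ : Aˣ) * (P x * (a⁻¹ : Aˣ) + P (-x) * (b⁻¹ : Aˣ))) = (1 : A) := fun a b ha hb =>
    ext2 x (by rw [← mul_assoc, bv_pos hx, (P_comm ha).eq, mul_assoc, bv_pos hx, ← mul_assoc,
      ← (P_comm ha).eq]; simp) (by
      rw [← mul_assoc, bv_neg hx, (P_comm hb.neg_left).eq, mul_assoc, bv_neg hx, ← mul_assoc,
        ← (P_comm hb.neg_left).eq]; simp)
  exact un_val ⟨⟨_, _, key a b ha hb, by simpa using key _ _ ha.inv_right hb.inv_right⟩, rfl⟩

theorem blk_pos (hx : x * x = 1) (ha : Commute x a) (hb : Commute x b) :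
    Eo (P x) (blk x a b) a := by rw [Eo, blk_val hx ha hb, bv_pos hx]

theorem blk_ng (hx : x * x = 1) (ha : Commute x a) (hb : Commute x b) :
    Eo (P (-x)) (blk x a b) b := by rw [Eo, blk_val hx ha hb, bv_neg hx]

theorem eq_blk (hx : x * x = 1) (ha : Commute x a) (hb : Commute x b) (h1 : Eo (P x) c a)
    (h3 : Eo (P (-x)) c b) : c = blk x a b :=
  (h1.trans (blk_pos hx ha hb).symm).ext (h3.trans (blk_ng hx ha hb).symm)

theorem blk_mul (hx : x * x = 1) (ha : Commute x a) (hb : Commute x b) (hc : Commute x c)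
    (hd : Commute x d) : blk x a b * blk x c d = blk x (a * c) (b * d) :=
  eq_blk hx (ha.mul_right hc) (hb.mul_right hd)
    ((blk_pos hx ha hb).mul (blk_pos hx hc hd) (P_comm ha))
    ((blk_ng hx ha hb).mul (blk_ng hx hc hd) (P_comm hb.neg_left))

theorem blk_self (hx : x * x = 1) (ha : Commute x a) : blk x a a = a :=
  (eq_blk hx ha ha rfl rfl).symm

theorem blk_inv (hx : x * x = 1) (ha : Commute x a) (hb : Commute x b) :
    (blk x a b)⁻¹ = blk x a⁻¹ b⁻¹ :=
  inv_eq_of_mul_eq_one_right (by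
    rw [blk_mul hx ha hb ha.inv_right hb.inv_right, mul_inv_cancel, mul_inv_cancel,
      blk_self hx (Commute.one_right x)])

theorem ctl_mul (hx : x * x = 1) (ha : Commute x a) (hb : Commute x b) :
    ctl x a * ctl x b = ctl x (a * b) := by
  rw [blk_mul hx ha (Commute.one_right x) hb (Commute.one_right x), one_mul]

theorem ctl_inv (hx : x * x = 1) (ha : Commute x a) : (ctl x a)⁻¹ = ctl x a⁻¹ := by
  rw [blk_inv hx ha (Commute.one_right x), inv_one]

theorem ctl_one (hx : x * x = 1) : ctl x 1 = 1 := blk_self hx (Commute.one_right x)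

theorem ctl_neg_one (hx : x * x = 1) : ctl x (-1) = -x :=
  (eq_blk hx (Commute.neg_one_right x) (Commute.one_right x) (eo_self hx).neg
    (eo_self (neg_sq' hx))).symm

theorem ctl_pos (hx : x * x = 1) (ha : Commute x a) : Eo (P x) (ctl x a) a :=
  blk_pos hx ha (Commute.one_right x)

theorem ctl_ng (hx : x * x = 1) (ha : Commute x a) : Eo (P (-x)) (ctl x a) 1 :=
  blk_ng hx ha (Commute.one_right x)

theorem ctl_congr (hx : x * x = 1) (ha : Commute x a) (hb : Commute x b) (h : Eo (P x) a b) :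
    ctl x a = ctl x b :=
  eq_blk hx hb (Commute.one_right x) ((ctl_pos hx ha).trans h) (ctl_ng hx ha)

theorem ctl_comm_self (ha : Commute x a) : Commute x (ctl x a) :=
  blk_comm (Commute.refl x) ha (Commute.one_right x)

theorem ctl_mul_neg (hx : x * x = 1) (ha : Commute x a) (hb : Commute x b) :
    ctl x a * ctl (-x) b = blk x a b := by
  rw [ctl, ctl, blk_neg, blk_mul hx ha (Commute.one_right x) (Commute.one_right x) hb, mul_one,
    one_mul]

theorem ctl_comm_neg (hx : x * x = 1) (ha : Commute x a) (hb : Commute x b) :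
    Commute (ctl x a) (ctl (-x) b) := by
  have := ctl_mul_neg (neg_sq' hx) hb.neg_left ha.neg_left
  rw [neg_neg, blk_neg] at this
  rw [Commute, SemiconjBy, this, ctl_mul_neg hx ha hb]

theorem ctl_pow (hx : x * x = 1) (ha : Commute x a) (n : ℕ) : ctl x a ^ n = ctl x (a ^ n) := by
  induction n with
  | zero => simp [ctl_one hx]
  | succ n ih => rw [pow_succ, ih, ctl_mul hx (ha.pow_right n) ha, pow_succ]

/-- The commutator of a controlled element with an element inverting the control. -/
theorem ctl_comm_anti (hx : x * x = 1) (ha : Commute x a) (hr : r * x = -(x * r)) :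
    ctl x a * r * (ctl x a)⁻¹ * r⁻¹ = blk x a (r * a⁻¹ * r⁻¹) := by
  have h1 : Commute x (r * a⁻¹ * r⁻¹) := by
    have := (conj_comm_iff (g := r)).2 ha.inv_right
    rwa [conj_of_anti hr, Commute.neg_left_iff] at this
  rw [← ctl_mul_neg hx ha h1, ← conj_of_anti hr, ← ctl_conj, ctl_inv hx ha]
  group

theorem P_mul_neg' (he : e * e = -1) : P e * P (-e) = 2 := by
  simp only [P, Units.val_neg, mul_add, add_mul, mul_neg, val_sq_neg he, ← one_add_one_eq_two,
    one_mul, mul_one]
  abel

theorem sg_val (he : e * e = -1) : (sg e : A) = P e := by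
  refine un_val ⟨⟨P e, P (-e) * ((u2 A)⁻¹ : Aˣ), ?_, ?_⟩, rfl⟩
  · rw [← mul_assoc, P_mul_neg' he, ← u2_val, Units.mul_inv]
  · rw [mul_assoc, ← (P_comm (zc_u2.comm e).symm.inv_right).eq, ← mul_assoc]
    have := P_mul_neg' (neg_sq' he)
    rw [neg_neg] at this
    rw [this, ← u2_val, Units.mul_inv]

theorem sg_mul_neg (he : e * e = -1) : sg e * sg (-e) = u2 A :=
  Units.ext (by rw [Units.val_mul, sg_val he, sg_val (neg_sq' he), P_mul_neg' he, u2_val])

theorem sg_inv (he : e * e = -1) : (sg e)⁻¹ = (u2 A)⁻¹ * sg (-e) := by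
  rw [← sg_mul_neg he, (sg_comm (sg_comm (Commute.refl e).neg_left).symm).eq]; group

theorem sg_sq (he : e * e = -1) : sg e * sg e = u2 A * e := Units.ext (by
  simp only [Units.val_mul, sg_val he, u2_val, P, mul_add, add_mul, val_sq_neg he]; noncomm_ring)

theorem sg_conj_anti (he : e * e = -1) (h : e * r = -(r * e)) : sg e * r * (sg e)⁻¹ = e * r :=
  mul_inv_eq_iff_eq_mul.2 (Units.ext (by
    simp only [Units.val_mul, sg_val he, P, mul_add, add_mul, mul_assoc, val_anti (anti_symm h),
      mul_neg, ← mul_assoc (e : A) e, val_sq_neg he]; noncomm_ring))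

theorem sg_conj_comm (h : Commute e r) : sg e * r * (sg e)⁻¹ = r :=
  conj_of_comm (sg_comm h.symm).symm

theorem eo_sg (he : e * e = -1) (hf : f * f = -1) (h : Eo p e f) : Eo p (sg e) (sg f) := by
  rw [Eo, sg_val he, sg_val hf, P, P, mul_add, mul_add, h]

theorem pair_self (he : e * e = -1) : pair e e = e := by
  rw [pair, mul_assoc, sg_sq he, inv_mul_cancel_left]

theorem pair_neg (he : e * e = -1) : pair e (-e) = 1 := by
  rw [pair, mul_assoc, sg_mul_neg he, inv_mul_cancel]

theorem pair_mul (hf : f * f = -1) (e g : Aˣ) : pair e f * pair (-f) g = pair e g := by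
  rw [pair, pair, pair, ← sg_inv hf]; group

theorem pair_inv (he : e * e = -1) (hf : f * f = -1) : (pair e f)⁻¹ = pair (-f) (-e) :=
  inv_eq_of_mul_eq_one_right (by rw [pair_mul hf, pair_neg he])

theorem pair_eq (he : e * e = -1) (f : Aˣ) : pair (-e) f = (sg e)⁻¹ * sg f := by
  rw [pair, sg_inv he]

theorem ctl_eq_pair (hx : x * x = 1) (he : e * e = -1) (h : Commute x e) :
    ctl x e = pair e (e * x) := by
  have h1 : e * x * (e * x) = -1 := by rw [sq_mul_of_comm h.symm, he, hx, mul_one]
  have h3 : Commute x ((u2 A)⁻¹ * sg e) := (zc_u2.comm x).symm.inv_right.mul_right (sg_comm h)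
  refine (eq_blk hx h (Commute.one_right x) ?_ ?_).symm
  · conv_rhs => rw [← pair_self he]
    exact (eo_sg h1 he (by simpa using (eo_self hx).mul_left (P_comm h))).mul_left (P_comm h3)
  · rw [← pair_neg he]
    exact (eo_sg h1 (neg_sq' he) (by simpa using (eo_neg hx).mul_left (P_comm h.neg_left))).mul_left
      (P_comm h3.neg_left)

theorem pair_sq (he : e * e = -1) (hf : f * f = -1) (h : Commute e f) :
    pair e f * pair e f = e * f := by
  rw [pair, sq_mul_of_comm (((zc_u2.comm _).inv_left).mul_left (sg_comm (sg_comm h.symm).symm)),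
    sq_mul_of_comm (zc_u2.comm _).inv_left, sg_sq he, sg_sq hf, mul_assoc _ _ (u2 A * e),
    inv_mul_cancel_left, ← mul_assoc, mul_assoc _ e, ← (zc_u2.comm e).eq, inv_mul_cancel_left]

theorem mem_norm [Finite A] {R : Subgroup Aˣ} (h : ∀ r ∈ R, g * r * g⁻¹ ∈ R) :
    g ∈ normalizer (R : Set Aˣ) := mem_normalizer_fintype h

theorem conj_mem {R : Subgroup Aˣ} (h : g ∈ normalizer (R : Set Aˣ)) (hr : r ∈ R) :
    g * r * g⁻¹ ∈ R := (mem_normalizer_iff.1 h r).1 hr

theorem zc_norm {R : Subgroup Aˣ} (h : Zc g) : g ∈ normalizer (R : Set Aˣ) :=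
  center_le_normalizer _ h

end CL.C6
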