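import Cfsg.Agent.CLAS.C6B

/-!
Overgroups of the Clifford group of a Pauli system: transitivity and centralisers of involutions.
-/

set_option autoImplicit false
set_option maxHeartbeats 200000
set_option linter.unusedSectionVars false

namespace CL.C6

open Subgroup

variable {F A : Type*} [Field F] [Ring A] [Algebra F A] [Fact (IsUnit (2 : A))] [Finite A]
  {R M : Subgroup Aˣ} {x y z a b c d e f g r s u w a' b' y' : Aˣ} {p q : A}

theorem Sing.neg (h : PS F R) (hx : Sing R x) : Sing R (-x) :=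
  ⟨h.neg_mem hx.mem, neg_sq' hx.sq, mt zc_neg_iff.1 hx.nc⟩

theorem Ns.neg (h : PS F R) (hx : Ns R x) : Ns R (-x) := ⟨h.neg_mem hx.mem, neg_sq' hx.sq⟩

theorem Sing.P_ne (hx : Sing R x) : P x ≠ 0 := P_ne_zero fun e => hx.nc (e ▸ zc_neg_one)

theorem Ns.mul_one (he : Ns R e) (hy : y ∈ R) (h1 : y * y = 1) (h : Commute e y) : Ns R (e * y) :=
  ⟨mul_mem he.mem hy, by rw [sq_mul_of_comm h, he.sq, h1, _root_.mul_one]⟩

theorem Ns.mul_anti (he : Ns R e) (hf : Ns R f) (h : e * f = -(f * e)) : Ns R (e * f) :=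
  ⟨mul_mem he.mem hf.mem, by rw [sq_mul_of_anti h, he.sq, hf.sq]; simp⟩

theorem Ns.mul_sq (he : Ns R e) (hf : Ns R f) (h : Commute e f) : e * f * (e * f) = 1 := by
  rw [sq_mul_of_comm h, he.sq, hf.sq]; simp

theorem eo_comm (hp : p ≠ 0) (h1 : Eo p a a') (h2 : Eo p b b') (ha : Commute p (a' : A))
    (hb : Commute p (b' : A)) (h : Commute a b) (h' : Fx a' b') : Commute a' b' := by
  refine (fx_iff.1 h').resolve_right fun e => hp (eq_zero_of_eo (a := b' * a') ?_)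
  rw [← e]
  exact (h2.mul h1 hb).symm.trans (h.eq ▸ h1.mul h2 ha)

theorem eo_comm' (hp : p ≠ 0) (h1 : Eo p a a') (h2 : Eo p b b') (ha : Commute p (a' : A))
    (hb : Commute p (b' : A)) (h : Commute a' b') (h' : Fx a b) : Commute a b := by
  refine (fx_iff.1 h').resolve_right fun e => hp (eq_zero_of_eo (a := b * a) ?_)
  rw [← e]
  exact (h2.mul h1 hb).trans (h.eq ▸ (h1.mul h2 ha).symm)

theorem eo_sign (hp : p ≠ 0) (h : Eo p a b) (ha : a = 1 ∨ a = -1) (hb : b = 1 ∨ b = -1) :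
    a = b := by
  rcases ha with rfl | rfl <;> rcases hb with rfl | rfl <;> try rfl
  exacts [absurd (eq_zero_of_eo h) hp, absurd (eq_zero_of_eo h.symm) hp]

theorem eo_ctl (hy : y * y = 1) (hy' : y' * y' = 1) (ha : Commute y a) (ha' : Commute y' a')
    (h1 : Eo p y y') (h2 : Eo p a a') (hp : Commute p (y : A)) : Eo p (ctl y a) (ctl y' a') := by
  have hu : Commute p (((u2 A)⁻¹ : Aˣ) : A) := Commute.units_inv_right (by
      rw [u2_val]; exact Commute.ofNat_right p 2)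
  have h3 : p * P y = p * P y' := by rw [P, P, mul_add, mul_add, h1]
  have h4 : p * P (-y) = p * P (-y') := by rw [P, P, mul_add, mul_add, h1.neg]
  have h5 : Commute p (P y) := (Commute.one_right p).add_right hp
  rw [Eo, blk_val hy ha (Commute.one_right y), blk_val hy' ha' (Commute.one_right y'),
    ← mul_assoc, ← mul_assoc, hu.eq, mul_assoc, mul_assoc, mul_add p, mul_add p, ← mul_assoc p,
    ← mul_assoc p, ← mul_assoc p, ← mul_assoc p, h4, ← h3, h5.eq, mul_assoc (P y), h2,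
    mul_assoc (P y)]

theorem eq_zero_of_flip (h : P x * q = 0) (hr : r * x = -(x * r)) (hq : Commute (r : A) q) :
    q = 0 := by
  refine ext2 x (by simpa using h) ?_
  rw [← conj_of_anti hr, ← P_conj, mul_assoc, hq.units_inv_left.eq, ← mul_assoc, mul_assoc _ (P x),
    h]; simp

/-- `a` lies in the group generated by `x` and the scalars. -/
def InZ (x a : Aˣ) : Prop := Zc a ∨ Zc (a * x)

theorem InZ.comm (h : InZ x a) (hg : Commute x g) : Commute a g := by
  rcases h with h | h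
  · exact h.comm g
  · simpa using (h.comm g).mul_left hg.inv_left

theorem inZ_neg : InZ (-x) a ↔ InZ x a := by simp [InZ, zc_neg_iff]

theorem inZ_conj (hg : Commute g x) : InZ x (g * a * g⁻¹) ↔ InZ x a := by
  conv_lhs => rw [InZ, ← conj_of_comm hg, ← conj_mul', zc_conj_iff, zc_conj_iff]
  rfl

namespace PS

variable (h : PS F R)
include h

theorem eo_sq (hp : p ≠ 0) (h1 : Eo p a b) (hb : Commute p (b : A)) (ha : a * a = 1 ∨ a * a = -1)
    (hb' : b ∈ R) : a * a = b * b := eo_sign hp (h1.mul h1 hb) ha (h.sq b hb')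

theorem exists_anti (hx : x ∈ R) (h1 : ¬ Zc x) : ∃ w ∈ R, w * x = -(x * w) :=
  let ⟨w, hw, h2⟩ := h.sep0 h1; ⟨w, hw, h.anti hw hx h2⟩

theorem sepZ (ha : a ∈ R) (hd : d ∈ R) (h1 : ¬ InZ a d) : ∃ w ∈ R, Commute w a ∧ ¬ Commute w d :=
  h.sep1 ha hd (fun e => h1 (.inl e)) fun e => h1 (.inr e)

theorem eq_of_eo (hx : Sing R x) (hz : z ∈ R) (h1 : Eo (P x) z 1) : z = 1 ∨ z = x := by
  obtain ⟨w, hw, h2⟩ := h.exists_anti hx.mem hx.nc
  have h3 := h1.conjP w
  rw [conj_of_anti h2, mul_one, mul_inv_cancel] at h3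
  rcases h.fx hw hz with e | e <;> rw [e] at h3
  · exact .inl (h1.ext h3)
  · exact .inr ((h1.trans (eo_self hx.sq).symm).ext
      ((by simpa using h3.neg : Eo _ z (-1)).trans (eo_neg hx.sq).symm))

theorem inZ_of_eo (hx : Sing R x) (hz : z ∈ R) (h1 : Eo (P x) z 1 ∨ Eo (P x) z (-1)) : InZ x z := by
  rcases h1 with h1 | h1
  · rcases h.eq_of_eo hx hz h1 with rfl | rfl
    exacts [.inl (one_mem _), .inr (hx.sq ▸ one_mem _)]
  · rcases h.eq_of_eo hx (h.neg_mem hz) (by simpa using h1.neg) with e | e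
    · exact .inl (zc_neg_iff.1 (e ▸ one_mem _))
    · exact .inr (zc_neg_iff.1 (by rw [← neg_mul, e, hx.sq]; exact one_mem _))

theorem eo_of_inZ (hx : x * x = 1) (hz : z * z = 1) (h1 : InZ x z) :
    Eo (P x) z 1 ∨ Eo (P x) z (-1) := by
  have hc := h1.comm (Commute.refl x)
  rcases h1 with h1 | h1
  · rcases h.zc_sq h1 hz with rfl | rfl
    exacts [.inl rfl, .inr rfl]
  · rcases h.eq_of_zc (b := x) (by rwa [inv_of_sq_one hx]) (hz.trans hx.symm) with rfl | rfl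
    exacts [.inl (eo_self hx), .inr (eo_self hx).neg]

theorem sg_norm (he : Ns R e) : sg e ∈ normalizer (R : Set Aˣ) := mem_norm fun r hr => by
  rcases h.pm he.mem hr with h1 | h1
  · rwa [sg_conj_comm h1]
  · rw [sg_conj_anti he.sq h1]; exact mul_mem he.mem hr

theorem pair_norm (he : Ns R e) (hf : Ns R f) : pair e f ∈ normalizer (R : Set Aˣ) :=
  mul_mem (mul_mem (zc_norm (inv_mem zc_u2)) (h.sg_norm he)) (h.sg_norm hf)

theorem norm_of_two (ha : a ∈ R) (hw : w ∈ R) (h1 : Commute y w) (h2 : ¬ Commute w a)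
    (H1 : ∀ r ∈ R, Commute a r → g * r * g⁻¹ ∈ R) (H2 : ∀ r ∈ R, Commute y r → g * r * g⁻¹ ∈ R) :
    g ∈ normalizer (R : Set Aˣ) := mem_norm fun r hr => by
  by_cases h3 : Commute r a
  · exact H1 r hr h3.symm
  · have := mul_mem (H1 _ (mul_mem hr hw) ((h.comm_mul hr hw ha).2 (iff_of_false h3 h2)).symm)
      (inv_mem (H2 w hw h1))
    rwa [show g * (r * w) * g⁻¹ * (g * w * g⁻¹)⁻¹ = g * r * g⁻¹ by group] at this

end PS

/-- The centraliser of `a, b` in `R` is not abelian. -/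
def NA (R : Subgroup Aˣ) (a b : Aˣ) : Prop :=
  ∃ u ∈ R, ∃ v ∈ R, Commute u a ∧ Commute u b ∧ Commute v a ∧ Commute v b ∧ ¬ Commute u v

variable (F) in
/-- `M` contains the Clifford group of the Pauli system `R`, which is large enough. -/
structure Good (R M : Subgroup Aˣ) : Prop extends PS F R where
  hn : ∀ e f, Ns R e → Ns R f → pair e f ∈ M
  h0 : ∀ z ∈ M, Zc z → z * z = -1 → z ∈ R
  g3 : ∀ a ∈ R, ∀ b ∈ R, ∀ c ∈ R, ∃ e, Ns R e ∧ Commute e a ∧ Commute e b ∧ Commute e c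
  g2 : ∀ a ∈ R, ∀ b ∈ R, ∃ y, Sing R y ∧ Commute y a ∧ Commute y b
  g5 : (∃ i, Ns R i ∧ Zc i ∧ ∀ a ∈ R, NA R a 1) ∨ ∀ a ∈ R, ∀ b ∈ R, NA R a b

/-- The normaliser of `R` in `M`. -/
abbrev N0 (R M : Subgroup Aˣ) : Subgroup Aˣ := M ⊓ normalizer (R : Set Aˣ)

theorem memM (h : g ∈ N0 R M) : g ∈ M := h.1

theorem memN (h : g ∈ N0 R M) : g ∈ normalizer (R : Set Aˣ) := h.2

/-- Centralisers of involutions normalise the induced Pauli systems on the fixed spaces. -/
def Hind (R M : Subgroup Aˣ) : Prop := ∀ y, Sing R y → ∀ g ∈ M, Commute y g → ∀ r ∈ R,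
  Commute y r → ∃ r' ∈ R, Commute y r' ∧ Eo (P y) (g * r * g⁻¹) r'

/-- No controlled element of order six. -/
def NoOm (R M : Subgroup Aˣ) : Prop := ∀ x e f, Sing R x → Ns R e → Ns R f → Commute x e →
  Commute x f → ¬ Commute e f → ctl x (pair e f) ∉ M

/-- Centralisers of involutions of `R` normalise `R`. -/
def CS (R M : Subgroup Aˣ) : Prop :=
  ∀ x, Sing R x → ∀ g ∈ M, Commute x g → g ∈ normalizer (R : Set Aˣ)

namespace Good

variable (h : Good F R M)
include h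

theorem pair_mem (he : Ns R e) (hf : Ns R f) : pair e f ∈ N0 R M :=
  ⟨h.hn e f he hf, h.pair_norm he hf⟩

theorem le : R ≤ M := fun r hr => by
  have key : ∀ e, Ns R e → e ∈ M := fun e he => pair_self he.sq ▸ h.hn e e he he
  obtain ⟨d, hd, h1, -⟩ := h.g3 r hr r hr r hr
  rcases h.sq r hr with e | e
  · simpa using mul_mem (inv_mem (key d hd)) (key _ (hd.mul_one hr e h1))
  · exact key r ⟨hr, e⟩

theorem le_N0 : R ≤ N0 R M := le_inf h.le le_normalizer

theorem ctl_mem (hx : x ∈ R) (h1 : x * x = 1) (hu : u ∈ R) (h2 : Commute x u) :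
    ctl x u ∈ N0 R M := by
  have key : ∀ e, Ns R e → Commute x e → ctl x e ∈ N0 R M := fun e he h3 =>
    ctl_eq_pair h1 he.sq h3 ▸ h.pair_mem he (he.mul_one hx h1 h3.symm)
  obtain ⟨d, hd, h3, h4, -⟩ := h.g3 x hx u hu u hu
  rcases h.sq u hu with e | e
  · have := mul_mem (inv_mem (key d hd h3.symm)) (key _ (hd.mul_one hu e h4) (h3.symm.mul_right h2))
    rwa [ctl_inv h1 h3.symm, ctl_mul h1 h3.symm.inv_right (h3.symm.mul_right h2),
      inv_mul_cancel_left] at this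
  · exact key u ⟨hu, e⟩ h2

theorem trans_anti (ha : a ∈ R) (hy : y ∈ R) (hy' : y' ∈ R) (h1 : Commute a y) (h2 : Commute a y')
    (h3 : y * y = y' * y') (h4 : y * y' = -(y' * y)) :
    ∃ n ∈ N0 R M, Commute a n ∧ n * y' * n⁻¹ = y := by
  obtain ⟨d, hd, h5, h6, -⟩ := h.g3 a ha y' hy' a ha
  have h7 : Ns R (y * y'⁻¹) := ⟨mul_mem hy (inv_mem hy'), by
    rw [sq_mul_of_anti (anti_symm (anti_inv (anti_symm h4))), h3]; simp [mul_assoc]⟩
  refine ⟨_, h.pair_mem h7 hd, pair_comm (h1.mul_right h2.inv_right) h5.symm, ?_⟩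
  rw [conj_pair, sg_conj_comm h6, sg_conj_anti h7.sq (anti_mul_left h4 (Commute.refl _).inv_left),
    inv_mul_cancel_right]

theorem trans (ha : a ∈ R) (hy : y ∈ R) (hy' : y' ∈ R) (h1 : Commute a y) (h2 : Commute a y')
    (h3 : y * y = y' * y') (h4 : y * y = 1 ∨ a * a = -1) (h5 : ¬ InZ a y) (h6 : ¬ InZ a y') :
    ∃ n ∈ N0 R M, Commute a n ∧ n * y' * n⁻¹ = y := by
  rcases h.pm hy hy' with h7 | h7
  swap; · exact h.trans_anti ha hy hy' h1 h2 h3 h7
  obtain ⟨w, hw, w1, w2, w3⟩ : ∃ w ∈ R, Commute w a ∧ ¬ Commute w y ∧ ¬ Commute w y' := by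
    obtain ⟨u, hu, u1, u2⟩ := h.sepZ ha hy h5
    obtain ⟨v, hv, v1, v2⟩ := h.sepZ ha hy' h6
    have e1 := h.comm_mul hu hv hy
    have e2 := h.comm_mul hu hv hy'
    by_cases u3 : Commute u y'
    · by_cases v3 : Commute v y
      · exact ⟨u * v, mul_mem hu hv, u1.mul_left v1, by tauto, by tauto⟩
      · exact ⟨v, hv, v1, v3, v2⟩
    · exact ⟨u, hu, u1, u2, u3⟩
  obtain ⟨f, hf, f1, f2, f3, f4⟩ : ∃ f ∈ R, Commute f a ∧ ¬ Commute f y ∧ ¬ Commute f y' ∧
      f * f = y * y := by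
    by_cases e : w * w = y * y
    · exact ⟨w, hw, w1, w2, w3, e⟩
    rcases h.sq y hy with e1 | e1
    · refine ⟨w * y, mul_mem hw hy, w1.mul_left h1.symm, ?_, ?_, ?_⟩
      · simpa [h.comm_mul hw hy hy] using w2
      · simpa [h.comm_mul hw hy hy', h7] using w3
      · rw [sq_mul_of_anti (h.anti hw hy w2), e1, ((h.sq w hw).resolve_left (e1 ▸ e))]; simp
    · have e2 := h4.resolve_left fun e' => h.nt (e'.symm.trans e1)
      refine ⟨w * a, mul_mem hw ha, w1.mul_left (Commute.refl a), ?_, ?_, ?_⟩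
      · simpa [h.comm_mul hw ha hy, h1] using w2
      · simpa [h.comm_mul hw ha hy', h2] using w3
      · rw [sq_mul_of_comm w1, e1, e2, ((h.sq w hw).resolve_right (e1 ▸ e)), one_mul]
  obtain ⟨n, hn, n1, n2⟩ := h.trans_anti ha hf hy' f1.symm h2 (f4.trans h3) (h.anti hf hy' f3)
  obtain ⟨m, hm, m1, m2⟩ := h.trans_anti ha hy hf h1 f1.symm f4.symm (anti_symm (h.anti hf hy f2))
  exact ⟨m * n, mul_mem hm hn, m1.mul_right n1, by rw [← m2, ← n2]; group⟩

theorem trans0 (hy : Sing R y) (hy' : Sing R y') : ∃ n ∈ N0 R M, n * y' * n⁻¹ = y :=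
  let ⟨n, h1, _, h2⟩ := h.trans (one_mem R) hy.mem hy'.mem (Commute.one_left _) (Commute.one_left _)
    (hy.sq.trans hy'.sq.symm) (.inl hy.sq) (by simpa [InZ] using hy.nc) (by simpa [InZ] using hy'.nc)
  ⟨n, h1, h2⟩

theorem step1_comm (hi : Hind R M) {zp zm : Aˣ} (hx : Sing R x) (hp : Sing R zp) (hm : zm ∈ R)
    (hm' : zm * zm = 1) (p1 : Commute x zp) (m1 : Commute x zm) (pm : Commute zm zp)
    (p2 : ¬ InZ x zp) (m2 : ¬ InZ x zm) (m3 : ¬ InZ x (zm * zp)) (hd : d * d = -1)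
    (d1 : Commute x d) (d2 : Commute zp d) (d3 : Commute zm d) (u1 : Commute x u)
    (u2 : Commute zp u) (hc : blk x (ctl zp u) (ctl zm d) ∈ M) : False := by
  obtain ⟨t, ht, t1, t2, t3⟩ := h.sep2 hx.mem hp.mem hm (fun e => m2 (.inl e))
    (fun e => m2 (.inr e)) (fun e => m3 (.inl e)) fun e => m3 (.inr e)
  obtain ⟨r, hr, r1, r2, r3⟩ : ∃ r ∈ R, ¬ Commute r x ∧ Commute r zp ∧ Commute r zm := by
    obtain ⟨r, hr, r1, r2⟩ := h.sep1 hp.mem hx.mem hx.nc fun e => p2 (.inr (p1.eq ▸ e))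
    by_cases r3 : Commute r zm
    · exact ⟨r, hr, r2, r1, r3⟩
    · exact ⟨r * t, mul_mem hr ht, by simpa [h.comm_mul hr ht hx.mem, t1] using r2, r1.mul_left t2,
        (h.comm_mul hr ht hm).2 (iff_of_false r3 t3)⟩
  replace r1 := h.anti hr hx.mem r1
  have a1 : Commute x (ctl zp u) := blk_comm p1 u1 (Commute.one_right x)
  have a2 : Commute x (ctl zm d) := blk_comm m1 d1 (Commute.one_right x)
  have a3 : Commute zp (ctl zm d) := blk_comm pm.symm d2 (Commute.one_right _)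
  set c := blk x (ctl zp u) (ctl zm d)
  obtain ⟨r', hr', c1, c2⟩ := hi _ (hp.neg h.toPS) c hc
    (blk_comm p1.symm (ctl_comm_self u2) a3).neg_left r hr r2.symm.neg_left
  have c3 := c2.mul_right r⁻¹
  have c4 := (c3.mul c3 (P_comm (c1.mul_right r2.symm.neg_left.inv_right))).left (P (-x))
  have c5 : Eo (P (-x) * P (-zp)) (r * c⁻¹ * r⁻¹) 1 := by
    have := ((((blk_pos hx.sq a1 a2).right (P_comm_P p1.neg_right)).trans
      ((ctl_ng hp.sq u2).left _)).inv (Commute.one_right _)).conj r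
    rwa [inv_one, mul_one, mul_inv_cancel, show r * (P x * P (-zp)) * (r⁻¹ : Aˣ) =
      r * P x * (r⁻¹ : Aˣ) * (r * P (-zp) * (r⁻¹ : Aˣ)) by simp [mul_assoc], P_conj, P_conj,
      conj_of_anti r1, conj_of_comm r2.neg_right] at this
  have a4 : Commute (P (-x) * P (-zp)) (ctl zm d : A) :=
    (P_comm a2.neg_left).mul_left (P_comm a3.neg_left)
  have c6 := ((blk_ng hx.sq a1 a2).right (P_comm_P p1.neg_left.neg_right)).mul c5 a4
  rw [mul_one, show c * (r * c⁻¹ * r⁻¹) = c * r * c⁻¹ * r⁻¹ by group] at c6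
  have c7 := (c6.mul c6 a4).symm.trans c4
  rw [ctl_mul hm' d3 d3, hd, ctl_neg_one hm'] at c7
  have c8 := c7.conj' ((P_comm t1.symm.neg_left).mul_left (P_comm t2.symm.neg_left))
  have c9 : Zc (r' * r⁻¹ * (r' * r⁻¹)) := by
    rcases h.sq _ (mul_mem hr' (inv_mem hr)) with e | e <;> rw [e]
    exacts [one_mem _, zc_neg_one]
  rw [c9.conj, conj_neg', conj_of_anti (h.anti ht hm t3)] at c8
  exact (hp.neg h.toPS).P_ne (eq_zero_of_flip (eq_zero_of_eo (c7.trans c8.symm))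
    (by simp [r1]) (P_comm r2.symm.neg_left).symm)

theorem step1_anti (ho : NoOm R M) {zp zm : Aˣ} (hx : Sing R x) (hp : Sing R zp) (hm : zm ∈ R)
    (hm' : zm * zm = 1) (p1 : Commute x zp) (m1 : Commute x zm) (pm : zm * zp = -(zp * zm))
    (hd : Ns R d) (d1 : Commute x d) (d2 : Commute zp d) (d3 : Commute zm d) (hu : u ∈ R)
    (u1 : Commute x u) (u2 : Commute zp u) (hc : blk x (ctl zp u) (ctl zm d) ∈ M) : False := by
  have a1 : Commute x (ctl zp u) := blk_comm p1 u1 (Commute.one_right x)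
  have a2 : Commute x (ctl zm d) := blk_comm m1 d1 (Commute.one_right x)
  have a3 : Commute x (ctl zp d) := blk_comm p1 d1 (Commute.one_right x)
  have hb := memM (h.ctl_mem hp.mem hp.sq hd.mem d2)
  have k := mul_mem (mul_mem (mul_mem hc hb) (inv_mem hc)) (inv_mem hb)
  have b1 := (a1.mul_right a3).mul_right a1.inv_right
  have b2 := (a2.mul_right a3).mul_right a2.inv_right
  rw [← blk_self hx.sq a3, blk_inv hx.sq a1 a2, blk_inv hx.sq a3 a3, blk_mul hx.sq a1 a2 a3 a3,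
    blk_mul hx.sq (a1.mul_right a3) (a2.mul_right a3) a1.inv_right a2.inv_right,
    blk_mul hx.sq b1 b2 a3.inv_right a3.inv_right,
    ← ctl_mul_neg hx.sq (b1.mul_right a3.inv_right) (b2.mul_right a3.inv_right)] at k
  have e1 := hd.mul_one hp.mem hp.sq d2.symm
  have e2 := hd.mul_one hm hm' d3.symm
  have e3 : d * zm * (d * zp) = -(d * zp * (d * zm)) :=
    anti_mul_right ((Commute.refl d).mul_right d2.symm) (anti_symm (anti_mul_right d3.symm
      (anti_symm pm)))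
  have e4 : Commute d (d * zm * (d * zp)) :=
    ((Commute.refl d).mul_right d3.symm).mul_right ((Commute.refl d).mul_right d2.symm)
  have k1 : ctl zm d * ctl zp d * (ctl zm d)⁻¹ * (ctl zp d)⁻¹ =
      pair (d * zm * (d * zp)) (-(d * zp)) := by
    rw [ctl_eq_pair hp.sq hd.sq d2, pair_conj, conj_of_comm (blk_comm d3.symm (Commute.refl d)
      (Commute.one_right d)).symm, ctl_eq_pair hm' hd.sq d3, conj_pair, sg_conj_anti e2.sq e3,
      sg_conj_comm e4, pair_inv hd.sq e1.sq, pair_symm e4,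
      pair_symm ((Commute.refl d).mul_right d2.symm).symm.neg_left.neg_right, pair_mul hd.sq]
  have k2 : ctl zp u * ctl zp d * (ctl zp u)⁻¹ * (ctl zp d)⁻¹ ∈ R := by
    rw [ctl_inv hp.sq u2, ctl_inv hp.sq d2, ctl_mul hp.sq u2 d2,
      ctl_mul hp.sq (u2.mul_right d2) u2.inv_right,
      ctl_mul hp.sq ((u2.mul_right d2).mul_right u2.inv_right) d2.inv_right]
    rcases h.fx hu hd.mem with e | e <;> rw [e]
    · simp [ctl_one hp.sq]
    · simpa [ctl_neg_one hp.sq] using h.neg_mem hp.mem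
  rw [mul_mem_cancel_left (memM (h.ctl_mem hx.mem hx.sq k2 (b1.mul_right a3.inv_right))), k1] at k
  exact ho _ _ _ (hx.neg h.toPS) (e2.mul_anti e1 e3) (e1.neg h.toPS)
    ((d1.mul_right m1).mul_right (d1.mul_right p1)).neg_left (d1.mul_right p1).neg_left.neg_right
    (fun e => h.not_comm (anti_mul_left e3 (Commute.refl _)) (by simpa using e)) k

theorem step1_sq (hi : Hind R M) (ho : NoOm R M) (hx : Sing R x) (hg : g ∈ M) (h1 : Commute x g)
    (hz : z ∈ R) (h2 : Commute x z) (h3 : z * z = 1) : g * z * g⁻¹ ∈ R := by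
  by_cases h4 : InZ x z
  · rwa [conj_of_comm (h4.comm h1).symm]
  have hx' := hx.neg h.toPS
  have key : ∀ x, Sing R x → Commute x g → Commute x z → ¬ InZ x z → ∃ t ∈ R, Commute x t ∧
      Eo (P x) (g * z * g⁻¹) t ∧ t * t = 1 ∧ ¬ InZ x t := fun x hx h1 h2 h4 => by
    obtain ⟨t, ht, t1, t2⟩ := hi x hx g hg h1 z hz h2
    have t3 : t * t = 1 := by
      rw [← h.eo_sq hx.P_ne t2 (P_comm t1) (.inl (conj_sq (one_mem _) h3)) ht,
        conj_sq (one_mem _) h3]
    refine ⟨t, ht, t1, t2, t3, fun t4 => h4 (h.inZ_of_eo hx hz ?_)⟩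
    exact (h.eo_of_inZ hx.sq t3 t4).imp
      (fun e => by simpa [mul_assoc] using (t2.trans e).conj' (g := g⁻¹) (P_comm h1.inv_right))
      fun e => by simpa [mul_assoc] using (t2.trans e).conj' (g := g⁻¹) (P_comm h1.inv_right)
  obtain ⟨zp, hp, p1, p2, p3, p4⟩ := key x hx h1 h2 h4
  obtain ⟨zm, hm, m1, m2, m3, m4⟩ := key _ hx' h1.neg_left h2.neg_left (mt inZ_neg.1 h4)
  rw [Commute.neg_left_iff] at m1
  rw [inZ_neg] at m4
  by_cases h5 : InZ x (zm * zp)
  · have h6 : Commute zm zp := by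
      simpa [m3, ← mul_assoc] using ((Commute.refl zm).mul_left (h5.comm m1)).symm
    rcases h.eo_of_inZ hx.sq (by rw [sq_mul_of_comm h6, m3, p3, one_mul]) h5 with e | e <;>
      replace e := e.mul_left (P_comm m1) <;> rw [← mul_assoc, m3, one_mul] at e
    · rwa [(p2.trans (by simpa using e)).ext m2]
    · rw [(p2.trans (e.trans ((eo_self hx.sq).neg.mul_left (P_comm m1)).symm)).ext
        (m2.trans (by simpa using ((eo_self hx'.sq).mul_left (P_comm m1.neg_left)).symm))]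
      exact mul_mem hm hx'.mem
  obtain ⟨d, hd, d1, d2, d3⟩ := h.g3 x hx.mem zp hp zm hm
  obtain ⟨s, hs, s1, s2⟩ := hi _ hx' g⁻¹ (inv_mem hg) h1.neg_left.inv_right d hd.mem d1.symm.neg_left
  have s3 : s * s = -1 := by
    rw [← h.eo_sq hx'.P_ne s2 (P_comm s1) (.inr (conj_sq zc_neg_one hd.sq)) hs,
      conj_sq zc_neg_one hd.sq]
  have s4 : Eo (P (-x)) (g * s * g⁻¹) d := by
    simpa [mul_assoc] using (s2.conj' (P_comm h1.neg_left)).symm
  rw [Commute.neg_left_iff] at s1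
  obtain ⟨u, hu, u1, u2⟩ := hi x hx g hg h1 s hs s1
  have s5 : Commute (g * z * g⁻¹) (g * s * g⁻¹) := eo_comm' hx'.P_ne m2 s4 (P_comm m1.neg_left)
    (P_comm d1.symm.neg_left) d3.symm (by
      rcases h.pm hz hs with e | e
      · exact .of_comm (conj_comm_iff.2 e)
      · exact fx_iff.2 (.inr (by rw [← conj_mul', e, conj_neg', conj_mul'])))
  have u3 : Commute zp u := eo_comm hx.P_ne p2 u2 (P_comm p1) (P_comm u1) s5 (h.fx hp hu)
  have z1 : Commute x (g * z * g⁻¹) := (h1.mul_right h2).mul_right h1.inv_right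
  have hc : blk x (ctl zp u) (ctl zm d) ∈ M := by
    rw [← eq_blk hx.sq (blk_comm p1 u1 (Commute.one_right x))
      (blk_comm m1 d1.symm (Commute.one_right x))
      (eo_ctl (conj_sq (one_mem _) h3) p3 s5 u3 p2 u2 (P_comm z1))
      (eo_ctl (conj_sq (one_mem _) h3) m3 s5 d3.symm m2 s4 (P_comm z1.neg_left)), ← ctl_conj]
    exact mul_mem (mul_mem hg (memM (h.ctl_mem hz h3 hs (conj_comm_iff.1 s5)))) (inv_mem hg)
  have hp' : Sing R zp := ⟨hp, p3, fun e => p4 (.inl e)⟩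
  rcases h.pm hm hp with e | e
  · exact (h.step1_comm hi hx hp' hm m3 p1 m1 e p4 m4 h5 hd.sq d1.symm d2.symm d3.symm u1 u3 hc).elim
  · exact (h.step1_anti ho hx hp' hm m3 p1 m1 e hd d1.symm d2.symm d3.symm hu u1 u3 hc).elim

/-- An element of square one anticommuting with `z`. -/
theorem exists_sq_anti (ha : a ∈ R) (hz : z ∈ R) (h1 : ¬ InZ a z) :
    ∃ w ∈ R, w * w = 1 ∧ Commute w a ∧ w * z = -(z * w) := by
  obtain ⟨w, hw, w1, w2⟩ := h.sepZ ha hz h1
  replace w2 := h.anti hw hz w2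
  rcases h.sq w hw with e | e
  · exact ⟨w, hw, e, w1, w2⟩
  · obtain ⟨d, hd, d1, d2, d3⟩ := h.g3 a ha z hz w hw
    exact ⟨w * d, mul_mem hw hd.mem, Ns.mul_sq ⟨hw, e⟩ hd d3.symm, w1.mul_left d1,
      anti_mul_left w2 d2⟩

theorem step1 (hi : Hind R M) (ho : NoOm R M) (hx : Sing R x) (hg : g ∈ M) (h1 : Commute x g)
    (hz : z ∈ R) (h2 : Commute x z) : g * z * g⁻¹ ∈ R := by
  rcases h.sq z hz with h3 | h3
  · exact h.step1_sq hi ho hx hg h1 hz h2 h3
  by_cases h4 : InZ x z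
  · rwa [conj_of_comm (h4.comm h1).symm]
  obtain ⟨w, hw, w1, w2, w3⟩ := h.exists_sq_anti hx.mem hz h4
  have := mul_mem (h.step1_sq hi ho hx hg h1 hw w2.symm w1) (h.step1_sq hi ho hx hg h1
    (mul_mem hw hz) (w2.symm.mul_right h2) (by rw [sq_mul_of_anti w3, w1, h3]; simp))
  rwa [← conj_mul', ← mul_assoc w, w1, one_mul] at this

/-- From centralisers in `R` to `R`. -/
theorem step2 (ha : a ∈ R) (hw : w ∈ R) (hy : y ∈ R) (h1 : ¬ Commute w a) (h2 : Commute y w)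
    (h3 : Commute a y) (h4 : ¬ Zc y) (h5 : y * y = 1 ∨ a * a = -1)
    (H1 : ∀ g ∈ M, Commute a g → ∀ r ∈ R, Commute a r → g * r * g⁻¹ ∈ R)
    (H2 : ∀ g ∈ M, Commute y g → ∀ r ∈ R, Commute y r → g * r * g⁻¹ ∈ R) (hg : g ∈ M)
    (h6 : Commute a g) : g ∈ normalizer (R : Set Aˣ) := by
  have h7 : ¬ InZ a y := fun e => e.elim h4 fun e =>
    h1 (by simpa using (h2.inv_left.mul_left (e.comm w)).symm)
  obtain ⟨n, hn, n1, n2⟩ := h.trans ha hy (H1 g hg h6 y hy h3) h3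
    ((h6.mul_right h3).mul_right h6.inv_right) (by
      rcases h.sq y hy with e | e <;> rw [← conj_mul', e] <;> simp) h5 h7
    (mt (inZ_conj h6.symm).1 h7)
  have hm := mul_mem (memM hn) hg
  refine (mul_mem_cancel_left (memN hn)).1 (h.norm_of_two ha hw h2 h1 (H1 _ hm (n1.mul_right h6))
    (H2 _ hm (comm_of_conj ?_).symm))
  exact (by group : _ = n * (g * y * g⁻¹) * n⁻¹).trans n2

theorem cs (hi : Hind R M) (ho : NoOm R M) : CS R M := fun x hx g hg h1 => by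
  obtain ⟨w, hw, w1⟩ := h.sep0 hx.nc
  obtain ⟨y, hy, y1, y2⟩ := h.g2 x hx.mem w hw
  exact h.step2 hx.mem hw hy.mem w1 y2 y1.symm hy.nc (.inl hy.sq)
    (fun g hg h1 r hr => h.step1 hi ho hx hg h1 hr) (fun g hg h1 r hr => h.step1 hi ho hy hg h1 hr)
    hg h1

theorem ti (hc : CS R M) (hg : g ∈ M) (hx : Sing R x) (h1 : g * x * g⁻¹ ∈ R) :
    g ∈ normalizer (R : Set Aˣ) := by
  obtain ⟨n, hn, n1⟩ := h.trans0 hx ⟨h1, conj_sq (one_mem _) hx.sq, mt zc_conj_iff.1 hx.nc⟩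
  refine (mul_mem_cancel_left (memN hn)).1 (hc x hx _ (mul_mem (memM hn) hg) (comm_of_conj ?_).symm)
  exact (by group : _ = n * (g * x * g⁻¹) * n⁻¹).trans n1

end Good

end CL.C6
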