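import Cfsg.Agent.CLAS.C6C

/-!
Overgroups of the Clifford group of a Pauli system: fusion of the involutions.
-/

set_option autoImplicit false
set_option maxHeartbeats 200000
set_option linter.unusedSectionVars false

namespace CL.C6

open Subgroup

variable {F A : Type*} [Field F] [Ring A] [Algebra F A] [Fact (IsUnit (2 : A))] [Finite A]
  {R R' M : Subgroup Aˣ} {x y z a b c d e f g r s t u v w e' : Aˣ}

/-- The conjugate of `R` by `g`. -/
def cj (g : Aˣ) (R : Subgroup Aˣ) : Subgroup Aˣ := R.map (MulAut.conj g).toMonoidHom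

theorem conj_mem_cj : g * r * g⁻¹ ∈ cj g R ↔ r ∈ R :=
  mem_map_iff_mem (f := (MulAut.conj g).toMonoidHom) (MulAut.conj g).injective

theorem exists_conj (g a : Aˣ) : ∃ b, a = g * b * g⁻¹ := ⟨g⁻¹ * a * g, by group⟩

theorem conj_sq_iff (hc : Zc c) : g * a * g⁻¹ * (g * a * g⁻¹) = c ↔ a * a = c :=
  ⟨fun h => by simpa [mul_assoc] using conj_sq (g := g⁻¹) hc h, conj_sq hc⟩

theorem sing_cj : Sing (cj g R) (g * x * g⁻¹) ↔ Sing R x :=
  ⟨fun h => ⟨conj_mem_cj.1 h.1, (conj_sq_iff (one_mem _)).1 h.2, mt zc_conj_iff.2 h.3⟩,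
    fun h => ⟨conj_mem_cj.2 h.1, conj_sq (one_mem _) h.2, mt zc_conj_iff.1 h.3⟩⟩

theorem ns_cj : Ns (cj g R) (g * x * g⁻¹) ↔ Ns R x :=
  ⟨fun h => ⟨conj_mem_cj.1 h.1, (conj_sq_iff zc_neg_one).1 h.2⟩,
    fun h => ⟨conj_mem_cj.2 h.1, conj_sq zc_neg_one h.2⟩⟩

theorem NA.cj (h : NA R a b) : NA (cj g R) (g * a * g⁻¹) (g * b * g⁻¹) := by
  obtain ⟨u, hu, v, hv, h⟩ := h
  exact ⟨_, conj_mem_cj.2 hu, _, conj_mem_cj.2 hv, by simpa only [conj_comm_iff] using h⟩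

theorem norm_cj (h : a ∈ normalizer (R : Set Aˣ)) : g * a * g⁻¹ ∈ normalizer (cj g R : Set Aˣ) :=
  mem_norm fun r hr => by
    obtain ⟨r, rfl⟩ := exists_conj g r
    rw [show g * a * g⁻¹ * (g * r * g⁻¹) * (g * a * g⁻¹)⁻¹ = g * (a * r * a⁻¹) * g⁻¹ by group]
    exact conj_mem_cj.2 (conj_mem h (conj_mem_cj.1 hr))

theorem PS.cj (h : PS F R) (g : Aˣ) : PS F (cj g R) := by
  refine ⟨h.two, h.nt, by simpa using (conj_mem_cj (g := g)).2 h.neg, fun r hr => ?_, fun a ha => ?_⟩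
  · obtain ⟨r, rfl⟩ := exists_conj g r
    exact (h.sq r (conj_mem_cj.1 hr)).imp (conj_sq (one_mem _)) (conj_sq zc_neg_one)
  · obtain ⟨c, hc⟩ := h.cent ((g⁻¹ : Aˣ) * a * g) fun r hr => by
      have := congrArg (fun t : A => ((g⁻¹ : Aˣ) : A) * t * g) (ha _ (conj_mem_cj.2 hr))
      simpa [mul_assoc] using this
    refine ⟨c, ?_⟩
    have := congrArg (fun t : A => (g : A) * t * (g⁻¹ : Aˣ)) hc
    simpa [mul_assoc, Algebra.commutes] using this

theorem Good.cj (h : Good F R M) (hg : g ∈ M) : Good F (cj g R) M := by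
  refine ⟨h.toPS.cj g, fun e f he hf => ?_, fun z h1 h2 h3 => ?_, fun a ha b hb c hc => ?_,
    fun a ha b hb => ?_, h.g5.imp ?_ fun H a ha b hb => ?_⟩
  · obtain ⟨e, rfl⟩ := exists_conj g e
    obtain ⟨f, rfl⟩ := exists_conj g f
    rw [← pair_conj]
    exact mul_mem (mul_mem hg (h.hn e f (ns_cj.1 he) (ns_cj.1 hf))) (inv_mem hg)
  · rw [← h2.conj g]; exact conj_mem_cj.2 (h.h0 z h1 h2 h3)
  · obtain ⟨a, rfl⟩ := exists_conj g a
    obtain ⟨b, rfl⟩ := exists_conj g b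
    obtain ⟨c, rfl⟩ := exists_conj g c
    obtain ⟨e, he, H⟩ := h.g3 a (conj_mem_cj.1 ha) b (conj_mem_cj.1 hb) c (conj_mem_cj.1 hc)
    exact ⟨_, ns_cj.2 he, by simpa only [conj_comm_iff] using H⟩
  · obtain ⟨a, rfl⟩ := exists_conj g a
    obtain ⟨b, rfl⟩ := exists_conj g b
    obtain ⟨e, he, H⟩ := h.g2 a (conj_mem_cj.1 ha) b (conj_mem_cj.1 hb)
    exact ⟨_, sing_cj.2 he, by simpa only [conj_comm_iff] using H⟩
  · rintro ⟨i, h1, h2, h3⟩
    refine ⟨i, by rw [← h2.conj g]; exact ns_cj.2 h1, h2, fun a ha => ?_⟩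
    obtain ⟨a, rfl⟩ := exists_conj g a
    simpa using (h3 a (conj_mem_cj.1 ha)).cj (g := g)
  · obtain ⟨a, rfl⟩ := exists_conj g a
    obtain ⟨b, rfl⟩ := exists_conj g b
    exact (H a (conj_mem_cj.1 ha) b (conj_mem_cj.1 hb)).cj

theorem CS.cj (h : CS R M) (hg : g ∈ M) : CS (cj g R) M := fun x hx m hm h1 => by
  obtain ⟨x, rfl⟩ := exists_conj g x
  obtain ⟨m, rfl⟩ := exists_conj g m
  exact norm_cj (h x (sing_cj.1 hx) m
    ((mul_mem_cancel_left hg).1 ((mul_mem_cancel_right (inv_mem hg)).1 hm)) (conj_comm_iff.1 h1))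

/-- The commutator of `t` and `w`. -/
abbrev dl (t w : Aˣ) : Aˣ := t * w * t⁻¹ * w⁻¹

theorem fx_iff_dl : Fx t w ↔ dl t w = 1 ∨ dl t w = -1 := by
  simp [Fx, mul_inv_eq_iff_eq_mul]

theorem dl_mem (ht : t ∈ normalizer (R : Set Aˣ)) (hw : w ∈ R) : dl t w ∈ R :=
  mul_mem (conj_mem ht hw) (inv_mem hw)

theorem conj_dl (ht : Zc (t * t)) : t * dl t w * t⁻¹ = (dl t w)⁻¹ := by
  rw [show t * dl t w * t⁻¹ = t * t * w * (t * t)⁻¹ * (t * w⁻¹ * t⁻¹) by group,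
    conj_of_comm (ht.comm w)]
  group

theorem comm_conj_iff (ht : Zc (t * t)) : Commute (t * u * t⁻¹) w ↔ Commute u (t * w * t⁻¹) := by
  rw [← conj_comm_iff (g := t), show t * (t * u * t⁻¹) * t⁻¹ = t * t * u * (t * t)⁻¹ by group,
    conj_of_comm (ht.comm u)]

namespace PS

variable (h : PS F R)
include h

theorem dl_dl (ht : t ∈ normalizer (R : Set Aˣ)) (hr : r ∈ R) :
    dl t (dl t r) = dl (t * t) r ∨ dl t (dl t r) = -dl (t * t) r := by
  have hs := conj_mem ht hr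
  have e : dl t (dl t r) = dl (t * t) r * (r * (t * r * t⁻¹)⁻¹ * (r * (t * r * t⁻¹)⁻¹)) := by
    unfold dl; group
  rcases h.sq _ (mul_mem hr (inv_mem hs)) with e' | e' <;> rw [e, e'] <;> simp

theorem fx_dl (ht : t ∈ normalizer (R : Set Aˣ)) (hr : r ∈ R) : Fx t (dl t r) ↔ Fx (t * t) r := by
  rw [fx_iff_dl, fx_iff_dl]
  rcases h.dl_dl ht hr with e | e <;> rw [e]
  rw [neg_eq_iff_eq_neg, neg_inj, or_comm]

theorem sigma0 (hg : g ∈ normalizer (R : Set Aˣ)) (h4 : Zc (g * g * (g * g)))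
    (H : ∀ r ∈ R, Fx (g * g) r → Fx g r) (hr : r ∈ R) : Fx g r := by
  have K : ∀ r ∈ R, Fx g (dl g r) → Fx g r := fun r hr h1 => H r hr ((h.fx_dl hg hr).1 h1)
  have h1 := H _ (dl_mem (mul_mem hg hg) hr) ((h.fx_dl (mul_mem hg hg) hr).2 (.of_comm (h4.comm r)))
  refine K r hr (K _ (dl_mem hg hr) ?_)
  rcases h.dl_dl hg hr with e | e <;> rw [e]
  exacts [h1, h1.neg]

theorem sigma (he : e * e = -1) (h1 : sg e ∈ normalizer (R : Set Aˣ)) : e ∈ R ∨ Zc e := by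
  refine or_iff_not_imp_left.2 fun h2 => ?_
  have K : ∀ r ∈ R, Fx (sg e * sg e) r → Commute e r := fun r hr h3 => by
    rw [sg_sq he] at h3
    have h4 : Fx e r := by simpa using (Fx.of_comm (zc_u2.comm r)).inv_left.mul_left h3
    refine (fx_iff.1 h4).resolve_right fun h5 => h2 ?_
    have := conj_mem h1 hr
    rwa [sg_conj_anti he h5, mul_mem_cancel_right hr] at this
  refine h.zc_of fun r hr => K r hr ?_
  have := h.sigma0 h1 (by
    rw [sg_sq he, sq_mul_of_comm (zc_u2.comm e), he]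
    exact mul_mem (mul_mem zc_u2 zc_u2) zc_neg_one)
    (fun r hr h3 => .of_comm (sg_comm (K r hr h3).symm).symm) hr
  exact this.mul_left this

theorem conj_sq_eq (hr : r ∈ R) (g : Aˣ) : g * r * g⁻¹ * (g * r * g⁻¹) = r * r := by
  rcases h.sq r hr with e | e <;> rw [← conj_mul', e] <;> simp

theorem fx_of_zc (hr : r ∈ R) (h1 : Zc (dl t r)) : Fx t r := h.eq_of_zc h1 (h.conj_sq_eq hr t)

theorem fx_dl' (ht : t ∈ normalizer (R : Set Aˣ)) (h2 : Zc (t * t)) (hw : w ∈ R) :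
    Fx t (dl t w) := (h.fx_dl ht hw).2 (.of_comm (h2.comm w))

theorem comm_dl (ht : t ∈ normalizer (R : Set Aˣ)) (hw : w ∈ R) (hu : u ∈ R) :
    Commute u (dl t w) ↔ (Commute u (t * w * t⁻¹) ↔ Commute u w) := by
  rw [h.comm_mul' (conj_mem ht hw) (inv_mem hw) hu, Commute.inv_right_iff]

theorem lemE (ht : t ∈ normalizer (R : Set Aˣ)) (h2 : Zc (t * t)) (hd : d ∈ R) (h3 : Commute t d)
    (H : ∀ a ∈ R, NA R a d) : ∃ v ∈ R, Commute v t ∧ Commute v d ∧ ¬ InZ d v := by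
  by_contra! H1
  obtain ⟨a, ha, h4⟩ : ∃ a ∈ R, ∀ r ∈ R, Commute r d → Fx t r → InZ d r ∨ InZ d (r * a) := by
    by_cases h4 : ∃ a ∈ R, Commute a d ∧ a * t = -(t * a)
    · obtain ⟨a, ha, a1, a2⟩ := h4
      exact ⟨a, ha, fun r hr r1 r2 => (fx_iff.1 r2.symm).imp (fun e => H1 r hr e r1) fun e =>
        H1 _ (mul_mem hr ha) (comm_mul_anti e a2) (r1.mul_left a1)⟩
    · exact ⟨1, one_mem _, fun r hr r1 r2 => .inl (H1 r hr
        ((fx_iff.1 r2.symm).resolve_right fun e => h4 ⟨r, hr, r1, e⟩) r1)⟩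
  obtain ⟨u, hu, v, hv, u1, u2, v1, v2, h5⟩ := H a ha
  have key : ∀ r ∈ R, Commute r d → Fx t r → ∀ u, Commute u a → Commute u d → Commute r u :=
    fun r hr r1 r2 u u1 u2 => (h4 r hr r1 r2).elim (fun e => e.comm u2.symm) fun e => by
      simpa using (e.comm u2.symm).mul_left u1.symm.inv_left
  refine h5 (key u hu u2 (h.fx_of_zc hu (h.zc_of fun w hw => ?_)) v v1 v2)
  have h6 := (key _ (dl_mem ht hw) ((h.comm_dl ht hw hd).2 (by
    rw [← comm_conj_iff h2, conj_of_comm h3])).symm (h.fx_dl' ht h2 hw) u u1 u2).symm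
  rw [h.comm_dl ht hw hu] at h6
  rw [h.comm_mul (conj_mem ht hu) (inv_mem hu) hw, comm_conj_iff h2, Commute.inv_left_iff]
  exact h6

theorem ns_dl (ht : t ∈ normalizer (R : Set Aˣ)) (hw : w ∈ R) (h1 : ¬ Commute w (t * w * t⁻¹)) :
    Ns R (dl t w) := ⟨dl_mem ht hw, by
  rw [sq_mul_of_anti (anti_symm (anti_inv (h.anti hw (conj_mem ht hw) h1))), h.conj_sq_eq hw]
  simp [mul_assoc]⟩

theorem tv_case (ht : t ∈ normalizer (R : Set Aˣ)) (h2 : Zc (t * t))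
    (H : ∀ w ∈ R, Commute w (t * w * t⁻¹) → Fx t w) (hw : w ∈ R) (h3 : ¬ Fx t w) (hu : u ∈ R)
    (h4 : Commute u (dl t w)) : Fx t u := by
  by_contra h5
  have hu' := conj_mem ht hu
  have hw' := conj_mem ht hw
  have a1 := mt (H u hu) h5
  have a2 := mt (H w hw) h3
  rw [h.comm_dl ht hw hu] at h4
  have a3 : Commute w (t * u * t⁻¹) ↔ Commute u (t * w * t⁻¹) := by
    rw [← comm_conj_iff h2, Commute.symm_iff]
  have a4 := H _ (mul_mem hu hw) (by
    rw [conj_mul', h.comm_mul hu hw (mul_mem hu' hw'), h.comm_mul' hu' hw' hu,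
      h.comm_mul' hu' hw' hw]
    tauto)
  have a5 : Commute u (t * (u * w) * t⁻¹) ↔ Commute u (u * w) := by
    rcases a4 with e | e <;> simp [e]
  rw [conj_mul', h.comm_mul' hu' hw' hu, h.comm_mul' hu hw hu] at a5
  have := Commute.refl u
  tauto

theorem ns_of_anti {H : Subgroup Aˣ} (hH : H ≤ R) (hu : u ∈ H) (hv : v ∈ H) (h1 : ¬ Commute u v) :
    ∃ e ∈ H, ∃ f ∈ H, e * e = -1 ∧ ¬ Commute e f := by
  rcases h.sq u (hH hu) with e | e
  · rcases h.sq v (hH hv) with e' | e'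
    · exact ⟨u * v, mul_mem hu hv, v, hv, by
        rw [sq_mul_of_anti (h.anti (hH hu) (hH hv) h1), e, e', one_mul],
        by simpa [h.comm_mul (hH hu) (hH hv) (hH hv)] using h1⟩
    · exact ⟨v, hv, u, hu, e', mt Commute.symm h1⟩
  · exact ⟨u, hu, v, hv, e, h1⟩

end PS

theorem Good.mem_of_fx (h : Good F R M) (ht : t ∈ M) (h1 : t * t = 1 ∨ t * t = -1)
    (H : ∀ r ∈ R, Fx t r) : t ∈ R := by
  obtain ⟨r, hr, h2⟩ := h.exists_zc H
  have h3 : Commute t r := by simpa using ((h2.comm r).mul_left (Commute.refl r).inv_left)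
  refine (mul_mem_cancel_right hr).1 ?_
  have h4 : t * r * (t * r) = 1 ∨ t * r * (t * r) = -1 := by
    rw [sq_mul_of_comm h3]
    rcases h1 with e | e <;> rcases h.sq r hr with e' | e' <;> simp [e, e']
  rcases h4 with e | e
  · rcases h.zc_sq h2 e with e | e <;> rw [e]
    exacts [one_mem _, h.neg]
  · exact h.h0 _ (mul_mem ht (h.le hr)) h2 e

variable (F) in
/-- Two Pauli systems without common involution. -/
structure Two (R R' M : Subgroup Aˣ) : Prop where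
  g : Good F R M
  g' : Good F R' M
  c : CS R M
  c' : CS R' M
  ti : ∀ y, Sing R y → y ∉ R'

namespace Two

variable (h : Two F R R' M)
include h

theorem symm : Two F R' R M :=
  ⟨h.g', h.g, h.c', h.c, fun y hy hy' => h.ti y ⟨hy', hy.sq, hy.nc⟩ hy.mem⟩

theorem lemD (ht : Sing R' t) (h1 : t ∈ normalizer (R : Set Aˣ)) (hd : Ns R d) (hd' : d ∈ R')
    (h2 : Commute t d) (H : ∀ a ∈ R, NA R a d) : False := by
  obtain ⟨v, hv, v1, v2, v3⟩ := h.g.lemE h1 (ht.sq ▸ one_mem _) hd.mem h2 H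
  have key : ∀ e, Ns R e → Commute t e → ¬ Zc e → e ∈ R' := fun e he e1 e2 => by
    have := h.c' t ht _ (h.g.hn e d he hd) (pair_comm e1 h2)
    rw [pair, mul_mem_cancel_right (h.g'.sg_norm ⟨hd', hd.sq⟩),
      mul_mem_cancel_left (zc_norm (inv_mem zc_u2))] at this
    exact (h.g'.sigma he.sq this).resolve_right e2
  rcases h.g.sq v hv with e | e
  · refine h.ti v ⟨hv, e, fun e => v3 (.inl e)⟩ ((mul_mem_cancel_right hd').1 (key _ ?_
      (v1.symm.mul_right h2) fun e => v3 (.inr e)))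
    exact v2.eq ▸ hd.mul_one hv e v2.symm
  · exact h.ti (v * d) ⟨mul_mem hv hd.mem, Ns.mul_sq ⟨hv, e⟩ hd v2, fun e => v3 (.inr e)⟩
      (mul_mem (key v ⟨hv, e⟩ v1.symm fun e => v3 (.inl e)) hd')

theorem fx_of (hR : ∀ a ∈ R, ∀ b ∈ R, NA R a b) (ht : Sing R' t) (h1 : t ∈ normalizer (R : Set Aˣ))
    (ha : a ∈ R) (h2 : Commute t a) (hr : r ∈ R') (h3 : r ∈ normalizer (R : Set Aˣ)) : Fx a r := by
  have c1 : dl a r ∈ R' := dl_mem (h.c' t ht a (h.g.le ha) h2) hr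
  have c2 : dl a r ∈ R := by simpa [mul_assoc] using mul_mem ha (conj_mem h3 (inv_mem ha))
  have c3 : Commute t (dl a r) := comm_of_conj (by
    rw [conj_mul', conj_mul', conj_mul', conj_of_comm h2, conj_of_comm h2.inv_right,
      show t * r⁻¹ * t⁻¹ = (t * r * t⁻¹)⁻¹ by group]
    rcases h.g'.fx ht.mem hr with e | e <;> simp [e])
  rcases h.g.sq _ c2 with e | e
  · exact fx_iff_dl.2 (h.g.zc_sq (by_contra fun e' => h.ti _ ⟨c2, e, e'⟩ c1) e)
  · exact (h.lemD ht h1 ⟨c2, e⟩ c1 c3 fun a ha => hR a ha _ c2).elim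

theorem lemA (hR : ∀ a ∈ R, ∀ b ∈ R, NA R a b) (ht : Sing R' t) (h1 : t ∈ normalizer (R : Set Aˣ))
    (he : Ns R e) (hf : Ns R f) (h2 : Commute e f) (h3 : Commute t e) (h4 : Commute t f)
    (h5 : ¬ Zc (e * f)) : False := by
  have hy : Sing R (e * f) := ⟨mul_mem he.mem hf.mem, he.mul_sq hf h2, h5⟩
  have hg := h.c' t ht _ (h.g.hn e f he hf) (pair_comm h3 h4)
  have D : ∀ d, Ns R d → Commute t d → d ∉ R' := fun d hd d1 d2 =>
    h.lemD ht h1 hd d2 d1 fun a ha => hR a ha _ hd.mem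
  have K : ∀ r ∈ R', Fx (pair e f * pair e f) r → Commute e r ∧ Commute f r := fun r hr r1 => by
    rw [pair_sq he.sq hf.sq h2] at r1
    have r2 := h.g.ti h.c (h.g'.le hr) hy (by
      rcases r1.symm with e | e <;> rw [e]
      exacts [hy.mem, h.g.neg_mem hy.mem])
    have r3 := conj_mem hg hr
    rw [conj_pair] at r3
    rcases fx_iff.1 (h.fx_of hR ht h1 he.mem h3 hr r2) with a | a <;>
      rcases fx_iff.1 (h.fx_of hR ht h1 hf.mem h4 hr r2) with b | b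
    · exact ⟨a, b⟩
    · rw [sg_conj_anti hf.sq b, sg_conj_comm (h2.mul_right a), mul_mem_cancel_right hr] at r3
      exact (D f hf h4 r3).elim
    · rw [sg_conj_comm b, sg_conj_anti he.sq a, mul_mem_cancel_right hr] at r3
      exact (D e he h3 r3).elim
    · rw [sg_conj_anti hf.sq b, sg_conj_anti he.sq (anti_symm (anti_mul_right h2.symm
        (anti_symm a))), ← mul_assoc, mul_mem_cancel_right hr] at r3
      exact (h.ti _ hy r3).elim
  have h6 : Zc e := h.g'.zc_of fun r hr => by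
    have := h.g'.sigma0 hg (by rw [pair_sq he.sq hf.sq h2, hy.sq]; exact one_mem _)
      (fun r hr r1 => .of_comm (pair_comm (K r hr r1).1.symm (K r hr r1).2.symm).symm) hr
    exact (K r hr (this.mul_left this)).1
  exact D e he h3 (h.g'.h0 e (h.g.le he.mem) h6 he.sq)

theorem exists_sing (hR : ∀ a ∈ R, ∀ b ∈ R, NA R a b) (ht : Sing R' t)
    (h1 : t ∈ normalizer (R : Set Aˣ)) : ∃ w ∈ R, Commute w (t * w * t⁻¹) ∧ ¬ Fx t w := by
  by_contra! H
  have h2 : Zc (t * t) := ht.sq ▸ one_mem _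
  obtain ⟨w, hw, w1⟩ : ∃ w ∈ R, ¬ Fx t w := by
    by_contra! H1
    exact h.symm.ti t ht (h.g.mem_of_fx (h.g'.le ht.mem) (.inl ht.sq) H1)
  have hs := h.g.ns_dl h1 hw (mt (H w hw) w1)
  have s1 : t * dl t w = -(dl t w * t) := anti_of_conj (by rw [conj_dl h2, inv_of_sq_neg hs.sq])
  have s2 := fun u => h.g.tv_case (u := u) h1 h2 H hw w1
  set s := dl t w
  have step : ∀ a ∈ R, Commute s a → ∃ e, Ns R e ∧ ∃ f ∈ R, ¬ Commute e f ∧ Commute t e ∧
      Commute s e ∧ Commute a e ∧ Commute a f := fun a ha a1 => by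
    obtain ⟨u, hu, v, hv, u1, u2, v1, v2, uv⟩ := hR s hs.mem a ha
    have adj : ∀ u ∈ R, Commute u s → Commute u a → ∃ u' ∈ R ⊓ centralizer {t, s, a},
        ∀ v ∈ R, Commute s v → (Commute u' v ↔ Commute u v) := fun u hu u1 u2 => by
      rcases fx_iff.1 (s2 u hu u1) with e | e
      · exact ⟨u, ⟨hu, by simp [mem_centralizer_iff, e.eq, u1.eq, u2.eq]⟩, fun _ _ _ => Iff.rfl⟩
      · refine ⟨u * s, ⟨mul_mem hu hs.mem, ?_⟩, fun v hv v1 => by simp [h.g.comm_mul hu hs.mem hv, v1]⟩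
        simp [mem_centralizer_iff, (comm_mul_anti (anti_symm e) (anti_symm s1)).eq,
          (u1.mul_left (Commute.refl s)).eq, (u2.mul_left a1).eq]
    obtain ⟨u', hu', u3⟩ := adj u hu u1 u2
    obtain ⟨v', hv', v3⟩ := adj v hv v1 v2
    obtain ⟨e, he, f, hf, e1, e2⟩ := h.g.ns_of_anti inf_le_left hu' hv' (by
      rw [u3 v' hv'.1 (hv'.2 s (by simp)), Commute.symm_iff, v3 u hu u1.symm]
      exact mt Commute.symm uv)
    exact ⟨e, ⟨he.1, e1⟩, f, hf.1, e2, he.2 t (by simp), he.2 s (by simp), he.2 a (by simp),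
      hf.2 a (by simp)⟩
  obtain ⟨e, he, -, -, -, e1, e2, -⟩ := step 1 (one_mem _) (Commute.one_right s)
  obtain ⟨e', he', f, hf, f1, f2, -, f3, f4⟩ := step e he.mem e2
  exact h.lemA hR ht h1 he he' f3 e1 f2 fun z => f1 (by simpa using f4.inv_left.mul_left (z.comm f))

theorem fusion_pm (hR : ∀ a ∈ R, ∀ b ∈ R, NA R a b) (hR' : ∀ a ∈ R', ∀ b ∈ R', NA R' a b)
    (ht : Sing R' t) (h1 : t ∈ normalizer (R : Set Aˣ)) : False := by
  obtain ⟨w, hw, w1, w2⟩ := h.exists_sing hR ht h1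
  have h2 : Zc (t * t) := ht.sq ▸ one_mem _
  obtain ⟨b, hb⟩ : ∃ b, b = w⁻¹ * (t * w * t⁻¹) := ⟨_, rfl⟩
  have b0 : t * w * t⁻¹ = w * b := by rw [hb, mul_inv_cancel_left]
  have b1 : Commute b w := hb ▸ (Commute.refl w).inv_left.mul_left w1.symm
  have b2 : b * b = 1 := by
    rw [hb, sq_mul_of_comm w1.inv_left, h.g.conj_sq_eq hw]; group
  have b3 : Sing R b := ⟨hb ▸ mul_mem (inv_mem hw) (conj_mem h1 hw), b2, fun z => w2 (by
    rw [Fx, b0]; rcases h.g.zc_sq z b2 with e | e <;> simp [e])⟩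
  have b4 : Commute t b := comm_of_conj (by
    rw [← inv_of_sq_one b2, hb, show t * (w⁻¹ * (t * w * t⁻¹))⁻¹ * t⁻¹ =
      (t * t * w * (t * t)⁻¹)⁻¹ * (t * w * t⁻¹) by simp [mul_assoc], conj_of_comm (h2.comm w), ← hb,
      inv_of_sq_one b2])
  have b5 := h.c' t ht b (h.g.le b3.mem) b4
  have hc := h.c' t ht _ (memM (h.g.ctl_mem b3.mem b2 hw b1)) (comm_of_conj (by
    rw [ctl_conj, b0, conj_of_comm b4]
    exact ctl_congr b2 (b1.mul_right (Commute.refl b)) b1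
      (by simpa using (eo_self b2).mul_left (P_comm b1))))
  obtain ⟨v, hv, v1, v2, v3⟩ := h.g'.lemE b5 (b2 ▸ one_mem _) ht.mem b4.symm
    fun a ha => hR' a ha _ ht.mem
  rcases h.g'.sq v hv with e | e
  swap
  · exact h.symm.lemA hR' b3 b5 ⟨hv, e⟩ (Ns.mul_one ⟨hv, e⟩ ht.mem ht.sq v2)
      ((Commute.refl v).mul_right v2) v1.symm (v1.symm.mul_right b4.symm)
      (by rw [← mul_assoc, e, neg_one_mul, zc_neg_iff]; exact ht.nc)
  have hu : dl w v ∈ R := by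
    simpa [mul_assoc] using mul_mem hw (conj_mem (h.c b b3 v (h.g'.le hv) v1.symm) (inv_mem hw))
  have u1 : Commute b (dl w v) := ((b1.mul_right v1.symm).mul_right b1.inv_right).mul_right
    v1.symm.inv_right
  have hs := dl_mem hc hv
  have s1 : dl (ctl b w) v = ctl b (dl w v) := by
    rw [dl, mul_assoc, mul_assoc, ← mul_assoc v, ctl_inv b2 b1, ctl_conj, conj_of_comm v1,
      ctl_mul b2 b1 ((v1.symm.mul_right b1.inv_right).mul_right v1.symm.inv_right)]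
    simp only [dl, mul_assoc]
  rw [s1] at hs
  have s2 := ctl_ng b2 u1
  have bn := (b3.neg h.g.toPS).P_ne
  have s3 : ctl b (dl w v) * ctl b (dl w v) = 1 := by
    simpa using h.g'.eo_sq bn s2 (Commute.one_right _) (h.g'.sq _ hs) (one_mem _)
  by_cases s4 : Zc (ctl b (dl w v))
  swap
  · obtain ⟨d, hd, d1, d2, -⟩ := h.g.g3 b b3.mem _ hu _ hu
    have d3 := (blk_comm d1 d2 (Commute.one_right d)).symm
    exact h.lemA hR ⟨hs, s3, s4⟩ (memN (h.g.ctl_mem b3.mem b2 hu u1)) hd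
      (hd.mul_one b3.mem b2 d1) ((Commute.refl d).mul_right d1) d3
      (d3.mul_right (ctl_comm_self u1).symm)
      (by rw [← mul_assoc, hd.sq, neg_one_mul, zc_neg_iff]; exact b3.nc)
  have s5 := ctl_pos b2 u1
  rw [eo_sign bn s2 (h.g.zc_sq s4 s3) (.inl rfl)] at s5
  have fin : ∀ t', Sing R' t' → Commute t' w → False := fun t' ht' t1 => h.ti b b3 (by
    have := mul_mem (conj_mem (inv_mem (h.c' t' ht' w (h.g.le hw) t1)) ht.mem) (inv_mem ht.mem)
    rwa [show w⁻¹ * t * w⁻¹⁻¹ * t⁻¹ = b by rw [hb]; group] at this)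
  rcases h.g.eq_of_eo b3 hu s5.symm with u2 | u2
  · exact fin v ⟨hv, e, fun z => v3 (.inl z)⟩ (comm_of_conj (mul_inv_eq_one.1 u2)).symm
  · refine fin (v * t) ⟨mul_mem hv ht.mem, by rw [sq_mul_of_comm v2, e, ht.sq, one_mul],
      fun z => v3 (.inr z)⟩ (comm_of_conj ?_)
    rw [show v * t * w * (v * t)⁻¹ = v * (t * w * t⁻¹) * v⁻¹ by group, b0, conj_mul',
      conj_of_comm v1, show v * w * v⁻¹ = (dl w v)⁻¹ * w by group, u2, b1.inv_left.eq,
      inv_mul_cancel_right]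

theorem fusion (ht : Sing R' t) (h1 : t ∈ normalizer (R : Set Aˣ)) : False := by
  rcases h.g.g5 with ⟨i, hi, i1, H⟩ | hR
  · refine h.lemD ht h1 hi (h.g'.h0 i (h.g.le hi.mem) i1 hi.sq) (i1.comm t).symm fun a ha => ?_
    obtain ⟨u, hu, v, hv, u1, -, v1, -, uv⟩ := H a ha
    exact ⟨u, hu, v, hv, u1, (i1.comm u).symm, v1, (i1.comm v).symm, uv⟩
  rcases h.g'.g5 with ⟨i, hi, i1, -⟩ | hR'
  · have := h.g.h0 i (h.g'.le hi.mem) i1 hi.sq
    exact h.lemD ht h1 ⟨this, hi.sq⟩ hi.mem (i1.comm t).symm fun a ha => hR a ha i this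
  · exact h.fusion_pm hR hR' ht h1

end Two

theorem Good.fusion (h : Good F R M) (hc : CS R M) (hg : g ∈ M) (hx : Sing R x)
    (h1 : g * x * g⁻¹ ∈ normalizer (R : Set Aˣ)) : g ∈ normalizer (R : Set Aˣ) := by
  by_contra h2
  refine Two.fusion ⟨h, h.cj hg, hc, hc.cj hg, fun y hy hy' => h2 ?_⟩ (sing_cj.2 hx) h1
  obtain ⟨y, rfl⟩ := exists_conj g y
  exact h.ti hc hg (sing_cj.1 ⟨hy', hy.sq, hy.nc⟩) hy.mem

end CL.C6
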