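import Cfsg.Agent.CLAS.TvStab
import Cfsg.Agent.CLAS.ExtFGL
import Cfsg.Agent.CLAS.AutInd

/-!
# Stabilisers of coordinate subspaces in `GL_n`

`cs n k F` is the span of the first `k` coordinate vectors.
-/

set_option autoImplicit false

namespace CL.Coord

open Matrix Module Cfsg Cfsg.Geo CL.Tv

variable {F : Type*} [Field F]

/-- The span of the first `k` coordinate vectors. -/
def cs (n k : ℕ) (F : Type*) [Field F] : Submodule F (Fin n → F) where
  carrier := {v : Fin n → F | ∀ i : Fin n, k ≤ (i : ℕ) → v i = 0}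
  add_mem' {a b} ha hb := fun i hi => by simp [ha i hi, hb i hi]
  zero_mem' := fun _ _ => rfl
  smul_mem' c {a} ha := fun i hi => by simp [ha i hi]

theorem mem_cs {n k : ℕ} {v : Fin n → F} : v ∈ cs n k F ↔ ∀ i : Fin n, k ≤ (i : ℕ) → v i = 0 := Iff.rfl

theorem stab_eq (n k : ℕ) :
    Cfsg.stabilizing (Cfsg.glToMat (Fin n) F) {v : Fin n → F | ∀ i : Fin n, k ≤ (i : ℕ) → v i = 0}
      = subspaceStabilizer (cs n k F) := rfl

theorem single_mem_cs {n k : ℕ} {j : Fin n} (hj : (j : ℕ) < k) (c : F) : Pi.single j c ∈ cs n k F := by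
  intro i hi
  have : i ≠ j := by rintro rfl; omega
  simp [this]

theorem mem_stab_cs {n k : ℕ} {g : GL (Fin n) F} :
    g ∈ subspaceStabilizer (cs n k F) ↔
      ∀ i j : Fin n, k ≤ (i : ℕ) → (j : ℕ) < k → (g : Matrix (Fin n) (Fin n) F) i j = 0 := by
  rw [mem_stab_iff]
  constructor
  · intro h i j hi hj
    have := h _ (single_mem_cs hj (1 : F)) i hi
    rw [act_apply, mulVec_single_one] at this
    exact this
  · intro h v hv i hi
    rw [act_apply]
    simp only [mulVec, dotProduct]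
    refine Finset.sum_eq_zero fun j _ => ?_
    by_cases hj : (j : ℕ) < k
    · rw [h i j hi hj, zero_mul]
    · rw [hv j (by omega), mul_zero]

theorem cs_ne_bot {n k : ℕ} (hk0 : 0 < k) (hkn : k < n) : cs n k F ≠ ⊥ := by
  intro h
  have := single_mem_cs (F := F) (n := n) (k := k) (j := ⟨0, by omega⟩) hk0 1
  rw [h, Submodule.mem_bot] at this
  have h2 := congrFun this ⟨0, by omega⟩
  simp at h2

theorem cs_ne_top {n k : ℕ} (hkn : k < n) : cs n k F ≠ ⊤ := by
  intro h
  have : (fun _ => (1 : F)) ∈ cs n k F := by rw [h]; trivial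
  exact one_ne_zero (this ⟨k, hkn⟩ le_rfl)

theorem finrank_cs {n k : ℕ} (hk : k ≤ n) : finrank F (cs n k F) = k := by
  let e : cs n k F ≃ₗ[F] (Fin k → F) :=
    { toFun := fun v i => v.1 (Fin.castLE hk i)
      map_add' := fun _ _ => rfl
      map_smul' := fun _ _ => rfl
      invFun := fun w => ⟨fun i => if h : (i : ℕ) < k then w ⟨i, h⟩ else 0, fun i hi => dif_neg (by omega)⟩
      left_inv := fun v => by
        ext i
        by_cases h : (i : ℕ) < k
        · simp only [dif_pos h]; rfl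
        · simp only [dif_neg h]; exact (v.2 i (by omega)).symm
      right_inv := fun w => by
        ext i
        have : ((Fin.castLE hk i : Fin n) : ℕ) < k := i.2
        simp only [dif_pos this]
        rfl }
  rw [e.finrank_eq]
  simp

section Gen
variable {ι : Type} [Fintype ι] [DecidableEq ι]

theorem stab_isCoatom {W : Submodule F (ι → F)} (hW0 : W ≠ ⊥) (hW1 : W ≠ ⊤)
    (hd : ∀ c : F, c ≠ 0 → ∃ g ∈ subspaceStabilizer W, (g : Matrix ι ι F).det = c) :
    IsCoatom (subspaceStabilizer W) := by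
  constructor
  · intro h
    exact not_SL_le_stab hW0 hW1 (h ▸ le_top)
  · intro K hK
    obtain ⟨g, hg, hg2⟩ := SetLike.exists_of_lt hK
    refine CL.ExtF.eq_top_of_SL_le (SL_le_of_stab_lt (inf_le_left.trans hK.le) hg hg2) fun c hc => ?_
    obtain ⟨g, hg, hgc⟩ := hd c hc
    exact ⟨g, hK.le hg, hgc⟩

theorem map_conj_stab (W : Submodule F (ι → F)) (g : GL ι F) :
    (subspaceStabilizer W).map (MulAut.conj g).toMonoidHom
      = subspaceStabilizer (W.map (act g : (ι → F) →ₗ[F] (ι → F))) := by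
  ext h
  constructor
  · rintro ⟨x, hx, rfl⟩
    rw [mem_stab_iff]
    rintro _ ⟨w, hw, rfl⟩
    refine ⟨act x w, mem_stab_iff.1 hx w hw, ?_⟩
    show act g (act x w) = act (g * x * g⁻¹) (act g w)
    rw [act_mul, act_mul, act_inv_act]
  · intro hh
    refine ⟨g⁻¹ * h * g, ?_, by simp [mul_assoc]⟩
    show g⁻¹ * h * g ∈ subspaceStabilizer W
    rw [mem_stab_iff] at hh ⊢
    intro w hw
    obtain ⟨w', hw', e⟩ := hh (act g w) ⟨w, hw, rfl⟩
    rw [act_mul, act_mul, ← e]
    show act g⁻¹ (act g w') ∈ W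
    rw [act_inv_act]
    exact hw'

theorem le_of_stab_le {W U : Submodule F (ι → F)}
    (h : subspaceStabilizer W = subspaceStabilizer U) : W ≤ U ∨ U ≤ W := by
  by_contra hc
  push Not at hc
  obtain ⟨x, hxW, hxU⟩ := SetLike.not_le_iff_exists.1 hc.1
  obtain ⟨u, huU, huW⟩ := SetLike.not_le_iff_exists.1 hc.2
  obtain ⟨φ, hφu, hφW⟩ := exists_dual_one W huW
  have h1 := tv_mem_stab_of_mem (W := W) (hφW x hxW) hxW
  rw [h] at h1
  exact tv_not_mem_stab (hφW x hxW) hxU huU (by rw [hφu]; exact one_ne_zero) h1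

theorem not_lt_of_stab_eq {W U : Submodule F (ι → F)} (hW0 : W ≠ ⊥)
    (h : subspaceStabilizer W = subspaceStabilizer U) (hlt : W < U) : False := by
  obtain ⟨u, huU, huW⟩ := SetLike.exists_of_lt hlt
  obtain ⟨w, hwW, hw0⟩ := Submodule.exists_mem_ne_zero_of_ne_bot hW0
  have hw : w ∉ Submodule.span F {u} := by
    intro hw
    obtain ⟨c, rfl⟩ := Submodule.mem_span_singleton.1 hw
    have hc : c ≠ 0 := by rintro rfl; simp at hw0
    exact huW (by simpa [hc] using W.smul_mem c⁻¹ hwW)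
  obtain ⟨φ, hφw, hφu⟩ := exists_dual_one_zero hw
  have h1 := tv_mem_stab_of_mem (W := U) hφu huU
  rw [← h] at h1
  exact tv_not_mem_stab hφu huW hwW (by rw [hφw]; exact one_ne_zero) h1

theorem eq_of_stab_eq {W U : Submodule F (ι → F)} (hW0 : W ≠ ⊥) (hU0 : U ≠ ⊥)
    (h : subspaceStabilizer W = subspaceStabilizer U) : W = U := by
  by_contra hne
  rcases le_of_stab_le h with h1 | h1
  · exact not_lt_of_stab_eq hW0 h (lt_of_le_of_ne h1 hne)
  · exact not_lt_of_stab_eq hU0 h.symm (lt_of_le_of_ne h1 (Ne.symm hne))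

end Gen

theorem cs_isCoatom {n k : ℕ} (hk0 : 0 < k) (hkn : k < n) : IsCoatom (subspaceStabilizer (cs n k F)) := by
  refine stab_isCoatom (cs_ne_bot hk0 hkn) (cs_ne_top hkn) fun c hc => ?_
  let z : Fin n := ⟨0, by omega⟩
  have hdet : (Matrix.diagonal (Function.update (fun _ => (1 : F)) z c)).det = c := by
    rw [Matrix.det_diagonal, Finset.prod_update_of_mem (Finset.mem_univ z)]
    simp
  refine ⟨Matrix.GeneralLinearGroup.mkOfDetNeZero _ (hdet.symm ▸ hc), mem_stab_cs.2 fun i j hi hj => ?_, hdet⟩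
  have : i ≠ j := by rintro rfl; omega
  exact Matrix.diagonal_apply_ne _ this

/-- Inverse-transpose followed by the reversal of coordinates. -/
def dualRev (n : ℕ) (F : Type*) [Field F] : GL (Fin n) F ≃* GL (Fin n) F :=
  (CL.AutInd.invT (Fin n) F).trans (glReindex Fin.revPerm)

theorem dualRev_apply {n : ℕ} (g : GL (Fin n) F) (i j : Fin n) :
    ((dualRev n F g : GL (Fin n) F) : Matrix (Fin n) (Fin n) F) i j
      = ((g⁻¹ : GL (Fin n) F) : Matrix (Fin n) (Fin n) F) j.rev i.rev := rfl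

theorem dualRev_mem {n k : ℕ} (hk : k ≤ n) (g : GL (Fin n) F) :
    dualRev n F g ∈ subspaceStabilizer (cs n (n - k) F) ↔ g ∈ subspaceStabilizer (cs n k F) := by
  rw [← inv_mem_iff (x := g), mem_stab_cs, mem_stab_cs]
  constructor
  · intro h i j hi hj
    have := h j.rev i.rev (by rw [Fin.val_rev]; omega) (by rw [Fin.val_rev]; omega)
    rwa [dualRev_apply, Fin.rev_rev, Fin.rev_rev] at this
  · intro h i j hi hj
    rw [dualRev_apply]
    exact h _ _ (by rw [Fin.val_rev]; omega) (by rw [Fin.val_rev]; omega)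

theorem map_dualRev {n k : ℕ} (hk : k ≤ n) :
    (subspaceStabilizer (cs n k F)).map (dualRev n F).toMonoidHom = subspaceStabilizer (cs n (n - k) F) := by
  ext g
  constructor
  · rintro ⟨x, hx, rfl⟩
    exact (dualRev_mem hk x).2 hx
  · intro hg
    refine ⟨(dualRev n F).symm g, (dualRev_mem hk _).1 ?_, (dualRev n F).apply_symm_apply g⟩
    rwa [MulEquiv.apply_symm_apply]

section Card
variable {α β : Type} [Fintype α] [DecidableEq α] [Fintype β] [DecidableEq β]

/-- Block upper triangular invertible matrices. -/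
noncomputable def blockEquiv :
    {g : GL (α ⊕ β) F // (g : Matrix (α ⊕ β) (α ⊕ β) F).toBlocks₂₁ = 0} ≃ GL α F × GL β F × Matrix α β F := by
  refine Equiv.symm (Equiv.ofBijective (fun p => ⟨Matrix.GeneralLinearGroup.mkOfDetNeZero
    (Matrix.fromBlocks (p.1 : Matrix α α F) p.2.2 0 (p.2.1 : Matrix β β F)) ?_, ?_⟩) ⟨?_, ?_⟩)
  · rw [Matrix.det_fromBlocks_zero₂₁]
    exact mul_ne_zero p.1.det_ne_zero p.2.1.det_ne_zero
  · exact Matrix.toBlocks_fromBlocks₂₁ _ _ _ _
  · rintro ⟨a, d, b⟩ ⟨a', d', b'⟩ h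
    have h1 : Matrix.fromBlocks (a : Matrix α α F) b 0 (d : Matrix β β F)
        = Matrix.fromBlocks (a' : Matrix α α F) b' 0 (d' : Matrix β β F) :=
      congrArg (fun x => ((x.1 : GL (α ⊕ β) F) : Matrix (α ⊕ β) (α ⊕ β) F)) h
    obtain ⟨h1, h2, -, h4⟩ := Matrix.fromBlocks_inj.1 h1
    rw [Units.ext h1, Units.ext h4, h2]
  · rintro ⟨g, hg⟩
    have h1 := Matrix.fromBlocks_toBlocks (g : Matrix (α ⊕ β) (α ⊕ β) F)
    rw [hg] at h1
    have h2 := g.det_ne_zero
    rw [← h1, Matrix.det_fromBlocks_zero₂₁] at h2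
    refine ⟨(Matrix.GeneralLinearGroup.mkOfDetNeZero _ (left_ne_zero_of_mul h2),
      Matrix.GeneralLinearGroup.mkOfDetNeZero _ (right_ne_zero_of_mul h2), (g : Matrix (α ⊕ β) (α ⊕ β) F).toBlocks₁₂), ?_⟩
    exact Subtype.ext (Units.ext h1)

end Card

theorem card_stab_cs [Fintype F] {n k : ℕ} (hk : k ≤ n) :
    Nat.card (subspaceStabilizer (cs n k F)) = Nat.card (GL (Fin k) F) * Nat.card (GL (Fin (n - k)) F)
      * Fintype.card F ^ (k * (n - k)) := by
  let e : Fin k ⊕ Fin (n - k) ≃ Fin n := finSumFinEquiv.trans (finCongr (by omega))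
  have el : ∀ a : Fin k, ((e (Sum.inl a) : Fin n) : ℕ) = a := fun a => rfl
  have er : ∀ b : Fin (n - k), ((e (Sum.inr b) : Fin n) : ℕ) = k + b := fun b => rfl
  let E : {g : GL (Fin k ⊕ Fin (n - k)) F //
      (g : Matrix (Fin k ⊕ Fin (n - k)) (Fin k ⊕ Fin (n - k)) F).toBlocks₂₁ = 0}
      ≃ subspaceStabilizer (cs n k F) := by
    refine Equiv.subtypeEquiv (glReindex e).toEquiv fun g => ?_
    rw [mem_stab_cs]
    constructor
    · intro h i j hi hj
      obtain ⟨i, rfl⟩ := e.surjective i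
      obtain ⟨j, rfl⟩ := e.surjective j
      show (g : Matrix _ _ F) (e.symm (e i)) (e.symm (e j)) = 0
      rw [e.symm_apply_apply, e.symm_apply_apply]
      rcases i with a | b
      · rw [el] at hi; have := a.2; omega
      rcases j with a' | b'
      · exact congrFun (congrFun h b) a'
      · rw [er] at hj; omega
    · intro h
      ext b a
      have := h (e (Sum.inr b)) (e (Sum.inl a)) (by rw [er]; omega) (by rw [el]; exact a.2)
      change (g : Matrix _ _ F) (e.symm (e _)) (e.symm (e _)) = 0 at this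
      rw [e.symm_apply_apply, e.symm_apply_apply] at this
      exact this
  rw [← Nat.card_congr E, Nat.card_congr blockEquiv, Nat.card_prod, Nat.card_prod, mul_assoc]
  congr 2
  show Nat.card (Fin k → Fin (n - k) → F) = _
  rw [Nat.card_fun, Nat.card_fun, Nat.card_eq_fintype_card, ← pow_mul, mul_comm]
  simp

end CL.Coord
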