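import Mathlib
import Cfsg.Agent.CLAS.Sp4O1

/-!
# Planes, quarter turns, determinants; a line fixed by a `2`-group
-/

set_option linter.unusedSectionVars false

namespace CL.Sp4O

open Module

variable {F W G : Type*} [Field F] [AddCommGroup W] [Module F W] [Group G] [DistribMulAction G W]
  [SMulCommClass G F W] {B : W →ₗ[F] W →ₗ[F] F}

/-- `g` fixes `v` up to sign -/
def Pm (g : G) (v : W) : Prop := g • v = v ∨ g • v = -v

theorem Pm.one (v : W) : Pm (1 : G) v := .inl (one_smul _ _)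

theorem Pm.mul {g h : G} {v : W} (a : Pm g v) (b : Pm h v) : Pm (g * h) v := by
  rcases a with a | a <;> rcases b with b | b <;> simp [Pm, mul_smul, a, b]

theorem Pm.inv {g : G} {v : W} (a : Pm g v) : Pm g⁻¹ v := by
  rcases a with a | a
  · exact .inl (by rw [inv_smul_eq_iff, a])
  · exact .inr (by rw [inv_smul_eq_iff, smul_neg, a, neg_neg])

theorem Pm.sm {g : G} {v : W} (a : Pm g v) (k : F) : Pm g (k • v) := by
  rcases a with a | a <;> simp [Pm, smul_sm, a]

theorem Pm.neg {g : G} {v : W} (a : Pm g v) : Pm g (-v) := by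
  rcases a with a | a <;> simp [Pm, a]

theorem fix_comm {g i : G} {w : W} (h : g * i = i * g) (hw : i • w = w) : i • g • w = g • w := by
  rw [← mul_smul, ← h, mul_smul, hw]

theorem neg_comm {g i : G} {w : W} (h : g * i = i * g) (hw : i • w = -w) :
    i • g • w = -(g • w) := by
  rw [← mul_smul, ← h, mul_smul, hw, smul_neg]

/-- in an abelian group with at most one involution one of `a`, `b`, `a / b` is a square -/
theorem idx {R : Type*} [Group R] [Finite R] (K : Subgroup R) [K.Normal]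
    (hK : ∀ a b : R, (a * b)⁻¹ * (b * a) ∈ K) (ι : R) (hι : ∀ a, a * a ∈ K → a ∈ K ∨ a⁻¹ * ι ∈ K)
    (a b : R) : (∃ d, a⁻¹ * (d * d) ∈ K) ∨ (∃ d, b⁻¹ * (d * d) ∈ K) ∨
      ∃ d, (a * b⁻¹)⁻¹ * (d * d) ∈ K := by
  classical
  let _ : CommGroup (R ⧸ K) := { (inferInstance : Group (R ⧸ K)) with
    mul_comm := fun x y => by
      induction x using QuotientGroup.induction_on
      induction y using QuotientGroup.induction_on
      exact QuotientGroup.eq.2 (hK _ _) }
  let f : R ⧸ K →* R ⧸ K := powMonoidHom 2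
  have h1 : Nat.card f.ker ≤ 2 := by
    refine (Nat.card_mono (s := (f.ker : Set (R ⧸ K))) (t := {1, (ι : R ⧸ K)}) (Set.toFinite _)
      fun x hx => ?_).trans ((Set.ncard_insert_le _ _).trans (by simp))
    induction x using QuotientGroup.induction_on with
    | H x =>
    have : ((x * x : R) : R ⧸ K) = 1 := by simpa [f, sq] using hx
    exact (hι x ((QuotientGroup.eq_one_iff _).1 this)).imp (QuotientGroup.eq_one_iff _).2
      QuotientGroup.eq.2
  have h2 : f.range.index = Nat.card f.ker := Subgroup.index_range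
  have h3 : f.range.index ≠ 0 := Subgroup.index_ne_zero_of_finite
  have key : ∀ x : R, (x : R ⧸ K) ∈ f.range → ∃ d, x⁻¹ * (d * d) ∈ K := by
    rintro x ⟨d, hd⟩
    induction d using QuotientGroup.induction_on with
    | H d => exact ⟨d, QuotientGroup.eq.1 (by simpa [f, sq] using hd.symm)⟩
  by_cases h4 : f.range.index = 1
  · exact .inl (key a (Subgroup.index_eq_one.1 h4 ▸ Subgroup.mem_top _))
  by_cases ha : (a : R ⧸ K) ∈ f.range
  · exact .inl (key a ha)
  by_cases hb : (b : R ⧸ K) ∈ f.range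
  · exact .inr (.inl (key b hb))
  refine .inr (.inr (key _ ?_))
  rw [QuotientGroup.mk_mul, Subgroup.mul_mem_iff_of_index_two (by omega)]
  simp [ha, hb]

namespace Ctx

variable (c : Ctx G B) {a b d e f w : W}
include c

theorem line5 (o : O5 B a b d e f) (h1 : B a w = 0) (h2 : B b w = 0) (h3 : B d w = 0)
    (h4 : B e w = 0) : ∃ k : F, w = k • f :=
  ⟨_, by simpa [Fin.sum_univ_succ, h1, h2, h3, h4] using c.exp o.ob w⟩

theorem pm5 (o : O5 B a b d e f) (h1 : B a w = 0) (h2 : B b w = 0) (h3 : B d w = 0)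
    (h4 : B e w = 0) (h : B w w = B f f) : w = f ∨ w = -f :=
  (c.line5 o h1 h2 h3 h4).elim fun _ hk => c.pm hk o.ne h

theorem lin3 (o : O5 B a b d e f) {g : G} {k : F} (h1 : g • d = k • d) (h2 : g • e = k • e)
    (h3 : g • f = k • f) (ha : B a w = 0) (hb : B b w = 0) : g • w = k • w := by
  rw [c.exp o.ob w]
  simp only [Fin.sum_univ_succ, Matrix.cons_val_zero, Matrix.cons_val_succ, ha, hb, zero_div,
    zero_smul, zero_add, smul_add, smul_sm, h1, h2, h3, Finset.univ_eq_empty, Finset.sum_empty,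
    smul_zero]
  module

theorem orth' {g : G} {u : W} {k : F} (hk : k * k = 1) (hu : g • u = k • u) (hw : g • w = -k • w) :
    B u w = 0 := by
  have := c.inv g u w
  simp only [hu, hw, map_smul, LinearMap.smul_apply, smul_eq_mul] at this
  exact (mul_eq_zero.1 (by linear_combination -this - B u w * hk : 2 * B u w = 0)).resolve_left
    c.two

/-- the determinant of an element preserving a line and two planes -/
theorem det5 (o : O5 B a b d e f) {g : G} (hg : LinearMap.det (DistribSMul.toLinearMap F W g) = 1)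
    {k x y z t x' y' z' t' : F} (h1 : g • a = k • a)
    (h2 : g • b = x • b + y • d) (h3 : g • d = z • b + t • d) (h4 : g • e = x' • e + y' • f)
    (h5 : g • f = z' • e + t' • f) : k * (x * t - y * z) * (x' * t' - y' * z') = 1 := by
  have := c.fd
  have hl : LinearIndependent F ![a, b, d, e, f] :=
    LinearMap.linearIndependent_of_isOrthoᵢ (B := B) (fun i j hij => o.ob.2 i j hij) o.ob.1
  let bs := basisOfLinearIndependentOfCardEqFinrank' _ hl (by simp [c.dim])
  have hb : ∀ i, bs i = ![a, b, d, e, f] i := fun i => by simp [bs]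
  have hM : LinearMap.toMatrix bs bs (DistribSMul.toLinearMap F W g) =
      !![k, 0, 0, 0, 0; 0, x, z, 0, 0; 0, y, t, 0, 0; 0, 0, 0, x', z'; 0, 0, 0, y', t'] := by
    have e0 : a = bs 0 := (hb 0).symm
    have e1 : b = bs 1 := (hb 1).symm
    have e2 : d = bs 2 := (hb 2).symm
    have e3 : e = bs 3 := (hb 3).symm
    have e4 : f = bs 4 := (hb 4).symm
    rw [e0] at h1; rw [e1, e2] at h2 h3; rw [e3, e4] at h4 h5
    ext i j
    fin_cases j <;> fin_cases i <;> simp [LinearMap.toMatrix_apply, h1, h2, h3, h4, h5]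
  rw [← LinearMap.det_toMatrix bs, hM] at hg
  rw [← hg]
  simp [Matrix.det_succ_row_zero, Fin.sum_univ_succ, Fin.succAbove]
  ring

end Ctx

theorem det_one [IsSimpleGroup G] (hG : ¬ IsMulCommutative G) (g : G) :
    LinearMap.det (DistribSMul.toLinearMap F W g) = 1 := by
  let φ : G →* F := LinearMap.det.comp (DistribMulAction.toModuleEnd F W)
  rcases φ.toHomUnits.normal_ker.eq_bot_or_eq_top with h | h
  · refine absurd ⟨⟨fun x y => (MonoidHom.ker_eq_bot_iff _).1 h ?_⟩⟩ hG
    rw [map_mul, map_mul, mul_comm]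
  · exact congrArg Units.val (h.ge (Subgroup.mem_top g) : φ.toHomUnits g = 1)

theorem T.not_fix (c : Ctx G B) {g : G} {v d e : W} (t : T B g v) (nd : B d d ≠ 0) (ne : B e e ≠ 0)
    (h : B d e = 0) (hd : g • d = d) (he : g • e = e) : False := by
  obtain ⟨k, hk⟩ := t.of_fix c hd
  obtain ⟨l, hl⟩ := t.of_fix c he
  have := c.two
  simp only [hk, hl, map_smul, LinearMap.smul_apply, smul_eq_mul, t.1] at h nd ne
  simp_all

namespace Pl

variable (c : Ctx G B) {g i j y : G} {a b u v w : W}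
include c

theorem neg_of_perp (p : Pl B i a b) (h : ∀ w, i • w = w → B w u = 0) : i • u = -u := by
  obtain ⟨d, e, f, o⟩ := c.ext2 p.na p.nb p.ab
  rw [c.exp o.ob u]
  simp [Fin.sum_univ_succ, h _ (p.fix _ o.ac o.bc), h _ (p.fix _ o.ad o.bd),
    h _ (p.fix _ o.ae o.be), smul_sm, p.ga, p.gb, add_comm]

theorem uniq (p : Pl B i a b) (hj : j * j = 1) (h1 : j ≠ 1) (h : ∀ w : W, i • w = w → j • w = w) :
    j = i := by
  rcases c.invol hj h1 with ⟨v, t⟩ | ⟨u, v, q⟩
  · obtain ⟨d, e, f, o⟩ := c.ext2 p.na p.nb p.ab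
    exact (t.not_fix c o.nc o.nd o.cd (h _ (p.fix _ o.ac o.bc)) (h _ (p.fix _ o.ad o.bd))).elim
  · exact q.eq c (p.of c (p.neg_of_perp c fun w hw => c.orth (h w hw) q.ga)
      (p.neg_of_perp c fun w hw => c.orth (h w hw) q.gb) q.na q.nb q.ab)

/-- quarter turns -/
theorem qt (p : Pl B i a b) (n : ℕ) (hy : y ^ 2 ^ n = 1) (h1 : y ≠ 1) (hi : y ≠ i)
    (h : ∀ w : W, i • w = w → y • w = w) : ∃ k : ℕ, y ^ k * y ^ k = i := by
  induction n generalizing y with
  | zero => exact absurd (by simpa using hy) h1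
  | succ n ih =>
    by_cases h2 : y * y = i
    · exact ⟨1, by simpa using h2⟩
    obtain ⟨k, hk⟩ := ih (y := y * y) (by rw [← pow_two, ← pow_mul, ← pow_succ', hy])
      (fun h3 => hi (p.uniq c h3 h1 h)) h2 fun w hw => by rw [mul_smul, h w hw, h w hw]
    exact ⟨2 * k, by rwa [pow_mul, pow_two]⟩

theorem pm (p : Pl B i a b) (hw : i • w = -w) (h : B a w = 0) (h' : B w w = B b b) :
    w = b ∨ w = -b := (p.line c hw h).elim fun _ hk => c.pm hk p.nb h'

/-- a quarter turn maps `a` to `± b` -/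
theorem qt_apply (p : Pl B i a b) (hy : y * y = i) (h : B a a = B b b) :
    y • a = b ∨ y • a = -b :=
  p.pm c (neg_comm (by rw [← hy, mul_assoc]) p.ga) (c.sq_perp (by rw [← mul_smul, hy, p.ga]))
    (by rw [c.inv, h])

end Pl

/-- `g` acts on the plane `⟨a, b⟩` with determinant `δ` -/
def Pd (B : W →ₗ[F] W →ₗ[F] F) (g : G) (a b : W) (δ : F) : Prop :=
  ∃ x y : F, x ^ 2 * B a a + y ^ 2 * B b b = B a a ∧ g • a = x • a + y • b ∧
    g • b = (-δ * y * B b b / B a a) • a + (δ * x) • b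

namespace Pd

variable (c : Ctx G B) {g h i : G} {a b : W} {δ δ' : F}

theorem of (h1 : g • a = a) (h2 : g • b = δ • b) : Pd B g a b δ :=
  ⟨1, 0, by simp, by simp [h1], by simp [h2]⟩

theorem of' (h1 : g • a = -a) (h2 : g • b = -δ • b) : Pd B g a b δ :=
  ⟨-1, 0, by simp, by simp [h1], by simp [h2]⟩

theorem mul (na : B a a ≠ 0) (hδ : δ * δ = 1) (p : Pd B g a b δ) (q : Pd B h a b δ') :
    Pd B (g * h) a b (δ * δ') := by
  obtain ⟨x, y, e, p1, p2⟩ := p
  obtain ⟨x', y', e', q1, q2⟩ := q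
  refine ⟨x * x' - δ * y * y' * B b b / B a a, y * x' + δ * x * y', ?_, ?_, ?_⟩
  · field_simp
    linear_combination (x' ^ 2 * B a a + y' ^ 2 * B b b) * e + B a a * e' +
      (y' ^ 2 * B b b * (x ^ 2 * B a a + y ^ 2 * B b b)) * hδ
  · rw [mul_smul, q1, smul_add, smul_sm, smul_sm, p1, p2]; match_scalars <;> (field_simp; try ring)
  · rw [mul_smul, q2, smul_add, smul_sm, smul_sm, p1, p2]
    match_scalars <;> field_simp
    · linear_combination (δ' * y' * B b b * x) * hδ
    · linear_combination (δ' * y' * B b b * y) * hδ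

theorem sq (na : B a a ≠ 0) (p : Pd B g a b (-1)) : (g * g) • a = a ∧ (g * g) • b = b := by
  obtain ⟨x, y, e, p1, p2⟩ := p
  constructor
  · rw [mul_smul, p1, smul_add, smul_sm, smul_sm, p1, p2]
    match_scalars <;> field_simp
    · linear_combination e
    · ring
  · rw [mul_smul, p2, smul_add, smul_sm, smul_sm, p1, p2]
    match_scalars <;> field_simp
    · ring
    · linear_combination e

theorem comm (na : B a a ≠ 0) (p : Pd B g a b 1) (q : Pd B h a b 1) :
    (g * h) • a = (h * g) • a := by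
  obtain ⟨x, y, e, p1, p2⟩ := p
  obtain ⟨x', y', e', q1, q2⟩ := q
  simp only [mul_smul, p1, q1, smul_add, smul_sm, p2, q2]
  match_scalars <;> (field_simp; try ring)

include c

theorem fix (p : Pd B g a b 1) (na : B a a ≠ 0) (nb : B b b ≠ 0) (ab : B a b = 0)
    (h : g • a = a) : g • b = b := by
  obtain ⟨x, y, e, p1, p2⟩ := p
  have h1 := congrArg (B a) p1
  have h2 := congrArg (B b) p1
  simp [h, ab, c.symm b a, nb, na] at h1 h2
  simp [p2, h2, h1]

theorem pm (p : Pd B g a b 1) (na : B a a ≠ 0) (nb : B b b ≠ 0) (ab : B a b = 0)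
    (h : (g * g) • a = a) : Pm g a := by
  obtain ⟨x, y, e, p1, p2⟩ := p
  have h1 := congrArg (B a) h
  simp only [mul_smul, p1, smul_add, smul_sm, p2, map_add, map_smul, ab, smul_eq_mul] at h1
  field_simp at h1
  have hy : y = 0 := by
    have : 2 * B b b * y ^ 2 = 0 := by linear_combination e - h1
    simpa [c.two, nb] using this
  exact c.pm (k := x) (by simp [p1, hy]) na (c.inv _ _ _)

theorem ex (p : Pl B i a b) (h : g * i = i * g) : Pd B g a b 1 ∨ Pd B g a b (-1) := by
  have na := p.na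
  have nb := p.nb
  have h1 := p.exp c (neg_comm h p.ga)
  have h2 := p.exp c (neg_comm h p.gb)
  generalize B a (g • a) / B a a = x, B b (g • a) / B b b = y at h1
  generalize B a (g • b) / B a a = z, B b (g • b) / B b b = t at h2
  have e1 := c.inv g a a
  have e2 := c.inv g a b
  have e3 := c.inv g b b
  simp only [h1, h2, map_add, map_smul, LinearMap.add_apply, LinearMap.smul_apply, smul_eq_mul,
    p.ab, (p.swap c).ab] at e1 e2 e3
  have key : ∀ δ, x * t - y * z = δ → Pd B g a b δ := fun δ hδ => by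
    refine ⟨x, y, by linear_combination e1, h1, h2.trans ?_⟩
    subst hδ
    congr 2
    · field_simp; linear_combination x * e2 - z * e1
    · refine mul_right_cancel₀ na ?_
      linear_combination y * e2 - t * e1
  have : (x * t - y * z - 1) * (x * t - y * z + 1) = 0 := by
    refine mul_right_cancel₀ (mul_ne_zero na nb) ?_
    linear_combination (z ^ 2 * B a a + t ^ 2 * B b b) * e1 + B a a * e3 -
      (x * z * B a a + y * t * B b b) * e2
  exact (mul_eq_zero.1 this).imp (fun h => key _ (by linear_combination h))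
    fun h => key _ (by linear_combination h)

theorem det {t s e : W} {k : F} (o : O5 B t s e a b)
    (hg : LinearMap.det (DistribSMul.toLinearMap F W g) = 1) (h : g • t = k • t)
    (p : Pd B g s e δ) (q : Pd B g a b δ') : k * δ * δ' = 1 := by
  obtain ⟨x, y, e, p1, p2⟩ := p
  obtain ⟨x', y', e', q1, q2⟩ := q
  have := c.det5 o hg h p1 p2 q1 q2
  have h1 := o.nb
  have h2 := o.nd
  rw [← this]
  congr 1
  · congr 1
    field_simp; linear_combination -δ * e
  · field_simp; linear_combination -δ' * e'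

end Pd

section Fix

variable (c : Ctx G B) {z y : G} {a b : W}
include c

theorem eig3 (p : Pl B z a b) (hy : y * z = z * y) (h : ∀ w : W, z • w = w → y • y • w = w) :
    ∃ d e f, O5 B a b d e f ∧ Pm y d ∧ Pm y e ∧ Pm y f := by
  have key : ∀ w, B w w ≠ 0 → B a w = 0 → B b w = 0 → ∃ w', B w' w' ≠ 0 ∧ B a w' = 0 ∧
      B b w' = 0 ∧ Pm y w' ∧ ∀ d, z • d = d → Pm y d → B d w = 0 → B d w' = 0 := by
    intro w nw h1 h2
    obtain ⟨s, hs, hs'⟩ := c.eigen y nw
    have hw := p.fix w h1 h2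
    have h3 : z • (w + s • y • w) = w + s • y • w := by rw [smul_add, smul_sm, hw, fix_comm hy hw]
    refine ⟨_, hs', c.symm _ _ ▸ c.orth h3 p.ga, c.symm _ _ ▸ c.orth h3 p.gb, ?_,
      fun d hd h4 h5 => ?_⟩
    · rcases hs with rfl | rfl <;> simp [Pm, smul_add, h w hw, add_comm]
    · have : B d (y • w) = 0 := by
        rw [← c.inv y, h w hw]
        rcases h4 with h4 | h4 <;> simp [h4, h5]
      simp [h5, this]
  obtain ⟨d0, e0, f0, o⟩ := c.ext2 p.na p.nb p.ab
  obtain ⟨d, nd, d1, d2, d3, -⟩ := key d0 o.nc o.ac o.bc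
  obtain ⟨e0, ne, e1, e2, e3, -⟩ := c.ex4' (.inr p.na) (.inr p.nb) (.inr nd) (.inl rfl) p.ab d1
    (by simp) d2 (by simp) (by simp)
  obtain ⟨e, ne, e1, e2, e4, e5⟩ := key e0 ne e1 e2
  replace e3 := e5 d (p.fix d d1 d2) d3 e3
  obtain ⟨f, nf, f1, f2, f3, f4⟩ := c.ex4' (.inr p.na) (.inr p.nb) (.inr nd) (.inr ne) p.ab d1
    e1 d2 e2 e3
  have o := c.mk5 p.na p.nb nd ne nf p.ab d1 e1 f1 d2 e2 f2 e3 f3 f4
  have hf := fix_comm hy (p.fix f f1 f2)
  have k2 : ∀ u, z • u = u → Pm y u → B u f = 0 → B u (y • f) = 0 := fun u h1 h2 h3 => by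
    rw [← c.inv y, h f (p.fix f f1 f2)]
    rcases h2 with h4 | h4 <;> simp [h4, h3]
  exact ⟨d, e, f, o, d3, e4, c.pm5 o (c.symm _ _ ▸ c.orth hf p.ga) (c.symm _ _ ▸ c.orth hf p.gb)
    (k2 d (p.fix d d1 d2) d3 f3) (k2 e (p.fix e e1 e2) e4 f4) (c.inv _ _ _)⟩

theorem not_sq_neg (p : Pl B z a b) (hy : y * z = z * y) :
    ¬ ∀ w : W, z • w = w → y • y • w = -w := fun h => by
  obtain ⟨d, e, f, o⟩ := c.ext2 p.na p.nb p.ab
  have hd := p.fix d o.ac o.bc
  have he := fix_comm hy hd
  have ne : B (y • d) (y • d) ≠ 0 := by rw [c.inv]; exact o.nc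
  have e1 := c.symm _ _ ▸ c.orth he p.ga
  have e2 := c.symm _ _ ▸ c.orth he p.gb
  have e3 := c.sq_perp (h d hd)
  obtain ⟨f, nf, f1, f2, f3, f4⟩ := c.ex4' (.inr p.na) (.inr p.nb) (.inr o.nc) (.inr ne) p.ab o.ac
    e1 o.bc e2 e3
  have o' := c.mk5 p.na p.nb o.nc ne nf p.ab o.ac e1 f1 o.bc e2 f2 e3 f3 f4
  have hf := fix_comm hy (p.fix f f1 f2)
  have h1 := h f (p.fix f f1 f2)
  have : Pm y f := c.pm5 o' (c.symm _ _ ▸ c.orth hf p.ga) (c.symm _ _ ▸ c.orth hf p.gb)
    (by rw [← neg_neg d, ← h d hd]; simp [c.inv, f4]) (by rw [c.inv, f3]) (c.inv _ _ _)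
  refine ne_zero_of nf (eq_zero_of_neg c.two ?_)
  rcases this with h2 | h2 <;> simpa [h2] using h1

theorem odd_one {d e f : W} (p : Pl B z a b) (o : O5 B a b d e f) {k : F} (hk : k * k = 1)
    (h1 : y • d = -k • d) (h2 : y • e = -k • e) (h3 : y • f = k • f) {s : G} (hs : s * z = z * s)
    (h : (∀ w : W, z • w = w → y • s • w = s • y • w) ∨
      ∀ w : W, z • w = w → y • s • w = -(s • y • w)) : Pm s f := by
  have hd := p.fix d o.ac o.bc
  have he := p.fix e o.ad o.bd
  have hf := p.fix f o.ae o.be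
  have key : ∀ w, z • w = w → y • w = k • w → ∃ l : F, w = l • f := fun w h4 h5 =>
    c.line5 o (c.symm _ _ ▸ c.orth h4 p.ga) (c.symm _ _ ▸ c.orth h4 p.gb)
      (c.symm _ _ ▸ c.orth' hk h5 h1) (c.symm _ _ ▸ c.orth' hk h5 h2)
  rcases h with h | h
  · obtain ⟨l, hl⟩ := key _ (fix_comm hs hf) (by rw [h f hf, h3, smul_sm])
    exact c.pm hl o.ne (c.inv _ _ _)
  · obtain ⟨l, hl⟩ := key _ (fix_comm hs hd) (by rw [h d hd, h1, smul_sm]; simp)
    obtain ⟨m, hm⟩ := key _ (fix_comm hs he) (by rw [h e he, h2, smul_sm]; simp)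
    have e1 := c.inv s d e
    have e2 := c.inv s d d
    have e3 := c.inv s e e
    have := o.nc
    have := o.nd
    have := o.ne
    simp only [hl, hm, map_smul, LinearMap.smul_apply, smul_eq_mul, o.cd, mul_eq_zero] at e1 e2 e3
    rcases e1 with rfl | rfl | e1 <;> simp_all

/-- a `2`-group centralising an involution with a three-dimensional fixed space fixes a
non-singular line in it -/
theorem fixline [Finite G] {S : Subgroup G} (hS : IsPGroup 2 S) (p : Pl B z a b)
    (hz : ∀ s ∈ S, s * z = z * s) : ∃ v, B v v ≠ 0 ∧ z • v = v ∧ ∀ s ∈ S, Pm s v := by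
  let N : Subgroup S :=
    { carrier := {s | (∀ w : W, z • w = w → (s : G) • w = w) ∨ ∀ w : W, z • w = w → (s : G) • w = -w}
      one_mem' := .inl fun w _ => one_smul _ _
      mul_mem' := by
        rintro s t (hs | hs) (ht | ht) <;> [left; right; right; left] <;> intro w hw <;>
          simp [mul_smul, hs w hw, ht w hw]
      inv_mem' := by
        rintro s (hs | hs) <;> [left; right] <;> intro w hw <;>
          simp [inv_smul_eq_iff, hs w hw] }
  have : N.Normal := ⟨by
    rintro s (hs | hs) g <;> [left; right] <;> intro w hw <;>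
      simp [mul_smul, hs _ (fix_comm (hz _ (inv_mem g.2)) hw)]⟩
  obtain ⟨d, e, f, o⟩ := c.ext2 p.na p.nb p.ab
  by_cases hN : ⊤ ≤ N
  · have hd := p.fix d o.ac o.bc
    exact ⟨d, o.nc, hd, fun s hs => (hN (Subgroup.mem_top ⟨s, hs⟩)).imp (· d hd) (· d hd)⟩
  obtain ⟨y, -, h1, h2, h3, -⟩ := CL.PG.exists_mem_omegaCenterOver hS N ⊤ hN
  have hy := hz y y.2
  rcases h3 with h3 | h3
  swap
  · exact absurd (fun w hw => by simpa [pow_two, mul_smul] using h3 w hw) (not_sq_neg c p hy)
  obtain ⟨d, e, f, o, hd, he, hf⟩ := eig3 c p hy fun w hw => by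
    simpa [pow_two, mul_smul] using h3 w hw
  have k1 : ∀ s ∈ S, (∀ w : W, z • w = w → (y : G) • s • w = s • (y : G) • w) ∨
      ∀ w : W, z • w = w → (y : G) • s • w = -(s • (y : G) • w) := fun s hs =>
    (h2 ⟨s, hs⟩).1.imp (fun h w hw => by
      simpa [commutatorElement_def, mul_smul] using h _ (fix_comm (hz s hs) (fix_comm hy hw)))
      fun h w hw => by
        simpa [commutatorElement_def, mul_smul] using h _ (fix_comm (hz s hs) (fix_comm hy hw))
  have k2 : ∀ {d e f : W} (k : F), O5 B a b d e f → k * k = 1 → (y : G) • d = -k • d →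
      (y : G) • e = -k • e → (y : G) • f = k • f →
      ∃ v, B v v ≠ 0 ∧ z • v = v ∧ ∀ s ∈ S, Pm s v := fun k o hk a1 a2 a3 =>
    ⟨_, o.ne, p.fix _ o.ae o.be, fun s hs => odd_one c p o hk a1 a2 a3 (hz s hs) (k1 s hs)⟩
  have o2 : O5 B a b d f e := by cases o; constructor <;> assumption
  have o3 : O5 B a b e f d := by cases o; constructor <;> assumption
  have k3 : ∀ w, z • w = w → B a w = 0 ∧ B b w = 0 := fun w hw =>
    ⟨c.symm _ _ ▸ c.orth hw p.ga, c.symm _ _ ▸ c.orth hw p.gb⟩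
  rcases hd with hd | hd <;> rcases he with he | he <;> rcases hf with hf | hf
  · exact absurd (.inl fun w hw => by
      simpa using c.lin3 o (k := 1) (by simpa) (by simpa) (by simpa) (k3 w hw).1 (k3 w hw).2) h1
  · exact k2 (-1) o (by simp) (by simpa) (by simpa) (by simpa)
  · exact k2 (-1) o2 (by simp) (by simpa) (by simpa) (by simpa)
  · exact k2 1 o3 (by simp) (by simpa) (by simpa) (by simpa)
  · exact k2 (-1) o3 (by simp) (by simpa) (by simpa) (by simpa)
  · exact k2 1 o2 (by simp) (by simpa) (by simpa) (by simpa)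
  · exact k2 1 o (by simp) (by simpa) (by simpa) (by simpa)
  · exact absurd (.inr fun w hw => by
      simpa using c.lin3 o (k := -1) (by simpa) (by simpa) (by simpa) (k3 w hw).1 (k3 w hw).2) h1

end Fix

end CL.Sp4O
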