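import Mathlib
import Cfsg.Agent.CLAS.Sp4O2

/-!
# Simple groups with a root: the Sylow `2`-subgroup fixes a root and a pair of planes
-/

set_option linter.unusedSectionVars false

namespace CL.Sp4O

open Module

variable {F W G : Type*} [Field F] [AddCommGroup W] [Module F W] [Group G] [DistribMulAction G W]
  [SMulCommClass G F W] {B : W →ₗ[F] W →ₗ[F] F}

theorem conj_smul (g x : G) (w : W) : (g * x * g⁻¹) • g • w = g • x • w := by simp [mul_smul]

theorem index_ne_two [IsSimpleGroup G] (hG : ¬ IsMulCommutative G) (H : Subgroup G) :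
    H.index ≠ 2 := fun h => by
  rcases (Subgroup.normal_of_index_eq_two h).eq_bot_or_eq_top with rfl | rfl
  · rw [Subgroup.index_bot] at h
    have : IsCyclic G := isCyclic_of_prime_card (p := 2) h
    exact hG inferInstance
  · simp at h

theorem exists_conj_into [Finite G] (S : Sylow 2 G) {z : G} (hz : ∀ s ∈ S, s * z = z * s)
    {Q : Subgroup G} (hQ : IsPGroup 2 Q) (h : ∀ x ∈ Q, x * z = z * x) :
    ∃ g : G, g * z = z * g ∧ ∀ x ∈ Q, g * x * g⁻¹ ∈ S := by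
  obtain ⟨g, hg, h1⟩ := CL.exists_mem_smul_sylow_of_le S (H := Subgroup.centralizer {z})
    (fun s hs => Subgroup.mem_centralizer_singleton_iff.2 (hz s hs)) hQ
    fun x hx => Subgroup.mem_centralizer_singleton_iff.2 (h x hx)
  exact ⟨g⁻¹, Subgroup.mem_centralizer_singleton_iff.1 (inv_mem hg), fun x hx => by
    simpa using (CL.SylowAux.mem_smul_sylow_iff S g x).1 (h1 hx)⟩

section

variable [Finite G] [IsSimpleGroup G] (c : Ctx G B) (hG : ¬ IsMulCommutative G) (S : Sylow 2 G)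
include hG

theorem zstar {z : G} (h2 : z * z = 1) (h1 : z ≠ 1) (hz : ∀ s ∈ S, s * z = z * s) :
    ∃ g : G, g * z * g⁻¹ ∈ S ∧ g * z * g⁻¹ ≠ z := by
  have := CL.BS.not_isolated_of_simple hG z
  simp only [Cfsg.IsIsolatedInvolution, not_and, not_forall] at this
  obtain ⟨g, hg, hne⟩ := this (orderOf_eq_prime (by rwa [pow_two]) h1)
  obtain ⟨h, hh, h3⟩ := exists_conj_into S hz (Q := Subgroup.zpowers (g * z * g⁻¹))
    (CL.SylowAux.isPGroup_zpowers_two (by rw [conj_mul, h2]; group)) (by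
      rintro _ ⟨k, rfl⟩; exact (hg.zpow_right k).symm)
  refine ⟨h * g, by simpa [mul_assoc] using h3 _ (Subgroup.mem_zpowers _), fun e => hne ?_⟩
  calc g * z * g⁻¹ = h⁻¹ * (h * g * z * (h * g)⁻¹) * h := by group
    _ = z := by rw [e, mul_assoc, ← hh]; group

include c

theorem transfer {v u : W} (nv : B v v ≠ 0) (hv : ∀ s ∈ S, Pm s v) (hu : R G B u) :
    ∃ (g : G) (k : F), g • u = k • v := by
  obtain ⟨τ, t⟩ := hu
  obtain ⟨g, -, hg⟩ := CL.ThompsonTransfer.exists_conj_mem (index_ne_two hG) S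
    (Q := (S : Subgroup G) ⊓ MulAction.stabilizer G v) inf_le_left (by
      rw [Subgroup.relIndex_dvd_two_iff]
      by_cases h : ∃ a ∈ S, a • v = -v
      · obtain ⟨a, ha, h⟩ := h
        refine ⟨a, ha, fun b hb => ?_⟩
        rcases hv b hb with h1 | h1
        · exact .inr ⟨hb, h1⟩
        · exact .inl ⟨mul_mem hb ha, by simp [mul_smul, h, h1]⟩
      · exact ⟨1, one_mem _, fun b hb => .inr ⟨hb, (hv b hb).resolve_right fun e => h ⟨b, hb, e⟩⟩⟩)
    (t.sq c)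
  obtain ⟨k, hk⟩ := (t.conj c g).of_fix c hg
  have : k ≠ 0 := by rintro rfl; simp [hk] at nv
  exact ⟨g, k⁻¹, by rw [hk, smul_smul, inv_mul_cancel₀ this, one_smul]⟩

theorem root_of_fixed {v u : W} (nv : B v v ≠ 0) (hv : ∀ s ∈ S, Pm s v) (hu : R G B u) :
    ∃ k : F, R G B (k • v) :=
  (transfer c hG S nv hv hu).elim fun g ⟨k, hk⟩ => ⟨k, hk ▸ hu.smul c g⟩

theorem mem_of_pm {τ : G} {t : W} (ht : T B τ t) (h : ∀ s ∈ S, Pm s t) : τ ∈ S :=
  CL.SylowAux.mem_sylow_of_forall_commute S (n := 1) (by rw [pow_one, pow_two, ht.sq c])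
    fun y hy => (ht.comm_iff c).2 (h y hy)

theorem exists_t {u : W} (hu : R G B u) : ∃ (τ : G) (t : W), T B τ t ∧ ∀ s ∈ S, Pm s t := by
  obtain ⟨σ, hσ⟩ := id hu
  obtain ⟨g, hg⟩ := CL.SylowAux.exists_conj_mem_sylow_of_pow S (n := 1) (x := σ)
    (by rw [pow_one, pow_two, hσ.sq c])
  obtain ⟨z, -, h1, h2, h3, -⟩ := CL.PG.exists_mem_omegaCenterOver S.isPGroup' ⊥ ⊤ fun h =>
    (hσ.conj c g).ne_one c (congrArg Subtype.val (h (Subgroup.mem_top ⟨_, hg⟩) :))
  have hz : ∀ s ∈ S, s * (z : G) = z * s := fun s hs =>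
    (congrArg Subtype.val (commutatorElement_eq_one_iff_mul_comm.1 (h2 ⟨s, hs⟩).1)).symm
  rcases c.invol (z := (z : G)) (by rw [← pow_two]; exact congrArg Subtype.val h3)
    (fun e => h1 (Subtype.ext e)) with ⟨v, t⟩ | ⟨a, b, p⟩
  · exact ⟨z, v, t, fun s hs => (t.comm_iff c).1 (hz s hs)⟩
  · obtain ⟨v, nv, -, hv⟩ := fixline c S.isPGroup' p hz
    obtain ⟨k, τ, hk⟩ := root_of_fixed c hG S nv hv hu
    exact ⟨τ, _, hk, fun s hs => (hv s hs).sm k⟩

variable {S} {τ : G} {t : W} (ht : T B τ t) (hS : ∀ s ∈ S, Pm s t)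
include ht hS

theorem conj_t {u : W} (hu : R G B u) : ∃ g : G, g • u = t ∨ g • u = -t := by
  obtain ⟨g, k, h⟩ := transfer c hG S (ht.n c) hS hu
  obtain ⟨σ, hσ⟩ := hu
  exact ⟨g, c.pm h (ht.n c) (by rw [c.inv, hσ.1, ht.1])⟩

/-- extremal conjugation -/
theorem extr {u : W} (hu : R G B u) {Q : Subgroup G} (hQ : IsPGroup 2 Q) (h : ∀ x ∈ Q, Pm x u) :
    ∃ g : G, (g • u = t ∨ g • u = -t) ∧ ∀ x ∈ Q, g * x * g⁻¹ ∈ S := by
  obtain ⟨g, hg⟩ := conj_t c hG ht hS hu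
  obtain ⟨k, hk, h1⟩ := exists_conj_into S (fun s hs => (ht.comm_iff c).2 (hS s hs))
    (hQ.map (MulAut.conj g).toMonoidHom) (by
      rintro _ ⟨x, hx, rfl⟩
      refine (ht.comm_iff c).2 ?_
      have := conj_smul g x u
      rcases hg with hg | hg <;> rcases h x hx with h2 | h2 <;> simp_all [neg_eq_iff_eq_neg])
  refine ⟨k * g, ?_, fun x hx => by simpa [mul_assoc] using h1 _ ⟨x, hx, rfl⟩⟩
  rcases hg with hg | hg <;> rcases (ht.comm_iff c).1 hk with h2 | h2 <;> simp [mul_smul, hg, h2]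

theorem perp_of_mem {g : G} {r : W} (hr : T B g r) (hg : g ∈ S) (h : g ≠ τ) : g • t = -t := by
  refine (hS g hg).resolve_left fun e => h ?_
  rcases hr.line c e ht.1 with e | e
  · exact hr.eq c (e ▸ ht)
  · exact hr.neg.eq c (e ▸ ht)

theorem exists_s : ∃ (σ : G) (s : W), T B σ s ∧ σ ∈ S ∧ B s t = 0 := by
  obtain ⟨g, h1, h2⟩ := zstar hG S (ht.sq c) (ht.ne_one c)
    fun s hs => (ht.comm_iff c).2 (hS s hs)
  exact ⟨_, _, ht.conj c g, h1, (ht.conj c g).of_neg c (perp_of_mem c hG ht hS (ht.conj c g) h1 h2)⟩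

end

/-- a Sylow `2`-subgroup with its fixed root and its pair of planes -/
structure Su (B : W →ₗ[F] W →ₗ[F] F) (S : Sylow 2 G) (τ : G) (t : W) (i j : G) : Prop where
  ht : T B τ t
  hS : ∀ s ∈ S, Pm s t
  iS : i ∈ S
  jS : j ∈ S
  ij : i * j = τ
  it : i • t = t
  jt : j • t = t
  pi : ∃ a b, Pl B i a b
  pj : ∃ a b, Pl B j a b
  cj : ∀ x ∈ S, x * i = i * x ∨ x * i = j * x

theorem Pl.mul_T (c : Ctx G B) {i τ : G} {a b t : W} (p : Pl B i a b) (ht : T B τ t)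
    (h : i • t = t) : ∃ d e, Pl B (i * τ) d e := by
  have h1 := c.symm _ _ ▸ c.orth h p.ga
  have h2 := c.symm _ _ ▸ c.orth h p.gb
  obtain ⟨d, nd, d1, d2, d3, -⟩ := c.ex4' (.inr p.na) (.inr p.nb) (.inr (ht.n c)) (.inl rfl) p.ab h1
    (by simp) h2 (by simp) (by simp)
  obtain ⟨e, ne, e1, e2, e3, e4⟩ := c.ex4' (.inr p.na) (.inr p.nb) (.inr (ht.n c)) (.inr nd) p.ab h1
    d1 h2 d2 d3
  have o := c.mk5 p.na p.nb (ht.n c) nd ne p.ab h1 d1 e1 h2 d2 e2 d3 e3 e4
  have o' : O5 B d e a b t := by cases o; constructor <;> assumption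
  refine ⟨d, e, c.Pl5 o' ?_ ?_ ?_ ?_ ?_⟩ <;>
    simp [mul_smul, ht.perp d3, ht.perp e3, ht.perp o.ca, ht.perp o.cb, ht.self, h, p.ga, p.gb,
      p.fix d d1 d2, p.fix e e1 e2]

theorem su_of [Finite G] (c : Ctx G B) {S : Sylow 2 G} {τ i : G} {t a b : W} (ht : T B τ t)
    (hS : ∀ s ∈ S, Pm s t) (hτ : τ ∈ S) (hi : i ∈ S) (p : Pl B i a b) (h : i • t = t)
    (h' : ∀ x ∈ S, x * i = i * x ∨ x * i = i * τ * x) : Su B S τ t i (i * τ) :=
  ⟨ht, hS, hi, mul_mem hi hτ, by rw [← mul_assoc, p.sq c, one_mul], h,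
    by rw [mul_smul, ht.self, h], ⟨a, b, p⟩, p.mul_T c ht h, h'⟩

theorem exists_su [Finite G] [IsSimpleGroup G] (c : Ctx G B) (hG : ¬ IsMulCommutative G)
    (S : Sylow 2 G) {u : W} (hu : R G B u) : ∃ τ t i j, Su B S τ t i j := by
  obtain ⟨τ, t, ht, hS⟩ := exists_t c hG S hu
  obtain ⟨σ, s, hs, hσ, hst⟩ := exists_s c hG ht hS
  have hτ := mem_of_pm c hG S ht hS
  have hc : ∀ x ∈ S, x * τ = τ * x := fun s hs => (ht.comm_iff c).2 (hS s hs)
  have key : ∀ {y : G} {r : W}, T B y r → y ∈ S → B r t = 0 → (∀ x ∈ S, x * y = y * x) →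
      ∃ τ t i j, Su B S τ t i j := fun {y r} hy hyS hr h => by
    obtain ⟨v, nv, h1, h2⟩ := fixline c S.isPGroup' (hy.mul c ht hr) fun x hx => by
      rw [← mul_assoc, h x hx, mul_assoc, hc x hx, mul_assoc]
    obtain ⟨k, ρ, hρ⟩ := root_of_fixed c hG S nv h2 hu
    have h3 : ∀ s ∈ S, Pm s (k • v) := fun s hs => (h2 s hs).sm k
    have e1 : B (k • v) r = 0 := by simp [c.orth h1 (hy.mul c ht hr).ga]
    have e2 : B (k • v) t = 0 := by simp [c.orth h1 (hy.mul c ht hr).gb]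
    exact ⟨τ, t, _, _, su_of c ht hS hτ (mul_mem (mem_of_pm c hG S hρ h3) hyS) (hρ.mul c hy e1)
      (by rw [mul_smul, hy.perp hr, smul_neg, hρ.perp e2, neg_neg]) fun x hx => .inl (by
        rw [← mul_assoc, (hρ.comm_iff c).2 (h3 x hx), mul_assoc, h x hx, mul_assoc])⟩
  let A : Subgroup S :=
    { carrier := {x | (x : G) = 1 ∨ (x : G) = τ}
      one_mem' := .inl rfl
      mul_mem' := by
        rintro x y (hx | hx) (hy | hy) <;>
          simp [hx, hy, ht.sq c, -OneMemClass.coe_eq_one]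
      inv_mem' := by rintro x (hx | hx) <;> simp [hx, ht.inv c, -OneMemClass.coe_eq_one] }
  have : A.Normal := ⟨by
    rintro x (hx | hx) g
    · exact .inl (by simp [hx])
    · exact .inr (by simp [hx, hc g g.2])⟩
  have hne : σ ≠ τ := fun e => ht.n c (by
    have := ht.of_neg c (e ▸ hs.perp hst); exact this)
  obtain ⟨y, -, h1, h2, h3, -⟩ := CL.PG.exists_mem_omegaCenterOver S.isPGroup' A ⊤ fun h =>
    (h (Subgroup.mem_top ⟨σ, hσ⟩)).elim (hs.ne_one c) hne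
  have k1 : ∀ x ∈ S, x * (y : G) = y * x ∨ x * (y : G) = y * τ * x := fun x hx => by
    rcases (h2 ⟨x, hx⟩).1 with h | h
    · exact .inl (commutatorElement_eq_one_iff_mul_comm.1 h).symm
    · have h : (y : G) * x * (y : G)⁻¹ * x⁻¹ = τ := h
      right
      calc x * (y : G) = τ⁻¹ * (y * x * (y : G)⁻¹ * x⁻¹) * (τ * τ⁻¹) * (x * y) := by rw [h]; group
        _ = τ⁻¹ * y * x * ((y : G)⁻¹ * x⁻¹ * (x * y)) := by group
        _ = y * τ * x := by rw [ht.inv c, ← hc y y.2]; group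
  have nc : ∀ {y x : G} {r : W}, T B y r → B r t = 0 → x * y ≠ y * τ * x := fun {y x r} hy hr e =>
    (hy.mul c ht hr).not_T c (mul_inv_eq_iff_eq_mul.2 e ▸ hy.conj c x)
  have hy2 : (y : G) * y = 1 := by
    rcases h3 with h3 | h3
    · simpa [pow_two] using h3
    have h3 : (y : G) * y = τ := by simpa [pow_two] using h3
    rcases k1 σ hσ with h | h
    · have h4 := ht.perp (c.symm _ _ ▸ hst)
      rw [← h3, mul_smul] at h4
      refine absurd (eq_zero_of_neg c.two ?_) (ne_zero_of (hs.n c))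
      rcases (hs.comm_iff c).1 h.symm with h5 | h5 <;> simpa [h5] using h4
    · refine absurd ?_ (nc (x := y) hs hst)
      calc (y : G) * σ = τ * τ * (y * σ) := by rw [ht.sq c, one_mul]
        _ = τ * (y * τ * σ) := by rw [hc y y.2]; group
        _ = σ * τ * y := by rw [← h, hc σ hσ]; group
  have hyτ : (y : G) ≠ τ := fun e => h1 (.inr e)
  rcases c.invol hy2 (fun e => h1 (.inl e)) with ⟨r, hr⟩ | ⟨a, b, p⟩
  · have h4 := hr.of_neg c (perp_of_mem c hG ht hS hr y.2 hyτ)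
    exact key hr y.2 h4 fun x hx => (k1 x hx).resolve_right (nc hr h4)
  rcases hS y y.2 with h4 | h4
  · exact ⟨τ, t, _, _, su_of c ht hS hτ y.2 p h4 k1⟩
  obtain ⟨v, q⟩ := p.rebase c h4 (ht.n c)
  obtain ⟨k, -, hk⟩ := q.root c ht
  have h5 : B (k • v) t = 0 := by simp [(q.swap c).ab]
  refine key hk (mul_mem hτ y.2) h5 fun x hx => ?_
  rcases k1 x hx with h | h
  · rw [← mul_assoc, hc x hx, mul_assoc, h, mul_assoc]
  · refine absurd ?_ (nc (x := x) hk h5)
    rw [← mul_assoc, hc x hx, mul_assoc, h]; group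

namespace Su

variable (c : Ctx G B) {S : Sylow 2 G} {τ i j g x : G} {t r w : W} (s : Su B S τ t i j)
include c s

theorem ii : i * i = 1 := s.pi.elim fun _ ⟨_, p⟩ => p.sq c

theorem jj : j * j = 1 := s.pj.elim fun _ ⟨_, p⟩ => p.sq c

theorem τS : τ ∈ S := s.ij ▸ mul_mem s.iS s.jS

theorem cτ (hx : x ∈ S) : x * τ = τ * x := (s.ht.comm_iff c).2 (s.hS x hx)

theorem iτ : i * τ = j := by rw [← s.ij, ← mul_assoc, s.ii c, one_mul]

theorem ji : j * i = τ := by rw [← s.iτ c, s.cτ c s.iS, mul_assoc, s.ii c, mul_one]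

theorem symm : Su B S τ t j i :=
  ⟨s.ht, s.hS, s.jS, s.iS, s.ji c, s.jt, s.it, s.pj, s.pi, fun x hx => by
    rcases s.cj x hx with h | h
    · left; rw [← s.iτ c, ← mul_assoc, h, mul_assoc, s.cτ c hx, mul_assoc]
    · right
      rw [← s.iτ c, ← mul_assoc, h, mul_assoc, s.cτ c hx, ← mul_assoc, ← s.ji c, ← mul_assoc,
        s.jj c, one_mul]⟩

theorem perp (h : i • w = -w) : B t w = 0 := c.orth s.it h

theorem fix_j (h : i • w = -w) : j • w = w := by
  rw [← s.iτ c, mul_smul, s.ht.perp (s.perp c h), smul_neg, h, neg_neg]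

theorem neg_j (h : i • w = w) (h' : B t w = 0) : j • w = -w := by
  rw [← s.iτ c, mul_smul, s.ht.perp h', smul_neg, h]

theorem comm_j (h : x * i = i * x) (hx : x * τ = τ * x) : x * j = j * x := by
  rw [← s.iτ c, ← mul_assoc, h, mul_assoc, hx, mul_assoc]

theorem comm_of (hx : x ∈ S) (nw : B w w ≠ 0) (h : i • w = -w) (h' : i • x • w = -(x • w)) :
    x * i = i * x := by
  refine (s.cj x hx).resolve_right fun e => ne_zero_of nw (eq_zero_of_neg c.two ?_)
  have := s.fix_j c h'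
  rw [← mul_smul, ← e, mul_smul, h] at this
  exact (smul_left_cancel _ this).symm

theorem root [Finite G] [IsSimpleGroup G] (hG : ¬ IsMulCommutative G) (hr : T B g r) (hg : g ∈ S) :
    (r = t ∨ r = -t) ∨ i • r = -r ∨ j • r = -r := by
  by_cases h : g = τ
  · exact .inl (s.ht.line c (h ▸ hr.self) hr.1)
  have h1 := hr.of_neg c (perp_of_mem c hG s.ht s.hS hr hg h)
  have h2 : i * g = g * i := by
    refine ((s.cj g hg).resolve_right fun e => ?_).symm
    refine (hr.mul c s.ht h1).not_T c (v := i • r) ?_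
    have : g * τ = i * g * i⁻¹ := by
      rw [eq_mul_inv_iff_mul_eq, s.cτ c hg, mul_assoc, e, ← mul_assoc, ← s.ij, mul_assoc i,
        s.jj c, mul_one]
    exact this ▸ hr.conj c i
  exact .inr (((hr.comm_iff c).1 h2).symm.imp_right fun e => s.neg_j c e (c.symm _ _ ▸ h1))

end Su

end CL.Sp4O
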