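import Cfsg.Agent.CLAS.FourJ3

/-!
# There are no reflections
-/

set_option autoImplicit false
set_option linter.unusedSectionVars false

namespace CL.FJ

open Module
open CL.FR (smul_sm conj_smul eig mem_eig)
open CL.FR.RA (Pr Sw)

variable {k W G : Type*} [Field k] [AddCommGroup W] [Module k W] [Group G] [DistribMulAction G W]
  [SMulCommClass G k W] [Finite G] [IsAlgClosed k]

variable (k) in
/-- `g` is monomial on `a, b` -/
def Mo (g : G) (a b : W) : Prop :=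
  ∃ p q : k, (g • a = p • a ∧ g • b = q • b) ∨ (g • a = p • b ∧ g • b = q • a)

/-- dual pairs -/
structure Du (a b : W) (α β : W →ₗ[k] k) : Prop where
  aa : α a = 1
  ab : α b = 0
  ba : β a = 0
  bb : β b = 1

/-- the determinant on the plane -/
def dd (a b : W) (α β : W →ₗ[k] k) (g : G) : k := α (g • a) * β (g • b) - α (g • b) * β (g • a)

open Classical in
/-- the sign of the permutation of the two lines -/
noncomputable def sg (a : W) (α : W →ₗ[k] k) (g : G) : k := if α (g • a) = 0 then -1 else 1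

theorem sg_sq (a : W) (α : W →ₗ[k] k) (g : G) : sg a α g * sg a α g = 1 := by
  rw [sg]; split_ifs <;> simp

namespace Du

variable {a b : W} {α β : W →ₗ[k] k} (u : Du a b α β) {g h : G} {p q : k}
include u

theorem dg (h1 : g • a = p • a) (h2 : g • b = q • b) : dd a b α β g = p * q ∧ sg a α g = 1 := by
  have : p ≠ 0 := by
    rintro rfl
    rw [zero_smul, smul_eq_zero_iff_eq] at h1
    simpa [h1] using u.aa
  simp [dd, sg, h1, h2, u.aa, u.ab, u.ba, u.bb, this]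

theorem sw (h1 : g • a = p • b) (h2 : g • b = q • a) : dd a b α β g = -(p * q) ∧ sg a α g = -1 := by
  simp [dd, sg, h1, h2, u.aa, u.ab, u.ba, u.bb, mul_comm]

theorem mul (x : Mo k g a b) (y : Mo k h a b) : dd a b α β (g * h) = dd a b α β g * dd a b α β h ∧
    sg a α (g * h) = sg a α g * sg a α h := by
  obtain ⟨p, q, ⟨x1, x2⟩ | ⟨x1, x2⟩⟩ := x <;> obtain ⟨r, s, ⟨y1, y2⟩ | ⟨y1, y2⟩⟩ := y
  · have := u.dg (g := g * h) (by rw [mul_smul, y1, smul_sm, x1, smul_smul])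
      (by rw [mul_smul, y2, smul_sm, x2, smul_smul])
    rw [this.1, this.2, (u.dg x1 x2).1, (u.dg x1 x2).2, (u.dg y1 y2).1, (u.dg y1 y2).2]
    constructor <;> ring
  · have := u.sw (g := g * h) (by rw [mul_smul, y1, smul_sm, x2, smul_smul])
      (by rw [mul_smul, y2, smul_sm, x1, smul_smul])
    rw [this.1, this.2, (u.dg x1 x2).1, (u.dg x1 x2).2, (u.sw y1 y2).1, (u.sw y1 y2).2]
    constructor <;> ring
  · have := u.sw (g := g * h) (by rw [mul_smul, y1, smul_sm, x1, smul_smul])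
      (by rw [mul_smul, y2, smul_sm, x2, smul_smul])
    rw [this.1, this.2, (u.sw x1 x2).1, (u.sw x1 x2).2, (u.dg y1 y2).1, (u.dg y1 y2).2]
    constructor <;> ring
  · have := u.dg (g := g * h) (by rw [mul_smul, y1, smul_sm, x2, smul_smul])
      (by rw [mul_smul, y2, smul_sm, x1, smul_smul])
    rw [this.1, this.2, (u.sw x1 x2).1, (u.sw x1 x2).2, (u.sw y1 y2).1, (u.sw y1 y2).2]
    constructor <;> ring

end Du

variable (n : ℕ) [Fact n.Prime] [CharP k n] (c : Ctx k W G)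
include n c

/-- diagonal `2`-elements are scalars up to signs -/
theorem tl {a b : Rf k W G} {x : G} (f : Fr a b (a.conj x) (b.conj x)) (hx : Mo k (x * x) a.v b.v)
    {g : G} {p q r s : k} (h : Dg a b (a.conj x) (b.conj x) g p q r s) {m : ℕ} (hm : g ^ 2 ^ m = 1) :
    q ^ 2 = p ^ 2 ∧ r ^ 2 = p ^ 2 ∧ s ^ 2 = p ^ 2 := by
  have key : ∀ (m : ℕ) {g : G} {p q r s : k}, Dg a b (a.conj x) (b.conj x) g p q r s →
      (q ^ 2) ^ 2 ^ m = (p ^ 2) ^ 2 ^ m → (r ^ 2) ^ 2 ^ m = (p ^ 2) ^ 2 ^ m →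
      (s ^ 2) ^ 2 ^ m = (p ^ 2) ^ 2 ^ m → q ^ 2 = p ^ 2 ∧ r ^ 2 = p ^ 2 ∧ s ^ 2 = p ^ 2 := fun m => by
    induction m with
    | zero => intro g p q r s _ h1 h2 h3; exact ⟨by simpa using h1, by simpa using h2, by simpa using h3⟩
    | succ m ih =>
      intro g p q r s h h1 h2 h3
      have e : ∀ t : k, (t ^ 2) ^ 2 ^ (m + 1) = ((t * t) ^ 2) ^ 2 ^ m := fun t => by
        rw [pow_succ' 2 m, pow_mul, pow_two t]
      have := ih (h.mul h) (by rwa [← e, ← e]) (by rwa [← e, ← e]) (by rwa [← e, ← e])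
      simp only [← pow_two] at this
      have k1 : (x⁻¹ * g * x) • a.v = r • a.v := by
        rw [mul_smul, mul_smul, inv_smul_eq_iff, smul_sm]; exact h.h3
      have k2 : (x⁻¹ * g * x) • b.v = s • b.v := by
        rw [mul_smul, mul_smul, inv_smul_eq_iff, smul_sm]; exact h.h4
      have k3 : ∀ {v w : W} {P t : k}, (x * x) • v = P • w → g • w = t • w →
          (x⁻¹ * g * x) • x • v = t • x • v := fun {v w P t} e1 e2 => by
        rw [mul_smul, mul_smul, inv_smul_eq_iff, smul_sm, ← mul_smul x x, e1, smul_sm, e2, smul_comm]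
      refine h.four n c f (h := x⁻¹ * g * x) ?_ this.1 this.2.1 this.2.2
      obtain ⟨P, Q, ⟨x1, x2⟩ | ⟨x1, x2⟩⟩ := hx
      exacts [.inl ⟨k1, k2, k3 x1 h.h1, k3 x2 h.h2⟩, .inr ⟨k1, k2, k3 x1 h.h2, k3 x2 h.h1⟩]
  have one : ∀ {y : Rf k W G} {t : k}, g • y.v = t • y.v → (t ^ 2) ^ 2 ^ m = 1 := fun {y t} e => by
    have e' : ∀ i : ℕ, g ^ i • y.v = t ^ i • y.v := fun i => by
      induction i with
      | zero => simp
      | succ i ih => rw [pow_succ', mul_smul, ih, smul_sm, e, smul_smul, pow_succ]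
    have : t ^ 2 ^ m = 1 := smul_left_injective k (y.ne c) (by simp only [← e', hm, one_smul])
    rw [← pow_mul, mul_comm, pow_mul, this, one_pow]
  exact key m h (by rw [one h.h1, one h.h2]) (by rw [one h.h1, one h.h3]) (by rw [one h.h1, one h.h4])

theorem Ctx.false (r : Rf k W G) : False := by
  have := c.fd
  obtain ⟨S⟩ : Nonempty (Sylow 2 G) := inferInstance
  rcases split c S.isPGroup' (U := ⊤) (fun _ _ _ _ => trivial) with h | ⟨U, V, U0, V0, hd, hs, hUV⟩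
  · refine noInv c S r (U := Submodule.span k {r.v}) (by simpa using r.ne c)
      (by rw [finrank_span_singleton (r.ne c)]; omega) fun s hs w hw => ?_
    obtain ⟨a, ha⟩ := h s hs
    exact ha w trivial ▸ Submodule.smul_mem _ a hw
  have d := Submodule.disjoint_def.1 hd
  have hdim := Submodule.finrank_sup_add_finrank_inf_eq U V
  rw [hd.eq_bot, finrank_bot, add_zero, hs, finrank_top, c.dim] at hdim
  have ns : ∀ {s : G}, Pr s U → ¬ ∀ w ∈ U, s • w ∈ V := fun {s} h1 h2 =>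
    U0 (bot_unique fun w hw => (smul_eq_zero_iff_eq s).1 (d _ (h1 w hw) (h2 w hw)))
  let H : Subgroup G :=
    { carrier := {s | s ∈ S ∧ Pr s U ∧ Pr s V}
      one_mem' := ⟨one_mem _, fun w hw => by simpa using hw, fun w hw => by simpa using hw⟩
      mul_mem' := fun {a b} ha hb => ⟨mul_mem ha.1 hb.1,
        fun w hw => mul_smul a b w ▸ ha.2.1 _ (hb.2.1 w hw),
        fun w hw => mul_smul a b w ▸ ha.2.2 _ (hb.2.2 w hw)⟩
      inv_mem' := fun {a} ha => ⟨inv_mem ha.1, (hUV _ (inv_mem ha.1)).resolve_right fun q =>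
        U0 (bot_unique fun w hw => d w hw (by simpa using q.1 _ (ha.2.1 w hw)))⟩ }
  have hsw : ∀ s ∈ S, s ∉ H → Sw s U V := fun s hs h => (hUV s hs).resolve_left fun q => h ⟨hs, q⟩
  have hi : ∀ a ∈ S, ∀ b ∈ S, a ∉ H → b ∉ H → a * b ∈ H := fun a ha b hb h1 h2 => ⟨mul_mem ha hb,
    fun w hw => mul_smul a b w ▸ (hsw a ha h1).2 _ ((hsw b hb h2).1 w hw),
    fun w hw => mul_smul a b w ▸ (hsw a ha h1).1 _ ((hsw b hb h2).2 w hw)⟩
  obtain ⟨x, xS, xH⟩ : ∃ x ∈ S, x ∉ H := by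
    by_contra! h
    by_cases h2 : finrank k U ≤ 2
    exacts [noInv c S r U0 h2 fun s hs => (h s hs).2.1,
      noInv c S r V0 (by omega) fun s hs => (h s hs).2.2]
  have xw := hsw x xS xH
  have xi : x⁻¹ ∉ H := mt inv_mem_iff.1 xH
  have xw' := hsw _ (inv_mem xS) xi
  have hn : ∀ a ∈ H, x⁻¹ * a * x ∈ H := fun a ha => hi _ (mul_mem (inv_mem xS) ha.1) x xS
    (fun h => xi ((mul_mem_cancel_right ha).1 h)) xH
  have hU : finrank k U = 2 := by
    have := rank_le c xw.1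
    have := rank_le c xw.2
    omega
  have x2 := hi x xS x xS xH xH
  have noLine : ∀ e : W, e ≠ 0 → ¬ ∀ s ∈ H, ∃ a : k, s • e = a • e := fun e e0 h => by
    have m1 : e ∈ Submodule.span k {e, x • e} := Submodule.subset_span (by simp)
    have m2 : x • e ∈ Submodule.span k {e, x • e} := Submodule.subset_span (by simp)
    have k1 : ∀ s ∈ H, s • e ∈ Submodule.span k {e, x • e} ∧ x • s • e ∈ Submodule.span k {e, x • e} :=
      fun s hs => by
        obtain ⟨a, ha⟩ := h s hs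
        rw [ha, smul_sm]
        exact ⟨Submodule.smul_mem _ _ m1, Submodule.smul_mem _ _ m2⟩
    refine noInv c S r (U := Submodule.span k {e, x • e}) (fun h => e0 (h.le m1)) ?_ fun s hs w hw => ?_
    · classical
      exact (finrank_span_le_card _).trans (by simpa using Finset.card_le_two)
    obtain ⟨p, q, rfl⟩ := Submodule.mem_span_pair.1 hw
    rw [smul_add, smul_sm, smul_sm]
    by_cases h1 : s ∈ H
    · exact add_mem (Submodule.smul_mem _ _ (k1 s h1).1) (Submodule.smul_mem _ _ (by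
        simpa [mul_smul] using (k1 _ (hn s h1)).2))
    · exact add_mem (Submodule.smul_mem _ _ (by
        simpa [mul_smul] using (k1 _ (hi _ (inv_mem xS) s hs xi h1)).2)) (Submodule.smul_mem _ _ (by
        simpa [mul_smul] using (k1 _ (hi s hs x xS h1 xH)).1))
  rcases split c (S.isPGroup'.to_le (show H ≤ S from fun s hs => hs.1)) (U := U)
    (fun s hs => hs.2.1) with h | ⟨L, M, L0, M0, hd', hs', hLM⟩
  · obtain ⟨e, he, e0⟩ := (Submodule.ne_bot_iff U).1 U0
    exact noLine e e0 fun s hs => (h s hs).imp fun a ha => ha e he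
  have hdim' := Submodule.finrank_sup_add_finrank_inf_eq L M
  rw [hd'.eq_bot, finrank_bot, add_zero, hs', hU] at hdim'
  have p1 := Nat.pos_of_ne_zero (mt Submodule.finrank_eq_zero.1 L0)
  have p2 := Nat.pos_of_ne_zero (mt Submodule.finrank_eq_zero.1 M0)
  have gen : ∀ {L : Submodule k W}, finrank k L = 1 → ∃ e ∈ L, e ≠ 0 ∧ ∀ w ∈ L, ∃ a : k, w = a • e :=
    fun h => by
      obtain ⟨v, v0, hv⟩ := finrank_eq_one_iff'.1 h
      exact ⟨v, v.2, fun e => v0 (Subtype.ext e), fun w hw =>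
        (hv ⟨w, hw⟩).imp fun a ha => (congrArg Subtype.val ha).symm⟩
  obtain ⟨e, eL, e0, he⟩ := gen (L := L) (by omega)
  obtain ⟨f, fM, f0, hf⟩ := gen (L := M) (by omega)
  have eU : e ∈ U := hs' ▸ Submodule.mem_sup_left eL
  have fU : f ∈ U := hs' ▸ Submodule.mem_sup_right fM
  have mo : ∀ s ∈ H, Mo k s e f := fun s hs => by
    rcases hLM s hs with q | q
    · obtain ⟨a, ha⟩ := he _ (q.1 e eL)
      obtain ⟨b, hb⟩ := hf _ (q.2 f fM)
      exact ⟨a, b, .inl ⟨ha, hb⟩⟩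
    · obtain ⟨a, ha⟩ := hf _ (q.1 e eL)
      obtain ⟨b, hb⟩ := he _ (q.2 f fM)
      exact ⟨a, b, .inr ⟨ha, hb⟩⟩
  have li : ∀ s t : k, s • e + t • f = 0 → s = 0 ∧ t = 0 := fun s t h => by
    have h1 := Submodule.disjoint_def.1 hd' _ (L.smul_mem s eL)
      (eq_neg_of_add_eq_zero_left h ▸ M.neg_mem (M.smul_mem t fM))
    rw [h1, zero_add] at h
    exact ⟨(smul_eq_zero.1 h1).resolve_right e0, (smul_eq_zero.1 h).resolve_right f0⟩
  obtain ⟨α, β, u, hV⟩ : ∃ α β : W →ₗ[k] k, Du e f α β ∧ ∀ w ∈ V, α w = 0 ∧ β w = 0 := by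
    let π := U.projectionOnto V ⟨hd, codisjoint_iff.2 hs⟩
    let b : Basis (Fin 2) k U := basisOfLinearIndependentOfCardEqFinrank
      (b := ![⟨e, eU⟩, ⟨f, fU⟩]) (LinearIndependent.pair_iff.2 fun s t h =>
        li s t (congrArg Subtype.val h)) (by simp [hU])
    have b0 : π e = b 0 := by simpa [b, π] using Submodule.projectionOnto_apply_left _ ⟨e, eU⟩
    have b1 : π f = b 1 := by simpa [b, π] using Submodule.projectionOnto_apply_left _ ⟨f, fU⟩
    refine ⟨b.coord 0 ∘ₗ π, b.coord 1 ∘ₗ π, ⟨by simp [b0], by simp [b1], by simp [b0], by simp [b1]⟩,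
      fun w hw => ?_⟩
    have : π w = 0 := Submodule.projectionOnto_apply_of_mem_right _ hw
    simp [this]
  have exU : ∀ w ∈ U, w = α w • e + β w • f := fun w hw => by
    obtain ⟨y, hy, z, hz, rfl⟩ := Submodule.mem_sup.1 (hs'.ge hw)
    obtain ⟨a, rfl⟩ := he y hy
    obtain ⟨b, rfl⟩ := hf z hz
    simp [u.aa, u.ab, u.ba, u.bb]
  have rH : ∀ y : Rf k W G, y.g ∈ S → y.g ∈ H := fun y hy => by
    by_contra h
    have q := (hsw _ hy h).1
    have h1 := (hV _ (q e eU)).1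
    have h2 := hV _ (q f fU)
    simp only [y.act, map_sub, map_smul, smul_eq_mul, u.aa, u.ab, u.bb] at h1 h2
    exact one_ne_zero (α := k) (by
      linear_combination h1 + y.φ e * α y.v * h2.2 - y.φ e * β y.v * h2.1)
  have rUV : ∀ y : Rf k W G, y.g ∈ S →
      (y.v ∈ U ∧ ∀ w ∈ V, y.φ w = 0) ∨ (y.v ∈ V ∧ ∀ w ∈ U, y.φ w = 0) := fun y hy => by
    have key : ∀ {U V : Submodule k W}, (∀ w ∈ U, w ∈ V → w = 0) → Pr y.g U → ∀ v ∈ U, ∀ v' ∈ V,
        v + v' = y.v → ∀ w ∈ U, y.φ w = 0 ∨ v' = 0 := fun {U V} d h v hv v' hv' e w hw => by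
      have := U.sub_mem (U.sub_mem hw (h w hw)) (U.smul_mem (y.φ w) hv)
      rw [y.act, sub_sub_cancel, ← e, smul_add, add_sub_cancel_left] at this
      exact smul_eq_zero.1 (d _ this (V.smul_mem _ hv'))
    obtain ⟨v, hv, v', hv', e⟩ := Submodule.mem_sup.1 (hs.ge (Submodule.mem_top (x := y.v)))
    have k1 := key d (rH y hy).2.1 v hv v' hv' e
    have k2 := key (fun w h1 h2 => d w h2 h1) (rH y hy).2.2 v' hv' v hv (add_comm v v' ▸ e)
    by_cases h : v' = 0
    · rw [h, add_zero] at e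
      exact .inl ⟨e ▸ hv, fun w hw => (k2 w hw).resolve_right (e ▸ y.ne c)⟩
    have k3 := fun w hw => (k1 w hw).resolve_right h
    refine .inr ⟨?_, k3⟩
    have := y.two
    rw [← e, map_add, k3 v hv, zero_add] at this
    rw [← e, (k2 v' hv').resolve_left (this ▸ c.two), zero_add]
    exact hv'
  have dU : ∀ y : Rf k W G, y.v ∈ U → dd e f α β y.g = -1 := fun y hy => by
    have := congrArg y.φ (exU _ hy)
    simp only [dd, y.act, map_sub, map_add, map_smul, smul_eq_mul, u.aa, u.ab, u.ba, u.bb, y.two] at this ⊢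
    linear_combination this
  have dV : ∀ y : Rf k W G, (∀ w ∈ U, y.φ w = 0) → dd e f α β y.g = 1 ∧ sg e α y.g = 1 := fun y hy => by
    simpa using u.dg (p := 1) (q := 1) (by rw [y.perp (hy e eU), one_smul])
      (by rw [y.perp (hy f fU), one_smul])
  have cg : ∀ y : Rf k W G, x⁻¹ * y.g * x = (y.conj x⁻¹).g := fun y => by simp
  refine fin c S r (dd e f α β) (sg e α) xS xH hi hn (fun a ha b hb => u.mul (mo a ha) (mo b hb))
    (sg_sq e α) (fun z a h => ⟨⟨c.sc_mem S h, fun w hw => h w ▸ U.smul_mem a hw,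
      fun w hw => h w ▸ V.smul_mem a hw⟩, by simpa [pow_two] using u.dg (h e) (h f)⟩)
    (fun y hy => ⟨rH y hy, ?_⟩) fun hy => ?_
  · rw [cg]
    rcases rUV y hy with h | h
    · have := dV (y.conj x⁻¹) fun w hw => by simpa using h.2 _ (xw.1 w hw)
      exact ⟨by rw [dU y h.1, this.1], .inr this.2⟩
    · exact ⟨by rw [dU (y.conj x⁻¹) (xw'.2 _ h.1), (dV y h.2).1, neg_neg], .inl (dV y h.2).2⟩
  obtain ⟨y, yS, yU, hy⟩ : ∃ y : Rf k W G, y.g ∈ S ∧ y.v ∈ U ∧ sg e α y.g = 1 := by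
    obtain ⟨y, yS, h1, h2⟩ := hy
    rcases rUV y yS with h | h
    exacts [⟨y, yS, h.1, h1⟩, ⟨y.conj x⁻¹, cg y ▸ mul_mem (mul_mem (inv_mem xS) yS) xS,
      xw'.2 _ h.1, cg y ▸ h2⟩]
  let P : W → Prop := fun w => ∃ y : Rf k W G, y.g ∈ S ∧ y.v = w
  have P1 : ∀ {w w' : W} {s : G} {a : k}, P w → s ∈ S → s • w = a • w' → P w' := by
    rintro _ w' s a ⟨y, yS, rfl⟩ hs h
    have : a ≠ 0 := by
      rintro rfl
      exact y.ne c ((smul_eq_zero_iff_eq s).1 (h.trans (zero_smul k _)))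
    exact ⟨(y.conj s).sc a⁻¹ (inv_ne_zero this), mul_mem (mul_mem hs yS) (inv_mem hs), by
      simp [h, this]⟩
  have two : (1 : k) ≠ -1 := fun e => c.two (by linear_combination e)
  obtain ⟨⟨a, aS, rfl⟩, ⟨b, bS, rfl⟩⟩ : P e ∧ P f := by
    obtain ⟨s, hs, p, q, s1, s2⟩ : ∃ s ∈ H, ∃ p q : k, s • e = p • f ∧ s • f = q • e := by
      by_contra! h
      refine noLine e e0 fun s hs => ?_
      obtain ⟨p, q, h1 | h1⟩ := mo s hs
      exacts [⟨p, h1.1⟩, absurd h1.2 (h s hs p q h1.1)]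
    obtain ⟨p', q', ⟨y1, y2⟩ | ⟨y1, y2⟩⟩ := mo _ (rH y yS)
    swap
    · exact absurd (hy.symm.trans (u.sw y1 y2).2) two
    have h1 := congrArg β y1
    have h2 := congrArg α y2
    have h3 := congrArg y.φ (exU _ yU)
    simp [y.act, u.ab, u.ba, y.two] at h1 h2 h3
    have Py : P y.v := ⟨y, yS, rfl⟩
    by_cases h : β y.v = 0
    · have := P1 (a := α y.v) (w' := e) Py (one_mem _) (by simpa [h] using exU _ yU)
      exact ⟨this, P1 this hs.1 s1⟩
    · have h4 : α y.v = 0 := h2.resolve_left fun e => c.two (by simpa [h1.resolve_right h, e] using h3)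
      have := P1 (a := β y.v) (w' := f) Py (one_mem _) (by simpa [h4] using exU _ yU)
      exact ⟨P1 this hs.1 s2, this⟩
  have ab : a.φ b.v = 0 := by
    obtain ⟨p, q, ⟨-, h⟩ | ⟨h, -⟩⟩ := mo _ (rH a aS)
    · simpa [a.act, u.aa, u.ab] using congrArg α h
    · simpa [a.self, u.aa, u.ab] using congrArg α h
  have aV := ((rUV a aS).resolve_right fun h => e0 (d _ eU h.1)).2
  have bV := ((rUV b bS).resolve_right fun h => f0 (d _ fU h.1)).2
  have fr : Fr a b (a.conj x) (b.conj x) := fr_of c ab (aV _ (xw.1 _ eU)) (aV _ (xw.1 _ fU))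
    (bV _ (xw.1 _ eU)) (bV _ (xw.1 _ fU)) (by simpa using ab)
  have TL : ∀ {g : G} {p q r s : k}, g ∈ H → Dg a b (a.conj x) (b.conj x) g p q r s →
      q ^ 2 = p ^ 2 ∧ r ^ 2 = p ^ 2 ∧ s ^ 2 = p ^ 2 := fun hg h =>
    let ⟨_, hm⟩ := CL.FR.RA.exists_pow hg.1
    tl n c fr (mo _ x2) h hm
  intro g hg hσ
  have tr : ∀ {v w : W} {t : k}, (x⁻¹ * g * x) • v = t • w → g • x • v = t • x • w := fun h => by
    rwa [mul_smul, mul_smul, inv_smul_eq_iff, smul_sm] at h
  obtain ⟨p, q, ⟨g1, g2⟩ | ⟨g1, g2⟩⟩ := mo g hg <;>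
    obtain ⟨s, t, ⟨g3, g4⟩ | ⟨g3, g4⟩⟩ := mo _ (hn g hg)
  · obtain ⟨h1, h2, h3⟩ := TL hg ⟨g1, g2, tr g3, tr g4⟩
    rw [(u.dg g1 g2).1, (u.dg g3 g4).1, mul_pow, mul_pow, h1, h2, h3]
  · exact absurd ((u.dg g1 g2).2.symm.trans (hσ.trans (u.sw g3 g4).2)) two
  · exact absurd ((u.dg g3 g4).2.symm.trans (hσ.symm.trans (u.sw g1 g2).2)) two
  · have := TL (p := p * q) (q := q * p) (r := s * t) (s := t * s) (mul_mem hg hg)
      ⟨by rw [mul_smul, g1, smul_sm, g2, smul_smul], by rw [mul_smul, g2, smul_sm, g1, smul_smul],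
        by rw [Rf.conj_v, mul_smul, tr g3, smul_sm, tr g4, smul_smul],
        by rw [Rf.conj_v, mul_smul, tr g4, smul_sm, tr g3, smul_smul]⟩
    rw [(u.sw g1 g2).1, (u.sw g3 g4).1, neg_sq, neg_sq, this.2.1]

end CL.FJ
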