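import Cfsg.Agent.CLAS.FiveDef
import Cfsg.Agent.CLAS.Sp4OBr
import Cfsg.Agent.KSG.AltELin
import Cfsg.Agent.SPOR.B43.LinA
import Cfsg.Agent.FGS.SchurHopf
import Cfsg.Agent.S3952

/-!
# Representations of degree five: lifting, Scott's lemma, eigenvalue counts
-/

set_option autoImplicit false

namespace CL.Five.K

open Matrix Cfsg Cfsg.Geo CL.Asch Module Function Finset CL.AltE
open scoped MatrixGroups commutatorElement

variable {k : Type*} [Field k] {G : Type*} [Group G]

/-- the linear representation given by a homomorphism to `GL₅` -/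
def lin (σ : G →* G5 k) : G →* End k (V5 k) where
  toFun g := toLin' (σ g : M5 k)
  map_one' := by rw [map_one, Units.val_one, toLin'_one]; rfl
  map_mul' a b := by rw [map_mul, Units.val_mul, toLin'_mul]; rfl

theorem lin_apply (σ : G →* G5 k) (g : G) (v : V5 k) : lin σ g v = (σ g : M5 k) *ᵥ v := rfl

theorem lin_eq_one {σ : G →* G5 k} {g : G} : lin σ g = 1 ↔ σ g = 1 := by
  refine ⟨fun h => Units.ext (toLin'.injective ?_), fun h => ?_⟩
  · rw [Units.val_one, toLin'_one]; exact h
  · change toLin' _ = _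
    rw [h, Units.val_one, toLin'_one]; rfl

theorem trace_lin (σ : G →* G5 k) (g : G) : LinearMap.trace k _ (lin σ g) = tr (σ g) :=
  trace_toLin'_eq _

theorem dim5 : finrank k (V5 k) = 5 := by simp

/-- the multiplicity of an eigenvalue -/
noncomputable abbrev nf (σ : G →* G5 k) (g : G) (μ : k) : ℕ := finrank k ((lin σ g).eigenspace μ)

theorem nf_conj (σ : G →* G5 k) {g h : G} (e : IsConj g h) (μ : k) : nf σ g μ = nf σ h μ :=
  finrank_conj _ e μ

theorem nf_le (σ : G →* G5 k) (g : G) (μ : k) : nf σ g μ ≤ 5 :=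
  (Submodule.finrank_le _).trans dim5.le

theorem eq_one_of_nf {σ : G →* G5 k} {g : G} (h : nf σ g 1 = 5) : σ g = 1 := by
  refine lin_eq_one.1 (LinearMap.ext fun v => ?_)
  have : (lin σ g).eigenspace 1 = ⊤ := Submodule.eq_top_of_finrank_eq (h.trans dim5.symm)
  simpa using End.mem_eigenspace_iff.1 (this.ge (Submodule.mem_top (x := v)))

theorem nf_le_pow (σ : G →* G5 k) {g : G} {m : ℕ} (e : IsConj g (g ^ m)) (μ : k) :
    nf σ g μ ≤ nf σ g (μ ^ m) := by
  rw [nf_conj σ e (μ ^ m)]
  refine Submodule.finrank_mono fun v hv => End.mem_eigenspace_iff.2 ?_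
  rw [map_pow, eig_pow (End.mem_eigenspace_iff.1 hv)]

section Lift

variable {P : Subgroup (G5 k)} (C : Core P)
include C

theorem exists_rep (e : Bar P ≃* G) {A : Type*} [CommGroup A] (hA : HasSchurMultiplier G A)
    (h5 : ¬ 5 ∣ Nat.card A) : ∃ σ : G →* G5 k, Injective σ ∧ σ.range = P := by
  let ξ : P →* G := e.toMonoidHom.comp (QuotientGroup.mk' _)
  have hk : ∀ x : P, x ∈ ξ.ker ↔ (x : G5 k) ∈ scalars (Fin 5) k := fun x => by
    rw [MonoidHom.mem_ker]
    exact e.map_eq_one_iff.trans (QuotientGroup.eq_one_iff x)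
  have hs : Surjective ξ := e.surjective.comp (QuotientGroup.mk'_surjective _)
  have hp : commutator P = ⊤ := by
    refine Subgroup.map_injective P.subtype_injective ?_
    rw [commutator_def, Subgroup.map_commutator, ← MonoidHom.range_eq_map, P.range_subtype,
      C.perfect]
  obtain ⟨φ, hφ⟩ := CL.Schur.exists_surj_ker hA (ξ := ξ) ⟨hs, fun x hx =>
    Subgroup.mem_center_iff.2 fun y => Subtype.ext (scalars_comm ((hk x).1 hx) y).symm,
    hp ▸ le_top⟩
  have hi : Injective ξ := (injective_iff_map_eq_one ξ).2 fun x hx => by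
    obtain ⟨a, ha⟩ := hφ ⟨x, hx⟩
    have h1 : x ^ 5 = 1 := Subtype.ext (C.scalar_pow x.2 ((hk x).1 hx))
    have h2 : x ^ Nat.card A = 1 := by
      have := congrArg Subtype.val (map_pow φ a (Nat.card A))
      rw [pow_card_eq_one', map_one, ha] at this
      exact this.symm
    exact (pow_eq_one_iff_of_coprime ((Nat.Prime.coprime_iff_not_dvd Nat.prime_five).2 h5)).1
      ⟨h1, h2⟩
  let f := MulEquiv.ofBijective ξ ⟨hi, hs⟩
  refine ⟨P.subtype.comp f.symm.toMonoidHom, P.subtype_injective.comp f.symm.injective, ?_⟩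
  rw [MonoidHom.range_comp, MonoidHom.range_eq_top.2 f.symm.surjective,
    ← MonoidHom.range_eq_map, P.range_subtype]

theorem exists_rep_cyc (e : Bar P ≃* G) {n : ℕ} (hA : HasCyclicSchurMultiplier G n)
    (h5 : ¬ 5 ∣ n) : ∃ σ : G →* G5 k, Injective σ ∧ σ.range = P :=
  exists_rep C e hA (by rwa [Nat.card_congr Multiplicative.toAdd, Nat.card_zmod])

theorem exists_rep25 (e : Bar P ≃* G) (h : ¬ 25 ∣ Nat.card G) :
    ∃ σ : G →* G5 k, Injective σ ∧ σ.range = P := by
  have := C.fin
  have : Finite G := Finite.of_equiv _ e.toEquiv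
  have hA := CL.Schur.hasSchurMultiplier_mult G
  refine exists_rep C e hA fun h5 => h ?_
  have : Fact (Nat.Prime 5) := ⟨Nat.prime_five⟩
  obtain ⟨a, ha⟩ := exists_prime_orderOf_dvd_card' 5 h5
  exact (pow_dvd_pow_of_dvd (ha ▸ Monoid.order_dvd_exponent a) 2).trans
    (Cfsg.Agent.S3952.result hA)

end Lift

variable {σ : G →* G5 k}

section Irr

variable (C : Core σ.range)
include C

theorem irr (W : Submodule k (V5 k)) (h : ∀ g, ∀ v ∈ W, lin σ g v ∈ W) : W = ⊥ ∨ W = ⊤ :=
  C.irr W (by rintro _ ⟨g, rfl⟩; exact h g)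

theorem irr_gen {S : Set G} (hS : Subgroup.closure S = ⊤) (W : Submodule k (V5 k))
    (h : ∀ g ∈ S, ∀ v ∈ W, lin σ g v ∈ W) : W = ⊥ ∨ W = ⊤ := by
  refine irr C W fun g => ?_
  have hg : g ∈ Subgroup.closure S := hS ▸ Subgroup.mem_top g
  induction hg using Subgroup.closure_induction with
  | mem x hx => exact h x hx
  | one => simp
  | mul x y _ _ hx hy => exact fun v hv => by rw [map_mul]; exact hx _ (hy v hv)
  | inv x _ hx =>
    intro v hv
    obtain ⟨w, hw⟩ := LinearMap.surjective_of_injective (f := (lin σ x).restrict hx)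
      (fun a b e => Subtype.ext (rep_injective (lin σ) x (congrArg Subtype.val e))) ⟨v, hv⟩
    have : lin σ x w = v := congrArg Subtype.val hw
    rw [← this, ← End.mul_apply, ← map_mul, inv_mul_cancel, map_one]
    exact w.2

theorem not_small {S : Set G} (hS : Subgroup.closure S = ⊤) (W : Submodule k (V5 k))
    (h : ∀ g ∈ S, ∀ v ∈ W, lin σ g v ∈ W) (h0 : 0 < finrank k W) : finrank k W = 5 := by
  rcases irr_gen C hS W h with rfl | rfl
  · simp at h0
  · simp

theorem det_one (g : G) : (σ g : M5 k).det = 1 := C.det ⟨g, rfl⟩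

theorem not_triv {S : Set G} (hS : Subgroup.closure S = ⊤) : ¬ ∀ g ∈ S, σ g = 1 := fun h => by
  have h1 : (Pi.single 0 1 : V5 k) ≠ 0 := by simp
  have := not_small C hS (k ∙ (Pi.single 0 1 : V5 k))
    (fun g hg v hv => by rwa [lin_eq_one.2 (h g hg)]) (by rw [finrank_span_singleton h1]; omega)
  rw [finrank_span_singleton h1] at this
  omega

/-- **Scott's lemma** -/
theorem scott {a b : G} (h : Subgroup.closure {a, b} = ⊤) :
    nf σ a 1 + nf σ b 1 + nf σ (a * b) 1 ≤ 5 := by
  have inv : ∀ S : Submodule k (V5 k), (∀ v ∈ S, lin σ a v ∈ S) → (∀ v ∈ S, lin σ b v ∈ S) →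
      S = ⊥ ∨ S = ⊤ := fun S h1 h2 => irr_gen C h S (by rintro x (rfl | rfl) <;> assumption)
  have ntriv : ¬ (lin σ a = 1 ∧ lin σ b = 1) := fun ⟨e1, e2⟩ => not_triv C h (by
    rintro x (rfl | rfl) <;> exact lin_eq_one.1 ‹_›)
  have key : ∀ g, nf σ g 1 = finrank k (LinearMap.ker (1 - lin σ g)) := fun g =>
    congrArg (fun W : Submodule k (V5 k) => finrank k W) (by
      ext v
      rw [End.mem_eigenspace_iff, one_smul, LinearMap.mem_ker, LinearMap.sub_apply, sub_eq_zero,
        eq_comm]; rfl)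
  rw [key, key, key]
  set A := lin σ a
  set B := lin σ b
  have hS : LinearMap.range (1 - A) ⊔ LinearMap.range (1 - B) = ⊤ := by
    refine (inv _ (fun v hv => ?_) fun v hv => ?_).resolve_left fun e => ntriv ?_
    · rw [show A v = v - (1 - A) v by simp]
      exact sub_mem hv (Submodule.mem_sup_left ⟨v, rfl⟩)
    · rw [show B v = v - (1 - B) v by simp]
      exact sub_mem hv (Submodule.mem_sup_right ⟨v, rfl⟩)
    · rw [sup_eq_bot_iff, LinearMap.range_eq_bot, LinearMap.range_eq_bot, sub_eq_zero,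
        sub_eq_zero] at e
      exact ⟨e.1.symm, e.2.symm⟩
  have hF : LinearMap.ker (1 - A) ⊓ LinearMap.ker (1 - B) = ⊥ := by
    refine (inv _ (fun v hv => ?_) fun v hv => ?_).resolve_right fun e => ntriv ?_
    · rwa [← show v = A v from sub_eq_zero.1 hv.1]
    · rwa [← show v = B v from sub_eq_zero.1 hv.2]
    · rw [inf_eq_top_iff, LinearMap.ker_eq_top, LinearMap.ker_eq_top, sub_eq_zero,
        sub_eq_zero] at e
      exact ⟨e.1.symm, e.2.symm⟩
  have hAB : ∀ v ∈ LinearMap.ker (1 - lin σ (a * b)), A (B v) = v := fun v hv => by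
    have := (sub_eq_zero.1 (LinearMap.mem_ker.1 hv)).symm
    rwa [map_mul] at this
  have h3 : finrank k (LinearMap.ker (1 - lin σ (a * b))) ≤
      finrank k ↥(LinearMap.range (1 - A) ⊓ LinearMap.range (1 - B)) := by
    refine LinearMap.finrank_le_finrank_of_injective (f := ((1 - B).domRestrict _).codRestrict _
      fun v => ⟨⟨-B v, by simp [hAB v.1 v.2, neg_add_eq_sub]⟩, ⟨v, rfl⟩⟩) ?_
    rw [← LinearMap.ker_eq_bot, eq_bot_iff]
    intro v hv
    have h4 : (1 - B) v.1 = 0 := congrArg Subtype.val (LinearMap.mem_ker.1 hv)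
    have h5 : v.1 ∈ LinearMap.ker (1 - A) ⊓ LinearMap.ker (1 - B) := by
      refine ⟨?_, h4⟩
      have := hAB v.1 v.2
      rw [← show v.1 = B v from sub_eq_zero.1 h4] at this
      exact sub_eq_zero.2 this.symm
    rw [hF] at h5
    exact Subtype.ext h5
  have h4 := Submodule.finrank_sup_add_finrank_inf_eq (LinearMap.range (1 - A))
    (LinearMap.range (1 - B))
  rw [hS, finrank_top, dim5] at h4
  have h5 := (1 - A).finrank_range_add_finrank_ker
  have h6 := (1 - B).finrank_range_add_finrank_ker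
  rw [dim5] at h5 h6
  omega

end Irr

theorem nf_pos_of_det {g : G} (h : ((σ g : M5 k) - 1).det = 0) : 1 ≤ nf σ g 1 := by
  obtain ⟨v, hv, e⟩ := exists_mulVec_eq_zero_iff.2 h
  refine Nat.pos_of_ne_zero fun h0 => hv ?_
  have : v ∈ (lin σ g).eigenspace 1 := End.mem_eigenspace_iff.2 (by
    rwa [sub_mulVec, one_mulVec, sub_eq_zero, ← one_smul k v, mulVec_smul, one_smul] at e)
  rwa [Submodule.finrank_eq_zero.1 h0] at this

/-- a `p`-element has a fixed vector -/
theorem nf_pos_of_pow (p : ℕ) [Fact p.Prime] [CharP k p] {g : G} {n : ℕ} (h : g ^ p ^ n = 1) :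
    1 ≤ nf σ g 1 := by
  refine nf_pos_of_det (pow_eq_zero_iff (pow_ne_zero n (Fact.out : p.Prime).ne_zero) |>.1 ?_)
  rw [← det_pow, sub_pow_char_pow_of_commute p n (Commute.one_right _), one_pow,
    ← Units.val_pow_eq_pow_val, ← map_pow, h, map_one, Units.val_one, sub_self, det_zero]

/-- a real element has a fixed vector -/
theorem nf_pos_of_real (C : Core σ.range) (h2 : (2 : k) ≠ 0) {g : G} (h : IsConj g g⁻¹) :
    1 ≤ nf σ g 1 := by
  refine nf_pos_of_det (mul_left_cancel₀ h2 ?_)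
  obtain ⟨c, hc⟩ := isConj_iff.1 h
  have h1 : (σ g⁻¹ : M5 k) - 1 = σ c * ((σ g : M5 k) - 1) * σ c⁻¹ := by
    rw [← hc]
    simp only [map_mul, Units.val_mul, mul_sub, sub_mul, mul_one]
    rw [← Units.val_mul (σ c) (σ c⁻¹), ← map_mul, mul_inv_cancel, map_one, Units.val_one]
  have h3 : (σ g : M5 k) * ((σ g⁻¹ : M5 k) - 1) = -((σ g : M5 k) - 1) := by
    rw [mul_sub, ← Units.val_mul, ← map_mul, mul_inv_cancel, map_one, Units.val_one, mul_one,
      neg_sub]
  have h4 := congrArg det h3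
  rw [det_mul, h1, det_mul, det_mul, det_one C, det_one C, det_one C, det_neg] at h4
  norm_num at h4
  linear_combination h4

/-- an involution in characteristic two -/
theorem nf_inv_two [CharP k 2] {g : G} (h : g ^ 2 = 1) : 3 ≤ nf σ g 1 := by
  have h1 : LinearMap.range (lin σ g - 1) ≤ (lin σ g).eigenspace 1 := by
    rintro _ ⟨v, rfl⟩
    have : lin σ g (lin σ g v) = v := by rw [← End.mul_apply, ← map_mul, ← sq, h, map_one]; rfl
    rw [End.mem_eigenspace_iff, one_smul, LinearMap.sub_apply, map_sub, this, End.one_apply]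
    ext i
    simp only [Pi.sub_apply, CharTwo.sub_eq_add, add_comm]
  have h2 := (lin σ g - 1).finrank_range_add_finrank_ker
  have h3 : LinearMap.ker (lin σ g - 1) = (lin σ g).eigenspace 1 := by
    rw [End.eigenspace_def, one_smul]
  have h4 := Submodule.finrank_mono h1
  rw [h3, dim5] at h2
  unfold nf
  omega

section Trace

variable (p : ℕ) [Fact p.Prime] [CharP k p]

theorem tr_pow (g : G) (n : ℕ) : tr (σ (g ^ p ^ n)) = tr (σ g) ^ p ^ n := by
  rw [map_pow, tr, Units.val_pow_eq_pow_val, CL.Sp4O.trace_pow_char]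

theorem tr_isConj {g h : G} (e : IsConj g h) : tr (σ g) = tr (σ h) := tr_conj (σ.map_isConj e)

theorem ort_of {P : Subgroup (G5 k)} (hP : σ.range = P)
    (h : ∀ g : G, IsConj g g⁻¹ ∨ ∃ n, g ^ p ^ n = 1) : Ort P := by
  subst hP
  rintro _ ⟨g, rfl⟩
  rw [← map_inv]
  rcases h g with h | ⟨n, h⟩
  · exact (tr_isConj h).symm
  · refine iterateFrobenius_inj k p n ?_
    rw [iterateFrobenius_def, iterateFrobenius_def, ← tr_pow, ← tr_pow, inv_pow, h, inv_one]

theorem int_of_pow {y : k} (h : y ^ p = y) : ∃ a : ℤ, y = a := by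
  have : y ∈ (⊥ : Subfield k) := (Subfield.mem_bot_iff_pow_eq_self k p).2 h
  obtain ⟨a, ha⟩ := (mem_bot_iff_intCast p k).1 this
  exact ⟨a, ha.symm⟩

theorem int_of_conj {g : G} (h : IsConj (g ^ p) (g ^ p ^ 2)) : ∃ a : ℤ, tr (σ g) = a := by
  refine int_of_pow p (frobenius_inj k p ?_)
  have h1 := tr_pow (σ := σ) p g 1
  rw [pow_one] at h1
  rw [frobenius_def, frobenius_def, ← pow_mul, ← sq, ← tr_pow, ← tr_isConj h, h1]

include p in
/-- a real element of order dividing six has an integral trace -/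
theorem int_of_six {g : G} (h : g ^ 6 = 1) (hr : IsConj g g⁻¹) : ∃ a : ℤ, tr (σ g) = a := by
  refine int_of_conj p ?_
  have key : ∀ a b : ℕ, a % 6 = b % 6 → g ^ a = g ^ b := fun a b e => by
    rw [pow_eq_pow_mod a h, e, ← pow_eq_pow_mod b h]
  have : p ^ 2 % 6 = p % 6 ∨ (p ^ 2 + p) % 6 = 0 % 6 := by
    have : p % 6 < 6 := Nat.mod_lt _ (by norm_num)
    rw [Nat.add_mod, Nat.pow_mod]
    generalize p % 6 = r at this
    interval_cases r <;> simp
  rcases this with e | e
  · rw [key _ _ e]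
  · have := key _ _ e
    rw [pow_add, pow_zero] at this
    rw [eq_inv_of_mul_eq_one_left this, ← inv_pow]
    exact hr.pow p

end Trace

section Eig

theorem nf_diag (b : Basis (Fin 5) k (V5 k)) {g : G} {d : Fin 5 → k}
    (h : ∀ i, lin σ g (b i) = d i • b i) (μ : k) (q : Fin 5 → Prop) [DecidablePred q]
    (hq : ∀ i, q i ↔ d i = μ) : nf σ g μ = #{i | q i} := by
  rw [← finrank_inf₁ b.linearIndependent h μ q hq, b.span_eq, top_inf_eq]

theorem tr_diag (b : Basis (Fin 5) k (V5 k)) {g : G} {d : Fin 5 → k}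
    (h : ∀ i, lin σ g (b i) = d i • b i) : tr (σ g) = ∑ i, d i := by
  classical
  rw [← trace_lin, LinearMap.trace_eq_matrix_trace k b, trace]
  refine sum_congr rfl fun i _ => ?_
  rw [Matrix.diag_apply, LinearMap.toMatrix_apply, h]
  simp

theorem eq_one_of_diag (b : Basis (Fin 5) k (V5 k)) {g : G} (h : ∀ i, lin σ g (b i) = b i) :
    σ g = 1 := lin_eq_one.1 (b.ext h)

variable [IsAlgClosed k]

theorem exists_basis {J : Type*} (X : J → G) (hc : ∀ i j, σ (X i * X j) = σ (X j * X i)) {n : ℕ}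
    (h0 : (n : k) ≠ 0) (hn : ∀ j, σ (X j ^ n) = 1) : ∃ (b : Basis (Fin 5) k (V5 k))
      (d : J → Fin 5 → k), ∀ j i, lin σ (X j) (b i) = d j i • b i := by
  obtain ⟨I, _, v, d, h1, h2, h3⟩ := exists_eb_top (fun j => lin σ (X j)) (fun i j => by
    rw [Commute, SemiconjBy, ← map_mul, ← map_mul]
    exact congrArg (fun A : G5 k => toLin' (A : M5 k)) (hc i j)) h0 fun j => by
    rw [← map_pow, lin_eq_one, hn]
  have e : I ≃ Fin 5 := Fintype.equivFinOfCardEq (by
    rw [← finrank_span_eq_card h1, h2, finrank_top, dim5])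
  exact ⟨(Basis.mk h1 h2.ge).reindex e, fun j i => d j (e.symm i), fun j i => by simp [h3]⟩

theorem exists_exp {ζ : k} {n : ℕ} [NeZero n] (hζ : IsPrimitiveRoot ζ n) {g : G}
    (hn : σ (g ^ n) = 1) : (∑ j ∈ range n, nf σ g (ζ ^ j) = 5) ∧
      ∀ r, tr (σ (g ^ r)) = ∑ j ∈ range n, (nf σ g (ζ ^ j) : k) * ζ ^ (j * r) := by
  obtain ⟨b, d, h⟩ := exists_basis (σ := σ) (J := Unit) (fun _ => g) (fun _ _ => rfl)
    (hζ.neZero'.out) fun _ => hn
  have h1 : ∀ i, ∃ e < n, ζ ^ e = d () i := fun i => hζ.eq_pow_of_pow_eq_one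
    (pow_eq_one_of_eig (b.ne_zero i) (h () i) (by rw [← map_pow, lin_eq_one.2 hn]; rfl))
  choose e he he' using h1
  have h2 : ∀ j ∈ range n, nf σ g (ζ ^ j) = #{i | e i = j} := fun j hj =>
    nf_diag b (h ()) _ _ fun i => by
      rw [← he']
      exact ⟨congrArg _, hζ.pow_inj (he i) (mem_range.1 hj)⟩
  have h3 : ∀ i ∈ (univ : Finset (Fin 5)), e i ∈ range n := fun i _ => mem_range.2 (he i)
  refine ⟨?_, fun r => ?_⟩
  · rw [sum_congr rfl h2, ← card_eq_sum_card_fiberwise h3]; simp
  · rw [tr_diag b (d := fun i => ζ ^ (e i * r)) fun i => by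
      rw [map_pow, eig_pow (h () i), ← he', pow_mul], ← sum_fiberwise_of_maps_to h3]
    refine sum_congr rfl fun j hj => ?_
    rw [h2 j hj, sum_congr rfl (g := fun _ => ζ ^ (j * r)) fun i hi => by
      rw [(mem_filter.1 hi).2]]
    simp

theorem exists_prim {n : ℕ} (h : (n : k) ≠ 0) : ∃ ζ : k, IsPrimitiveRoot ζ n := by
  have : NeZero (n : k) := ⟨h⟩
  exact HasEnoughRootsOfUnity.exists_primitiveRoot k n

omit [IsAlgClosed k] in
theorem nf_le_mod {ζ : k} {n : ℕ} (hζ : ζ ^ n = 1) {g : G} {m : ℕ} (e : IsConj g (g ^ m))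
    (j : ℕ) : nf σ g (ζ ^ j) ≤ nf σ g (ζ ^ (j * m % n)) := by
  rw [← pow_eq_pow_mod _ hζ, pow_mul]
  exact nf_le_pow σ e _

theorem nf_seven (h0 : (7 : k) ≠ 0) {g : G} (h : g ^ 7 = 1) (e : IsConj g (g ^ 2)) :
    2 ≤ nf σ g 1 := by
  obtain ⟨ζ, hζ⟩ := exists_prim (k := k) (n := 7) (by exact_mod_cast h0)
  have h1 := (exists_exp (σ := σ) hζ (g := g) (by rw [h, map_one])).1
  have h2 := nf_le_mod (σ := σ) hζ.pow_eq_one e
  simp only [sum_range_succ, sum_range_zero, pow_zero] at h1
  have a1 := h2 1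
  have a2 := h2 2
  have a3 := h2 3
  have a4 := h2 4
  have a5 := h2 5
  have a6 := h2 6
  norm_num only at a1 a2 a3 a4 a5 a6
  omega

theorem nf_thirteen (h0 : (13 : k) ≠ 0) {g : G} (h : g ^ 13 = 1) (e : IsConj g (g ^ 3)) :
    2 ≤ nf σ g 1 := by
  obtain ⟨ζ, hζ⟩ := exists_prim (k := k) (n := 13) (by exact_mod_cast h0)
  have h1 := (exists_exp (σ := σ) hζ (g := g) (by rw [h, map_one])).1
  have h2 := nf_le_mod (σ := σ) hζ.pow_eq_one e
  simp only [sum_range_succ, sum_range_zero, pow_zero] at h1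
  have a1 := h2 1
  have a2 := h2 2
  have a3 := h2 3
  have a4 := h2 4
  have a5 := h2 5
  have a6 := h2 6
  have a7 := h2 7
  have a8 := h2 8
  have a9 := h2 9
  have a10 := h2 10
  have a11 := h2 11
  have a12 := h2 12
  norm_num only at a1 a2 a3 a4 a5 a6 a7 a8 a9 a10 a11 a12
  omega

/-- the involutions of a four-group whose involutions are conjugate -/
theorem nf_four (h2 : (2 : k) ≠ 0) {s t : G} (hs : s ^ 2 = 1) (ht : t ^ 2 = 1)
    (hc : s * t = t * s) (e1 : IsConj s t) (e2 : IsConj s (s * t)) : 3 ≤ nf σ s 1 := by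
  classical
  obtain ⟨b, d, h⟩ := exists_basis (σ := σ) (J := Bool) (fun j => cond j s t)
    (fun i j => by cases i <;> cases j <;> simp only [cond_true, cond_false, hc]) (n := 2)
    (by exact_mod_cast h2) fun j => by cases j <;> simp only [cond_true, cond_false, hs, ht, map_one]
  have h1 : ∀ j i, d j i = 1 ∨ d j i = -1 := fun j i => sq_eq_one_iff.1
    (pow_eq_one_of_eig (b.ne_zero i) (h j i) (by
      rw [← map_pow]; cases j <;> simp only [cond_true, cond_false, hs, ht, map_one] <;> rfl))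
  have h3 : (-1 : k) ≠ 1 := fun e => h2 (by linear_combination -e)
  have a1 := nf_diag b (h true) 1 _ fun _ => Iff.rfl
  have a2 := nf_diag b (h false) 1 _ fun _ => Iff.rfl
  have a3 := nf_diag (σ := σ) b (g := s * t) (d := fun i => d true i * d false i) (fun i => by
    rw [map_mul, End.mul_apply, show lin σ t (b i) = _ from h false i, map_smul,
      show lin σ s (b i) = _ from h true i, smul_smul, mul_comm]) 1 _ fun _ => Iff.rfl
  have a4 : 5 ≤ #{i | d true i = 1} + #{i | d false i = 1} + #{i | d true i * d false i = 1} := by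
    simp only [card_filter, ← sum_add_distrib]
    refine le_trans (by simp) (sum_le_sum (f := fun _ => 1) fun i _ => ?_)
    rcases h1 true i with a | a <;> rcases h1 false i with c | c <;> simp [a, c, h3]
  have a5 : Odd (#{i | d true i = 1} + #{i | d false i = 1} + #{i | d true i * d false i = 1}) := by
    simp only [card_filter, ← sum_add_distrib]
    rw [Finset.odd_sum_iff_odd_card_odd, filter_true_of_mem fun i _ => ?_]
    · decide
    · rcases h1 true i with a | a <;> rcases h1 false i with c | c <;> simp [a, c, h3] <;> decide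
  have b1 := nf_conj σ e1 1
  have b2 := nf_conj σ e2 1
  simp only [cond_true, cond_false] at a1 a2
  obtain ⟨m, hm⟩ := a5
  omega

/-- an elementary abelian group of order nine whose elements are conjugate acts trivially -/
theorem three_sq (h3 : (3 : k) ≠ 0) {a c : G} (ha : a ^ 3 = 1) (hc : c ^ 3 = 1)
    (hac : a * c = c * a) (e0 : IsConj a (a ^ 2)) (e1 : IsConj a c) (e2 : IsConj a (a * c))
    (e3 : IsConj a (a * c ^ 2)) : σ a = 1 := by
  classical
  obtain ⟨ω, hω⟩ := exists_prim (k := k) (n := 3) (by exact_mod_cast h3)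
  obtain ⟨b, d, h⟩ := exists_basis (σ := σ) (J := Bool) (fun j => cond j a c)
    (fun i j => by cases i <;> cases j <;> simp only [cond_true, cond_false, hac]) (n := 3)
    (by exact_mod_cast h3) fun j => by cases j <;> simp only [cond_true, cond_false, ha, hc, map_one]
  have h1 : ∀ j i, ∃ e < 3, ω ^ e = d j i := fun j i => hω.eq_pow_of_pow_eq_one
    (pow_eq_one_of_eig (b.ne_zero i) (h j i) (by
      rw [← map_pow]; cases j <;> simp only [cond_true, cond_false, ha, hc, map_one] <;> rfl))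
  choose e he he' using h1
  have key : ∀ x y : ℕ, nf σ (a ^ x * c ^ y) 1 = #{i | 3 ∣ e true i * x + e false i * y} :=
    fun x y => nf_diag b (d := fun i => ω ^ (e true i * x + e false i * y)) (fun i => by
      rw [map_mul, map_pow, map_pow, End.mul_apply, eig_pow (f := lin σ c) (h false i), map_smul,
        eig_pow (f := lin σ a) (h true i), smul_smul, ← he', ← he', pow_add, pow_mul, pow_mul,
        mul_comm]) 1 _ fun i => (hω.pow_eq_one_iff_dvd _).symm
  have a1 := key 1 0
  have a2 := key 0 1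
  have a3 := key 1 1
  have a4 := key 1 2
  simp only [pow_zero, pow_one, mul_one, one_mul, mul_zero, add_zero, zero_add] at a1 a2 a3 a4
  have a5 : #{i | 3 ∣ e true i} + #{i | 3 ∣ e false i} + #{i | 3 ∣ e true i + e false i} +
      #{i | 3 ∣ e true i + e false i * 2} = 5 + 3 * #{i | e true i = 0 ∧ e false i = 0} := by
    simp only [card_filter, ← sum_add_distrib, mul_sum]
    refine Eq.trans (sum_congr rfl fun i _ => ?_) (sum_add_distrib (f := fun _ => 1))
    have h4 := he true i
    have h5 := he false i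
    generalize e true i = x at *
    generalize e false i = y at *
    interval_cases x <;> interval_cases y <;> simp
  have b1 := nf_conj σ e1 1
  have b2 := nf_conj σ e2 1
  have b3 := nf_conj σ e3 1
  have c1 := (exists_exp (σ := σ) hω (g := a) (by rw [ha, map_one])).1
  have c2 := nf_le_mod (σ := σ) hω.pow_eq_one e0 1
  have c3 := nf_le_mod (σ := σ) hω.pow_eq_one e0 2
  simp only [sum_range_succ, sum_range_zero, pow_zero] at c1
  norm_num only at c2 c3
  exact eq_one_of_nf (by omega)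

end Eig

end CL.Five.K
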