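/-
Direct sum decompositions given by projections; elements stabilising them.
-/
import Cfsg.Agent.CLAS.RootGeo

set_option autoImplicit false

namespace CL.Dec

open Module Cfsg Cfsg.Geo

variable {F : Type*} [Field F] {V : Type*} [AddCommGroup V] [Module F V] {I : Type*} [Fintype I]

/-- The projections of a direct sum decomposition. -/
structure Proj (D : I → Submodule F V) where
  p : I → V →ₗ[F] V
  mem : ∀ i v, p i v ∈ D i
  of_mem : ∀ {i v}, v ∈ D i → p i v = v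
  of_ne : ∀ {i j v}, i ≠ j → v ∈ D j → p i v = 0
  sum : ∀ v, ∑ i, p i v = v

/-- `g` permutes the members of `D`. -/
def Perm (D : I → Submodule F V) (g : V ≃ₗ[F] V) : Prop :=
  ∃ σ : Equiv.Perm I, ∀ i, (D i).map (g : V →ₗ[F] V) = D (σ i)

theorem nonempty_proj {D : I → Submodule F V} (h1 : iSupIndep D) (h2 : iSup D = ⊤) :
    Nonempty (Proj D) := by
  classical
  have h := DirectSum.isInternal_submodule_of_iSupIndep_of_iSup_eq_top h1 h2
  let e := LinearEquiv.ofBijective (DirectSum.coeLinearMap D) h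
  have he : ∀ i (v : D i), e.symm v = DirectSum.lof F I (fun i => D i) i v := fun i v => by
    rw [LinearEquiv.symm_apply_eq]
    exact (DirectSum.coeLinearMap_lof D i v).symm
  refine ⟨⟨fun i => (D i).subtype ∘ₗ DirectSum.component F I (fun i => D i) i ∘ₗ e.symm.toLinearMap,
    fun i v => Subtype.prop _, fun {i v} hv => ?_, fun {i j v} hij hv => ?_, fun v => ?_⟩⟩
  · simp [he i ⟨v, hv⟩]
  · simp [he j ⟨v, hv⟩, DirectSum.component.of, hij.symm]
  · conv_rhs => rw [← e.apply_symm_apply v, ← DirectSum.sum_univ_of (e.symm v)]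
    rw [map_sum]
    refine Finset.sum_congr rfl fun i _ => ?_
    exact (DirectSum.coeLinearMap_of D i _).symm

theorem det_one_add_of_sq_eq_zero [FiniteDimensional F V] {N : V →ₗ[F] V} (h : ∀ v, N (N v) = 0) :
    LinearMap.det (1 + N) = 1 := by
  have h1 : IsNilpotent (-N) := ⟨2, by ext v; simp [pow_two, h]⟩
  have := LinearMap.eval_charpoly (-N) 1
  rw [h1.charpoly_eq_X_pow_finrank] at this
  simpa using this.symm

omit [Fintype I] in
theorem Perm.exists_mem {D : I → Submodule F V} {g : V ≃ₗ[F] V} (h : Perm D g) (i : I) :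
    ∃ j, ∀ v ∈ D i, g v ∈ D j := by
  obtain ⟨σ, hσ⟩ := h
  exact ⟨σ i, fun v hv => hσ i ▸ ⟨v, hv, rfl⟩⟩

namespace Proj

variable {D : I → Submodule F V} (P : Proj D)
include P

theorem p_p (i : I) (v : V) : P.p i (P.p i v) = P.p i v := P.of_mem (P.mem i v)

theorem p_p_ne {i j : I} (h : i ≠ j) (v : V) : P.p i (P.p j v) = 0 := P.of_ne h (P.mem j v)

theorem ext {v w : V} (h : ∀ i, P.p i v = P.p i w) : v = w := by
  rw [← P.sum v, ← P.sum w]; exact Finset.sum_congr rfl fun i _ => h i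

theorem mem_of {i : I} {v : V} (h : ∀ j, j ≠ i → P.p j v = 0) : v ∈ D i := by
  rw [← P.sum v, Finset.sum_eq_single i (fun j _ hj => h j hj) (by simp)]
  exact P.mem i v

theorem eq_of_mem {i j : I} {v : V} (hi : v ∈ D i) (hj : v ∈ D j) (hv : v ≠ 0) : i = j := by
  by_contra h
  exact hv ((P.of_mem hi).symm.trans (P.of_ne h hj))

theorem exists_p_ne {v : V} (hv : v ≠ 0) : ∃ i, P.p i v ≠ 0 := by
  by_contra! H
  exact hv (P.ext fun i => by rw [H, map_zero])

theorem exists_two {v : V} (h0 : v ≠ 0) (hv : ∀ j, v ∉ D j) :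
    ∃ i j, i ≠ j ∧ P.p i v ≠ 0 ∧ P.p j v ≠ 0 := by
  obtain ⟨i, hi⟩ := P.exists_p_ne h0
  by_contra! H
  exact hv i (P.mem_of fun j hj => H i j hj.symm hi)

theorem map_eq_of_sum {W : Type*} [AddCommGroup W] [Module F W] {A B : V →ₗ[F] W}
    (h : ∀ i, ∀ v ∈ D i, A v = B v) (v : V) : A v = B v := by
  rw [← P.sum v, map_sum, map_sum]
  exact Finset.sum_congr rfl fun i _ => h i _ (P.mem i v)

theorem exists_dual_ne {φ : Dual F V} (h : φ ≠ 0) : ∃ i, ∃ v ∈ D i, φ v ≠ 0 := by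
  by_contra! H
  exact h (LinearMap.ext (P.map_eq_of_sum H))

variable [FiniteDimensional F V] {m : ℕ} (hm : ∀ i, finrank F (D i) = m) (h0 : 0 < m)
include hm h0

omit P [Fintype I] [FiniteDimensional F V] in
theorem exists_ne (i : I) : ∃ v ∈ D i, v ≠ 0 :=
  Submodule.exists_mem_ne_zero_of_ne_bot fun h => by
    have := hm i
    rw [h, finrank_bot] at this
    omega

theorem perm_of {g : V ≃ₗ[F] V} (h : ∀ i, ∃ j, ∀ v ∈ D i, g v ∈ D j) : Perm D g := by
  choose σ hσ using h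
  have e : ∀ i, (D i).map (g : V →ₗ[F] V) = D (σ i) := fun i => by
    apply Submodule.eq_of_le_of_finrank_eq
    · rintro _ ⟨w, hw, rfl⟩
      exact hσ i w hw
    · rw [LinearEquiv.finrank_map_eq, hm, hm]
  have hinj : Function.Injective σ := fun i j hij => by
    obtain ⟨v, hv, hv0⟩ := exists_ne hm h0 i
    have h1 := hσ i v hv
    rw [hij, ← e] at h1
    obtain ⟨w, hw, e'⟩ := h1
    exact P.eq_of_mem hv (g.injective e' ▸ hw) hv0
  exact ⟨Equiv.ofBijective σ (Finite.injective_iff_bijective.1 hinj), e⟩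

theorem perm_of_le {g : V ≃ₗ[F] V} (h : ∀ i, ∀ v ∈ D i, g v ∈ D i) : Perm D g :=
  P.perm_of hm h0 fun i => ⟨i, h i⟩

theorem perm_of_vec {g : V ≃ₗ[F] V} (h : ∀ i, ∀ v ∈ D i, ∃ j, g v ∈ D j) : Perm D g := by
  refine P.perm_of hm h0 fun i => ?_
  obtain ⟨u, hu, hu0⟩ := exists_ne hm h0 i
  obtain ⟨j, hj⟩ := h i u hu
  refine ⟨j, fun v hv => ?_⟩
  obtain ⟨k, hk⟩ := h i v hv
  obtain ⟨l, hl⟩ := h i (u + v) ((D i).add_mem hu hv)
  rw [map_add] at hl
  by_cases h1 : k = j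
  · exact h1 ▸ hk
  by_cases h2 : l = j
  · subst h2
    exact ((D l).add_mem_iff_right hj).1 hl
  · have := P.of_ne (Ne.symm h2) hl
    rw [map_add, P.of_mem hj, P.of_ne (Ne.symm h1) hk, add_zero] at this
    exact absurd this (by simpa using hu0)

theorem exists_not_mem {g : V ≃ₗ[F] V} (h : ¬ Perm D g) :
    ∃ i, ∃ v ∈ D i, ∃ j k, j ≠ k ∧ P.p j (g v) ≠ 0 ∧ P.p k (g v) ≠ 0 := by
  by_contra! H
  refine h (P.perm_of_vec hm h0 fun i v hv => ?_)
  by_contra! H'
  obtain ⟨j, k, h1, h2, h3⟩ := P.exists_two (fun e => H' i (by rw [e]; exact (D i).zero_mem)) H'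
  exact h3 (H i v hv j k h1 h2)

/-- Swapping two blocks. -/
theorem exists_swap {i j : I} (hij : i ≠ j) (φ : D i ≃ₗ[F] D j) :
    ∃ s : V ≃ₗ[F] V, LinearMap.det (s : V →ₗ[F] V) = 1 ∧ Perm D s ∧
      (∀ v : D i, s v = φ v) ∧ (∀ v : D j, s v = -φ.symm v) ∧
      ∀ k, k ≠ i → k ≠ j → ∀ v ∈ D k, s v = v := by
  let A : V →ₗ[F] V := (D j).subtype ∘ₗ φ.toLinearMap ∘ₗ (P.p i).codRestrict (D i) (P.mem i)
  let B : V →ₗ[F] V := -((D i).subtype ∘ₗ φ.symm.toLinearMap ∘ₗ (P.p j).codRestrict (D j) (P.mem j))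
  have A1 : ∀ v : D i, A v = φ v := fun v =>
    congrArg (fun x => (φ x : V)) (Subtype.ext (P.of_mem v.2))
  have A2 : ∀ k, k ≠ i → ∀ v ∈ D k, A v = 0 := fun k hk v hv => by
    have : (P.p i).codRestrict (D i) (P.mem i) v = 0 := Subtype.ext (P.of_ne hk.symm hv)
    simp [A, this]
  have B1 : ∀ v : D j, B v = -φ.symm v := fun v =>
    congrArg (fun x => -(φ.symm x : V)) (Subtype.ext (P.of_mem v.2))
  have B2 : ∀ k, k ≠ j → ∀ v ∈ D k, B v = 0 := fun k hk v hv => by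
    have : (P.p j).codRestrict (D j) (P.mem j) v = 0 := Subtype.ext (P.of_ne hk.symm hv)
    simp [B, this]
  have dA := det_one_add_of_sq_eq_zero (N := A) fun v => A2 j hij.symm _ (Subtype.prop _)
  have dB := det_one_add_of_sq_eq_zero (N := B) fun v =>
    B2 i hij _ ((D i).neg_mem (Subtype.prop _))
  have d : LinearMap.det ((1 + A) * (1 + B) * (1 + A)) = 1 := by rw [map_mul, map_mul, dA, dB]; simp
  let s := LinearEquiv.ofIsUnitDet (f := (1 + A) * (1 + B) * (1 + A))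
    (v := finBasis F V) (v' := finBasis F V) (by rw [LinearMap.det_toMatrix, d]; exact isUnit_one)
  have hs : ∀ v, s v = ((1 + A) * (1 + B) * (1 + A)) v := fun v => rfl
  have s1 : ∀ v : D i, s v = φ v := fun v => by
    simp [hs, A1, B1, B2 i hij _ v.2, A2 j hij.symm _ (φ v).2]
  have s2 : ∀ v : D j, s v = -φ.symm v := fun v => by
    simp [hs, A1, B1, A2 j hij.symm _ v.2]
  have s3 : ∀ k, k ≠ i → k ≠ j → ∀ v ∈ D k, s v = v := fun k h1 h2 v hv => by
    simp [hs, A2 k h1 v hv, B2 k h2 v hv]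
  refine ⟨s, d, P.perm_of hm h0 fun k => ?_, s1, s2, s3⟩
  by_cases h1 : k = i
  · subst h1
    exact ⟨j, fun v hv => s1 ⟨v, hv⟩ ▸ (φ ⟨v, hv⟩).2⟩
  by_cases h2 : k = j
  · subst h2
    exact ⟨i, fun v hv => s2 ⟨v, hv⟩ ▸ (D i).neg_mem (φ.symm ⟨v, hv⟩).2⟩
  · exact ⟨k, fun v hv => (s3 k h1 h2 v hv).symm ▸ hv⟩

end Proj

end CL.Dec
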