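/-
The stabiliser of a decomposition into blocks of dimension at least two is maximal in the special
linear group.
-/
import Cfsg.Agent.CLAS.Dec

set_option autoImplicit false
set_option linter.unusedSectionVars false

namespace CL.Dec

open Module Cfsg Cfsg.Geo CL.Tv

variable {ι : Type} [Fintype ι] [DecidableEq ι] {F : Type*} [Field F]

/-- The map `v ↦ v + φ v • x` as an invertible matrix. -/
noncomputable def dt (x : ι → F) (φ : Dual F (ι → F)) (h : 1 + φ x ≠ 0) : GL ι F :=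
  ofLin (LinearEquiv.dilatransvection (f := φ) (v := x) (IsUnit.mk0 _ h))

theorem act_dt (x : ι → F) (φ : Dual F (ι → F)) (h : 1 + φ x ≠ 0) (v : ι → F) :
    act (dt x φ h) v = v + φ v • x := by
  rw [dt, act_ofLin, LinearEquiv.dilatransvection.apply]

theorem det_dt (x : ι → F) (φ : Dual F (ι → F)) (h : 1 + φ x ≠ 0) :
    (dt x φ h : Matrix ι ι F).det = 1 + φ x := by
  rw [det_eq_det_act, dt, act_ofLin, LinearEquiv.dilatransvection.coe_toLinearMap,
    LinearMap.transvection.det]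

theorem dt_mul_dt_mem_SL {x y : ι → F} {φ ψ : Dual F (ι → F)} {h : 1 + φ x ≠ 0} {h' : 1 + ψ y ≠ 0}
    (e : (1 + φ x) * (1 + ψ y) = 1) : dt x φ h * dt y ψ h' ∈ specialLinear ι F := by
  rw [mem_SL_iff, Units.val_mul, Matrix.det_mul, det_dt, det_dt, e]

namespace Proj

variable {I : Type*} [Fintype I] {D : I → Submodule F (ι → F)} (P : Proj D)

/-- The functional `φ` only depends on the `j`-th component. -/
def On (j : I) (φ : Dual F (ι → F)) : Prop := ∀ v, φ (P.p j v) = φ v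

variable {P} in
theorem On.eq_zero {i j : I} {φ : Dual F (ι → F)} (h : P.On j φ) (hij : j ≠ i) {v : ι → F}
    (hv : v ∈ D i) : φ v = 0 := by rw [← h, P.of_ne hij hv, map_zero]

variable {P} in
theorem On.smul {j : I} {φ : Dual F (ι → F)} (h : P.On j φ) (c : F) : P.On j (c • φ) :=
  fun v => by simp [h v]

variable {P} in
theorem On.add {j : I} {φ ψ : Dual F (ι → F)} (h : P.On j φ) (h' : P.On j ψ) : P.On j (φ + ψ) :=
  fun v => by simp [h v, h' v]

theorem on_comp (j : I) (φ : Dual F (ι → F)) : P.On j (φ ∘ₗ P.p j) := fun v => by simp [P.p_p]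

theorem exists_on {j : I} {u : ι → F} (hu : u ∈ D j) {W : Submodule F (ι → F)} (hW : W ≤ D j)
    (huW : u ∉ W) : ∃ χ, P.On j χ ∧ χ u = 1 ∧ ∀ w ∈ W, χ w = 0 := by
  obtain ⟨φ, h1, h2⟩ := exists_dual_one W huW
  exact ⟨_, P.on_comp j φ, by simp [P.of_mem hu, h1], fun w hw => by simp [P.of_mem (hW hw), h2 w hw]⟩

variable {m : ℕ} (hm : ∀ i, finrank F (D i) = m) (h2 : 2 ≤ m) {K : Subgroup (GL ι F)}
  (hK : ∀ g ∈ specialLinear ι F, Perm D (act g) → g ∈ K)
include hm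

theorem exists_notMem (j : I) {W : Submodule F (ι → F)} (hW : finrank F W < m) :
    ∃ u ∈ D j, u ∉ W := by
  by_contra! H
  have := Submodule.finrank_mono (show D j ≤ W from H)
  rw [hm] at this
  omega

include h2 P

theorem exists_on_pair (j : I) (x : ι → F) : ∃ y ∈ D j, y ∉ F ∙ P.p j x ∧ ∀ y ∈ D j, y ∉ F ∙ P.p j x →
    ∃ χ, P.On j χ ∧ χ y = 1 ∧ χ x = 0 := by
  obtain ⟨y, hy, hy'⟩ := exists_notMem hm j (W := F ∙ P.p j x)
    (by have := finrank_span_single_le (F := F) (P.p j x); omega)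
  refine ⟨y, hy, hy', fun y hy hy' => ?_⟩
  obtain ⟨χ, h1, h2, h3⟩ := P.exists_on hy
    ((Submodule.span_singleton_le_iff_mem _ _).2 (P.mem j x)) hy'
  exact ⟨χ, h1, h2, by rw [← h1, h3 _ (Submodule.mem_span_singleton_self _)]⟩

include hK

theorem hasTv_block {i : I} {u : ι → F} {φ : Dual F (ι → F)} (hu : u ∈ D i) (hφ : P.On i φ)
    (h : φ u = 0) : HasTv K u φ := by
  refine (hasTv_iff h).2 (hK _ (tv_mem_SL u φ h) (P.perm_of_le hm (by omega) fun j v hv => ?_))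
  rw [act_tv]
  by_cases hij : i = j
  · exact (D j).add_mem hv ((D j).smul_mem _ (hij ▸ hu))
  · simpa [hφ.eq_zero hij hv] using hv

theorem exists_swap_mem {i j : I} (hij : i ≠ j) : ∃ s ∈ K, (∀ v ∈ D i, act s v ∈ D j) ∧
    (∀ v ∈ D j, act s v ∈ D i) ∧ ∀ k, k ≠ i → k ≠ j → ∀ v ∈ D k, act s v = v := by
  obtain ⟨s, h1, h3, h4, h5, h6⟩ := P.exists_swap hm (by omega) hij
    (LinearEquiv.ofFinrankEq (D i) (D j) (by rw [hm, hm]))
  refine ⟨ofLin s, hK _ (by rwa [mem_SL_iff_act, act_ofLin]) (by rwa [act_ofLin]), ?_⟩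
  rw [act_ofLin]
  exact ⟨fun v hv => h4 ⟨v, hv⟩ ▸ Subtype.prop _,
    fun v hv => h5 ⟨v, hv⟩ ▸ (D i).neg_mem (Subtype.prop _), h6⟩

theorem SL_le_of_single {i j : I} (hij : i ≠ j) {x : ι → F} (hx : x ∈ D i) (hx0 : x ≠ 0)
    {φ : Dual F (ι → F)} (hφ : P.On j φ) (hφ0 : φ ≠ 0) (h : HasTv K x φ) :
    specialLinear ι F ≤ K := by
  have R0 : ∀ θ, P.On j θ → HasTv K x θ := by
    intro θ hθ
    have key : ∀ w ∈ D j, φ w = 1 → ∀ θ, P.On j θ → θ w = 0 → HasTv K x θ := fun w hw h1 θ hθ h0 => by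
      have := h.comm_right (P.hasTv_block hm h2 hK hw hθ h0) (hφ.eq_zero hij.symm hx) h0
        (hθ.eq_zero hij.symm hx)
      rwa [h1, one_smul] at this
    obtain ⟨v, hv⟩ := DFunLike.ne_iff.1 hφ0
    rw [LinearMap.zero_apply, ← hφ] at hv
    set w₀ := (φ (P.p j v))⁻¹ • P.p j v
    have m0 : w₀ ∈ D j := (D j).smul_mem _ (P.mem j v)
    have e0 : φ w₀ = 1 := by simp [w₀, hv]
    obtain ⟨y, hy, hy', H⟩ := P.exists_on_pair hm h2 j w₀
    obtain ⟨χ, hχ, c1, c0⟩ := H y hy hy'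
    have m1 : y - φ y • w₀ ∈ D j := (D j).sub_mem hy ((D j).smul_mem _ m0)
    set w₁ := y - φ y • w₀
    have e1 : φ w₁ = 0 := by simp [w₁, e0]
    have c1' : χ w₁ = 1 := by simp [w₁, c0, c1]
    have h1 := key (w₀ - θ w₀ • w₁) ((D j).sub_mem m0 ((D j).smul_mem _ m1)) (by simp [e0, e1]) _
      (hθ.add (hχ.smul (1 - θ w₁))) (by simp [c0, c1']; ring)
    have h3 := key w₀ m0 e0 _ (hχ.smul (1 - θ w₁)) (by simp [c0])
    simpa using h1.sub_right h3 ((hθ.add (hχ.smul _)).eq_zero hij.symm hx)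
      ((hχ.smul _).eq_zero hij.symm hx)
  have R1 : ∀ k, ∀ θ, P.On k θ → θ x = 0 → HasTv K x θ := by
    intro k θ hθ h0
    by_cases hki : k = i
    · exact P.hasTv_block hm h2 hK hx (hki ▸ hθ) h0
    by_cases hkj : k = j
    · exact R0 θ (hkj ▸ hθ)
    obtain ⟨s, hs, s1, s2, s3⟩ := P.exists_swap_mem hm h2 hK hkj
    refine (R0 (θ ∘ₗ (act s).toLinearMap) fun v => ?_).conj' hs
      (s3 i (Ne.symm hki) hij x hx) fun v => rfl
    refine P.map_eq_of_sum (A := (θ ∘ₗ (act s).toLinearMap) ∘ₗ P.p j) (fun l v hv => ?_) v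
    by_cases h1 : l = j
    · simp [P.of_mem (h1 ▸ hv)]
    by_cases h3 : l = k
    · simp [P.of_ne (Ne.symm h1) hv, hθ.eq_zero hkj (s1 v (h3 ▸ hv))]
    · simp [P.of_ne (Ne.symm h1) hv, s3 l h3 h1 v hv, hθ.eq_zero (Ne.symm h3) hv]
  have hfull : x ∈ full K := fun θ hθ => by
    have h0 : ∀ k, (θ ∘ₗ P.p k) x = 0 := fun k => by
      by_cases hk : k = i
      · simp [hk, P.of_mem hx, hθ]
      · simp [P.of_ne hk hx]
    have : ∀ s : Finset I, HasTv K x (∑ k ∈ s, θ ∘ₗ P.p k) := fun s => by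
      classical
      induction s using Finset.induction_on with
      | empty => simpa using HasTv.zero_right x
      | insert a s ha ih =>
        rw [Finset.sum_insert ha]
        exact (R1 a _ (P.on_comp a θ) (h0 a)).add_right ih (h0 a)
    convert this Finset.univ using 1
    refine LinearMap.ext fun v => ?_
    simp [← map_sum, P.sum]
  have hblock : ∀ k, ∀ x ∈ D k, x ≠ 0 → x ∈ full K → D k ≤ full K := fun k x hx hx0 hfull => by
    have key : ∀ u ∈ D k, u ∉ F ∙ x → u ∈ full K := fun u hu hu' => by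
      obtain ⟨θ, h1, h3, h4⟩ := P.exists_on hx ((Submodule.span_singleton_le_iff_mem _ _).2 hu)
        (fun h => hu' (by
          obtain ⟨c, rfl⟩ := Submodule.mem_span_singleton.1 h
          exact Submodule.mem_span_singleton.2 ⟨c⁻¹, by
            rw [smul_smul, inv_mul_cancel₀ (left_ne_zero_of_smul hx0), one_smul]⟩))
      exact mem_full_of_hasTv hfull (P.hasTv_block hm h2 hK hu h1
        (h4 u (Submodule.mem_span_singleton_self u))) (by simp [h3])
    intro u hu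
    by_cases hu' : u ∈ F ∙ x
    · exact (Submodule.span_singleton_le_iff_mem _ _).2 hfull hu'
    · exact key u hu hu'
  refine SL_le_of_full (top_unique fun v _ => ?_)
  rw [← P.sum v]
  refine Submodule.sum_mem _ fun k _ => ?_
  by_cases hk : i = k
  · exact hblock k x (hk ▸ hx) hx0 hfull (P.mem k v)
  obtain ⟨s, hs, s1, -⟩ := P.exists_swap_mem hm h2 hK hk
  exact hblock k _ (s1 x hx) (by simpa using hx0) (act_mem_full hfull hs) (P.mem k v)

theorem SL_le_of_on {i k j : I} (hik : i ≠ k) {x : ι → F} (hi : P.p i x ≠ 0) (hk : P.p k x ≠ 0)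
    {φ : Dual F (ι → F)} (hφ : P.On j φ) (hφ0 : φ ≠ 0) (h0 : φ x = 0) (h : HasTv K x φ) :
    specialLinear ι F ≤ K := by
  wlog hij : i ≠ j generalizing i k
  · exact this hik.symm hk hi fun e => hij (e ▸ hik)
  obtain ⟨u, hu, hu', -⟩ := P.exists_on_pair hm h2 i x
  have hu0 : u ≠ 0 := fun e => hu' (e ▸ Submodule.zero_mem _)
  obtain ⟨θ, h1, h3, h4⟩ := P.exists_on (P.mem i x) ((Submodule.span_singleton_le_iff_mem _ _).2 hu)
    (fun h => hu' (by
      obtain ⟨c, hc⟩ := Submodule.mem_span_singleton.1 h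
      exact Submodule.mem_span_singleton.2 ⟨c⁻¹, by
        rw [← hc, smul_smul, inv_mul_cancel₀ (left_ne_zero_of_smul (hc ▸ hi)), one_smul]⟩))
  have h5 := h4 u (Submodule.mem_span_singleton_self u)
  have := h.comm_left (P.hasTv_block hm h2 hK hu h1 h5) h0 h5 (hφ.eq_zero hij.symm hu)
  rw [← h1, h3, one_smul] at this
  exact P.SL_le_of_single hm h2 hK hij hu hu0 hφ hφ0 this

theorem hasTv_dil {i k : I} (hik : i ≠ k) {x y z : ι → F} {ψ χ θ : Dual F (ι → F)} (hy : y ∈ D i)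
    (hz : z ∈ D k) (hχ : P.On i χ) (hθ : P.On k θ) (h1 : χ y = 1) (h3 : θ z = 1) (h4 : χ x = 0)
    (h5 : θ x = 0) (h0 : ψ x = 0) (h : HasTv K x ψ) {a : F} (ha : a ≠ 0) :
    HasTv K x (((a - 1) * ψ y) • χ + ((a⁻¹ - 1) * ψ z) • θ) := by
  have e1 : 1 + ((a - 1) • χ) y = a := by simp [h1]
  have e2 : 1 + ((a⁻¹ - 1) • θ) z = a⁻¹ := by simp [h3]
  set g := dt y ((a - 1) • χ) (by rwa [e1]) * dt z ((a⁻¹ - 1) • θ) (by rw [e2]; exact inv_ne_zero ha)
    with hg
  have e : ∀ v, act g v = v + ((a - 1) * χ v) • y + ((a⁻¹ - 1) * θ v) • z := fun v => by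
    rw [hg, act_mul, act_dt, act_dt]
    simp only [LinearMap.smul_apply, map_add, map_smul, hχ.eq_zero hik hz, smul_eq_mul]
    module
  have hgK : g ∈ K := hK _ (dt_mul_dt_mem_SL (by rw [e1, e2, mul_inv_cancel₀ ha]))
    (P.perm_of_le hm (by omega) fun j v hv => by
      rw [e]
      refine (D j).add_mem ((D j).add_mem hv ?_) ?_
      · by_cases hij : i = j
        · exact (D j).smul_mem _ (hij ▸ hy)
        · simp [hχ.eq_zero hij hv]
      · by_cases hkj : k = j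
        · exact (D j).smul_mem _ (hkj ▸ hz)
        · simp [hθ.eq_zero hkj hv])
  have hx : act g x = x := by simp [e, h4, h5]
  have h6 : HasTv K x (ψ ∘ₗ (act g).toLinearMap) :=
    h.conj' (K.inv_mem hgK) (by rw [← hx, act_inv_act, hx]) fun v => by simp [act_act_inv]
  convert h6.sub_right h (by simp [hx, h0]) h0 using 1
  refine LinearMap.ext fun v => ?_
  simp only [LinearMap.add_apply, LinearMap.smul_apply, LinearMap.sub_apply, LinearMap.comp_apply,
    LinearEquiv.coe_coe, e, map_add, map_smul, smul_eq_mul]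
  ring

theorem SL_le (hex : 3 ≤ m ∨ (∃ a : F, a ≠ 0 ∧ a ≠ 1) ∧ 3 ≤ Fintype.card I ∨
    ∃ a : F, a ≠ 0 ∧ a * a ≠ 1) {g : GL ι F} (hg : g ∈ K) (hg' : ¬ Perm D (act g)) :
    specialLinear ι F ≤ K := by
  classical
  obtain ⟨l, v, hv, i₁, i₂, h12, hi₁, hi₂⟩ := P.exists_not_mem hm (by omega) hg'
  obtain ⟨y, hy, hy', H⟩ := P.exists_on_pair hm h2 l v
  obtain ⟨φ, hφ, φ1, φ0⟩ := H y hy hy'
  set x := act g v with hx
  set ψ := φ ∘ₗ (act g⁻¹).toLinearMap with hψ
  have h0 : ψ x = 0 := by simp [hψ, hx, act_inv_act, φ0]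
  have hT : ∀ c : F, HasTv K x (c • ψ) := fun c =>
    (P.hasTv_block hm h2 hK hv (hφ.smul c) (by simp [φ0])).conj hg
  obtain ⟨j, u, hu, hψu⟩ := P.exists_dual_ne (φ := ψ) fun e => by
    have := LinearMap.congr_fun e (act g y)
    simp [hψ, act_inv_act, φ1] at this
  rcases hex with h3 | hex
  · obtain ⟨w, hw, hw'⟩ := exists_notMem hm j (W := Submodule.span F {u, P.p j x})
      (by have := finrank_span_pair_le (F := F) u (P.p j x); omega)
    obtain ⟨χ, h1, h4, h5⟩ := P.exists_on hw (Submodule.span_le.2 (by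
      rintro _ (rfl | rfl); exacts [hu, P.mem j x])) hw'
    have c1 := h5 u (Submodule.subset_span (by simp))
    have c2 : χ x = 0 := by rw [← h1]; exact h5 _ (Submodule.subset_span (by simp))
    have := (hT 1).comm_right (P.hasTv_block hm h2 hK hu h1 c1) (by simp [h0]) c1 c2
    refine P.SL_le_of_on hm h2 hK h12 hi₁ hi₂ (h1.smul _) (smul_ne_zero (by simpa using hψu) ?_)
      (by simp [c2]) this
    rintro rfl; simp at h4
  obtain ⟨y, hy, χ, hχ, c1, c0, hψy⟩ : ∃ y ∈ D j, ∃ χ, P.On j χ ∧ χ y = 1 ∧ χ x = 0 ∧ ψ y ≠ 0 := by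
    obtain ⟨w, hw, hw', H⟩ := P.exists_on_pair hm h2 j x
    suffices ∃ y ∈ D j, y ∉ F ∙ P.p j x ∧ ψ y ≠ 0 by
      obtain ⟨y, hy, h1, h3⟩ := this
      obtain ⟨χ, h4, h5, h6⟩ := H y hy h1
      exact ⟨y, hy, χ, h4, h5, h6, h3⟩
    by_cases h1 : u ∈ F ∙ P.p j x
    · by_cases h3 : ψ w = 0
      · exact ⟨w + u, (D j).add_mem hw hu, by rwa [Submodule.add_mem_iff_left _ h1],
          by simpa [h3] using hψu⟩
      · exact ⟨w, hw, hw', h3⟩
    · exact ⟨u, hu, h1, hψu⟩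
  have hχ0 : χ ≠ 0 := by rintro rfl; simp at c1
  have ex : ∀ k, ∃ z ∈ D k, ∃ θ, P.On k θ ∧ θ z = 1 ∧ θ x = 0 := fun k => by
    obtain ⟨z, hz, hz', H⟩ := P.exists_on_pair hm h2 k x
    exact ⟨z, hz, H z hz hz'⟩
  obtain ⟨k, hjk⟩ : ∃ k, j ≠ k := by
    by_cases h : j = i₁
    · exact ⟨i₂, h ▸ h12⟩
    · exact ⟨i₁, h⟩
  obtain ⟨z, hz, θ, hθ, d1, d0⟩ := ex k
  have χz := hχ.eq_zero hjk hz
  have θy := hθ.eq_zero hjk.symm hy
  rcases hex with ⟨⟨a, ha, ha1⟩, h3⟩ | ⟨a, ha, ha1⟩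
  · obtain ⟨k', -, hk'⟩ := Finset.exists_mem_notMem_of_card_lt_card (s := {j, k})
      (t := (Finset.univ : Finset I)) (by
        have := Finset.card_le_two (a := j) (b := k)
        rw [Finset.card_univ]; omega)
    simp only [Finset.mem_insert, Finset.mem_singleton, not_or] at hk'
    obtain ⟨z', hz', θ', hθ', d1', d0'⟩ := ex k'
    have h4 := P.hasTv_dil hm h2 hK hjk hy hz hχ hθ c1 d1 c0 d0 h0 (by simpa using hT 1) ha
    have h5 := P.hasTv_dil hm h2 hK (Ne.symm hk'.1) hy hz' hχ hθ' c1 d1' c0 d0' (by simp [c0, d0])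
      h4 ha
    simp only [LinearMap.add_apply, LinearMap.smul_apply, c1, θy, hχ.eq_zero (Ne.symm hk'.1) hz',
      hθ.eq_zero (Ne.symm hk'.2) hz', smul_eq_mul, mul_zero, add_zero, zero_smul, mul_one] at h5
    exact P.SL_le_of_on hm h2 hK h12 hi₁ hi₂ (hχ.smul _)
      (smul_ne_zero (by simp [sub_ne_zero.2 ha1, hψy]) hχ0) (by simp [c0]) h5
  · have h4 := P.hasTv_dil hm h2 hK hjk hy hz hχ hθ c1 d1 c0 d0 h0 (by simpa using hT 1) ha
    have h5 := P.hasTv_dil hm h2 hK hjk hy hz hχ hθ c1 d1 c0 d0 (by simp [c0, d0]) h4 ha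
    have h6 := P.hasTv_dil hm h2 hK hjk hy hz hχ hθ c1 d1 c0 d0 (by simp [h0]) (hT (a⁻¹ - 1)) ha
    have h7 := h5.sub_right h6 (by simp [c0, d0]) (by simp [c0, d0])
    have ha2 : a ≠ 1 := by rintro rfl; simp at ha1
    refine P.SL_le_of_on hm h2 hK h12 hi₁ hi₂ (hχ.smul ((a - 1) * ψ y * (a⁻¹ * (a * a - 1))))
      (smul_ne_zero (by simp [sub_ne_zero.2 ha1, sub_ne_zero.2 ha2, hψy, ha]) hχ0) (by simp [c0]) ?_
    convert h7 using 1
    refine LinearMap.ext fun v => ?_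
    simp only [LinearMap.add_apply, LinearMap.smul_apply, LinearMap.sub_apply, c1, d1, θy, χz,
      smul_eq_mul]
    field_simp
    ring

end Proj

theorem Proj.exists_SL_not_perm {I : Type*} [Fintype I] {D : I → Submodule F (ι → F)} (P : Proj D)
    {m : ℕ} (hm : ∀ i, finrank F (D i) = m) (h0 : 0 < m) [Nontrivial I] :
    ∃ g ∈ specialLinear ι F, ¬ Perm D (act g) := by
  obtain ⟨i, j, hij⟩ := exists_pair_ne I
  obtain ⟨u, hu, hu0⟩ := Proj.exists_ne hm h0 i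
  obtain ⟨w, hw, hw0⟩ := Proj.exists_ne hm h0 j
  obtain ⟨φ, h1, h2, -⟩ := P.exists_on hu (W := ⊥) bot_le (by simpa using hu0)
  refine ⟨tv w φ (h1.eq_zero hij hw), tv_mem_SL _ _ _, fun h => ?_⟩
  obtain ⟨k, hk⟩ := h.exists_mem i
  have := hk u hu
  rw [act_tv, h2, one_smul] at this
  by_cases hik : i = k
  · have h3 := P.of_ne (i := j) (hik ▸ hij.symm) this
    rw [map_add, P.of_mem hw, P.of_ne hij.symm hu, zero_add] at h3
    exact hw0 h3
  · exact hu0 (by simpa [P.of_mem hu, P.of_ne hij hw] using P.of_ne hik this)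

end CL.Dec
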