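/-
Overgroups of the monomial group in the general linear group.
-/
import Cfsg.Agent.CLAS.DecSL

set_option autoImplicit false
set_option linter.unusedSectionVars false

namespace CL.Dec

open Module Cfsg Cfsg.Geo CL.Tv

theorem exists_notMem_list {α : Type*} [Fintype α] (l : List α) (h : l.length < Fintype.card α) :
    ∃ a, a ∉ l := by
  classical
  obtain ⟨a, -, ha⟩ := Finset.exists_mem_notMem_of_card_lt_card (s := l.toFinset)
    (t := Finset.univ) (lt_of_le_of_lt (List.toFinset_card_le l) h)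
  exact ⟨a, by simpa using ha⟩

variable {ι : Type} [Fintype ι] [DecidableEq ι] {F : Type*} [Field F] {K : Subgroup (GL ι F)}

theorem hasTv_sub_right {x : ι → F} {φ φ' : Dual F (ι → F)} (h' : HasTv K x φ') (h : HasTv K x φ)
    (h0 : (φ' - φ) x = 0) : HasTv K x (φ' - φ) := by
  obtain ⟨g, hg, e⟩ := h
  obtain ⟨g', hg', e'⟩ := h'
  refine ⟨g' * g⁻¹, K.mul_mem hg' (K.inv_mem hg), fun v => ?_⟩
  obtain ⟨w, rfl⟩ := (act g).surjective v
  rw [act_mul, act_inv_act, e', e, map_add, map_smul, h0, LinearMap.sub_apply]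
  module

theorem hasTv_sub_left {x x' : ι → F} {φ : Dual F (ι → F)} (h' : HasTv K x' φ) (h : HasTv K x φ)
    (h0 : φ (x' - x) = 0) : HasTv K (x' - x) φ := by
  obtain ⟨g, hg, e⟩ := h
  obtain ⟨g', hg', e'⟩ := h'
  refine ⟨g⁻¹ * g', K.mul_mem (K.inv_mem hg) hg', fun v => (act g).injective ?_⟩
  rw [act_mul, act_act_inv, e', e, map_add, map_smul, h0]
  module

variable {I : Type} [Fintype I] [DecidableEq I] {b : Basis I F (ι → F)}

theorem coord_self (i : I) : b.coord i (b i) = 1 := by simp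

theorem coord_ne {i j : I} (h : i ≠ j) : b.coord i (b j) = 0 := by simp [h.symm]

theorem ext_coord {v w : ι → F} (h : ∀ i, b.coord i v = b.coord i w) : v = w := b.ext_elem h

theorem eq_smul_of_coord {v : ι → F} {i : I} (h : ∀ j, j ≠ i → b.coord j v = 0) :
    v = b.coord i v • b i := ext_coord (b := b) fun j => by
  by_cases hj : j = i
  · rw [hj, map_smul, coord_self, smul_eq_mul, mul_one]
  · rw [h j hj, map_smul, coord_ne hj, smul_zero]

variable (b) in
/-- `g` is monomial with respect to the basis `b`. -/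
def Mono (g : GL ι F) : Prop := ∀ i, ∃ j, ∃ c : F, act g (b i) = c • b j

theorem Mono.mul {g h : GL ι F} (hg : Mono b g) (hh : Mono b h) : Mono b (g * h) := fun i => by
  obtain ⟨j, c, e⟩ := hh i
  obtain ⟨k, d, e'⟩ := hg j
  exact ⟨k, c * d, by rw [act_mul, e, map_smul, e', smul_smul]⟩

variable (b K) in
/-- `K` contains generators of the monomial group of determinant one. -/
structure Gen : Prop where
  d2 : ∀ j k, j ≠ k → ∀ a : F, a ≠ 0 → ∃ t ∈ K, ∀ v, act t v =
    v + ((a - 1) * b.coord j v) • b j + ((a⁻¹ - 1) * b.coord k v) • b k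
  sw : ∀ j k, j ≠ k → ∃ s ∈ K, ∀ v, act s v =
    v + (b.coord j v - b.coord k v) • b k - (b.coord j v + b.coord k v) • b j

namespace Gen

variable (G : Gen K b)
include G

theorem hasTv_d2 {x : ι → F} {ψ : Dual F (ι → F)} (h : HasTv K x ψ) (h0 : ψ x = 0) {j k : I}
    (hjk : j ≠ k) (hj : b.coord j x = 0) (hk : b.coord k x = 0) {a : F} (ha : a ≠ 0) :
    HasTv K x (((a - 1) * ψ (b j)) • b.coord j + ((a⁻¹ - 1) * ψ (b k)) • b.coord k) := by
  obtain ⟨g, hg, e⟩ := G.d2 j k hjk a ha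
  have hx : act g x = x := by rw [e, hj, hk]; simp
  have h6 : HasTv K x (ψ ∘ₗ (act g).toLinearMap) :=
    h.conj' (K.inv_mem hg) (by rw [← hx, act_inv_act, hx]) fun v => by simp [act_act_inv]
  convert h6.sub_right h (by simp [hx, h0]) h0 using 1
  refine LinearMap.ext fun v => ?_
  simp only [LinearMap.add_apply, LinearMap.smul_apply, LinearMap.sub_apply, LinearMap.comp_apply,
    LinearEquiv.coe_coe, e, map_add, map_smul, smul_eq_mul]
  ring

theorem hasTv_d2' {x : ι → F} {ψ : Dual F (ι → F)} (h : HasTv K x ψ) (h0 : ψ x = 0) {j k : I}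
    (hjk : j ≠ k) (hj : ψ (b j) = 0) (hk : ψ (b k) = 0) {a : F} (ha : a ≠ 0) :
    HasTv K (((a - 1) * b.coord j x) • b j + ((a⁻¹ - 1) * b.coord k x) • b k) ψ := by
  obtain ⟨g, hg, e⟩ := G.d2 j k hjk a ha
  have h6 : HasTv K (act g x) ψ := h.conj' hg rfl fun v => by simp [e, hj, hk]
  convert h6.sub_left h h0 using 1
  rw [e]; abel

variable (h4 : 4 ≤ Fintype.card I)
include h4

theorem SL_le_of_elem {i j : I} (hij : i ≠ j) {c : F} (hc : c ≠ 0)
    (h : HasTv K (b i) (c • b.coord j)) : specialLinear ι F ≤ K := by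
  have h1 : ∀ d : F, HasTv K (b i) (d • b.coord j) := fun d => by
    by_cases hd : d = 0
    · simpa [hd] using HasTv.zero_right (b i)
    obtain ⟨k, hk⟩ := exists_notMem_list [i, j] (by simp; omega)
    simp only [List.mem_cons, List.not_mem_nil, or_false, not_or] at hk
    obtain ⟨t, ht, e⟩ := G.d2 j k (Ne.symm hk.2) (c / d) (div_ne_zero hc hd)
    refine h.conj' ht (by rw [e, coord_ne hij.symm, coord_ne hk.1]; simp) fun v => ?_
    simp only [e, LinearMap.smul_apply, map_add, map_smul, coord_self, coord_ne (Ne.symm hk.2),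
      smul_eq_mul]
    field_simp
    ring
  have h2 : ∀ k, k ≠ i → ∀ d : F, HasTv K (b i) (d • b.coord k) := fun k hk d => by
    by_cases hkj : j = k
    · exact hkj ▸ h1 d
    obtain ⟨s, hs, e⟩ := G.sw j k hkj
    refine (h1 d).conj' hs (by rw [e, coord_ne hij.symm, coord_ne hk]; simp) fun v => ?_
    simp only [e, LinearMap.smul_apply, map_add, map_sub, map_smul, coord_self,
      coord_ne (Ne.symm hkj), smul_eq_mul]
    ring
  have h3 : b i ∈ full K := fun φ hφ => by
    have : ∀ s : Finset I, HasTv K (b i) (∑ k ∈ s, φ (b k) • b.coord k) := fun s => by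
      induction s using Finset.induction_on with
      | empty => simpa using HasTv.zero_right (b i)
      | insert a s ha ih =>
        rw [Finset.sum_insert ha]
        by_cases hai : a = i
        · rwa [hai, hφ, zero_smul, zero_add]
        · exact (h2 a hai _).add_right ih (by rw [LinearMap.smul_apply, coord_ne hai, smul_zero])
    convert this Finset.univ using 1
    exact b.ext fun l => by simp
  refine SL_le_of_full (top_unique (b.span_eq ▸ Submodule.span_le.2 ?_))
  rintro _ ⟨k, rfl⟩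
  by_cases hk : i = k
  · exact hk ▸ h3
  obtain ⟨s, hs, e⟩ := G.sw i k hk
  have := act_mem_full h3 hs
  rw [e, coord_self, coord_ne (Ne.symm hk)] at this
  simpa using this

variable {a : F} (ha : a ≠ 0) (ha1 : a ≠ 1)
include ha ha1

theorem SL_le_of_center {i : I} {φ : Dual F (ι → F)} (h0 : φ (b i) = 0) (hφ : φ ≠ 0)
    (h : HasTv K (b i) φ) : specialLinear ι F ≤ K := by
  obtain ⟨j, hj⟩ : ∃ j, φ (b j) ≠ 0 := by
    by_contra! H; exact hφ (b.ext H)
  have hij : i ≠ j := by rintro rfl; exact hj h0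
  obtain ⟨k, hk⟩ := exists_notMem_list [i, j] (by simp; omega)
  obtain ⟨l, hl⟩ := exists_notMem_list [i, j, k] (by simp; omega)
  simp only [List.mem_cons, List.not_mem_nil, or_false, not_or] at hk hl
  have h1 := G.hasTv_d2 h h0 (Ne.symm hk.2) (coord_ne hij.symm) (coord_ne hk.1) ha
  have h2 := G.hasTv_d2 h1 (by simp only [LinearMap.add_apply, LinearMap.smul_apply,
    coord_ne hij.symm, coord_ne hk.1, smul_zero, add_zero]) (Ne.symm hl.2.1) (coord_ne hij.symm)
    (coord_ne hl.1) ha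
  simp only [LinearMap.add_apply, LinearMap.smul_apply, coord_self, coord_ne hk.2,
    coord_ne (Ne.symm hl.2.1), coord_ne (Ne.symm hl.2.2), smul_eq_mul, mul_zero, add_zero,
    zero_smul, mul_one] at h2
  exact G.SL_le_of_elem h4 hij (by simp [sub_ne_zero.2 ha1, hj]) h2

theorem SL_le_of_axis {i : I} {x : ι → F} (h0 : b.coord i x = 0) (hx : x ≠ 0) {c : F} (hc : c ≠ 0)
    (h : HasTv K x (c • b.coord i)) : specialLinear ι F ≤ K := by
  obtain ⟨j, hj⟩ : ∃ j, b.coord j x ≠ 0 := by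
    by_contra! H; exact hx (ext_coord (b := b) fun j => by rw [H, map_zero])
  have hij : i ≠ j := by rintro rfl; exact hj h0
  obtain ⟨k, hk⟩ := exists_notMem_list [i, j] (by simp; omega)
  obtain ⟨l, hl⟩ := exists_notMem_list [i, j, k] (by simp; omega)
  simp only [List.mem_cons, List.not_mem_nil, or_false, not_or] at hk hl
  have e : ∀ {j}, i ≠ j → (c • b.coord i) (b j) = 0 := fun h => by
    rw [LinearMap.smul_apply, coord_ne h, smul_zero]
  have h1 := G.hasTv_d2' h (by rw [LinearMap.smul_apply, h0, smul_zero]) (Ne.symm hk.2) (e hij)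
    (e (Ne.symm hk.1)) ha
  have h2 := G.hasTv_d2' h1 (by simp only [map_add, map_smul, e hij, e (Ne.symm hk.1), smul_zero,
    add_zero]) (Ne.symm hl.2.1) (e hij) (e (Ne.symm hl.1)) ha
  simp only [map_add, map_smul, coord_self, coord_ne (Ne.symm hk.2), coord_ne hl.2.1,
    coord_ne hl.2.2, smul_eq_mul, mul_zero, add_zero, zero_smul, mul_one] at h2
  rw [HasTv.smul_left_iff, smul_smul] at h2
  exact G.SL_le_of_elem h4 hij.symm (by simpa [sub_ne_zero.2 ha1, hc] using hj) h2

end Gen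

theorem exists_params [Fintype F] (h5 : 5 ≤ Fintype.card F) {u : F}
    (hu : 6 ≤ Fintype.card F ∨ 2 * u ≠ 1) : ∃ α γ : F, α ≠ 0 ∧ γ ≠ 0 ∧ α + 1 ≠ 0 ∧ γ + 1 ≠ 0 ∧
      α ≠ γ ∧ α + γ + α * γ ≠ 0 ∧ 1 + γ * u ≠ 0 ∧ 1 + α * (1 - u) ≠ 0 := by
  have inv : ∀ {x y : F}, x ≠ -y⁻¹ → 1 + x * y ≠ 0 := fun {x y} h e => h (by
    have hy : y ≠ 0 := by rintro rfl; simp at e
    field_simp
    linear_combination e)
  by_cases h6 : 6 ≤ Fintype.card F
  · obtain ⟨α, hα⟩ := exists_notMem_list [0, -1, -(1 - u)⁻¹] (by simp; omega)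
    obtain ⟨γ, hγ⟩ := exists_notMem_list [0, -1, -u⁻¹, α, -α / (α + 1)] (by simp; omega)
    simp only [List.mem_cons, List.not_mem_nil, or_false, not_or] at hα hγ
    have h1 : α + 1 ≠ 0 := fun h => hα.2.1 (eq_neg_of_add_eq_zero_left h)
    refine ⟨α, γ, hα.1, hγ.1, h1, fun h => hγ.2.1 (eq_neg_of_add_eq_zero_left h),
      Ne.symm hγ.2.2.2.1, fun h => hγ.2.2.2.2 ?_, inv hγ.2.2.1, inv hα.2.2⟩
    field_simp
    linear_combination h
  · have h2 : (2 : F) ≠ 0 := CL.Root.two_ne_zero_of_odd (by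
      rw [show Fintype.card F = 5 by omega]; decide)
    obtain ⟨γ, hγ⟩ := exists_notMem_list [0, -1, -u⁻¹, -2] (by simp; omega)
    simp only [List.mem_cons, List.not_mem_nil, or_false, not_or] at hγ
    refine ⟨-2, γ, neg_ne_zero.2 h2, hγ.1, by norm_num,
      fun h => hγ.2.1 (eq_neg_of_add_eq_zero_left h), Ne.symm hγ.2.2.2, fun h => hγ.2.2.2 ?_,
      inv hγ.2.2.1, fun h => hu.resolve_left h6 ?_⟩
    · linear_combination -h
    · linear_combination h

variable (K) in
/-- `K` contains all dilations with centre `x` and axis `ker ψ`. -/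
def Dil (x : ι → F) (ψ : Dual F (ι → F)) : Prop :=
  ψ x = 1 ∧ ∀ α : F, α + 1 ≠ 0 → HasTv K x (α • ψ)

theorem Dil.conj {x x' : ι → F} {ψ ψ' : Dual F (ι → F)} (h : Dil K x ψ) {g : GL ι F} (hg : g ∈ K)
    (hx : act g x = x') (hψ : ∀ v, ψ' (act g v) = ψ v) : Dil K x' ψ' :=
  ⟨by rw [← hx, hψ, h.1], fun α hα => (h.2 α hα).conj' hg hx fun v => by simp [hψ]⟩

namespace Gen

variable [Fintype F] (G : Gen K b) (h4 : 4 ≤ Fintype.card I) (h5 : 5 ≤ Fintype.card F)
  (hD : ∀ i, Dil K (b i) (b.coord i))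
include G h4 h5 hD

theorem SL_le_of_triangular {z : GL ι F} (hz : z ∈ K) {i j : I} (hij : i ≠ j) {c : F}
    (h1 : act z (b i) = c • b i) (h2 : b.coord i (act z (b j)) ≠ 0) : specialLinear ι F ≤ K := by
  obtain ⟨a, ha⟩ := exists_notMem_list [(0 : F), 1, -1] (by simp; omega)
  simp only [List.mem_cons, List.not_mem_nil, or_false, not_or] at ha
  have hc : c ≠ 0 := by rintro rfl; exact b.ne_zero i (by simpa using h1)
  have ha' : a + 1 ≠ 0 := fun h => ha.2.2 (eq_neg_of_add_eq_zero_left h)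
  have h3 : Dil K (c⁻¹ • b i) (b.coord i ∘ₗ (act z).toLinearMap) :=
    (hD i).conj (K.inv_mem hz) ((act z).injective (by
      rw [act_act_inv, map_smul, h1, smul_smul, inv_mul_cancel₀ hc, one_smul]))
      fun v => by simp [act_act_inv]
  have h6 := h3.2 a ha'
  rw [HasTv.smul_left_iff] at h6
  have h0 : (c⁻¹ • a • b.coord i ∘ₗ (act z).toLinearMap - a • b.coord i) (b i) = 0 := by
    simp [h1, mul_comm a c, hc]
  refine G.SL_le_of_center h4 ha.1 ha.2.1 h0 (fun e => h2 ?_)
    (hasTv_sub_right h6 ((hD i).2 a ha') h0)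
  have := LinearMap.congr_fun e (b j)
  simp only [LinearMap.sub_apply, LinearMap.smul_apply, coord_ne hij, LinearMap.comp_apply] at this
  simpa [hc, ha.1] using this

theorem SL_le_of_dil₁ {x : ι → F} {ψ : Dual F (ι → F)} (h : Dil K x ψ) {i : I}
    (h1 : b.coord i x = 0) (h2 : ψ (b i) ≠ 0) : specialLinear ι F ≤ K := by
  obtain ⟨a, ha⟩ := exists_notMem_list [(0 : F), 1, -1] (by simp; omega)
  simp only [List.mem_cons, List.not_mem_nil, or_false, not_or] at ha
  have ha' : a + 1 ≠ 0 := fun h => ha.2.2 (eq_neg_of_add_eq_zero_left h)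
  obtain ⟨d, hd, e⟩ := (hD i).2 a ha'
  have hx : act d x = x := by rw [e, LinearMap.smul_apply, h1]; simp
  have h3 : Dil K x (ψ + (a * ψ (b i)) • b.coord i) :=
    h.conj (K.inv_mem hd) (by rw [← hx, act_inv_act, hx]) fun v => by
      conv_rhs => rw [← act_act_inv d v, e]
      simp only [LinearMap.add_apply, LinearMap.smul_apply, map_add, map_smul, smul_eq_mul]
      ring
  have h6 := hasTv_sub_right (h3.2 a ha') (h.2 a ha') (by
    simp only [LinearMap.sub_apply, LinearMap.add_apply, LinearMap.smul_apply, h1]; simp)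
  rw [smul_add, add_sub_cancel_left, smul_smul] at h6
  refine G.SL_le_of_axis h4 ha.1 ha.2.1 h1 ?_ (by simp [ha.1, h2]) h6
  rintro rfl
  simpa using h.1

theorem SL_le_of_dil₂ {x : ι → F} {ψ : Dual F (ι → F)} (h : Dil K x ψ) {i : I}
    (h1 : b.coord i x ≠ 0) (h2 : ψ (b i) = 0) : specialLinear ι F ≤ K := by
  obtain ⟨a, ha⟩ := exists_notMem_list [(0 : F), 1, -1] (by simp; omega)
  simp only [List.mem_cons, List.not_mem_nil, or_false, not_or] at ha
  have ha' : a + 1 ≠ 0 := fun h => ha.2.2 (eq_neg_of_add_eq_zero_left h)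
  obtain ⟨d, hd, e⟩ := (hD i).2 a ha'
  have h3 : Dil K (act d x) ψ := h.conj hd rfl fun v => by simp [e, h2]
  have h6 := hasTv_sub_left (h3.2 a ha') (h.2 a ha') (by simp [e, h2])
  rw [e, add_sub_cancel_left, HasTv.smul_left_iff] at h6
  refine G.SL_le_of_center h4 ha.1 ha.2.1 (by simp [h2]) ?_ h6
  refine smul_ne_zero (mul_ne_zero ha.1 h1) (smul_ne_zero ha.1 ?_)
  rintro rfl
  simpa using h.1

theorem SL_le_of_dil₃ {x : ι → F} {ψ : Dual F (ι → F)} (h : Dil K x ψ) {i j : I} (hij : i ≠ j)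
    (h1 : b.coord i x ≠ 0) (h2 : ψ (b j) ≠ 0)
    (hu : 6 ≤ Fintype.card F ∨ 2 * (b.coord i x * ψ (b i)) ≠ 1) : specialLinear ι F ≤ K := by
  obtain ⟨α, γ, p1, p2, p3, p4, p5, p6, p7, p8⟩ := exists_params h5 hu
  set ξ := b.coord i x with hξ
  set η := ψ (b i) with hη
  obtain ⟨β, hβ⟩ : ∃ β, (β + 1) * α * (1 + γ * (ξ * η)) = -γ * (1 + α * (1 - ξ * η)) :=
    ⟨-γ * (1 + α * (1 - ξ * η)) / (α * (1 + γ * (ξ * η))) - 1, by
      rw [sub_add_cancel, mul_assoc, div_mul_cancel₀ _ (mul_ne_zero p1 p7)]⟩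
  have p9 : β + 1 ≠ 0 := fun e => by simp [e, p2, p8] at hβ
  obtain ⟨y, hy, ey⟩ := h.2 α p3
  obtain ⟨y', hy', ey'⟩ := h.2 γ p4
  obtain ⟨d, hd, ed⟩ := (hD i).2 β p9
  refine G.SL_le_of_triangular h4 h5 hD (K.mul_mem (K.mul_mem hy hd) hy') hij
    (c := 1 + β * (1 + γ * (ξ * η))) ?_ fun e => ?_
  · simp only [act_mul, ey, ey', ed, LinearMap.smul_apply, map_add, map_smul, smul_eq_mul, h.1,
      coord_self, ← hξ, ← hη]
    linear_combination (norm := module) (η * hβ) • x
  · simp only [act_mul, ey, ey', ed, LinearMap.smul_apply, map_add, map_smul, smul_eq_mul, h.1,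
      coord_self, coord_ne hij, ← hξ, ← hη] at e
    have : ξ * ψ (b j) * ((α - γ) * (α + γ + α * γ)) = 0 := by
      linear_combination α * (1 + γ * (ξ * η)) * e - ξ * ψ (b j) * γ * (1 + α * (ξ * η)) * hβ
    simp [h1, h2, sub_ne_zero.2 p5, p6] at this

/-- A subgroup properly containing the full monomial group contains the special linear group. -/
theorem SL_le_of_not_mono {g : GL ι F} (hg : g ∈ K) (hg' : ¬ Mono b g) :
    specialLinear ι F ≤ K := by
  by_contra hS
  have k1 : ∀ {x ψ}, Dil K x ψ → ∀ i, b.coord i x = 0 → ψ (b i) = 0 := fun h i h1 => by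
    by_contra h2; exact hS (G.SL_le_of_dil₁ h4 h5 hD h h1 h2)
  have k2 : ∀ {x ψ}, Dil K x ψ → ∀ i, b.coord i x ≠ 0 → ψ (b i) ≠ 0 := fun h i h1 h2 =>
    hS (G.SL_le_of_dil₂ h4 h5 hD h h1 h2)
  have k3 : ∀ {x ψ}, Dil K x ψ → ∀ i j, i ≠ j → b.coord i x ≠ 0 → b.coord j x ≠ 0 →
      Fintype.card F = 5 ∧ 2 * (b.coord i x * ψ (b i)) = 1 := fun h i j hij hi hj => by
    by_contra H
    refine hS (G.SL_le_of_dil₃ h4 h5 hD h hij hi (k2 h j hj) ?_)
    by_contra! H'
    exact H ⟨by omega, H'.2⟩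
  obtain ⟨r, hr⟩ := not_forall.1 hg'
  have h : Dil K (act g (b r)) (b.coord r ∘ₗ (act g⁻¹).toLinearMap) :=
    (hD r).conj hg rfl fun v => by simp [act_inv_act]
  generalize act g (b r) = x, b.coord r ∘ₗ (act g⁻¹).toLinearMap = ψ at h hr
  obtain ⟨i, hi⟩ : ∃ i, b.coord i x ≠ 0 := by
    by_contra! H
    exact hr ⟨r, 0, ext_coord (b := b) fun j => by rw [H, zero_smul, map_zero]⟩
  obtain ⟨j, hij, hj⟩ : ∃ j, j ≠ i ∧ b.coord j x ≠ 0 := by
    by_contra! H
    exact hr ⟨i, _, eq_smul_of_coord H⟩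
  obtain ⟨hF, ei⟩ := k3 h i j hij.symm hi hj
  obtain ⟨-, ej⟩ := k3 h j i hij hj hi
  have h50 : (5 : F) = 0 := by
    have := FiniteField.cast_card_eq_zero F
    rw [hF] at this; exact_mod_cast this
  have h20 : (2 : F) ≠ 0 := fun e => by simp [e] at ei
  obtain ⟨k, hk⟩ := exists_notMem_list [i, j] (by simp; omega)
  simp only [List.mem_cons, List.not_mem_nil, or_false, not_or] at hk
  by_cases hx : b.coord k x = 0
  · obtain ⟨s, hs, es⟩ := G.sw j k (Ne.symm hk.2)
    have hψ := k1 h k hx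
    have h1 : Dil K (x + b.coord j x • b k - b.coord j x • b j)
        (ψ + ψ (b j) • b.coord k - ψ (b j) • b.coord j) := h.conj hs (by rw [es, hx]; simp) fun v => by
      simp only [es, LinearMap.add_apply, LinearMap.sub_apply, LinearMap.smul_apply, map_add,
        map_sub, map_smul, smul_eq_mul, coord_self, coord_ne hk.2, coord_ne (Ne.symm hk.2), hψ]
      ring
    obtain ⟨y, hy, ey⟩ := h1.2 1 (by rwa [one_add_one_eq_two])
    have h2 := h.conj (x' := x + (3 : F) • (x + b.coord j x • b k - b.coord j x • b j))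
      (ψ' := ψ + (ψ + ψ (b j) • b.coord k - ψ (b j) • b.coord j)) hy (by
        rw [ey]
        simp only [one_smul, LinearMap.add_apply, LinearMap.sub_apply, LinearMap.smul_apply, hx,
          h.1, smul_eq_mul]
        congr 2
        linear_combination (-3) * ej + (b.coord j x * ψ (b j) - 1) * h50) fun v => by
        rw [ey, one_smul, map_add, map_smul, LinearMap.add_apply _ _ v,
          LinearMap.add_apply ψ _ (_ - _), h1.1]
        simp only [map_add, map_sub, map_smul, h.1, hψ, smul_eq_mul]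
        linear_combination (ψ + ψ (b j) • b.coord k - ψ (b j) • b.coord j) v *
          ((-3) * ej + (b.coord j x * ψ (b j)) * h50)
    have := (k3 h2 k j hk.2 ?_ ?_).2
    all_goals simp only [LinearMap.add_apply, LinearMap.sub_apply, LinearMap.smul_apply, map_add,
      map_sub, map_smul, smul_eq_mul, coord_self, coord_ne hk.2, coord_ne (Ne.symm hk.2), hψ,
      hx] at *
    · exact h20 (by linear_combination this - 3 * ej)
    · intro e
      exact hj (by linear_combination 2 * e - b.coord j x * h50)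
    · simpa using hj
  · obtain ⟨y, hy, ey⟩ := h.2 (-2) (by norm_num)
    have h1 := (hD i).conj (x' := b i + (-2 * ψ (b i)) • x)
      (ψ' := b.coord i + (-2 * b.coord i x) • ψ) hy (ey _) fun v => by
        simp only [ey, LinearMap.add_apply, LinearMap.smul_apply, map_add, map_smul, smul_eq_mul,
          h.1]
        ring
    have hψ := k2 h i hi
    have := (k3 h1 j k (Ne.symm hk.2) ?_ ?_).2
    all_goals simp only [LinearMap.add_apply, LinearMap.smul_apply, map_add, map_smul, smul_eq_mul,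
      coord_ne hij, coord_ne hij.symm, coord_ne hk.1] at *
    · exact one_ne_zero (α := F) (by
        linear_combination this - (2 * (2 * (b.coord j x * ψ (b j)))) * ei - 2 * ej)
    · simpa [h20, hψ] using hj
    · simpa [h20, hψ] using hx

end Gen

end CL.Dec
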