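/-
The monomial group is maximal in the special linear group.
-/
import Cfsg.Agent.CLAS.DecMono

set_option autoImplicit false
set_option linter.unusedSectionVars false

namespace CL.Dec

open Module Cfsg Cfsg.Geo CL.Tv

variable {ι : Type} [Fintype ι] [DecidableEq ι] {F : Type*} [Field F] {K : Subgroup (GL ι F)}
  {I : Type} [Fintype I] [DecidableEq I] {b : Basis I F (ι → F)}

theorem mono_of {g : GL ι F} (j k : I) (hj : ∃ l, ∃ c : F, act g (b j) = c • b l)
    (hk : ∃ l, ∃ c : F, act g (b k) = c • b l) (h : ∀ i, i ≠ j → i ≠ k → ∃ l, ∃ c : F, act g (b i) = c • b l) :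
    Mono b g := fun i => by
  by_cases h1 : i = j
  · exact h1 ▸ hj
  by_cases h2 : i = k
  · exact h2 ▸ hk
  exact h i h1 h2

variable (b) in
theorem exists_dil (j : I) {a : F} (ha : a ≠ 0) : ∃ d : GL ι F, (d : Matrix ι ι F).det = a ∧
    Mono b d ∧ ∀ v, act d v = v + ((a - 1) * b.coord j v) • b j := by
  have e : 1 + ((a - 1) • b.coord j) (b j) = a := by simp
  refine ⟨dt (b j) ((a - 1) • b.coord j) (by rwa [e]), by rw [det_dt, e], fun i => ?_,
    fun v => act_dt _ _ _ v⟩
  by_cases h : j = i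
  · exact ⟨i, a, by rw [act_dt, h, LinearMap.smul_apply, coord_self]; module⟩
  · exact ⟨i, 1, by rw [act_dt, LinearMap.smul_apply, coord_ne h]; module⟩

variable (b) in
theorem exists_refl {j k : I} (hjk : j ≠ k) : ∃ s : GL ι F, (s : Matrix ι ι F).det = -1 ∧
    Mono b s ∧ ∀ v, act s v = v + (b.coord k v - b.coord j v) • (b j - b k) := by
  have e : 1 + (b.coord k - b.coord j) (b j - b k) = -1 := by
    simp only [LinearMap.sub_apply, map_sub, coord_self, coord_ne hjk, coord_ne hjk.symm]; ring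
  refine ⟨dt (b j - b k) (b.coord k - b.coord j) (by rw [e]; simp), by rw [det_dt, e],
    mono_of j k ⟨k, 1, ?_⟩ ⟨j, 1, ?_⟩ fun i h1 h2 => ⟨i, 1, ?_⟩, fun v => act_dt _ _ _ v⟩
  · rw [act_dt, LinearMap.sub_apply, coord_self, coord_ne hjk.symm]; module
  · rw [act_dt, LinearMap.sub_apply, coord_self, coord_ne hjk]; module
  · rw [act_dt, LinearMap.sub_apply, coord_ne h1.symm, coord_ne h2.symm]; module

theorem mul_mem_SL {g h : GL ι F} {a c : F} (hg : (g : Matrix ι ι F).det = a)
    (hh : (h : Matrix ι ι F).det = c) (e : a * c = 1) : g * h ∈ specialLinear ι F := by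
  rw [mem_SL_iff, Units.val_mul, Matrix.det_mul, hg, hh, e]

variable (b) in
theorem exists_d2 {j k : I} (hjk : j ≠ k) {a : F} (ha : a ≠ 0) : ∃ t ∈ specialLinear ι F,
    Mono b t ∧ ∀ v, act t v = v + ((a - 1) * b.coord j v) • b j + ((a⁻¹ - 1) * b.coord k v) • b k := by
  obtain ⟨d, h1, h2, h3⟩ := exists_dil b j ha
  obtain ⟨d', h1', h2', h3'⟩ := exists_dil b k (inv_ne_zero ha)
  refine ⟨d * d', mul_mem_SL h1 h1' (mul_inv_cancel₀ ha), h2.mul h2', fun v => ?_⟩
  rw [act_mul, h3, h3', map_add, map_smul, coord_ne hjk]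
  module

theorem gen_of (hK : ∀ g ∈ specialLinear ι F, Mono b g → g ∈ K) : Gen K b := by
  refine ⟨fun j k hjk a ha => ?_, fun j k hjk => ?_⟩
  · obtain ⟨t, h1, h2, h3⟩ := exists_d2 b hjk ha
    exact ⟨t, hK t h1 h2, h3⟩
  · obtain ⟨d, h1, h2, h3⟩ := exists_dil b j (a := -1) (by simp)
    obtain ⟨s, h1', h2', h3'⟩ := exists_refl b hjk
    refine ⟨d * s, hK _ (mul_mem_SL h1 h1' (by simp)) (h2.mul h2'), fun v => ?_⟩
    rw [act_mul, h3, h3', map_add, map_smul, map_sub, coord_self, coord_ne hjk]
    module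

section Quot

variable (b) in
/-- The coordinates other than the `o`-th. -/
noncomputable def drop (o : I) : (ι → F) →ₗ[F] ({j // j ≠ o} → F) := LinearMap.pi fun j => b.coord j

variable (b) in
/-- A section of `drop`. -/
noncomputable def undrop (o : I) : ({j // j ≠ o} → F) →ₗ[F] (ι → F) :=
  Fintype.linearCombination F fun j => b j

variable {o : I}

theorem drop_apply (v : ι → F) (j : {j // j ≠ o}) : drop b o v j = b.coord j v := rfl

theorem drop_self : drop b o (b o) = 0 := funext fun j => coord_ne j.2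

theorem drop_basis (j : {j // j ≠ o}) : drop b o (b j) = Pi.basisFun F _ j := funext fun k => by
  simp [drop_apply, Finsupp.single_apply, Pi.single_apply, Subtype.ext_iff, eq_comm]

theorem undrop_basis (j : {j // j ≠ o}) : undrop b o (Pi.basisFun F _ j) = b j := by
  simp [undrop]

theorem drop_undrop (u : {j // j ≠ o} → F) : drop b o (undrop b o u) = u :=
  LinearMap.congr_fun ((Pi.basisFun F _).ext (f₁ := drop b o ∘ₗ undrop b o) (f₂ := LinearMap.id)
    fun j => by rw [LinearMap.comp_apply, undrop_basis, drop_basis]; rfl) u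

theorem eq_smul_of_drop {v : ι → F} (h : drop b o v = 0) : v = b.coord o v • b o :=
  eq_smul_of_coord fun j hj => congrFun h ⟨j, hj⟩

theorem coord_drop (j : {j // j ≠ o}) (v : ι → F) :
    (Pi.basisFun F _).coord j (drop b o v) = b.coord j v := by simp [drop_apply]

variable (K b o) in
/-- The group induced on the quotient by the `o`-th basis vector. -/
def bar : Subgroup (GL {j // j ≠ o} F) where
  carrier := {A | ∃ z ∈ K, ∀ v, drop b o (act z v) = act A (drop b o v)}
  mul_mem' := by
    rintro A A' ⟨z, hz, e⟩ ⟨z', hz', e'⟩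
    exact ⟨z * z', K.mul_mem hz hz', fun v => by rw [act_mul, act_mul, e, e']⟩
  one_mem' := ⟨1, K.one_mem, fun v => by rw [act_one, act_one]⟩
  inv_mem' := by
    rintro A ⟨z, hz, e⟩
    exact ⟨z⁻¹, K.inv_mem hz, fun v => (act A).injective (by rw [← e, act_act_inv, act_act_inv])⟩

theorem exists_bar {z : GL ι F} (h : drop b o (act z (b o)) = 0) :
    ∃ A : GL {j // j ≠ o} F, ∀ v, drop b o (act z v) = act A (drop b o v) := by
  have hc : b.coord o (act z (b o)) ≠ 0 := fun e => b.ne_zero o (by
    simpa [e] using eq_smul_of_drop h)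
  refine ⟨ofLin (LinearEquiv.ofInjectiveEndo (drop b o ∘ₗ (act z).toLinearMap ∘ₗ undrop b o)
    ((injective_iff_map_eq_zero _).2 fun u hu => ?_)), fun v => ?_⟩
  · have h1 := eq_smul_of_drop (b := b) hu
    change act z (undrop b o u) = b.coord o (act z (undrop b o u)) • b o at h1
    have : undrop b o u = (b.coord o (act z (undrop b o u)) / b.coord o (act z (b o))) • b o :=
      (act z).injective (by
        rw [map_smul, eq_smul_of_drop h, map_smul, coord_self, smul_eq_mul, mul_one, smul_smul,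
          div_mul_cancel₀ _ hc]; exact h1)
    rw [← drop_undrop (b := b) u, this, map_smul, drop_self, smul_zero]
  · rw [act_ofLin]
    change _ = drop b o (act z (undrop b o (drop b o v)))
    have : v = undrop b o (drop b o v) + b.coord o (v - undrop b o (drop b o v)) • b o := by
      rw [← eq_smul_of_drop (by rw [map_sub, drop_undrop, sub_self])]; abel
    conv_lhs => rw [this, map_add, map_add, map_smul, map_smul, h, smul_zero, add_zero]

theorem exists_mem_bar {z : GL ι F} (hz : z ∈ K) {L : ({j // j ≠ o} → F) → {j // j ≠ o} → F}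
    (h0 : L 0 = 0) (h : ∀ v, drop b o (act z v) = L (drop b o v)) :
    ∃ A ∈ bar K b o, ∀ u, act A u = L u := by
  obtain ⟨A, hA⟩ := exists_bar (z := z) (by rw [h, drop_self, h0])
  exact ⟨A, ⟨z, hz, hA⟩, fun u => by rw [← drop_undrop (b := b) u, ← hA, h]⟩

theorem Gen.bar (G : Gen K b) : Gen (bar K b o) (Pi.basisFun F _) := by
  refine ⟨fun j k hjk a ha => ?_, fun j k hjk => ?_⟩
  · obtain ⟨t, ht, e⟩ := G.d2 j k (Subtype.coe_ne_coe.2 hjk) a ha
    exact exists_mem_bar ht (by simp) fun v => by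
      simp only [e, map_add, map_smul, drop_basis, coord_drop]
  · obtain ⟨t, ht, e⟩ := G.sw j k (Subtype.coe_ne_coe.2 hjk)
    exact exists_mem_bar ht (by simp) fun v => by
      simp only [e, map_add, map_sub, map_smul, drop_basis, coord_drop]

theorem Gen.dil_bar (G : Gen K b) (j : {j // j ≠ o}) :
    Dil (CL.Dec.bar K b o) (Pi.basisFun F _ j) ((Pi.basisFun F _).coord j) := by
  refine ⟨coord_self j, fun α hα => ?_⟩
  obtain ⟨t, ht, e⟩ := G.d2 j o j.2 _ hα
  exact exists_mem_bar ht (by simp) fun v => by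
    simp only [e, map_add, map_smul, drop_basis, drop_self, LinearMap.smul_apply, coord_drop,
      smul_zero, add_zero, add_sub_cancel_right, smul_eq_mul]

end Quot

namespace Gen

variable [Fintype F] (G : Gen K b) (h6 : 6 ≤ Fintype.card I) (h5 : 5 ≤ Fintype.card F)
  (hS : ¬ specialLinear ι F ≤ K)
include G h6 h5 hS

theorem eq_of_drop {o : I} {w w' : GL ι F} (hw : w ∈ K) (hw' : w' ∈ K)
    (h0 : act w (b o) = act w' (b o)) (h0' : drop b o (act w (b o)) = 0)
    (h : ∀ v, drop b o (act w v) = drop b o (act w' v)) (v : ι → F) : act w v = act w' v := by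
  obtain ⟨a, ha⟩ := exists_notMem_list [(0 : F), 1] (by simp; omega)
  simp only [List.mem_cons, List.not_mem_nil, or_false, not_or] at ha
  let φ : Dual F (ι → F) := b.coord o ∘ₗ ((act (w * w'⁻¹)).toLinearMap - LinearMap.id)
  have e : ∀ v, act (w * w'⁻¹) v = v + φ v • b o := fun v => by
    rw [← sub_eq_iff_eq_add']
    exact eq_smul_of_drop (by rw [map_sub, act_mul, h, act_act_inv, sub_self])
  by_cases hφ : φ = 0
  · have := e (act w' v)
    rwa [act_mul, act_inv_act, hφ, LinearMap.zero_apply, zero_smul, add_zero] at this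
  refine absurd (G.SL_le_of_center (by omega) ha.1 ha.2 (i := o) ?_ hφ
    ⟨_, K.mul_mem hw (K.inv_mem hw'), e⟩) hS
  have h1 := e (act w (b o))
  rw [act_mul, h0, act_inv_act, ← h0, left_eq_add, eq_smul_of_drop h0', map_smul] at h1
  have hc : b.coord o (act w (b o)) ≠ 0 := fun e => b.ne_zero o (by
    simpa [e] using eq_smul_of_drop h0')
  exact (mul_eq_zero.1 ((smul_eq_zero_iff_left (b.ne_zero o)).1 h1)).resolve_left hc

theorem mono_of_fix {o : I} {z : GL ι F} (hz : z ∈ K) (h0 : drop b o (act z (b o)) = 0) :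
    Mono b z := by
  obtain ⟨a, ha⟩ := exists_notMem_list [(0 : F), 1] (by simp; omega)
  simp only [List.mem_cons, List.not_mem_nil, or_false, not_or] at ha
  have hJ : 5 ≤ Fintype.card {j // j ≠ o} := by
    rw [Fintype.card_subtype_compl, Fintype.card_subtype_eq]; omega
  obtain ⟨A, hA⟩ := exists_bar h0
  by_cases hm : Mono (Pi.basisFun F _) A
  · choose π c hπ using hm
    have hc : ∀ j, c j ≠ 0 := fun j e => (Pi.basisFun F _).ne_zero j (by simpa [e] using hπ j)
    have hinj : Function.Injective π := fun j k e => by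
      by_contra hjk
      have : c k • Pi.basisFun F _ j = c j • Pi.basisFun F _ k :=
        (act A).injective (by rw [map_smul, map_smul, hπ, hπ, e, smul_comm])
      have := congrArg ((Pi.basisFun F _).coord j) this
      rw [map_smul, map_smul, coord_self, coord_ne hjk] at this
      exact hc k (by simpa using this)
    intro i
    by_cases hi : i = o
    · exact ⟨o, _, by rw [hi]; exact eq_smul_of_drop h0⟩
    obtain ⟨j, rfl⟩ : ∃ j : {j // j ≠ o}, j = i := ⟨⟨i, hi⟩, rfl⟩
    obtain ⟨k, hk⟩ := exists_notMem_list [j] (by simp; omega)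
    simp only [List.mem_cons, List.not_mem_nil, or_false] at hk
    obtain ⟨t, ht, e⟩ := G.d2 j k (Subtype.coe_ne_coe.2 (Ne.symm hk)) a ha.1
    obtain ⟨t', ht', e'⟩ := G.d2 (π j) (π k) (Subtype.coe_ne_coe.2 (hinj.ne (Ne.symm hk))) a ha.1
    have hz0 : ∀ l : {j // j ≠ o}, b.coord l (act z (b o)) = 0 := fun l => congrFun h0 l
    have key := G.eq_of_drop h6 h5 hS (K.mul_mem hz ht) (K.mul_mem ht' hz) (o := o)
      (by rw [act_mul, act_mul, e, e', coord_ne j.2, coord_ne k.2, hz0, hz0]; simp)
      (by rw [act_mul, e, coord_ne j.2, coord_ne k.2]; simpa using h0) (fun v => by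
        have hl : ∀ l, (Pi.basisFun F _).coord (π l) ∘ₗ (act A).toLinearMap =
            c l • (Pi.basisFun F _).coord l := fun l => (Pi.basisFun F _).ext fun m => by
          rw [LinearMap.comp_apply, LinearEquiv.coe_coe, hπ, map_smul, LinearMap.smul_apply]
          by_cases hlm : l = m
          · rw [hlm, coord_self, coord_self]
          · rw [coord_ne hlm, coord_ne (hinj.ne hlm), smul_zero, smul_zero]
        have hl' : ∀ l, b.coord (π l) (act z v) = c l * b.coord l v := fun l => by
          rw [← coord_drop, hA, ← coord_drop]; exact LinearMap.congr_fun (hl l) _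
        simp only [act_mul, e, e', map_add, map_smul, hA, drop_basis, hπ, hl']
        module) (b j)
    rw [act_mul, act_mul, e, e', coord_self, coord_ne (Subtype.coe_ne_coe.2 hk)] at key
    have key' := congrArg (b.coord o) key
    simp only [map_add, map_smul, coord_ne (π j).2.symm, coord_ne (π k).2.symm, smul_eq_mul] at key'
    have h1 : b.coord o (act z (b j)) = 0 := by
      have : (a - 1) * b.coord o (act z (b j)) = 0 := by linear_combination key'
      exact (mul_eq_zero.1 this).resolve_left (sub_ne_zero.2 ha.2)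
    refine ⟨π j, c j, ext_coord (b := b) fun l => ?_⟩
    by_cases hl : l = o
    · rw [hl, h1, map_smul, coord_ne (π j).2.symm, smul_zero]
    · have := congrFun (hA (b j)) ⟨l, hl⟩
      rw [drop_basis, hπ, ← drop_basis (b := b), ← map_smul] at this
      exact this
  exfalso
  have hSL := G.bar.SL_le_of_not_mono (by omega) h5 G.dil_bar ⟨z, hz, hA⟩ hm
  obtain ⟨j, -⟩ := exists_notMem_list ([] : List {j // j ≠ o}) (by simp; omega)
  obtain ⟨k, hk⟩ := exists_notMem_list [j] (by simp; omega)
  obtain ⟨l, hl⟩ := exists_notMem_list [j, k] (by simp; omega)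
  obtain ⟨l', hl'⟩ := exists_notMem_list [j, k, l] (by simp; omega)
  simp only [List.mem_cons, List.not_mem_nil, or_false, not_or] at hk hl hl'
  obtain ⟨w, hw, ew⟩ := hSL (tv_mem_SL (Pi.basisFun F _ j) _ (coord_ne hk))
  simp only [act_tv, coord_drop] at ew
  have w0 : drop b o (act w (b o)) = 0 := by rw [ew, drop_self, coord_ne k.2]; simp
  have hw0 : ∀ l : {j // j ≠ o}, b.coord l (act w (b o)) = 0 := fun l => congrFun w0 l
  have ew' : ∀ (m : {j // j ≠ o}) v, m ≠ j → b.coord m (act w v) = b.coord m v := fun m v hm => by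
    rw [← coord_drop, ew, map_add, map_smul, coord_ne hm, coord_drop]; simp
  have r0 : ∀ l m : {j // j ≠ o}, l ≠ j → l ≠ k → l ≠ m → b.coord o (act w (b m)) = 0 := by
    intro l m h1 h2 h3
    obtain ⟨t, ht, e⟩ := G.d2 o l l.2.symm a ha.1
    have key := G.eq_of_drop h6 h5 hS (K.mul_mem hw ht) (K.mul_mem ht hw) (o := o)
      (by
        rw [act_mul, act_mul, e, e, coord_self, coord_ne l.2, hw0, map_add, map_add, map_smul,
          map_smul, mul_smul (a - 1) (b.coord o _), ← eq_smul_of_drop w0]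
        simp)
      (by rw [act_mul, e, coord_ne l.2]; simp [w0]) (fun v => by
        simp only [act_mul, e, map_add, map_smul, ew, drop_basis, drop_self, ew' l _ h1,
          coord_ne k.2, coord_ne (Subtype.coe_ne_coe.2 (Ne.symm h2))]
        module) (b m)
    rw [act_mul, act_mul, e, e, coord_ne m.2.symm, coord_ne (Subtype.coe_ne_coe.2 h3)] at key
    have key' := congrArg (b.coord o) key
    simp only [map_add, map_smul, coord_ne l.2.symm, coord_self, smul_eq_mul] at key'
    have : (a - 1) * b.coord o (act w (b m)) = 0 := by linear_combination -key'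
    exact (mul_eq_zero.1 this).resolve_left (sub_ne_zero.2 ha.2)
  have r1 : ∀ m : {j // j ≠ o}, act w (b m) = b m + b.coord k (b m) • b j := fun m =>
    ext_coord (b := b) fun i => by
      by_cases hi : i = o
      · rw [hi, map_add, map_smul, coord_ne m.2.symm, coord_ne j.2.symm, smul_zero, add_zero]
        by_cases h : l = m
        · exact r0 l' m hl'.1 hl'.2.1 (h ▸ hl'.2.2)
        · exact r0 l m hl.1 hl.2 h
      · have := congrFun (ew (b m)) ⟨i, hi⟩
        rw [← drop_basis (b := b) j, ← map_smul, ← map_add] at this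
        exact this
  obtain ⟨t, ht, e⟩ := G.d2 j l (Subtype.coe_ne_coe.2 (Ne.symm hl.1)) a ha.1
  have wj : act w (b j) = b j := by rw [r1, coord_ne (Subtype.coe_ne_coe.2 hk)]; simp
  have wl : act w (b l) = b l := by rw [r1, coord_ne (Subtype.coe_ne_coe.2 (Ne.symm hl.2))]; simp
  refine hS (G.SL_le_of_elem (by omega) (Subtype.coe_ne_coe.2 (Ne.symm hk))
    (sub_ne_zero.2 ha.2) ⟨w⁻¹ * t * w * t⁻¹,
      K.mul_mem (K.mul_mem (K.mul_mem (K.inv_mem hw) ht) hw) (K.inv_mem ht), fun v => ?_⟩)
  obtain ⟨v, rfl⟩ := (act t).surjective v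
  apply (act w).injective
  rw [act_mul, act_mul, act_mul, act_act_inv, act_inv_act]
  have c1 : b.coord j (act w v) = b.coord j v + b.coord k v := by
    rw [← coord_drop, ew, map_add, map_smul, coord_self, coord_drop]; simp
  simp only [e, map_add, map_smul, wj, wl, c1, ew' l _ hl.1, LinearMap.smul_apply,
    coord_ne (Subtype.coe_ne_coe.2 hk), coord_ne (Subtype.coe_ne_coe.2 (Ne.symm hl.2))]
  module

theorem mono_of_col {z : GL ι F} (hz : z ∈ K) {i j : I} {c : F} (h : act z (b i) = c • b j) :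
    Mono b z := by
  by_cases hij : j = i
  · exact G.mono_of_fix h6 h5 hS hz (o := i) (by rw [h, hij, map_smul, drop_self, smul_zero])
  obtain ⟨s, hs, e⟩ := G.sw j i hij
  have s1 : act s (b j) = b i := by rw [e, coord_self, coord_ne (Ne.symm hij)]; module
  have s2 : act s (b i) = (-1 : F) • b j := by rw [e, coord_self, coord_ne hij]; module
  have h1 := G.mono_of_fix h6 h5 hS (K.mul_mem hs hz) (o := i)
    (by rw [act_mul, h, map_smul, s1, map_smul, drop_self, smul_zero])
  have h2 : Mono b s⁻¹ := mono_of i j ⟨j, 1, by rw [← s1, act_inv_act, one_smul]⟩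
    ⟨i, -1, (act s).injective (by rw [act_act_inv, map_smul, s2]; module)⟩
    fun l h1 h2 => ⟨l, 1, (act s).injective (by
      rw [act_act_inv, one_smul, e, coord_ne h1.symm, coord_ne h2.symm]; module)⟩
  simpa using h2.mul h1

theorem col_or {g m : GL ι F} (hg : g ∈ K) (hm : m ∈ K) {α : I} {c : F} (hc : c ≠ 0)
    (h : act m (c • act g (b α)) = c • act g (b α)) (β : I) :
    (∃ γ, ∃ d : F, act m (act g (b β)) = d • act g (b γ)) ∧
    (b.coord β (act g⁻¹ (act m (act g (b β)))) = 0 ∨
      act m (act g (b β)) = b.coord β (act g⁻¹ (act m (act g (b β)))) • act g (b β)) := by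
  rw [map_smul] at h
  obtain ⟨γ, d, e⟩ := G.mono_of_col h6 h5 hS (K.mul_mem (K.mul_mem (K.inv_mem hg) hm) hg)
    (i := α) (j := α) (c := 1)
    (by rw [act_mul, act_mul, smul_right_injective _ hc h, act_inv_act, one_smul]) β
  rw [act_mul, act_mul] at e
  have e' : act m (act g (b β)) = d • act g (b γ) := by rw [← map_smul, ← e, act_act_inv]
  refine ⟨⟨γ, d, e'⟩, ?_⟩
  rw [e, map_smul]
  by_cases h : β = γ
  · right; rw [e', h, coord_self, smul_eq_mul, mul_one]
  · left; rw [coord_ne h, smul_zero]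

theorem zero_of_two_zeros {g : GL ι F} (hg : g ∈ K) {α β k l m : I} (hkl : k ≠ l) (hmk : m ≠ k)
    (hml : m ≠ l) (h1 : b.coord k (act g (b α)) = 0) (h2 : b.coord l (act g (b α)) = 0)
    (h3 : b.coord k (act g (b β)) ≠ 0) : b.coord m (act g (b β)) = 0 := by
  by_contra h4
  set y := act g (b β) with hy
  have key : ∀ s : F, s ≠ 0 → s ≠ 1 →
      s + (s - 1) * s * (b.coord k y * b.coord β (act g⁻¹ (b k))) +
        (1 - s) * (b.coord l y * b.coord β (act g⁻¹ (b l))) = 0 := fun s hs hs1 => by
    obtain ⟨t, ht, e⟩ := G.d2 k l hkl s hs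
    rcases (G.col_or h6 h5 hS hg ht one_ne_zero (α := α)
      (by rw [one_smul, e, h1, h2]; simp) β).2 with h | h
    · rw [e, map_add, map_add, map_add, map_add, act_inv_act, coord_self, ← hy] at h
      simp only [map_smul, smul_eq_mul] at h
      field_simp at h
      linear_combination h
    · generalize b.coord β (act g⁻¹ (act t (act g (b β)))) = θ at h
      have e1 := congrArg (b.coord m) h
      have e2 := congrArg (b.coord k) h
      simp only [e, ← hy, map_add, map_smul, coord_ne hmk, coord_ne hml, coord_ne hkl, coord_self,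
        smul_eq_mul] at e1 e2
      have : (s - 1) * b.coord k y * b.coord m y = 0 := by
        linear_combination b.coord m y * e2 - b.coord k y * e1
      exact absurd this (mul_ne_zero (mul_ne_zero (sub_ne_zero.2 hs1) h3) h4)
  generalize b.coord k y * b.coord β (act g⁻¹ (b k)) = A,
    b.coord l y * b.coord β (act g⁻¹ (b l)) = B at key
  obtain ⟨r, hr⟩ := exists_notMem_list [(0 : F), 1] (by simp; omega)
  obtain ⟨s, hs⟩ := exists_notMem_list [(0 : F), 1, r] (by simp; omega)
  obtain ⟨t, ht⟩ := exists_notMem_list [(0 : F), 1, r, s] (by simp; omega)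
  simp only [List.mem_cons, List.not_mem_nil, or_false, not_or] at hr hs ht
  have e1 := key r hr.1 hr.2
  have e2 := key s hs.1 hs.2.1
  have e3 := key t ht.1 ht.2.1
  have e4 : A * (r + s) + (1 - A - B) = 0 :=
    mul_left_cancel₀ (sub_ne_zero.2 hs.2.2) (by linear_combination e2 - e1)
  have e5 : A * (r + t) + (1 - A - B) = 0 :=
    mul_left_cancel₀ (sub_ne_zero.2 ht.2.2.1) (by linear_combination e3 - e1)
  have e6 : A = 0 := mul_left_cancel₀ (sub_ne_zero.2 ht.2.2.2) (by linear_combination e5 - e4)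
  exact one_ne_zero (α := F) (by linear_combination e1 + (1 - r) * e4 + (1 - r) * (1 - s) * e6)

theorem mono_of_two_zeros {g : GL ι F} (hg : g ∈ K) {α k l : I} (hkl : k ≠ l)
    (h1 : b.coord k (act g (b α)) = 0) (h2 : b.coord l (act g (b α)) = 0) : Mono b g := by
  have ex : ∀ k, ∃ β, b.coord k (act g (b β)) ≠ 0 := fun k => by
    by_contra! H
    have := LinearMap.congr_fun (b.ext (f₁ := b.coord k ∘ₗ (act g).toLinearMap) (f₂ := 0) H)
      (act g⁻¹ (b k))
    simp [act_act_inv] at this
  obtain ⟨β, hβ⟩ := ex k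
  obtain ⟨k', hk'⟩ := exists_notMem_list [k, l] (by simp; omega)
  obtain ⟨l', hl'⟩ := exists_notMem_list [k, l, k'] (by simp; omega)
  obtain ⟨m', hm'⟩ := exists_notMem_list [k, l, k', l'] (by simp; omega)
  simp only [List.mem_cons, List.not_mem_nil, or_false, not_or] at hk' hl' hm'
  have z1 := G.zero_of_two_zeros h6 h5 hS hg hkl hk'.1 hk'.2 h1 h2 hβ
  have z2 := G.zero_of_two_zeros h6 h5 hS hg hkl hl'.1 hl'.2.1 h1 h2 hβ
  have z3 := G.zero_of_two_zeros h6 h5 hS hg hkl hm'.1 hm'.2.1 h1 h2 hβ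
  obtain ⟨γ, hγ⟩ := ex k'
  refine G.mono_of_col h6 h5 hS hg (i := γ) (j := k') (eq_smul_of_coord fun j hj => ?_)
  by_cases h : j = l'
  · exact G.zero_of_two_zeros h6 h5 hS hg (Ne.symm hm'.2.2.1) hj (h ▸ Ne.symm hm'.2.2.2) z1 z3 hγ
  · exact G.zero_of_two_zeros h6 h5 hS hg (Ne.symm hl'.2.2) hj h z1 z2 hγ

end Gen

section Final

variable (hK : ∀ g ∈ specialLinear ι F, Mono b g → g ∈ K)
include hK

theorem exists_cyc {i j k : I} (hij : i ≠ j) (hjk : j ≠ k) (hik : i ≠ k) : ∃ c ∈ K, ∀ v, act c v =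
    v + (b.coord k v - b.coord i v) • b i + (b.coord i v - b.coord j v) • b j +
      (b.coord j v - b.coord k v) • b k := by
  obtain ⟨s, h1, h2, h3⟩ := exists_refl b hij
  obtain ⟨s', h1', h2', h3'⟩ := exists_refl b hjk
  refine ⟨s * s', hK _ (mul_mem_SL h1 h1' (by simp)) (h2.mul h2'), fun v => ?_⟩
  rw [act_mul, h3, h3']
  simp only [map_add, map_smul, map_sub, coord_self, coord_ne hij, coord_ne hjk, coord_ne hik,
    smul_eq_mul]
  module

theorem exists_pair_move {x : ι → F} (hx : ∀ i, b.coord i x = 0 ∨ b.coord i x = 1) {i j k : I}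
    (hij : i ≠ j) (hjk : j ≠ k) (hik : i ≠ k) (hi : b.coord i x = 1) (hj : b.coord j x = 1) :
    ∃ m ∈ K, act m x = x ∧ (∀ v, b.coord j (act m v) = b.coord i v) ∧
      ∀ l, l ≠ i → l ≠ j → l ≠ k → act m (b l) = b l ∧ ∀ v, b.coord l (act m v) = b.coord l v := by
  rcases hx k with hk | hk
  · obtain ⟨s, h1, h2, h3⟩ := exists_refl b hij
    obtain ⟨d, h1', h2', h3'⟩ := exists_dil b k (a := -1) (by simp)
    refine ⟨s * d, hK _ (mul_mem_SL h1 h1' (by simp)) (h2.mul h2'), ?_, fun v => ?_,
      fun l l1 l2 l3 => ⟨?_, fun v => ?_⟩⟩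
    all_goals simp only [act_mul, h3, h3', map_add, map_smul, map_sub, coord_self,
      coord_ne hjk, coord_ne hik, coord_ne hij.symm, smul_eq_mul]
    · rw [hi, hj, hk]; module
    · ring
    · rw [coord_ne l1.symm, coord_ne l2.symm, coord_ne l3.symm]; module
    · rw [coord_ne l1, coord_ne l2, coord_ne l3]; ring
  · obtain ⟨c, hc, e⟩ := exists_cyc hK hij hjk hik
    refine ⟨c, hc, ?_, fun v => ?_, fun l l1 l2 l3 => ⟨?_, fun v => ?_⟩⟩
    all_goals simp only [e, map_add, map_smul, coord_self, coord_ne hjk, coord_ne hij.symm,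
      smul_eq_mul]
    · rw [hi, hj, hk]; module
    · ring
    · rw [coord_ne l1.symm, coord_ne l2.symm, coord_ne l3.symm]; module
    · rw [coord_ne l1, coord_ne l2, coord_ne l3]; ring

variable [Fintype F] (h6 : 6 ≤ Fintype.card I) (h5 : 5 ≤ Fintype.card F)
include h6 h5

theorem SL_le_of_normalized {g : GL ι F} (hg : g ∈ K) (hg' : ¬ Mono b g) {α : I} {c₀ : F}
    (hc₀ : c₀ ≠ 0) (hx : ∀ i, b.coord i (c₀ • act g (b α)) = 0 ∨ b.coord i (c₀ • act g (b α)) = 1) :
    specialLinear ι F ≤ K := by
  by_contra hS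
  have G := gen_of hK
  have two : ∀ β k l, k ≠ l → b.coord k (act g (b β)) ≠ 0 ∨ b.coord l (act g (b β)) ≠ 0 :=
    fun β k l hkl => by
      by_contra! H
      exact hg' (G.mono_of_two_zeros h6 h5 hS hg hkl H.1 H.2)
  have col := fun m hm => G.col_or h6 h5 hS hg (m := m) hm (α := α) hc₀
  set x := c₀ • act g (b α) with hxdef
  have pick : ∀ l : List I, l.length ≤ 4 → ∃ i ∉ l, b.coord i x = 1 := fun l hl => by
    obtain ⟨i, hi⟩ := exists_notMem_list l (by omega)
    obtain ⟨j, hj⟩ := exists_notMem_list (i :: l) (by simp; omega)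
    rw [List.mem_cons, not_or] at hj
    rcases two α i j (Ne.symm hj.1) with h | h
    · exact ⟨i, hi, (hx i).resolve_left (by rw [hxdef, map_smul]; exact smul_ne_zero hc₀ h)⟩
    · exact ⟨j, hj.2, (hx j).resolve_left (by rw [hxdef, map_smul]; exact smul_ne_zero hc₀ h)⟩
  have one : ∀ {β} {θ : F} {v : ι → F} {k l}, k ≠ l → v = θ • act g (b β) →
      b.coord k v = b.coord k (act g (b β)) → b.coord l v = b.coord l (act g (b β)) → θ = 1 := by
    intro β θ v k l hkl e h1 h2
    rw [e, map_smul, smul_eq_mul] at h1 h2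
    rcases two β k l hkl with h | h
    · exact mul_right_cancel₀ h (by rw [h1, one_mul])
    · exact mul_right_cancel₀ h (by rw [h2, one_mul])
  have const : ∀ β i j u v, i ≠ u → i ≠ v → j ≠ u → j ≠ v → b.coord i x = 1 → b.coord j x = 1 →
      b.coord u x = 1 → b.coord v x = 1 →
      b.coord i (act g (b β)) ≠ b.coord j (act g (b β)) →
      b.coord u (act g (b β)) = b.coord v (act g (b β)) := by
    intro β i j u v hiu hiv hju hjv xi xj xu xv hne
    have hij : i ≠ j := by rintro rfl; exact hne rfl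
    by_cases huv : u = v
    · rw [huv]
    obtain ⟨w, hw, xw⟩ := pick [i, j, u, v] (by simp)
    obtain ⟨k, hk⟩ := exists_notMem_list [i, j, u, v, w] (by simp; omega)
    simp only [List.mem_cons, List.not_mem_nil, or_false, not_or] at hw hk
    obtain ⟨m, hm, m1, m2, m3⟩ := exists_pair_move hK hx hij (Ne.symm hk.2.1) (Ne.symm hk.1) xi xj
    obtain ⟨c, hc, e⟩ := exists_cyc hK huv (Ne.symm hw.2.2.2) (Ne.symm hw.2.2.1)
    have mu := m3 u hiu.symm hju.symm (Ne.symm hk.2.2.1)
    have mv := m3 v hiv.symm hjv.symm (Ne.symm hk.2.2.2.1)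
    have mw := m3 w hw.1 hw.2.1 (Ne.symm hk.2.2.2.2)
    have c1 : act c x = x := by rw [e, xu, xv, xw]; module
    set y := act g (b β) with hy
    have cu : b.coord u (act c y) = b.coord w y := by
      simp only [e, map_add, map_smul, coord_self, coord_ne huv, coord_ne (Ne.symm hw.2.2.1),
        smul_eq_mul]; ring
    have cv : b.coord v (act c y) = b.coord u y := by
      simp only [e, map_add, map_smul, coord_self, coord_ne (Ne.symm huv),
        coord_ne (Ne.symm hw.2.2.2), smul_eq_mul]; ring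
    have cw : b.coord w (act c y) = b.coord v y := by
      simp only [e, map_add, map_smul, coord_self, coord_ne hw.2.2.1, coord_ne hw.2.2.2,
        smul_eq_mul]; ring
    rcases (col m hm m1 β).2 with t1 | t1
    swap
    · have := one huv t1 (mu.2 _) (mv.2 _)
      rw [this, one_smul] at t1
      exact absurd (by rw [← m2, t1]) hne
    rcases (col c hc c1 β).2 with t2 | t2
    swap
    · have := one hij t2 (by simp only [e, map_add, map_smul, coord_ne hiu, coord_ne hiv,
        coord_ne (Ne.symm hw.1), smul_zero, add_zero]) (by simp only [e, map_add, map_smul,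
        coord_ne hju, coord_ne hjv, coord_ne (Ne.symm hw.2.1), smul_zero, add_zero])
      rw [this, one_smul] at t2
      rw [← cv, t2]
    have rel : act (m * c) y = act m y + act c y - y := by
      rw [act_mul, e]
      simp only [map_add, map_smul, mu.1, mv.1, mw.1]
      module
    have t3 : b.coord β (act g⁻¹ (act (m * c) y)) = -1 := by
      rw [rel, map_sub, map_add, map_sub, map_add, t1, t2, hy, act_inv_act, coord_self]; ring
    have t4 := (col (m * c) (K.mul_mem hm hc) (by rw [act_mul, c1, m1]) β).2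
    rw [← hy, t3, or_iff_right (by simp), act_mul] at t4
    have e1 := congrArg (b.coord u) t4
    have e2 := congrArg (b.coord v) t4
    have e3 := congrArg (b.coord w) t4
    rw [mu.2, cu, map_smul, smul_eq_mul] at e1
    rw [mw.2, cw, map_smul, smul_eq_mul] at e3
    linear_combination e1 - e3
  obtain ⟨β, i, ρ, xi, hρ, hconst⟩ : ∃ β i ρ, b.coord i x = 1 ∧ b.coord i (act g (b β)) ≠ ρ ∧
      ∀ m, m ≠ i → b.coord m x = 1 → b.coord m (act g (b β)) = ρ := by
    obtain ⟨i, -, xi⟩ := pick [] (by simp)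
    obtain ⟨j, hj, xj⟩ := pick [i] (by simp)
    obtain ⟨l, hl, xl⟩ := pick [i, j] (by simp)
    obtain ⟨u, hu, xu⟩ := pick [i, j, l] (by simp)
    simp only [List.mem_cons, List.not_mem_nil, or_false, not_or] at hj hl hu
    obtain ⟨β, hβ⟩ : ∃ β, b.coord i (act g (b β)) ≠ b.coord j (act g (b β)) := by
      by_contra! H
      have := LinearMap.congr_fun (b.ext (f₁ := b.coord i ∘ₗ (act g).toLinearMap)
        (f₂ := b.coord j ∘ₗ (act g).toLinearMap) H) (act g⁻¹ (b i))
      simp only [LinearMap.comp_apply, LinearEquiv.coe_coe, act_act_inv, coord_self,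
        coord_ne hj] at this
      exact one_ne_zero this
    have aux : ∀ i j, b.coord i x = 1 → b.coord j x = 1 → l ≠ i → l ≠ j → u ≠ i → u ≠ j →
        b.coord i (act g (b β)) ≠ b.coord j (act g (b β)) →
        b.coord i (act g (b β)) ≠ b.coord l (act g (b β)) →
        ∀ m, m ≠ i → b.coord m x = 1 → b.coord m (act g (b β)) = b.coord l (act g (b β)) := by
      intro i j xi xj li lj ui uj h1 h2 m hm xm
      by_cases h : m = j
      · rw [h, const β i l j u (h ▸ hm.symm) ui.symm lj (Ne.symm hu.2.2) xi xl xj xu h2]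
        exact const β i j u l ui.symm li.symm uj.symm lj.symm xi xj xu xl h1
      · exact const β i j m l hm.symm li.symm (Ne.symm h) lj.symm xi xj xm xl h1
    by_cases h : b.coord i (act g (b β)) = b.coord l (act g (b β))
    · have h' : b.coord j (act g (b β)) ≠ b.coord l (act g (b β)) := fun e => hβ (h.trans e.symm)
      exact ⟨β, j, _, xj, h', aux j i xj xi hl.2 hl.1 hu.2.1 hu.1 hβ.symm h'⟩
    · exact ⟨β, i, _, xi, h, aux i j xi xj hl.1 hl.2 hu.1 hu.2.1 hβ h⟩
  set y := act g (b β) with hy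
  have hw : b.coord i y - ρ ≠ 0 := sub_ne_zero.2 hρ
  by_cases hall : ∀ z, b.coord z x = 1
  · have e : y - ρ • x = (b.coord i y - ρ) • b i := by
      rw [eq_smul_of_coord (b := b) (v := y - ρ • x) (i := i) fun j hj => by
        rw [map_sub, map_smul, hconst j hj (hall j), hall, smul_eq_mul, mul_one, sub_self],
        map_sub, map_smul, xi, smul_eq_mul, mul_one]
    have e' : act g⁻¹ (b i) = (b.coord i y - ρ)⁻¹ • (b β - (ρ * c₀) • b α) := (act g).injective (by
      rw [act_act_inv, map_smul, map_sub, map_smul, mul_smul, ← hy, ← hxdef, e, smul_smul,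
        inv_mul_cancel₀ hw, one_smul])
    obtain ⟨k, hk⟩ := exists_notMem_list [α, β] (by simp; omega)
    obtain ⟨l, hl⟩ := exists_notMem_list [α, β, k] (by simp; omega)
    simp only [List.mem_cons, List.not_mem_nil, or_false, not_or] at hk hl
    obtain ⟨γ, d, hd⟩ := G.mono_of_two_zeros h6 h5 hS (K.inv_mem hg) (α := i) (Ne.symm hl.2.2)
      (by simp only [e', map_smul, map_sub, coord_ne hk.1, coord_ne hk.2, smul_zero, sub_zero])
      (by simp only [e', map_smul, map_sub, coord_ne hl.1, coord_ne hl.2.1, smul_zero, sub_zero]) i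
    have hd0 : d ≠ 0 := by rintro rfl; exact b.ne_zero i (by simpa using hd)
    exact hg' (G.mono_of_col h6 h5 hS hg (i := γ) (j := i) (c := d⁻¹) (by
      rw [← act_act_inv g (b i), hd, map_smul, smul_smul, inv_mul_cancel₀ hd0, one_smul]))
  obtain ⟨z, hz⟩ := not_forall.1 hall
  have xz := (hx z).resolve_right hz
  obtain ⟨j, hj, xj⟩ := pick [i] (by simp)
  obtain ⟨k, hk, xk⟩ := pick [i, j] (by simp)
  obtain ⟨a, ha⟩ := exists_notMem_list [(0 : F), 1, 2] (by simp; omega)
  simp only [List.mem_cons, List.not_mem_nil, or_false, not_or] at hj hk ha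
  have hiz : i ≠ z := by rintro rfl; exact hz xi
  have hjz : j ≠ z := by rintro rfl; exact hz xj
  obtain ⟨c, hc, e⟩ := exists_cyc hK (Ne.symm hj) (Ne.symm hk.2) (Ne.symm hk.1)
  obtain ⟨γ, d, hd⟩ := (col c hc (by rw [e, xi, xj, xk]; module) β).1
  have cy : act c y = y - (b.coord i y - ρ) • b i + (b.coord i y - ρ) • b j := by
    rw [e, hconst j hj xj, hconst k hk.1 xk]; module
  obtain ⟨t, ht, et⟩ := G.d2 i z hiz a ha.1
  obtain ⟨t', ht', et'⟩ := G.d2 j z hjz (2 - a) (sub_ne_zero.2 (Ne.symm ha.2.2))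
  have tx : act (t * t') x = x + (a - 1) • (b i - b j) := by
    simp only [act_mul, et, et', map_add, map_smul, xi, xj, xz, coord_ne (Ne.symm hj), coord_ne hiz,
      coord_ne hjz.symm, coord_self, smul_eq_mul]
    module
  have hz' := K.mul_mem (K.mul_mem (K.inv_mem hg) (K.mul_mem ht ht')) hg
  have e1 : act (g⁻¹ * (t * t') * g) (b α) =
      b α + (c₀⁻¹ * (a - 1) * (b.coord i y - ρ)⁻¹) • (b β - d • b γ) := (act g).injective (by
    rw [act_mul, act_mul, act_act_inv, map_add, map_smul, map_sub, map_smul, ← hd, ← hy, cy]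
    apply smul_right_injective _ hc₀
    dsimp only
    rw [← map_smul, tx, smul_add, ← hxdef, smul_smul, show y - (y - (b.coord i y - ρ) • b i +
      (b.coord i y - ρ) • b j) = (b.coord i y - ρ) • (b i - b j) by module, smul_smul]
    congr 2
    field_simp)
  have hβ : α ≠ β := by
    rintro rfl
    refine hρ ((hconst j hj xj) ▸ mul_left_cancel₀ hc₀ ?_)
    rw [hxdef, map_smul, smul_eq_mul] at xi xj
    rw [xi, xj]
  have hγ : α ≠ γ := by
    rintro rfl
    have e2 : c₀ • act c y = d • x := by rw [hd, hxdef, smul_comm]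
    have e3 := congrArg (b.coord j) e2
    have e4 := congrArg (b.coord k) e2
    simp only [cy, map_add, map_sub, map_smul, xj, xk, coord_self, coord_ne hj, coord_ne hk.1,
      coord_ne hk.2, hconst j hj xj, hconst k hk.1 xk, smul_eq_mul] at e3 e4
    exact mul_ne_zero hc₀ hw (by linear_combination e3 - e4)
  obtain ⟨k', hk'⟩ := exists_notMem_list [α, β, γ] (by simp; omega)
  obtain ⟨l', hl'⟩ := exists_notMem_list [α, β, γ, k'] (by simp; omega)
  simp only [List.mem_cons, List.not_mem_nil, or_false, not_or] at hk' hl'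
  obtain ⟨δ, d', hd'⟩ := G.mono_of_two_zeros h6 h5 hS hz' (α := α) (Ne.symm hl'.2.2.2)
    (by simp only [e1, map_add, map_smul, map_sub, coord_ne hk'.1, coord_ne hk'.2.1,
      coord_ne hk'.2.2, smul_zero, sub_zero, add_zero])
    (by simp only [e1, map_add, map_smul, map_sub, coord_ne hl'.1, coord_ne hl'.2.1,
      coord_ne hl'.2.2.1, smul_zero, sub_zero, add_zero]) α
  have e2 : b.coord α (d' • b δ) = 1 := by
    simp only [← hd', e1, map_add, map_smul, map_sub, coord_self, coord_ne hβ, coord_ne hγ,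
      smul_zero, sub_zero, add_zero]
  have hδ : α = δ := by
    by_contra h
    rw [map_smul, coord_ne h, smul_zero] at e2
    exact zero_ne_one e2
  subst hδ
  rw [map_smul, coord_self, smul_eq_mul, mul_one] at e2
  rw [e2, one_smul, act_mul, act_mul] at hd'
  have e3 : act (t * t') x = x := by
    rw [hxdef, map_smul, ← act_act_inv g (act (t * t') _), hd']
  have e4 := congrArg (b.coord i) (tx.symm.trans e3)
  rw [map_add, add_eq_left, map_smul, map_sub, coord_self, coord_ne (Ne.symm hj)] at e4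
  exact ha.2.1 (by simpa [sub_eq_zero] using e4)

end Final

theorem mono_unitsSMul (w : I → Fˣ) {g : GL ι F} : Mono (b.unitsSMul w) g ↔ Mono b g := by
  refine forall_congr' fun i => exists_congr fun j => ?_
  simp only [Basis.unitsSMul_apply, Units.smul_def, map_smul]
  constructor
  · rintro ⟨c, e⟩
    refine ⟨(w i : F)⁻¹ * c * w j, ?_⟩
    rw [mul_smul, mul_smul, ← e, smul_smul, inv_mul_cancel₀ (w i).ne_zero, one_smul]
  · rintro ⟨c, e⟩
    refine ⟨w i * c * (w j : F)⁻¹, ?_⟩
    rw [e, smul_smul, smul_smul, inv_mul_cancel_right₀ (w j).ne_zero]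

/-- The monomial group is maximal in the special linear group. -/
theorem SL_le_of_mono [Fintype F] (h6 : 6 ≤ Fintype.card I) (h5 : 5 ≤ Fintype.card F)
    (hK : ∀ g ∈ specialLinear ι F, Mono b g → g ∈ K) {g : GL ι F} (hg : g ∈ K)
    (hg' : ¬ Mono b g) : specialLinear ι F ≤ K := by
  classical
  obtain ⟨α, -⟩ := exists_notMem_list ([] : List I) (by simp; omega)
  let w : I → Fˣ := fun i =>
    if h : b.coord i (act g (b α)) = 0 then 1 else Units.mk0 _ h
  refine SL_le_of_normalized (b := b.unitsSMul w)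
    (fun g h1 h2 => hK g h1 ((mono_unitsSMul w).1 h2)) h6 h5 hg
    (fun h => hg' ((mono_unitsSMul w).1 h)) (α := α) (c₀ := (w α : F)⁻¹)
    (inv_ne_zero (w α).ne_zero) fun i => ?_
  rw [Basis.unitsSMul_apply, Units.smul_def, map_smul (act g), smul_smul,
    inv_mul_cancel₀ (w α).ne_zero, one_smul, Basis.coord_apply, Basis.repr_unitsSMul,
    ← Basis.coord_apply]
  by_cases h : b.coord i (act g (b α)) = 0
  · left; rw [h, smul_zero]
  · right; simp only [w, dif_neg h, Units.smul_def, smul_eq_mul]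
    simpa using inv_mul_cancel₀ h

/-- The stabiliser of a decomposition is maximal in the special linear group. -/
theorem isMaximalIn_decomp_SL [Fintype F] {t m : ℕ} {D : Fin t → Submodule F (ι → F)}
    (hD : IsMDecomposition m D)
    (hex : m = 1 ∧ 6 ≤ t ∧ 5 ≤ Fintype.card F ∨ 3 ≤ m ∨ m = 2 ∧ 3 ≤ t ∧ 3 ≤ Fintype.card F ∨
      m = 2 ∧ 4 ≤ Fintype.card F) :
    IsMaximalIn (specialLinear ι F) (decompositionStabilizer D ⊓ specialLinear ι F) := by
  obtain ⟨P⟩ := nonempty_proj hD.indep hD.iSup_eq_top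
  have : Nontrivial (Fin t) := Fin.nontrivial_iff_two_le.2 hD.two_le
  refine isMaximalIn_of inf_le_right (fun H => ?_) fun K h1 _ ⟨g, hg, hg'⟩ => ?_
  · obtain ⟨g, hg, hg'⟩ := P.exists_SL_not_perm hD.finrank_eq hD.pos
    exact hg' (mem_decomp_iff.1 (H hg).1)
  have hK : ∀ g ∈ specialLinear ι F, Perm D (act g) → g ∈ K := fun g h2 h3 =>
    h1 ⟨mem_decomp_iff.2 h3, h2⟩
  have hg'' : ¬ Perm D (act g) := fun h => hg' ⟨mem_decomp_iff.2 h, by tauto⟩
  rcases hex with ⟨rfl, h6, h5⟩ | hex
  · choose v hv hv0 using Proj.exists_ne hD.finrank_eq hD.pos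
    have hs : ∀ i, D i = F ∙ v i := fun i => (Submodule.eq_of_le_of_finrank_eq
      ((Submodule.span_singleton_le_iff_mem _ _).2 (hv i))
      (by rw [finrank_span_singleton (hv0 i), hD.finrank_eq])).symm
    let b : Basis (Fin t) F (ι → F) := Basis.mk (hD.indep.linearIndependent D hv hv0) (by
      rw [← hD.iSup_eq_top]
      exact iSup_le fun i => (hs i).le.trans (Submodule.span_mono (by simp)))
    have hb : ∀ i, b i = v i := fun i => Basis.mk_apply _ _ i
    have key : ∀ g : GL ι F, Mono b g ↔ Perm D (act g) := fun g => by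
      refine ⟨fun h => P.perm_of hD.finrank_eq hD.pos fun i => ?_, fun h i => ?_⟩
      · obtain ⟨j, c, e⟩ := h i
        refine ⟨j, fun u hu => ?_⟩
        obtain ⟨a, rfl⟩ := Submodule.mem_span_singleton.1 (hs i ▸ hu)
        rw [map_smul, ← hb, e, hb]
        exact (D j).smul_mem _ ((D j).smul_mem _ (hv j))
      · obtain ⟨j, hj⟩ := h.exists_mem i
        obtain ⟨c, e⟩ := Submodule.mem_span_singleton.1 (hs j ▸ hj _ (hv i))
        exact ⟨j, c, by rw [hb, hb, e]⟩
    exact SL_le_of_mono (b := b) (by simpa using h6) h5 (fun g h2 h3 => hK g h2 ((key g).1 h3)) hg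
      fun h => hg'' ((key g).1 h)
  refine P.SL_le hD.finrank_eq (by omega) hK ?_ hg hg''
  rcases hex with h | ⟨-, h3, h4⟩ | ⟨-, h4⟩
  · exact Or.inl h
  · obtain ⟨a, ha⟩ := exists_notMem_list [(0 : F), 1] (by simp; omega)
    simp only [List.mem_cons, List.not_mem_nil, or_false, not_or] at ha
    exact Or.inr (Or.inl ⟨⟨a, ha⟩, by simpa using h3⟩)
  · obtain ⟨a, ha⟩ := exists_notMem_list [(0 : F), 1, -1] (by simp; omega)
    simp only [List.mem_cons, List.not_mem_nil, or_false, not_or] at ha
    exact Or.inr (Or.inr ⟨a, ha.1, fun h => (mul_self_eq_one_iff.1 h).elim ha.2.1 ha.2.2⟩)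

end CL.Dec
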