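/-
The stabiliser of an orthogonal decomposition is maximal in the symplectic group.
-/
import Cfsg.Agent.CLAS.Dec
import Cfsg.Agent.CLAS.SpAlt

set_option autoImplicit false

namespace CL.Dec

open Module Cfsg Cfsg.Geo CL.Witt CL.Witt.Form CL.Tv CL.Root

variable {F : Type*} [Field F] {V : Type*} [AddCommGroup V] [Module F V] {I : Type*} [Fintype I]
  {D : I → Submodule F V}

theorem Proj.B_p {T : FormType F} {f : Form T V} (P : Proj D)
    (ho : ∀ i j, i ≠ j → ∀ u ∈ D i, ∀ v ∈ D j, f.B u v = 0) {i : I} {u : V} (hu : u ∈ D i) (x : V) :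
    f.B u (P.p i x) = f.B u x := by
  conv_rhs => rw [← P.sum x, map_sum]
  rw [Finset.sum_eq_single i (fun j _ hj => ho i j hj.symm u hu _ (P.mem j x)) (by simp)]

theorem Proj.exists_B_ne {T : FormType F} {f : Form T V} (P : Proj D) (hf : f.Nondeg)
    (ho : ∀ i j, i ≠ j → ∀ u ∈ D i, ∀ v ∈ D j, f.B u v = 0) {i : I} {u : V} (hu : u ∈ D i)
    (hu0 : u ≠ 0) : ∃ y ∈ D i, f.B u y ≠ 0 := by
  by_contra! H
  exact hu0 (hf u fun y => by rw [← P.B_p ho hu, H _ (P.mem i y)])

theorem Proj.sp_O_le [FiniteDimensional F V] {f : Form (FormType.alt F) V} (P : Proj D)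
    (hf : f.Nondeg) {m : ℕ} (hm : ∀ i, finrank F (D i) = m) (h0 : 0 < m)
    (ho : ∀ i j, i ≠ j → ∀ u ∈ D i, ∀ v ∈ D j, f.B u v = 0)
    (hex : (∃ a : F, a ≠ 0 ∧ a + 1 ≠ 0) ∨ 3 ≤ m) {K : Subgroup (V ≃ₗ[F] V)}
    (hK : ∀ g ∈ f.O, Perm D g → g ∈ K) (hKO : K ≤ f.O) {g : V ≃ₗ[F] V} (hg : g ∈ K)
    (hg' : ¬ Perm D g) : f.O ≤ K := by
  classical
  let Q : V → Prop := fun v => ∀ c, f.tv v c ∈ K
  have Q0 : ∀ i, ∀ v ∈ D i, Q v := fun i v hv c =>
    hK _ (f.tv_mem_O v c) (P.perm_of_le hm h0 fun j x hx => by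
      rw [tv_apply]
      by_cases hij : i = j
      · exact (D j).add_mem hx ((D j).smul_mem _ (hij ▸ hv))
      · simpa [ho i j hij v hv x hx] using hx)
  have Qc : ∀ k ∈ K, ∀ v, Q v → Q (k v) := fun k hk v hv c => by
    rw [← tv_conj (hKO hk)]
    exact K.mul_mem (K.mul_mem hk (hv c)) (K.inv_mem hk)
  have Qa : ∀ u v, Q u → Q v → f.B u v ≠ 0 → Q (u + v) := fun u v hu hv h => by
    have := Qc _ (hu (f.B u v)⁻¹) v hv
    rwa [tv_apply, inv_mul_cancel₀ h, one_smul, add_comm] at this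
  have Qr : ∀ x, Q x → ∀ i, P.p i x ≠ 0 → ∀ y ∈ D i, y ≠ 0 → Q (x - P.p i x + y) := by
    intro x hx i hi y hy hy0
    obtain ⟨k, hk, e⟩ := exists_tv_prod_apply_eq (f := f) (U := D i)
      (M := K ⊓ f.fix (LinearMap.ker (P.p i)))
      (fun x hx hx0 => by
        obtain ⟨y, hy, h⟩ := P.exists_B_ne hf ho hx hx0
        exact ⟨y, hy, fun h' => h (f.B_eq_zero_symm h')⟩)
      (fun v hv c => ⟨Q0 i v hv c, f.tv_mem_O v c, fun w hw => f.tv_apply_of_B_eq_zero c (by
        rw [← P.B_p ho hv, LinearMap.mem_ker.1 hw, map_zero])⟩) (P.mem i x) hy hi hy0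
    have := Qc k hk.1 x hx
    rwa [← sub_add_cancel x (P.p i x), map_add, e, hk.2.2 _ (by simp [P.p_p])] at this
  let R : I → I → Prop := fun i j => ∀ u ∈ D i, ∀ w ∈ D j, Q (u + w)
  have Rs : ∀ i j, R i j → R j i := fun i j h u hu w hw => add_comm w u ▸ h w hw u hu
  have Rw : ∀ i j k, i ≠ j → k ≠ j → R i j → R k j := by
    intro i j k hij hkj h u hu w hw
    by_cases hik : i = k
    · exact h u (hik ▸ hu) w hw
    have hn : ∀ i, (f.restrict (D i)).Nondeg := fun i x hx => by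
      by_contra h0
      obtain ⟨y, hy, h⟩ := P.exists_B_ne hf ho x.2 (by simpa using h0)
      exact h (hx ⟨y, hy⟩)
    obtain ⟨φ, hφ⟩ := (hn i).exists_isIsom_alt (hn k) (by rw [hm, hm])
    obtain ⟨s, -, hs, s1, s2, s3⟩ := P.exists_swap hm h0 hik φ
    have hsB : ∀ l, ∀ x ∈ D l, ∀ y ∈ D l, f.B (s x) (s y) = f.B x y := fun l x hx y hy => by
      by_cases h1 : l = i
      · subst h1
        rw [s1 ⟨x, hx⟩, s1 ⟨y, hy⟩]; exact hφ.B_eq _ _
      by_cases h2 : l = k
      · subst h2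
        rw [s2 ⟨x, hx⟩, s2 ⟨y, hy⟩, f.B_neg_left, f.B_neg_right, neg_neg]
        exact hφ.symm.B_eq _ _
      · rw [s3 l h1 h2 x hx, s3 l h1 h2 y hy]
    have hsO : s ∈ f.O := (alt_isIsom_iff f f s).2 fun x y => by
      obtain ⟨σ, hσ⟩ := hs
      refine P.map_eq_of_sum (A := (f.B (s x)) ∘ₗ s.toLinearMap) (fun l y hy => ?_) y
      change f.B (s x) (s y) = _
      have e : P.p (σ l) (s x) = s (P.p l x) := P.map_eq_of_sum (A := P.p (σ l) ∘ₗ s.toLinearMap)
        (B := s.toLinearMap ∘ₗ P.p l) (fun l' z hz => by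
          have : s z ∈ D (σ l') := hσ l' ▸ ⟨z, hz, rfl⟩
          by_cases h : l = l'
          · subst h; simp [P.of_mem hz, P.of_mem this]
          · simp [P.of_ne h hz, P.of_ne (σ.injective.ne h) this]) x
      rw [f.alt_symm, ← P.B_p ho (hσ l ▸ ⟨y, hy, rfl⟩ : s y ∈ D (σ l)), e,
        hsB l y hy _ (P.mem l x), P.B_p ho hy, ← f.alt_symm]
    have := Qc s (hK s hsO hs) _ (h _ (φ.symm ⟨u, hu⟩).2 w hw)
    rwa [map_add, s1, φ.apply_symm_apply, s3 j hij.symm hkj.symm w hw] at this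
  have R0 : ∃ i j, i ≠ j ∧ R i j := by
    obtain ⟨l, v, hv, i, j, hij, hi, hj⟩ := P.exists_not_mem hm h0 hg'
    have hx := Qc g hg v (Q0 l v hv)
    set x := g v
    have hx' : Q (-x) := fun c => by
      rw [← neg_one_smul F x, tv_smul]; exact hx _
    obtain ⟨y, hy, hyB⟩ := P.exists_B_ne hf ho (P.mem i x) hi
    obtain ⟨z, hz, hz0, hz1, hzB⟩ : ∃ z ∈ D j, z ≠ 0 ∧ P.p j x + z ≠ 0 ∧ f.B (P.p j x) z = 0 := by
      rcases hex with ⟨a, ha, ha'⟩ | h3
      · refine ⟨a • P.p j x, (D j).smul_mem _ (P.mem j x), smul_ne_zero ha hj, ?_,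
          by simp [f.alt_B_self]⟩
        rw [show P.p j x + a • P.p j x = (a + 1) • P.p j x by module]
        exact smul_ne_zero ha' hj
      · have h1 := hf.finrank_add_finrank_perp (F ∙ P.p j x)
        have h2 := Submodule.finrank_sup_add_finrank_inf_eq (D j) (f.perp (F ∙ P.p j x))
        have h3 := Submodule.finrank_le (D j ⊔ f.perp (F ∙ P.p j x))
        rw [finrank_span_singleton hj] at h1
        obtain ⟨z, hz, hz'⟩ : ∃ z ∈ D j ⊓ f.perp (F ∙ P.p j x), z ∉ F ∙ P.p j x := by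
          by_contra! H
          have := Submodule.finrank_mono (show _ ≤ F ∙ P.p j x from H)
          rw [finrank_span_singleton hj] at this
          rw [hm] at h2
          omega
        refine ⟨z, hz.1, fun e => hz' (e ▸ Submodule.zero_mem _), fun e => hz' ?_,
          f.mem_perp_span_singleton.1 hz.2⟩
        rw [eq_neg_of_add_eq_zero_right e]
        exact Submodule.neg_mem _ (Submodule.mem_span_singleton_self _)
    have hy0 : y ≠ 0 := by rintro rfl; simp at hyB
    have h1 := Qr _ hx' i (by simpa using hi) y hy hy0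
    have h2 := Qr _ h1 j (by simpa [P.p_p_ne hij.symm, P.of_ne hij.symm hy] using hj) z hz hz0
    simp only [map_add, map_sub, map_neg, P.p_p_ne hij.symm, P.of_ne hij.symm hy] at h2
    have h3 := Qa _ _ h2 hx (by
      have e1 := P.B_p ho (P.mem i x) x
      have e2 := P.B_p ho (P.mem j x) x
      have e3 := P.B_p ho hy x
      have e4 := P.B_p ho hz x
      rw [f.alt_B_self] at e1 e2
      rw [f.alt_symm, hzB] at e4
      simp only [B_add_left, B_sub_left, B_neg_left, B_zero_left, f.alt_B_self, ← e1, ← e2, ← e3,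
        ← e4]
      simpa using fun h => hyB (f.B_eq_zero_symm h))
    have e : -x - -P.p i x + y - (-P.p j x - -0 + 0) + z + x = (P.p i x + y) + (P.p j x + z) := by
      abel
    rw [e] at h3
    have hy1 : P.p i x + y ≠ 0 := fun e => hyB (by
      rw [eq_neg_of_add_eq_zero_right e, f.B_neg_right, f.alt_B_self, neg_zero])
    have m1 := (D i).add_mem (P.mem i x) hy
    have m2 := (D j).add_mem (P.mem j x) hz
    refine ⟨i, j, hij, fun u hu w hw => ?_⟩
    by_cases hu0 : u = 0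
    · rw [hu0, zero_add]; exact Q0 j w hw
    by_cases hw0 : w = 0
    · rw [hw0, add_zero]; exact Q0 i u hu
    have h4 := Qr _ h3 i (by rwa [map_add, P.of_mem m1, P.of_ne hij m2, add_zero]) u hu hu0
    rw [map_add, P.of_mem m1, P.of_ne hij m2, add_zero, add_sub_cancel_left] at h4
    have h5 := Qr _ h4 j (by rwa [map_add, P.of_mem m2, P.of_ne hij.symm hu, add_zero]) w hw hw0
    rwa [map_add, P.of_mem m2, P.of_ne hij.symm hu, add_zero, add_sub_cancel_left] at h5
  have R1 : ∀ k l, k ≠ l → R k l := by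
    obtain ⟨i, j, hij, h⟩ := R0
    intro k l hkl
    by_cases hk : k = j
    · exact Rs _ _ (Rw i k l (hk ▸ hij) hkl.symm (hk ▸ h))
    · exact Rs _ _ (Rw j k l (Ne.symm hk) hkl.symm (Rs _ _ (Rw i j k hij hk h)))
  have key : ∀ s : Finset I, ∀ v, (∀ j ∉ s, P.p j v = 0) → Q v := by
    intro s
    induction s using Finset.induction_on with
    | empty =>
      intro v hv
      rw [P.ext (v := v) (w := 0) fun i => by simpa using hv i (by simp)]
      intro c; rw [tv_zero_left]; exact K.one_mem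
    | insert a s ha ih =>
      intro v hv
      have h1 : ∀ j ∉ s, P.p j (v - P.p a v) = 0 := fun j hj => by
        by_cases h : j = a
        · simp [h, P.p_p]
        · simp [P.p_p_ne h, hv j (by simp [h, hj])]
      by_cases h2 : v - P.p a v = 0
      · exact Q0 a v (sub_eq_zero.1 h2 ▸ P.mem a v)
      obtain ⟨i, hi⟩ := P.exists_p_ne h2
      have his : i ∈ s := by by_contra h; exact hi (h1 i h)
      have hia : i ≠ a := by rintro rfl; exact ha his
      obtain ⟨w, hw, hwB⟩ := P.exists_B_ne hf ho (P.mem i _) hi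
      have h3 : ∀ j ∉ s, P.p j (v - P.p a v - w) = 0 := fun j hj => by
        rw [map_sub, h1 j hj, P.of_ne (by rintro rfl; exact hj his) hw, sub_zero]
      have := Qa _ _ (R1 i a hia w hw _ (P.mem a v)) (ih _ h3) (by
        rw [f.B_add_left, ← P.B_p ho (P.mem a v), h3 a ha, map_zero, add_zero, f.B_sub_right,
          f.alt_B_self, sub_zero, ← P.B_p ho hw]
        exact fun h => hwB (f.B_eq_zero_symm h))
      convert this using 1
      abel
  exact hf.O_le_of_tv fun v => key Finset.univ v (by simp)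

theorem Proj.not_O_le [FiniteDimensional F V] {f : Form (FormType.alt F) V} (P : Proj D)
    (hf : f.Nondeg) {m : ℕ} (hm : ∀ i, finrank F (D i) = m) (h0 : 0 < m) [Nontrivial I] :
    ∃ g ∈ f.O, ¬ Perm D g := by
  obtain ⟨i, j, hij⟩ := exists_pair_ne I
  obtain ⟨u, hu, hu0⟩ := Proj.exists_ne hm h0 i
  obtain ⟨w, hw, hw0⟩ := Proj.exists_ne hm h0 j
  have h1 : P.p i (u + w) = u := by rw [map_add, P.of_mem hu, P.of_ne hij hw, add_zero]
  have h2 : P.p j (u + w) = w := by rw [map_add, P.of_mem hw, P.of_ne hij.symm hu, zero_add]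
  obtain ⟨g, hg, e⟩ := hf.witt_vector hu0 (y := u + w) (fun h => hu0 (by rw [← h1, h, map_zero]))
    (by rw [f.alt_q, f.alt_q])
  refine ⟨g, hg, fun h => ?_⟩
  obtain ⟨k, hk⟩ := h.exists_mem i
  have := hk u hu
  rw [e] at this
  by_cases hik : i = k
  · exact hw0 (by rw [← h2, P.of_ne (hik ▸ hij.symm) this])
  · exact hu0 (by rw [← h1, P.of_ne hik this])

/-- The stabiliser of an orthogonal decomposition is maximal in the symplectic group. -/
theorem isMaximalIn_decomp_sp {F : Type*} [Field F] [Fintype F] {m t k : ℕ}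
    {D : Fin t → Submodule F (Fin m ⊕ Fin m → F)}
    (hD : IsNondegenerateMDecomposition (sympForm m F) k D)
    (hex : ¬ (k = 2 ∧ Fintype.card F = 2)) :
    IsMaximalIn (spGL m F) (decompositionStabilizer D ⊓ spGL m F) := by
  obtain ⟨P⟩ := nonempty_proj hD.decomp.indep hD.decomp.iSup_eq_top
  have hf := CL.Sp.spForm_nondeg m F
  have : Nontrivial (Fin t) := Fin.nontrivial_iff_two_le.2 hD.decomp.two_le
  have ho : ∀ i j, i ≠ j → ∀ u ∈ D i, ∀ v ∈ D j, (CL.Sp.spForm m F).B u v = 0 :=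
    fun i j hij u hu v hv => by rw [CL.Sp.spForm_B]; exact hD.orthogonal i j hij u hu v hv
  refine isMaximalIn_of_act mem_spGL_iff_O act_mem_toE (fun H => ?_) fun K h1 h2 ⟨g, hg, hg'⟩ =>
    P.sp_O_le hf hD.decomp.finrank_eq hD.decomp.pos ho ?_
      (fun e he he' => h1 ⟨mem_toE_decomp.2 he', he⟩) h2 hg (fun h => hg' (mem_toE_decomp.2 h))
  · obtain ⟨g, hg, hg'⟩ := P.not_O_le hf hD.decomp.finrank_eq hD.decomp.pos
    exact hg' (mem_toE_decomp.1 (H hg))
  · by_cases hq : Fintype.card F = 2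
    · right
      obtain ⟨i⟩ : Nonempty (Fin t) := inferInstance
      have hn : ((CL.Sp.spForm m F).restrict (D i)).Nondeg := fun x hx => by
        by_contra h0
        obtain ⟨y, hy, h⟩ := P.exists_B_ne hf ho x.2 (by simpa using h0)
        exact h (hx ⟨y, hy⟩)
      obtain ⟨l, hl⟩ := hn.even_finrank_alt
      have := hD.decomp.pos
      rw [hD.decomp.finrank_eq] at hl
      have : k ≠ 2 := fun h => hex ⟨h, hq⟩
      omega
    · left
      have : 2 ≤ Fintype.card F := Fintype.one_lt_card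
      classical
      obtain ⟨a, -, ha⟩ := Finset.exists_mem_notMem_of_card_lt_card (s := {0, -1})
        (t := (Finset.univ : Finset F)) (by
          have := Finset.card_le_two (a := (0 : F)) (b := -1)
          rw [Finset.card_univ]; omega)
      simp only [Finset.mem_insert, Finset.mem_singleton, not_or] at ha
      exact ⟨a, ha.1, fun h => ha.2 (eq_neg_of_add_eq_zero_left h)⟩

end CL.Dec
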