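/-
Two opposite "root elements" `y = 1 + N_y`, `e = 1 + N_e` with `N_y N_e = λ` on the image of `N_y`:
consequences of Dickson's lemma (odd characteristic) and of the dihedral dichotomy
(characteristic two).
-/
import Mathlib
import Cfsg.Agent.INV.InvCalc

set_option autoImplicit false

namespace CL.Root

open Matrix

/-- The consequence of Dickson's lemma that is used for subfield subgroups. -/
def DicksonProp (F : Type*) [Field F] : Prop :=
  ∀ lam : F, lam ≠ 0 → lam ^ 2 ≠ -1 → ∀ S : Subgroup (SpecialLinearGroup (Fin 2) F),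
    (∀ g : SpecialLinearGroup (Fin 2) F, (g : Matrix (Fin 2) (Fin 2) F) = !![1, 0; 1, 1] → g ∈ S) →
    (∀ g : SpecialLinearGroup (Fin 2) F, (g : Matrix (Fin 2) (Fin 2) F) = !![1, lam; 0, 1] → g ∈ S) →
    ∀ g : SpecialLinearGroup (Fin 2) F, (g : Matrix (Fin 2) (Fin 2) F) = !![1, 0; lam, 1] → g ∈ S

variable {F V : Type*} [Field F] [AddCommGroup V] [Module F V]

/-- `y` and `e` are opposite quadratic elements with parameter `lam`. -/
structure OppPair (y e : V ≃ₗ[F] V) (X J : Submodule F V) (lam : F) : Prop where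
  yX : ∀ s, y s - s ∈ X
  yfix : ∀ ξ ∈ X, y ξ = ξ
  eJ : ∀ s, e s - s ∈ J
  efix : ∀ ω ∈ J, e ω = ω
  par : ∀ ξ ∈ X, y (e ξ - ξ) = (e ξ - ξ) + lam • ξ

theorem OppPair.exists_param (hD : DicksonProp F) {y e : V ≃ₗ[F] V} {X J : Submodule F V} {lam : F}
    (h : OppPair y e X J lam) (h' : ∀ ω ∈ J, e (y ω - ω) = (y ω - ω) + lam • ω)
    (h0 : lam ≠ 0) (h1 : lam ^ 2 ≠ -1) {K : Subgroup (V ≃ₗ[F] V)} (hy : y ∈ K) (he : e ∈ K) :
    ∃ k ∈ K, ∀ v, k v = v + lam • (e v - v) := by
  let S : Subgroup (SpecialLinearGroup (Fin 2) F) :=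
    { carrier := {m | ∃ k ∈ K, (∀ ξ ∈ X, k ξ = m 0 0 • ξ + m 1 0 • (e ξ - ξ) ∧
        k (e ξ - ξ) = m 0 1 • ξ + m 1 1 • (e ξ - ξ)) ∧ ∀ v, y v = v → e v = v → k v = v}
      mul_mem' := by
        rintro m m' ⟨k, hk, h1, h2⟩ ⟨k', hk', h1', h2'⟩
        refine ⟨k * k', K.mul_mem hk hk', fun ξ hξ => ?_, fun v hv hv' => ?_⟩
        · have hm : ∀ i j, (m * m') i j = m i 0 * m' 0 j + m i 1 * m' 1 j := fun i j => by
            change (m.1 * m'.1) i j = _
            rw [Matrix.mul_apply, Fin.sum_univ_two]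
          simp only [LinearEquiv.mul_apply, (h1' ξ hξ).1, (h1' ξ hξ).2, map_add, map_smul,
            (h1 ξ hξ).1, (h1 ξ hξ).2, hm]
          constructor <;> module
        · rw [LinearEquiv.mul_apply, h2' v hv hv', h2 v hv hv']
      one_mem' := ⟨1, K.one_mem, fun ξ _ => by simp, fun _ _ _ => rfl⟩
      inv_mem' := by
        rintro m ⟨k, hk, h1, h2⟩
        have hdet : m 0 0 * m 1 1 - m 0 1 * m 1 0 = 1 := by
          rw [← Matrix.det_fin_two]; exact m.2
        refine ⟨k⁻¹, K.inv_mem hk, fun ξ hξ => ?_, fun v hv hv' => k.injective ?_⟩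
        · have hm : ∀ i j, m⁻¹ i j = !![m 1 1, -m 0 1; -m 1 0, m 0 0] i j := fun i j => by
            change (adjugate m.1) i j = _
            rw [Matrix.adjugate_fin_two]
          simp only [hm, of_apply, cons_val', cons_val_zero, cons_val_one, cons_val_fin_one]
          constructor
          · apply k.injective
            rw [← LinearEquiv.mul_apply, mul_inv_cancel, map_add, map_smul, map_smul,
              (h1 ξ hξ).2, (h1 ξ hξ).1]
            change ξ = _
            linear_combination (norm := module) (-hdet) • ξ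
          · apply k.injective
            rw [← LinearEquiv.mul_apply, mul_inv_cancel, map_add, map_smul, map_smul,
              (h1 ξ hξ).2, (h1 ξ hξ).1]
            change e ξ - ξ = _
            linear_combination (norm := module) (-hdet) • (e ξ - ξ)
        · rw [← LinearEquiv.mul_apply, mul_inv_cancel, h2 v hv hv']; rfl }
  obtain ⟨k, hk, k1, k2⟩ := hD lam h0 h1 S
    (fun g hg => ⟨e, he, fun ξ hξ => by simp [hg, h.efix _ (h.eJ ξ)], fun _ _ hv => hv⟩)
    (fun g hg => ⟨y, hy, fun ξ hξ => by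
      simp [hg, h.yfix ξ hξ, h.par ξ hξ, -map_sub, add_comm], fun _ hv _ => hv⟩)
    ⟨!![1, 0; lam, 1], by simp [Matrix.det_fin_two]⟩ rfl
  simp only [of_apply, cons_val', cons_val_zero, cons_val_one, cons_val_fin_one, one_smul,
    zero_smul, zero_add] at k1
  have k3 : ∀ v, e v = v → k v = v := by
    intro v hv
    have hξ : lam⁻¹ • (y v - v) ∈ X := X.smul_mem _ (h.yX v)
    set ξ := lam⁻¹ • (y v - v) with hξd
    have e1 : lam • ξ = y v - v := by rw [hξd, smul_smul, mul_inv_cancel₀ h0, one_smul]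
    have := k2 (v - (e ξ - ξ)) (by rw [map_sub, h.par ξ hξ, e1]; abel)
      (by rw [map_sub, hv, h.efix _ (h.eJ ξ)])
    rwa [map_sub, (k1 ξ hξ).2, sub_left_inj] at this
  refine ⟨k, hk, fun v => ?_⟩
  have hξ : lam⁻¹ • (y (e v - v) - (e v - v)) ∈ X := X.smul_mem _ (h.yX _)
  set ξ := lam⁻¹ • (y (e v - v) - (e v - v)) with hξd
  have e1 : e ξ - ξ = e v - v := by
    rw [hξd, map_smul, h' _ (h.eJ v), ← smul_sub, add_sub_cancel_left, smul_smul,
      inv_mul_cancel₀ h0, one_smul]
  have := k3 (v - ξ) (by rw [map_sub]; linear_combination (norm := module) -e1)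
  rw [map_sub, (k1 ξ hξ).1, e1] at this
  linear_combination (norm := module) this

theorem OppPair.exists_central [Finite V] (h2 : (2 : F) = 0) {y e : V ≃ₗ[F] V}
    {X J : Submodule F V} {lam : F} (h : OppPair y e X J lam) (h0 : lam ≠ 0)
    (hc : ¬ IsConj y e) : ∃ m : ℕ, (y * e) ^ m ≠ 1 ∧ (y * e) ^ m * (y * e) ^ m = 1 ∧
      (∀ ξ ∈ X, ((y * e) ^ m) ξ = ξ) ∧ ∀ s, ((y * e) ^ m) s - s ∈ J := by
  have two : ∀ v : V, v + v = 0 := fun v => by rw [← two_smul F, h2, zero_smul]
  have sq : ∀ (g : V ≃ₗ[F] V), (∀ s, g (g s - s) = g s - s) → g * g = 1 := fun g hg => by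
    ext s
    have := hg s
    rw [map_sub] at this
    change g (g s) = s
    linear_combination (norm := module) this + two (g s) - two s
  have hy := sq y fun s => h.yfix _ (h.yX s)
  have he := sq e fun s => h.efix _ (h.eJ s)
  have : Finite (V ≃ₗ[F] V) := Finite.of_injective _ DFunLike.coe_injective
  obtain ⟨m, hm⟩ := CL.Inv.even_orderOf_of_not_isConj hy he hc
  have hm0 : m ≠ 0 := by
    rintro rfl
    exact (orderOf_pos (y * e)).ne' hm
  obtain ⟨hz, cy, ce⟩ := CL.Inv.central_involution_of_even hy he (hm.trans (two_mul m).symm) hm0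
  have hM : ∀ n : ℕ, ∃ a b c d : F, ∀ ξ ∈ X, ((y * e) ^ n) ξ = a • ξ + c • (e ξ - ξ) ∧
      ((y * e) ^ n) (e ξ - ξ) = b • ξ + d • (e ξ - ξ) := by
    intro n
    induction n with
    | zero => exact ⟨1, 0, 0, 1, fun ξ _ => by simp⟩
    | succ n ih =>
      obtain ⟨a, b, c, d, ih⟩ := ih
      refine ⟨a + b + lam * a, b + lam * a, c + d + lam * c, d + lam * c, fun ξ hξ => ?_⟩
      have e1 : (y * e) ξ = ξ + (e ξ - ξ) + lam • ξ := by
        rw [LinearEquiv.mul_apply, add_assoc, ← h.par ξ hξ, map_sub, h.yfix ξ hξ]; abel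
      have e2 : (y * e) (e ξ - ξ) = (e ξ - ξ) + lam • ξ := by
        rw [LinearEquiv.mul_apply, h.efix _ (h.eJ ξ), h.par ξ hξ]
      rw [pow_succ, LinearEquiv.mul_apply _ (y * e), LinearEquiv.mul_apply _ (y * e), e1, e2]
      simp only [map_add, map_smul, (ih ξ hξ).1, (ih ξ hξ).2]
      constructor <;> module
  have hW : ∀ (n : ℕ) s, ((y * e) ^ n) s - s ∈ X ⊔ J := by
    intro n
    induction n with
    | zero => simp
    | succ n ih =>
      intro s
      rw [pow_succ, LinearEquiv.mul_apply, LinearEquiv.mul_apply]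
      have := (X ⊔ J).add_mem (ih (y (e s))) ((X ⊔ J).add_mem (Submodule.mem_sup_left (h.yX (e s)))
        (Submodule.mem_sup_right (h.eJ s)))
      convert this using 1; abel
  set z := (y * e) ^ m with hzd
  have hzz := CL.Inv.mul_self_of_orderOf_two hz
  have cy' : ∀ s, y (z s) = z (y s) := fun s => by
    rw [← LinearEquiv.mul_apply, cy.eq, LinearEquiv.mul_apply]
  have ce' : ∀ s, e (z s) = z (e s) := fun s => by
    rw [← LinearEquiv.mul_apply, ce.eq, LinearEquiv.mul_apply]
  have hX : ∀ ξ ∈ X, z ξ = ξ := by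
    intro ξ hξ
    obtain ⟨a, b, c, d, hM⟩ := hM m
    rw [← hzd] at hM
    by_cases hξ0 : ξ = 0
    · rw [hξ0, map_zero]
    have e1 := cy' ξ
    rw [h.yfix ξ hξ, (hM ξ hξ).1, map_add, map_smul, map_smul, h.yfix ξ hξ, h.par ξ hξ] at e1
    have e2 : (c * lam) • ξ = 0 := by linear_combination (norm := module) e1
    have hc0 : c = 0 := by simpa [hξ0, h0] using e2
    have e3 : z ξ = a • ξ := by rw [(hM ξ hξ).1, hc0, zero_smul, add_zero]
    have e4 : z (z ξ) = ξ := by rw [← LinearEquiv.mul_apply, hzz]; rfl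
    rw [e3, map_smul, e3, smul_smul] at e4
    have e5 : ((a - 1) ^ 2) • ξ = 0 := by
      linear_combination (norm := module) e4 + ((1 - a) * h2) • ξ
    have : a = 1 := by simpa [hξ0, sub_eq_zero] using e5
    rw [e3, this, one_smul]
  refine ⟨m, CL.Inv.ne_one_of_orderOf_two hz, hzz, hX, fun s => ?_⟩
  obtain ⟨ξ, hξ, ω, hω, e1⟩ := Submodule.mem_sup.1 (hW m s)
  rw [← hzd] at e1 ⊢
  have e2 : e ξ - ξ = z (e s - s) - (e s - s) := by
    have := congrArg e e1
    rw [map_add, map_sub, h.efix ω hω, ce'] at this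
    rw [map_sub]
    linear_combination (norm := module) this - e1
  have e3 := h.par ξ hξ
  rw [e2, map_sub y, cy'] at e3
  have e4 := hX _ (h.yX (e s - s))
  rw [map_sub] at e4
  have e5 : lam • ξ = 0 := by linear_combination (norm := module) e4 - e3
  have : ξ = 0 := by simpa [h0] using e5
  rw [← e1, this, zero_add]; exact hω

end CL.Root
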