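/-
Dickson's lemma in the form used for subfield subgroups.
-/
import Cfsg.Agent.CLAS.TwoRoots
import Cfsg.Agent.S0801

set_option autoImplicit false

namespace CL.Root

open Matrix

theorem dicksonProp {F : Type*} [Field F] [Finite F] (h2 : (2 : F) ≠ 0) : DicksonProp F := by
  intro lam h0 h1 S hA hB g hg
  let L := Subfield.closure ({lam} : Set F)
  have : Fintype L := Fintype.ofFinite L
  let l : L := ⟨lam, Subfield.subset_closure rfl⟩
  have hgen : Subfield.closure ({l} : Set L) = ⊤ := by
    rw [eq_top_iff]
    rintro x -
    have h : (Subfield.closure ({l} : Set L)).map L.subtype = L := by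
      rw [RingHom.map_field_closure, Set.image_singleton]; rfl
    obtain ⟨y, hy, e⟩ : (x : F) ∈ (Subfield.closure ({l} : Set L)).map L.subtype := by
      rw [h]; exact x.2
    rwa [← Subtype.ext e]
  rcases Cfsg.Agent.S0801.result (F := L) (fun h => h2 (congrArg Subtype.val h)) l
    (fun h => h0 (congrArg Subtype.val h)) hgen with ⟨h, -⟩ | ⟨-, h, -⟩
  · have hle : ⊤ ≤ S.comap (SpecialLinearGroup.map (n := Fin 2) L.subtype) := by
      rw [← h, Subgroup.closure_le]
      rintro m (hm | hm)
      · refine hA _ ?_
        rw [SpecialLinearGroup.map_apply_coe, hm]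
        ext i j; fin_cases i <;> fin_cases j <;> simp
      · refine hB _ ?_
        rw [SpecialLinearGroup.map_apply_coe, hm]
        ext i j; fin_cases i <;> fin_cases j <;> simp [l]
    let m : SpecialLinearGroup (Fin 2) L := ⟨!![1, 0; l, 1], by simp [Matrix.det_fin_two]⟩
    have hm : (m : Matrix (Fin 2) (Fin 2) L) = !![1, 0; l, 1] := rfl
    have : SpecialLinearGroup.map (n := Fin 2) L.subtype m ∈ S := hle (Subgroup.mem_top m)
    convert this using 1
    apply Subtype.ext
    rw [SpecialLinearGroup.map_apply_coe, hg, hm]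
    ext i j; fin_cases i <;> fin_cases j <;> simp [l]
  · exact (h1 (congrArg Subtype.val h)).elim

end CL.Root
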