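/-
Invariant non-degenerate and totally singular subspaces of isometries of prime order.
-/
import Mathlib
import Cfsg.Agent.CLAS.Elus4
import Cfsg.Agent.KSG.OrthSS

set_option autoImplicit false

namespace CL.Elus

open Module Polynomial CL.GLn CL.SpU CL.Witt CL.Witt.Form CL.PrimeCl

variable {F : Type*} [Field F] {T : FormType F} {V : Type*} [AddCommGroup V] [Module F V]
  {V' : Type*} [AddCommGroup V'] [Module F V'] {V₁ : Type*} [AddCommGroup V₁] [Module F V₁]
  {V₂ : Type*} [AddCommGroup V₂] [Module F V₂]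

/-! ### Rigidity and models -/

/-- The negative of a form. -/
def negForm (f : Form T V) : Form T V where
  B := -f.B
  q := fun x => -f.q x
  symm x y := by simp [f.symm x y]
  q_add x y := by simp [f.q_add]; ring
  q_smul c x := by simp [f.q_smul]
  lift x := by
    obtain ⟨a, h1, h2⟩ := f.lift x
    exact ⟨-a, by simp [h1], by simp [h2]; ring⟩

theorem negForm_B (f : Form T V) (x y : V) : (negForm f).B x y = -f.B x y := rfl

theorem negForm_q (f : Form T V) (x : V) : (negForm f).q x = -f.q x := rfl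

theorem negForm_nondeg {f : Form T V} (hf : f.Nondeg) : (negForm f).Nondeg :=
  fun x hx => hf x fun y => neg_eq_zero.1 (hx y)

theorem isIsom_negForm {f : Form T V} {f' : Form T V'} {g : V → V'} (h : IsIsom f f' g) :
    IsIsom (negForm f) (negForm f') g :=
  ⟨fun x y => by rw [negForm_B, h.B_eq, negForm_B], fun x => by rw [negForm_q, h.q_eq, negForm_q]⟩

/-- Every isometry similar to `A` is conjugate to `A` by an isometry. -/
def Rigid (f : Form T V) (A : Module.End F V) : Prop :=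
  ∀ (f' : Form T (Fin (finrank F V) → F)) (A' : Module.End F (Fin (finrank F V) → F)),
    f'.Nondeg → IsIsom f' f' A' → Simil A A' → IsomConj f f' A A'

variable {f : Form T V} {A : Module.End F V}

theorem isomConj_conj (f : Form T V) (A : Module.End F V) (e : V ≃ₗ[F] V') :
    IsomConj f (f.comap (e.symm : V' →ₗ[F] V)) A (e.conj A) :=
  ⟨e, ⟨fun x y => by simp [comap_B], fun x => by simp [comap_q]⟩, fun v => by simp⟩

theorem IsomConj.isIsom {f' : Form T V'} {A' : Module.End F V'} (h : IsomConj f f' A A')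
    (hA : IsIsom f f A) : IsIsom f' f' A' := by
  obtain ⟨u, h1, h2⟩ := h
  refine ⟨fun x y => ?_, fun x => ?_⟩
  · obtain ⟨x, rfl⟩ := u.surjective x
    obtain ⟨y, rfl⟩ := u.surjective y
    rw [← h2, ← h2, h1.B_eq, h1.B_eq, hA.B_eq]
  · obtain ⟨x, rfl⟩ := u.surjective x
    rw [← h2, h1.q_eq, h1.q_eq, hA.q_eq]

theorem Rigid.isomConj [FiniteDimensional F V] (h : Rigid f A) {f' : Form T V'}
    {A' : Module.End F V'} (hf' : f'.Nondeg) (hA' : IsIsom f' f' A') (hs : Simil A A') :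
    IsomConj f f' A A' := by
  have := hs.finiteDimensional
  let e : V' ≃ₗ[F] (Fin (finrank F V) → F) := LinearEquiv.ofFinrankEq _ _ (by
    rw [Module.finrank_fin_fun, hs.finrank_eq])
  have h1 := isomConj_conj f' A' e
  exact (h _ _ (nondeg_comap_equiv hf' e.symm) (IsomConj.isIsom h1 hA')
    (hs.trans h1.simil)).trans h1.symm

section Rigid

variable [FiniteDimensional F V]

theorem rigid_of_isUnit [Finite F] (hf : f.Nondeg) (hA : IsIsom f f A)
    (hu : IsUnit (A ^ 2 - 1)) : Rigid f A :=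
  fun _ _ hf' hA' hs => isomConj_of_isUnit hf hf' hA hA' hs hu

theorem rigid_alt [Finite F] {f : Form (FormType.alt F) V} (hf : f.Nondeg) (hA : IsIsom f f A)
    (hs : A.IsSemisimple) : Rigid f A :=
  fun _ _ hf' hA' h => isomConj_alt hf hf' hA hA' h (ssAt_of_isSemisimple hs _)
    (ssAt_of_isSemisimple hs _)

omit [FiniteDimensional F V] in
theorem nd_range {f' : Form T V'} (hf' : f'.Nondeg) {g : V' →ₗ[F] V} (hg : IsIsom f' f g) :
    ND f (LinearMap.range g) := by
  rw [← Submodule.map_top]; exact (nd_top hf').map hg.B_eq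

theorem Rigid.split (h : Rigid f A) {A₁ : Module.End F V₁} {A₂ : Module.End F V₂}
    (h₁ : IsReal T A₁) (h₂ : IsReal T A₂) (hs : Simil (V := V₁ × V₂) (A₁.prodMap A₂) A) :
    ∃ W, ND f W ∧ ∃ (hW : Inv A W) (hW' : Inv A (f.perp W)),
      Simil A₁ (A.restrict hW) ∧ Simil A₂ (A.restrict hW') := by
  obtain ⟨f₁, hf₁, hA₁⟩ := h₁
  obtain ⟨f₂, hf₂, hA₂⟩ := h₂
  have hf' := prodForm_nondeg hf₁ hf₂
  obtain ⟨e, he, he'⟩ := (h.isomConj hf' (isIsom_prodMap hA₁ hA₂) hs.symm).symm
  obtain ⟨hU, h1⟩ := simil_restrict_range (A := A) (B := A₁)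
    ((e : V₁ × V₂ →ₗ[F] V) ∘ₗ LinearMap.inl F V₁ V₂)
    (e.injective.comp LinearMap.inl_injective) (fun v => by simp [← he'])
  obtain ⟨hW, h2⟩ := simil_restrict_range (A := A) (B := A₂)
    ((e : V₁ × V₂ →ₗ[F] V) ∘ₗ LinearMap.inr F V₁ V₂)
    (e.injective.comp LinearMap.inr_injective) (fun v => by simp [← he'])
  have h3 : f.perp (LinearMap.range ((e : V₁ × V₂ →ₗ[F] V) ∘ₗ LinearMap.inl F V₁ V₂)) =
      LinearMap.range ((e : V₁ × V₂ →ₗ[F] V) ∘ₗ LinearMap.inr F V₁ V₂) := by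
    ext x
    obtain ⟨⟨x, y⟩, rfl⟩ := e.surjective x
    rw [mem_perp]
    constructor
    · intro h4
      obtain rfl : x = 0 := hf₁.right x fun w => by
        simpa [he.B_eq, prodForm_B] using h4 _ ⟨w, rfl⟩
      exact ⟨y, rfl⟩
    · rintro ⟨z, hz⟩ _ ⟨w, rfl⟩
      rw [← hz]
      simp [he.B_eq, prodForm_B]
  refine ⟨_, nd_range hf₁ ⟨fun x y => ?_, fun x => ?_⟩, hU, ?_⟩
  · simp [he.B_eq, prodForm_B]
  · simp [he.q_eq, prodForm_q, q_zero]
  · rw [h3]; exact ⟨hW, h1, h2⟩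

theorem Rigid.diag (h : Rigid f A) {A₁ : Module.End F V₁} {A₂ : Module.End F V₂}
    (h₁ : IsReal T A₁) (h₂ : IsReal T A₂)
    (hs : Simil (V := (V₁ × V₁) × V₂) ((A₁.prodMap A₁).prodMap A₂) A) :
    ∃ U, f.TotSing U ∧ ∃ hU : Inv A U, Simil A₁ (A.restrict hU) := by
  obtain ⟨f₁, hf₁, hA₁⟩ := h₁
  obtain ⟨f₂, hf₂, hA₂⟩ := h₂
  have hf' := prodForm_nondeg (prodForm_nondeg hf₁ (negForm_nondeg hf₁)) hf₂
  obtain ⟨e, he, he'⟩ := (h.isomConj hf' (isIsom_prodMap
    (isIsom_prodMap hA₁ (isIsom_negForm hA₁)) hA₂) hs.symm).symm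
  obtain ⟨hU, h1⟩ := simil_restrict_range (A := A) (B := A₁)
    ((e : (V₁ × V₁) × V₂ →ₗ[F] V) ∘ₗ LinearMap.inl F _ V₂ ∘ₗ LinearMap.id.prod LinearMap.id)
    (e.injective.comp (LinearMap.inl_injective.comp fun _ _ h => congrArg Prod.fst h))
    (fun v => by simp [← he'])
  refine ⟨_, ⟨?_, ?_⟩, hU, h1⟩
  · rintro _ ⟨x, rfl⟩
    simp [he.q_eq, prodForm_q, q_zero, negForm_q]
  · rintro _ ⟨x, rfl⟩ _ ⟨y, rfl⟩
    simp [he.B_eq, prodForm_B, negForm_B]

end Rigid

/-! ### Totally singular subspaces -/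

theorem _root_.CL.Witt.Form.TotSing.sup_of_le_perp {U W : Submodule F V} (h : f.TotSing U)
    (h' : f.TotSing W) (ho : U ≤ f.perp W) : f.TotSing (U ⊔ W) := by
  have key : ∀ u ∈ U, ∀ w ∈ W, f.B u w = 0 := fun u hu w hw => (mem_perp' f).1 (ho hu) w hw
  refine ⟨fun x hx => ?_, fun x hx y hy => ?_⟩
  · obtain ⟨u, hu, w, hw, rfl⟩ := Submodule.mem_sup.1 hx
    rw [q_add_of_B_eq_zero f (key u hu w hw), h.1 u hu, h'.1 w hw, add_zero]
  · obtain ⟨u, hu, w, hw, rfl⟩ := Submodule.mem_sup.1 hx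
    obtain ⟨u', hu', w', hw', rfl⟩ := Submodule.mem_sup.1 hy
    simp [h.2 u hu u' hu', h'.2 w hw w' hw', key u hu w' hw', f.B_eq_zero_symm (key u' hu' w hw)]

theorem totSing_map_subtype {W : Submodule F V} {U : Submodule F W}
    (h : (f.restrict W).TotSing U) : f.TotSing (U.map W.subtype) :=
  TotSing.map (f := f.restrict W) ⟨fun _ _ => rfl, fun _ => rfl⟩ h

theorem totSing_comap_subtype {U : Submodule F V} (h : f.TotSing U) (W : Submodule F V) :
    (f.restrict W).TotSing (U.comap W.subtype) :=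
  ⟨fun w hw => h.1 _ hw, fun w hw w' hw' => h.2 _ hw _ hw'⟩

theorem nd_map_subtype {W : Submodule F V} {U : Submodule F W} (h : ND (f.restrict W) U) :
    ND f (U.map W.subtype) := h.map fun _ _ => rfl

theorem finrank_map_subtype [FiniteDimensional F V] {W : Submodule F V} (U : Submodule F W) :
    finrank F (U.map W.subtype) = finrank F U := Submodule.finrank_map_subtype_eq W U

theorem finrank_comap_subtype {W U : Submodule F V} :
    finrank F (U.comap W.subtype) = finrank F (U ⊓ W : Submodule F V) := by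
  rw [← (Submodule.comapSubtypeEquivOfLe (inf_le_right : U ⊓ W ≤ W)).finrank_eq,
    Submodule.comap_inf, Submodule.comap_subtype_self, inf_top_eq]

theorem ND.two_mul_finrank_le [FiniteDimensional F V] {W U : Submodule F V} (hW : ND f W)
    (hU : f.TotSing U) : 2 * finrank F (U ⊓ W : Submodule F V) ≤ finrank F W := by
  rw [← finrank_comap_subtype]
  exact (totSing_comap_subtype hU W).two_mul_finrank_le hW.nondeg

theorem q_eq_zero_of_B_eq_zero (hA : IsIsom f f A) (hB : ∀ x y, f.B x y = 0)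
    (hs : Function.Surjective (A - 1 : Module.End F V)) (x : V) : f.q x = 0 := by
  obtain ⟨y, rfl⟩ := hs x
  have h1 := f.q_add (A y - y) y
  rw [sub_add_cancel, hA.q_eq, hB, map_zero] at h1
  simpa using h1

/-! ### The fixed space and the moved space -/

section FixMov

variable [FiniteDimensional F V] (hf : f.Nondeg) (hA : IsIsom f f A)
include hf hA

theorem perp_ker_sub_one : f.perp (LinearMap.ker (A - 1)) = LinearMap.range (A - 1) := by
  simpa using perp_ker_sub_one_pow hf hA 1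

theorem perp_range_sub_one : f.perp (LinearMap.range (A - 1)) = LinearMap.ker (A - 1) := by
  simpa using perp_range_sub_one_pow hf hA 1

theorem nd_ker_sub_one (hs : A.IsSemisimple) : ND f (LinearMap.ker (A - 1)) := by
  rw [ND, perp_ker_sub_one hf hA]; exact (isCompl_ker_range hs).disjoint

theorem nd_range_sub_one (hs : A.IsSemisimple) : ND f (LinearMap.range (A - 1)) := by
  rw [ND, perp_range_sub_one hf hA]; exact (isCompl_ker_range hs).disjoint.symm

theorem le_perp_of_fix_mov {U W : Submodule F V} (hU : U ≤ LinearMap.ker (A - 1))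
    (hW : W ≤ LinearMap.range (A - 1)) : U ≤ f.perp W :=
  hU.trans (perp_range_sub_one hf hA ▸ perp_anti f hW)

theorem ND.inf_ker {W : Submodule F V} (hs : A.IsSemisimple) (h : ND f W) (hW : Inv A W) :
    ND f (W ⊓ LinearMap.ker (A - 1)) :=
  ND.of_sup (hW.eq_sup hs ▸ h) (le_perp_of_fix_mov hf hA inf_le_right inf_le_right)

theorem ND.inf_range {W : Submodule F V} (hs : A.IsSemisimple) (h : ND f W) (hW : Inv A W) :
    ND f (W ⊓ LinearMap.range (A - 1)) :=
  ND.of_sup (W := W ⊓ LinearMap.ker (A - 1)) (sup_comm (W ⊓ LinearMap.ker (A - 1)) _ ▸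
    hW.eq_sup hs ▸ h) ((le_perp_comm f).1 (le_perp_of_fix_mov hf hA inf_le_right inf_le_right))

end FixMov

/-! ### Constituents -/

section HasM

variable [Fintype F] [FiniteDimensional F V] {r : ℕ} [Fact r.Prime] (hr : (r : F) ≠ 0)
  {m m' : Multiset F[X]} {k k' : ℕ}
include hr

omit [Fintype F] in
theorem hasM_unique (h : HasM r A m k) (h' : HasM r A m' k') : m = m' ∧ k = k' :=
  ⟨(h.mult_eq hr).symm.trans (h'.mult_eq hr), (h.kd_eq hr).symm.trans (h'.kd_eq hr)⟩

omit [Fintype F] [FiniteDimensional F V] in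
theorem hasM_ss (h : HasM r A m k) : A.IsSemisimple := isSemisimple_of_pow_eq_one hr h.pow_eq_one

omit [Fintype F] in
theorem exists_hasM_restrict (h : A ^ r = 1) {W : Submodule F V} (hW : Inv A W) :
    ∃ m k, HasM r (A.restrict hW) m k := exists_hasM hr (restrict_pow_eq_one hW h)

omit [Fintype F] in
theorem hasM_le (h : HasM r A m k) {W : Submodule F V} (hW : Inv A W)
    (h' : HasM r (A.restrict hW) m' k') : m' ≤ m ∧ k' ≤ k := by
  obtain ⟨W', hW', hc⟩ := exists_inv_isCompl (hasM_ss hr h) hW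
  obtain ⟨m'', k'', h''⟩ := exists_hasM_restrict hr h.pow_eq_one hW'
  obtain ⟨rfl, rfl⟩ := hasM_unique hr h
    ((h'.prodMap h'').of_simil (simil_prod_of_isCompl hc hW hW'))
  exact ⟨Multiset.le_add_right _ _, Nat.le_add_right _ _⟩

omit [Fintype F] in
theorem exists_hasM_restrict_le_range (h : A ^ r = 1) {W : Submodule F V} (hW : Inv A W)
    (hle : W ≤ LinearMap.range (A - 1)) : ∃ m, HasM r (A.restrict hW) m 0 := by
  obtain ⟨m, k, h'⟩ := exists_hasM_restrict hr h hW
  refine ⟨m, ?_⟩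
  have h1 := h'.finrank_ker hr
  rw [show LinearMap.ker (A.restrict hW - 1) = ⊥ from eq_bot_iff.2 fun x hx => Subtype.ext
    (Submodule.disjoint_def.1 (isCompl_ker_range (isSemisimple_of_pow_eq_one hr h)).disjoint x
      (congrArg Subtype.val hx) (hle x.2)), finrank_bot] at h1
  exact h1 ▸ h'

theorem hasM_restrict_range (h : HasM r A m k) :
    HasM r (A.restrict (inv_range_sub_one A)) m 0 := by
  obtain ⟨m', h'⟩ := exists_hasM_restrict_le_range hr h.pow_eq_one (inv_range_sub_one A) le_rfl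
  have h1 := (hasM_le hr h _ h').1
  have h2 := h'.finrank_eq hr
  have h3 := h.finrank_eq hr
  have h4 := finrank_ker_add_range (A - 1)
  rw [h.finrank_ker hr] at h4
  rwa [← Multiset.eq_of_le_of_card_le h1 (Nat.le_of_mul_le_mul_left (c := ord F r) (by omega)
    (PrimeCl.ord_pos hr))]

theorem hasM_finrank_range (h : HasM r A m k) :
    finrank F (LinearMap.range (A - 1)) = ord F r * m.card :=
  (hasM_restrict_range hr h).finrank_eq hr

omit [FiniteDimensional F V] in
theorem hasM_kd [DecidableEq F] (h : HasM r A m k) {P : F[X]} (hP : P ∈ cycFactors F r) :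
    kd A P = ord F r * m.count P := by
  have h1 := h.ed.kd_pow (mem_cycFactors.1 hP).2.1 (mem_cycFactors.1 hP).1 1
  have hX := X_sub_one_notMem_cycFactors hr
  rw [pow_one, natDegree_cyc hr hP, edOf, Multiset.map_map, Multiset.map_add,
    Multiset.sum_add, Multiset.sum_eq_zero (s := Multiset.map _ (Multiset.replicate _ _)),
    add_zero] at h1
  · rw [h1, mul_comm]
    congr 1
    clear h h1
    induction m using Multiset.induction_on with
    | empty => simp
    | cons a s ih =>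
      rw [Multiset.map_cons, Multiset.sum_cons, ih, Multiset.count_cons]
      simp only [Function.comp, eq_comm (a := P)]
      split_ifs <;> simp [add_comm]
  · intro a ha
    obtain ⟨Q, hQ, rfl⟩ := Multiset.mem_map.1 ha
    exact if_neg fun h' : Q = P => hX (Multiset.eq_of_mem_replicate hQ ▸ h' ▸ hP)

omit [Fintype F] [FiniteDimensional F V] hr [Fact r.Prime] in
theorem hasM_aeval_eq_zero {P : F[X]} {a : ℕ} (h : HasM r A (Multiset.replicate a P) 0) :
    aeval A P = 0 :=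
  (h.ed.aeval_eq_zero_iff P).2 fun x hx => by
    obtain ⟨Q, hQ, rfl⟩ := Multiset.mem_map.1 hx
    simp only [Multiset.replicate_zero, add_zero] at hQ
    simp [Multiset.eq_of_mem_replicate hQ]

omit [Fintype F] hr [Fact r.Prime] in
theorem kd_restrict {W : Submodule F V} (hW : Inv A W) (P : F[X]) :
    kd (A.restrict hW) P = finrank F (LinearMap.ker (aeval A P) ⊓ W : Submodule F V) := by
  rw [kd, ← finrank_comap_subtype, show LinearMap.ker (aeval (A.restrict hW) P) =
    (LinearMap.ker (aeval A P)).comap W.subtype from Submodule.ext fun x => by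
      simp [Subtype.ext_iff, aeval_restrict_apply]]

theorem exists_inv_hasM (h : HasM r A (m + m') (k + k')) :
    ∃ (W : Submodule F V) (hW : Inv A W), HasM r (A.restrict hW) m k := by
  obtain ⟨B, hB⟩ := exists_hasM_of_finrank (V := Fin (ord F r * m.card + k) → F) hr
    (fun P hP => h.mem P (Multiset.mem_add.2 (Or.inl hP))) (k := k) (by simp)
  obtain ⟨C, hC⟩ := exists_hasM_of_finrank (V := Fin (ord F r * m'.card + k') → F) hr
    (fun P hP => h.mem P (Multiset.mem_add.2 (Or.inr hP))) (k := k') (by simp)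
  obtain ⟨U, W, -, hU, -, h2, -⟩ := exists_isCompl_of_simil_prod ((hB.prodMap hC).simil h)
  exact ⟨U, hU, hB.of_simil h2⟩

end HasM

/-! ### Duality data -/

/-- `tw s` is the duality on the constituents of isometries of order `r` of forms of type `T`;
`c` is the dimension of a minimal non-degenerate fixed-point-free block and `τ` is the number of
self-dual constituents. -/
structure Dat [Fintype F] (T : FormType F) (r s c τ : ℕ) : Prop where
  hr : (r : F) ≠ 0
  hr2 : r ≠ 2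
  cop : s.Coprime r
  sq : ∃ j : ℕ, (s : ZMod r) ^ 2 = (Fintype.card F : ℕ) ^ j
  nec : ∀ {n : ℕ} {A : Module.End F (Fin n → F)} {m : Multiset F[X]} {k : ℕ}, IsReal T A →
    HasM r A m k → m.map (tw s) = m
  suf : ∀ {m : Multiset F[X]}, (∀ P ∈ m, P ∈ cycFactors F r) → m.map (tw s) = m →
    ∃ A : Module.End F (Fin (ord F r * m.card) → F), HasM r A m 0 ∧ IsReal T A
  cases : ((∃ j : ℕ, (s : ZMod r) = (Fintype.card F : ℕ) ^ j) ∧ c = ord F r ∧
    τ = (r - 1) / ord F r) ∨
    ((¬ ∃ j : ℕ, (s : ZMod r) = (Fintype.card F : ℕ) ^ j) ∧ c = 2 * ord F r ∧ τ = 0)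

theorem exists_eq_two_nsmul_add {α : Type*} (m : Multiset α) :
    ∃ m₀ o : Multiset α, m = m₀ + m₀ + o ∧ o.Nodup := by
  classical
  induction m using Multiset.induction_on with
  | empty => exact ⟨0, 0, by simp, by simp⟩
  | cons a m ih =>
    obtain ⟨m₀, o, rfl, h⟩ := ih
    by_cases ha : a ∈ o
    · obtain ⟨o, rfl⟩ := Multiset.exists_cons_of_mem ha
      refine ⟨a ::ₘ m₀, o, ?_, (Multiset.nodup_cons.1 h).2⟩
      simp only [← Multiset.singleton_add]; abel
    · refine ⟨m₀, a ::ₘ o, ?_, Multiset.nodup_cons.2 ⟨ha, h⟩⟩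
      simp only [← Multiset.singleton_add]; abel

theorem exists_add_eq_of_le_card {α : Type*} (m : Multiset α) {j : ℕ} (h : j ≤ m.card) :
    ∃ a b : Multiset α, m = a + b ∧ a.card = j := by
  induction m using Quotient.inductionOn with
  | _ l => exact ⟨l.take j, l.drop j, by simp, by simpa using h⟩

namespace Dat

variable [Fintype F] [FiniteDimensional F V] {r s c τ : ℕ} [Fact r.Prime] (D : Dat T r s c τ)
  {m m' : Multiset F[X]} {k : ℕ}
include D

omit [FiniteDimensional F V] in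
theorem ord_pos : 0 < ord F r := PrimeCl.ord_pos D.hr

omit [FiniteDimensional F V] in
theorem pos : 0 < c := by
  have := D.ord_pos
  rcases D.cases with h | h <;> omega

omit [FiniteDimensional F V] [Fact r.Prime] in
theorem ord_dvd : ord F r ∣ c := by
  rcases D.cases with h | h <;> simp [h.2.1]

omit [FiniteDimensional F V] [Fact r.Prime] in
theorem le_two_mul : c ≤ 2 * ord F r := by
  rcases D.cases with h | h <;> omega

omit [Fact r.Prime] in
theorem dual_eq (h : IsReal T A) (hm : HasM r A m k) : m.map (tw s) = m := by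
  obtain ⟨B, hB⟩ := exists_simil_of_finrank_eq' (W := Fin (finrank F V) → F) A (by simp)
  exact D.nec (h.of_simil hB) (hm.of_simil hB)

omit [FiniteDimensional F V] in
theorem map_eq_of_self (h : ∃ j : ℕ, (s : ZMod r) = (Fintype.card F : ℕ) ^ j)
    (hm : ∀ P ∈ m, P ∈ cycFactors F r) : m.map (tw s) = m := by
  conv_rhs => rw [← Multiset.map_id m]
  exact Multiset.map_congr rfl fun P hP => (tw_eq_self_iff D.hr (hm P hP)).2 h

omit [FiniteDimensional F V] in
theorem map_add_map (hm : ∀ P ∈ m, P ∈ cycFactors F r) :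
    (m + m.map (tw s)).map (tw s) = m + m.map (tw s) := by
  rw [Multiset.map_add, Multiset.map_map, add_comm]
  congr 1
  conv_rhs => rw [← Multiset.map_id m]
  exact Multiset.map_congr rfl fun P hP => tw_tw_eq D.hr D.sq P (hm P hP)

omit [FiniteDimensional F V] in
theorem mem_add_map (hm : ∀ P ∈ m, P ∈ cycFactors F r) :
    ∀ P ∈ m + m.map (tw s), P ∈ cycFactors F r := fun P hP => by
  rcases Multiset.mem_add.1 hP with h | h
  · exact hm P h
  · obtain ⟨Q, hQ, rfl⟩ := Multiset.mem_map.1 h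
    exact tw_mem D.hr (hm Q hQ) D.cop

omit [FiniteDimensional F V] in
theorem exists_half (h : ¬ ∃ j : ℕ, (s : ZMod r) = (Fintype.card F : ℕ) ^ j) :
    ∃ S : Finset F[X], (∀ a ∈ cycFactors F r, a ∈ S ↔ tw s a ∉ S) ∧
      ∀ m : Multiset F[X], (∀ P ∈ m, P ∈ cycFactors F r) → m.map (tw s) = m →
        ∃ m' : Multiset F[X], (∀ P ∈ m', P ∈ S ∧ P ∈ cycFactors F r) ∧ m = m' + m'.map (tw s) := by
  classical
  obtain ⟨S, h1, h2, -⟩ := exists_half_tw D.hr D.cop D.sq h
  exact ⟨S, h2, fun m hm hi => ⟨m.filter (· ∈ S), fun P hP => ⟨(Multiset.mem_filter.1 hP).2,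
    hm P (Multiset.mem_filter.1 hP).1⟩, eq_add_map_of_map_eq h2 hm hi⟩⟩

omit [FiniteDimensional F V] in
theorem dvd_of_dual (hm : ∀ P ∈ m, P ∈ cycFactors F r) (hi : m.map (tw s) = m) :
    c ∣ ord F r * m.card := by
  rcases D.cases with h | h
  · simp [h.2.1]
  · obtain ⟨S, -, h1⟩ := D.exists_half h.1
    obtain ⟨m', -, rfl⟩ := h1 m hm hi
    exact ⟨m'.card, by simp [h.2.1]; ring⟩

omit [FiniteDimensional F V] in
theorem exists_sub (hm : ∀ P ∈ m, P ∈ cycFactors F r) (hi : m.map (tw s) = m) {j : ℕ}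
    (hj : c * j ≤ ord F r * m.card) : ∃ m₁ m₂ : Multiset F[X], m = m₁ + m₂ ∧
      m₁.map (tw s) = m₁ ∧ m₂.map (tw s) = m₂ ∧ ord F r * m₁.card = c * j := by
  rcases D.cases with h | h
  · obtain ⟨a, b, rfl, h1⟩ := exists_add_eq_of_le_card m (j := j)
      (Nat.le_of_mul_le_mul_left (h.2.1 ▸ hj) D.ord_pos)
    exact ⟨a, b, rfl, D.map_eq_of_self h.1 fun P hP => hm P (by simp [hP]),
      D.map_eq_of_self h.1 fun P hP => hm P (by simp [hP]), by rw [h1, h.2.1]⟩
  · obtain ⟨S, -, h1⟩ := D.exists_half h.1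
    obtain ⟨m', h2, rfl⟩ := h1 m hm hi
    obtain ⟨a, b, rfl, h3⟩ := exists_add_eq_of_le_card m' (j := j) (by
      have := D.ord_pos
      simp only [h.2.1, Multiset.card_add, Multiset.card_map] at hj
      nlinarith)
    refine ⟨a + a.map (tw s), b + b.map (tw s), by rw [Multiset.map_add]; abel,
      D.map_add_map fun P hP => (h2 P (by simp [hP])).2,
      D.map_add_map fun P hP => (h2 P (by simp [hP])).2, by simp [h3, h.2.1]; ring⟩

omit [FiniteDimensional F V] in
theorem exists_dual (j : ℕ) : ∃ m : Multiset F[X], (∀ P ∈ m, P ∈ cycFactors F r) ∧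
    m.map (tw s) = m ∧ ord F r * m.card = c * j := by
  obtain ⟨P, hP⟩ : (cycFactors F r).Nonempty := by
    rw [← Finset.card_pos, card_cyc D.hr]
    have : NeZero r := ⟨(Fact.out : r.Prime).ne_zero⟩
    exact Nat.div_pos (Nat.le_of_dvd (by have := (Fact.out : r.Prime).two_le; omega)
      (ZMod.orderOf_dvd_card_sub_one (card_ne_zero_zmod D.hr))) D.ord_pos
  have h1 : ∀ Q ∈ Multiset.replicate j P, Q ∈ cycFactors F r := fun Q hQ =>
    Multiset.eq_of_mem_replicate hQ ▸ hP
  rcases D.cases with h | h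
  · exact ⟨_, h1, D.map_eq_of_self h.1 h1, by simp [h.2.1]⟩
  · exact ⟨_, D.mem_add_map h1, D.map_add_map h1, by simp [h.2.1]; ring⟩

theorem split (hf : f.Nondeg) (hA : IsIsom f f A) (h : HasM r A (m + m') 0)
    (h1 : m.map (tw s) = m) (h2 : m'.map (tw s) = m') :
    ∃ W, ND f W ∧ ∃ hW : Inv A W, HasM r (A.restrict hW) m 0 := by
  obtain ⟨B, hB, hB'⟩ := D.suf (fun P hP => h.mem P (Multiset.mem_add.2 (Or.inl hP))) h1
  obtain ⟨C, hC, hC'⟩ := D.suf (fun P hP => h.mem P (Multiset.mem_add.2 (Or.inr hP))) h2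
  obtain ⟨W, h3, hW, -, h4, -⟩ := (rigid_of_isUnit hf hA
    (Orth.isUnit_sq_sub_one_of_hasM D.hr D.hr2 h)).split hB' hC' ((hB.prodMap hC).simil h)
  exact ⟨W, h3, hW, hB.of_simil h4⟩

theorem diag (hf : f.Nondeg) (hA : IsIsom f f A) (h : HasM r A (m + m + m') 0)
    (h1 : m.map (tw s) = m) (h2 : m'.map (tw s) = m') :
    ∃ U, f.TotSing U ∧ ∃ hU : Inv A U, HasM r (A.restrict hU) m 0 := by
  obtain ⟨B, hB, hB'⟩ := D.suf (fun P hP => h.mem P (by simp [hP])) h1
  obtain ⟨C, hC, hC'⟩ := D.suf (fun P hP => h.mem P (by simp [hP])) h2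
  obtain ⟨W, h3, hW, h4⟩ := (rigid_of_isUnit hf hA
    (Orth.isUnit_sq_sub_one_of_hasM D.hr D.hr2 h)).diag hB' hC'
    (((hB.prodMap hB).prodMap hC).simil h)
  exact ⟨W, h3, hW, hB.of_simil h4⟩

/-- If no constituent is dual to a constituent, the form vanishes. -/
theorem totSing_top (hA : IsIsom f f A) (h : HasM r A m 0) (hm : ∀ P ∈ m, tw s P ∉ m) :
    f.TotSing ⊤ := by
  have hu := (Module.End.isUnit_iff _).1 (IsUnit.of_pow_eq_one h.pow_eq_one
    (Fact.out : r.Prime).ne_zero)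
  obtain ⟨X, hX, hc⟩ := exists_inv_isCompl (hasM_ss D.hr h) (inv_perp_of_map_eq hA.B_eq
    (U := ⊤) (by rw [Submodule.map_top, LinearMap.range_eq_top.2 hu.2]))
  have h1 : ND f X := by
    rw [ND, Submodule.disjoint_def]
    refine fun x hx hx' => Submodule.disjoint_def.1 hc.disjoint x ((mem_perp f).2 fun w _ => ?_) hx
    obtain ⟨u, hu, y, hy, rfl⟩ := Submodule.mem_sup.1 (hc.sup_eq_top ▸ Submodule.mem_top (x := w))
    rw [map_add, LinearMap.add_apply, (mem_perp' f).1 hu x trivial, (mem_perp f).1 hx' y hy,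
      add_zero]
  obtain ⟨m', k', h2⟩ := exists_hasM_restrict D.hr h.pow_eq_one hX
  obtain ⟨h3, h4⟩ := hasM_le D.hr h hX h2
  have h5 := D.dual_eq ⟨_, h1.nondeg, isIsom_restrict hA hX⟩ h2
  obtain rfl : m' = 0 := Multiset.eq_zero_of_forall_notMem fun P hP =>
    hm P (Multiset.mem_of_le h3 hP) (Multiset.mem_of_le h3 (h5 ▸ Multiset.mem_map_of_mem _ hP))
  have h6 := h2.finrank_eq D.hr
  rw [Submodule.finrank_eq_zero.1 (show finrank F X = 0 by simpa [Nat.le_zero.1 h4] using h6)] at hc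
  have h8 : f.perp ⊤ = ⊤ := eq_top_of_isCompl_bot hc
  have h7 : ∀ x y, f.B x y = 0 := fun x y =>
    (mem_perp f).1 (h8.symm ▸ Submodule.mem_top : y ∈ f.perp ⊤) x trivial
  exact ⟨fun x _ => q_eq_zero_of_B_eq_zero hA h7
    ((Module.End.isUnit_iff _).1 (h.isUnit_sub_one D.hr)).2 x, fun x _ y _ => h7 x y⟩

theorem exists_ts_aux (hf : f.Nondeg) (hA : IsIsom f f A) (h : HasM r A m 0) :
    ∃ w, m.card ≤ 2 * w + τ ∧ 2 * w ≤ m.card ∧ ∀ j ≤ w, ∃ U : Submodule F V, f.TotSing U ∧ Inv A U ∧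
      finrank F U = ord F r * j := by
  have hi := D.dual_eq ⟨f, hf, hA⟩ h
  rcases D.cases with hc | hc
  · obtain ⟨m₀, o, rfl, h1⟩ := exists_eq_two_nsmul_add m
    refine ⟨m₀.card, ?_, by simp; omega, fun j hj => ?_⟩
    · have := Finset.card_le_card (s := ⟨o, h1⟩) (t := cycFactors F r) fun P hP =>
        h.mem P (Multiset.mem_add.2 (Or.inr hP))
      rw [card_cyc D.hr, ← hc.2.2] at this
      simp only [Finset.card_mk] at this
      simp; omega
    · obtain ⟨a, b, rfl, rfl⟩ := exists_add_eq_of_le_card m₀ hj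
      obtain ⟨U, h2, hU, h3⟩ := D.diag (m := a) (m' := b + b + o) hf hA (by convert h using 1; abel)
        (D.map_eq_of_self hc.1 fun P hP => h.mem P (by simp [hP]))
        (D.map_eq_of_self hc.1 fun P hP => h.mem P (by
          simp only [Multiset.mem_add] at hP ⊢; tauto))
      exact ⟨U, h2, hU, h3.finrank_eq D.hr⟩
  · obtain ⟨S, h1, h2⟩ := D.exists_half hc.1
    obtain ⟨m', h3, rfl⟩ := h2 m h.mem hi
    refine ⟨m'.card, by simp; omega, by simp; omega, fun j hj => ?_⟩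
    obtain ⟨a, b, rfl, rfl⟩ := exists_add_eq_of_le_card m' hj
    obtain ⟨U, hU, h4⟩ := exists_inv_hasM D.hr (m := a) (k := 0) (k' := 0) (by
      rwa [add_assoc] at h)
    have h5 := totSing_map_subtype (D.totSing_top (isIsom_restrict hA hU) h4 fun P hP hP' =>
      (h1 P (h4.mem P hP)).1 (h3 P (by simp [hP])).1 (h3 _ (by simp [hP'])).1)
    rw [Submodule.map_subtype_top] at h5
    exact ⟨U, h5, hU, h4.finrank_eq D.hr⟩

theorem add_self_le (hf : f.Nondeg) (hA : IsIsom f f A) (h : HasM r A m 0)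
    (hs : ∃ j : ℕ, (s : ZMod r) = (Fintype.card F : ℕ) ^ j) {U : Submodule F V}
    (hU : f.TotSing U) (hU' : Inv A U) (h' : HasM r (A.restrict hU') m' 0) : m' + m' ≤ m := by
  classical
  rw [Multiset.le_iff_count]
  intro P
  by_cases hP : P ∈ cycFactors F r
  swap
  · simp [Multiset.count_eq_zero_of_notMem fun h1 => hP (h'.mem P h1)]
  obtain ⟨m₂, h1⟩ := Multiset.le_iff_exists_add.1 (Multiset.le_count_iff_replicate_le.1
    (le_refl (m.count P)))
  have h2 : ∀ Q ∈ m₂, Q ∈ cycFactors F r := fun Q hQ => h.mem Q (by rw [h1]; simp [hQ])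
  obtain ⟨W, h3, hW, h4⟩ := D.split hf hA (h1 ▸ h) (D.map_eq_of_self hs fun Q hQ =>
    Multiset.eq_of_mem_replicate hQ ▸ hP) (D.map_eq_of_self hs h2)
  have h5 : W = LinearMap.ker (aeval A P) := by
    refine Submodule.eq_of_le_of_finrank_eq (fun x hx => ?_) ?_
    · have := congrArg Subtype.val (LinearMap.congr_fun (hasM_aeval_eq_zero h4) ⟨x, hx⟩)
      rwa [aeval_restrict_apply] at this
    · simpa [h4.finrank_eq D.hr, kd] using (hasM_kd D.hr h hP).symm
  have h6 := h3.two_mul_finrank_le hU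
  rw [h4.finrank_eq D.hr, h5, inf_comm, ← kd_restrict hU', hasM_kd D.hr h' hP,
    Multiset.card_replicate, add_zero, mul_left_comm] at h6
  have := Nat.le_of_mul_le_mul_left h6 D.ord_pos
  rw [Multiset.count_add]; omega

omit [FiniteDimensional F V] in
/-- Test multisets with `o` constituents of odd multiplicity. -/
theorem exists_test {o : ℕ} (ho : o ≤ τ) (u : ℕ) : ∃ m : Multiset F[X],
    (∀ P ∈ m, P ∈ cycFactors F r) ∧ m.map (tw s) = m ∧ m.card = o + 2 * u ∧
    ((∃ j : ℕ, (s : ZMod r) = (Fintype.card F : ℕ) ^ j) → ∀ m', m' + m' ≤ m → m'.card ≤ u) := by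
  classical
  rcases D.cases with hc | hc
  · obtain ⟨O, h1, rfl⟩ := Finset.exists_subset_card_eq (s := cycFactors F r) (n := o) (by
      rwa [card_cyc D.hr, ← hc.2.2])
    obtain ⟨m, h2, -, h3⟩ := D.exists_dual u
    rw [hc.2.1] at h3
    have h4 : ∀ P ∈ O.1 + (m + m), P ∈ cycFactors F r := fun P hP => by
      simp only [Multiset.mem_add, or_self] at hP
      exact hP.elim (fun h => h1 h) (h2 P)
    refine ⟨O.1 + (m + m), h4, D.map_eq_of_self hc.1 h4, by
      simp [Nat.eq_of_mul_eq_mul_left D.ord_pos h3, two_mul], fun _ m' h5 => ?_⟩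
    rw [← Nat.eq_of_mul_eq_mul_left D.ord_pos h3]
    refine Multiset.card_le_card (Multiset.le_iff_count.2 fun P => ?_)
    have h6 := Multiset.le_iff_count.1 h5 P
    have h7 := Multiset.nodup_iff_count_le_one.1 O.2 P
    simp only [Multiset.count_add] at h6
    omega
  · obtain ⟨m, h2, h3, h4⟩ := D.exists_dual u
    rw [hc.2.1, mul_comm 2, mul_assoc] at h4
    exact ⟨m, h2, h3, by rw [Nat.eq_of_mul_eq_mul_left D.ord_pos h4]; omega,
      fun h => absurd h hc.1⟩

section Main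

variable (hf : f.Nondeg) (hA : IsIsom f f A) (h1 : A ^ r = 1)
include hf hA h1

omit hf in
theorem dvd_finrank {W : Submodule F V} (hW : Inv A W) (hN : ND f W)
    (hle : W ≤ LinearMap.range (A - 1)) : c ∣ finrank F W := by
  obtain ⟨m, h⟩ := exists_hasM_restrict_le_range D.hr h1 hW hle
  rw [h.finrank_eq D.hr]
  exact D.dvd_of_dual h.mem (D.dual_eq ⟨_, hN.nondeg, isIsom_restrict hA hW⟩ h)

theorem dvd_finrank_range : c ∣ finrank F (LinearMap.range (A - 1)) :=
  D.dvd_finrank hA h1 (inv_range_sub_one A)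
    (nd_range_sub_one hf hA (isSemisimple_of_pow_eq_one D.hr h1)) le_rfl

theorem mod_le_finrank_ker : finrank F V % c ≤ finrank F (LinearMap.ker (A - 1)) := by
  obtain ⟨j, hj⟩ := D.dvd_finrank_range hf hA h1
  rw [← finrank_ker_add_range (A - 1), hj, Nat.add_mul_mod_self_left]
  exact Nat.mod_le _ _

theorem nd_finrank_eq {W : Submodule F V} (hW : Inv A W) (hN : ND f W) :
    ∃ j, finrank F W = finrank F (W ⊓ LinearMap.ker (A - 1) : Submodule F V) + c * j := by
  have hs := isSemisimple_of_pow_eq_one D.hr h1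
  obtain ⟨j, hj⟩ := D.dvd_finrank hA h1 (hW.inf (inv_range_sub_one A)) (hN.inf_range hf hA hs hW)
    inf_le_right
  exact ⟨j, by rw [hW.finrank_eq_add hs, hj]⟩

omit hf in
theorem exists_nd {M : Submodule F V} (hM : Inv A M) (hN : ND f M)
    (hle : M ≤ LinearMap.range (A - 1)) {j : ℕ} (hj : c * j ≤ finrank F M) :
    ∃ W ≤ M, Inv A W ∧ ND f W ∧ finrank F W = c * j := by
  obtain ⟨m, h⟩ := exists_hasM_restrict_le_range D.hr h1 hM hle
  have hI := isIsom_restrict hA hM
  obtain ⟨m₁, m₂, rfl, h2, h3, h4⟩ := D.exists_sub h.mem (D.dual_eq ⟨_, hN.nondeg, hI⟩ h)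
    (j := j) (by rwa [h.finrank_eq D.hr] at hj)
  obtain ⟨W, h5, hW, h6⟩ := D.split hN.nondeg hI h h2 h3
  exact ⟨W.map M.subtype, Submodule.map_subtype_le _ _, hM.map_subtype hW, nd_map_subtype h5, by
    rw [finrank_map_subtype, h6.finrank_eq D.hr, h4, add_zero]⟩

theorem exists_ts : ∃ N w, finrank F (LinearMap.range (A - 1)) = ord F r * N ∧ N ≤ 2 * w + τ ∧
    2 * w ≤ N ∧ ∀ j ≤ w, ∃ U ≤ LinearMap.range (A - 1), f.TotSing U ∧ Inv A U ∧
      finrank F U = ord F r * j := by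
  obtain ⟨m, h⟩ := exists_hasM_restrict_le_range D.hr h1 (inv_range_sub_one A) le_rfl
  obtain ⟨w, h2, h3, h4⟩ := D.exists_ts_aux
    (nd_range_sub_one hf hA (isSemisimple_of_pow_eq_one D.hr h1)).nondeg (isIsom_restrict hA _) h
  refine ⟨m.card, w, h.finrank_eq D.hr, h2, h3, fun j hj => ?_⟩
  obtain ⟨U, h5, h6, h7⟩ := h4 j hj
  exact ⟨U.map (Submodule.subtype _), Submodule.map_subtype_le _ _, totSing_map_subtype h5,
    (inv_range_sub_one A).map_subtype h6, by rw [finrank_map_subtype, h7]⟩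

omit h1 in
theorem ts_finrank_eq (h : HasM r A m k) {U : Submodule F V} (hU : f.TotSing U) (hU' : Inv A U) :
    ∃ (u : ℕ) (m' : Multiset F[X]), finrank F U = u + ord F r * m'.card ∧ 2 * u ≤ k ∧
      2 * m'.card ≤ m.card ∧
      ((∃ j : ℕ, (s : ZMod r) = (Fintype.card F : ℕ) ^ j) → m' + m' ≤ m) := by
  have hs := hasM_ss D.hr h
  have h2 := (inv_range_sub_one A).comap_subtype (hU'.inf (inv_range_sub_one A))
  have h3 := hasM_restrict_range D.hr h
  obtain ⟨m', k', h4⟩ := exists_hasM_restrict D.hr h3.pow_eq_one h2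
  obtain rfl : k' = 0 := Nat.le_zero.1 (hasM_le D.hr h3 h2 h4).2
  have h5 := h4.finrank_eq D.hr
  rw [finrank_comap_subtype, inf_assoc, inf_idem, add_zero] at h5
  have h6 := (nd_range_sub_one hf hA hs).two_mul_finrank_le hU
  rw [h5, hasM_finrank_range D.hr h, mul_left_comm] at h6
  refine ⟨_, m', by rw [hU'.finrank_eq_add hs, h5], h.finrank_ker D.hr ▸
    (nd_ker_sub_one hf hA hs).two_mul_finrank_le hU, Nat.le_of_mul_le_mul_left h6 D.ord_pos,
    fun h7 => D.add_self_le (nd_range_sub_one hf hA hs).nondeg (isIsom_restrict hA _) h3 h7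
      (totSing_comap_subtype (hU.mono inf_le_left) _) h2 h4⟩

/-- Sufficient condition for an invariant totally singular subspace. -/
theorem exists_ts_of_le (hC : ∀ e, 2 * e ≤ finrank F (LinearMap.ker (A - 1)) →
      ∃ U ≤ LinearMap.ker (A - 1), f.TotSing U ∧ finrank F U = e) {m : ℕ}
    (hm : 2 * m ≤ finrank F V) (h2 : 2 * (m % ord F r) ≤ finrank F V % c)
    (h3 : τ = 0 ∨ τ + 2 * (m / ord F r) ≤ finrank F V / ord F r) :
    ∃ U : Submodule F V, finrank F U = m ∧ f.TotSing U ∧ Inv A U := by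
  obtain ⟨N, w, h4, h5, h6, h7⟩ := D.exists_ts hf hA h1
  have h8 := D.mod_le_finrank_ker hf hA h1
  have h9 := finrank_ker_add_range (A - 1)
  have h10 := Nat.mod_add_div m (ord F r)
  obtain ⟨e, j, h11, h12, rfl⟩ : ∃ e j, 2 * e ≤ finrank F (LinearMap.ker (A - 1)) ∧ j ≤ w ∧
      m = e + ord F r * j := by
    by_cases hw : m / ord F r ≤ w
    · exact ⟨_, _, h2.trans h8, hw, h10.symm⟩
    · have h11 := Nat.mul_le_mul_left (ord F r) (le_of_not_ge hw)
      refine ⟨m - ord F r * w, w, ?_, le_rfl, by omega⟩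
      rcases D.cases with hc | hc
      · rcases h3 with h3 | h3
        · obtain rfl : N = 2 * w := by omega
          rw [mul_left_comm] at h4; omega
        · have h12 := Nat.mod_add_div (finrank F V) (ord F r)
          have h13 := Nat.mul_le_mul_left (ord F r) h3
          have h14 := Nat.mul_le_mul_left (ord F r) h5
          rw [hc.2.1] at h2
          simp only [mul_add, mul_left_comm _ 2] at h13 h14
          omega
      · obtain rfl : N = 2 * w := by omega
        rw [mul_left_comm] at h4; omega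
  obtain ⟨U₁, h13, h14, rfl⟩ := hC e h11
  obtain ⟨U₂, h15, h16, h17, h18⟩ := h7 j h12
  exact ⟨U₁ ⊔ U₂, by rw [finrank_sup_of_disjoint ((isCompl_ker_range
    (isSemisimple_of_pow_eq_one D.hr h1)).disjoint.mono h13 h15), h18],
    h14.sup_of_le_perp h16 (le_perp_of_fix_mov hf hA h13 h15), (inv_of_le_fixed h13).sup h17⟩

/-- Sufficient condition for an invariant non-degenerate subspace. -/
theorem exists_nd_of_le {d : ℕ} (hd : d ∣ c) (hC : ∀ e ≤ finrank F (LinearMap.ker (A - 1)),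
      d ∣ e → ∃ U ≤ LinearMap.ker (A - 1), ND f U ∧ finrank F U = e) {m : ℕ} (hdm : d ∣ m)
    (hm : m ≤ finrank F V) (h2 : m % c ≤ finrank F V % c) :
    ∃ U : Submodule F V, finrank F U = m ∧ ND f U ∧ Inv A U := by
  have hs := isSemisimple_of_pow_eq_one D.hr h1
  obtain ⟨N, h3⟩ := D.dvd_finrank_range hf hA h1
  rw [← finrank_ker_add_range (A - 1), h3] at hm h2
  obtain ⟨e, h4, j, h5, rfl⟩ := num_split hm h2
  obtain ⟨U₁, h6, h7, rfl⟩ := hC e h4 ((Nat.dvd_add_left (hd.mul_right j)).1 hdm)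
  obtain ⟨U₂, h8, h9, h10, h11⟩ := D.exists_nd hA h1 (inv_range_sub_one A)
    (nd_range_sub_one hf hA hs) le_rfl (j := j) (h3 ▸ Nat.mul_le_mul_left c h5)
  exact ⟨U₁ ⊔ U₂, by rw [finrank_sup_of_disjoint ((isCompl_ker_range hs).disjoint.mono h6 h8),
    h11], h7.sup h10 (le_perp_of_fix_mov hf hA h6 h8), (inv_of_le_fixed h6).sup h9⟩

/-- Sufficient condition for an invariant orthogonal decomposition. -/
theorem decOn {d a t : ℕ} (hd : d ∣ c) (hC : ∀ W, ND f W → ∀ e ≤ finrank F W,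
      d ∣ e → ∃ U ≤ W, ND f U ∧ finrank F U = e) (hda : d ∣ a)
    (hV : finrank F V = a * t) (h2 : t * (a % c) ≤ finrank F V % c) : DecOn f A ⊤ a t := by
  have hs := isSemisimple_of_pow_eq_one D.hr h1
  obtain ⟨N, h3⟩ := D.dvd_finrank_range hf hA h1
  refine decOn_of_split (fun W e m => ∃ C ≤ LinearMap.ker (A - 1), ∃ M ≤ LinearMap.range (A - 1),
    ND f C ∧ ND f M ∧ Inv A M ∧ finrank F C = e ∧ finrank F M = c * m ∧ C ⊔ M = W) hda hd ?_ ?_
    D.pos t _ _ N ⟨_, le_rfl, _, le_rfl, nd_ker_sub_one hf hA hs, nd_range_sub_one hf hA hs,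
      inv_range_sub_one A, rfl, h3, (isCompl_ker_range hs).sup_eq_top⟩
    (by rw [← h3, finrank_ker_add_range, hV]) (h2.trans (D.mod_le_finrank_ker hf hA h1))
  · rintro _ ⟨C', -, M', -, -, -, -, h3, h4, rfl⟩
    rw [Submodule.finrank_eq_zero.1 h3, Submodule.finrank_eq_zero.1 h4, bot_sup_eq]
  · rintro _ e m e₁ m₁ ⟨C, h3, M, h4, hC', hM', h5, rfl, h6, rfl⟩ h7 h8 h9
    obtain ⟨C₁, h10, h11, rfl⟩ := hC C hC' e₁ h7 h9
    obtain ⟨M₁, h12, h13, h14, h15⟩ := D.exists_nd hA h1 h5 hM' h4 (j := m₁)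
      (h6 ▸ Nat.mul_le_mul_left c h8)
    have h16 := h11.finrank_inf_perp h10
    have h17 := h14.finrank_inf_perp h12
    have h18 := le_perp_of_fix_mov hf hA (h10.trans h3) (h12.trans h4)
    have h19 := (inv_of_le_fixed (h10.trans h3)).sup h13
    refine ⟨C₁ ⊔ M₁, (C ⊓ f.perp C₁) ⊔ (M ⊓ f.perp M₁), by
      rw [sup_sup_sup_comm, h11.sup_inf_perp h10, h14.sup_inf_perp h12], ?_,
      (h11.sup h14 h18).map_eq hA.B_eq h19, by
        rw [finrank_sup_of_disjoint (h14.disjoint_of_le h18).symm, h15],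
      _, inf_le_left.trans h3, _, inf_le_left.trans h4, hC'.inf_perp h11 h10,
      hM'.inf_perp h14 h12, h5.inf (h14.inv_perp hA.B_eq h13), by omega, by
        rw [Nat.mul_sub]; omega, rfl⟩
    rw [perp_sup]
    exact sup_le (le_inf ((le_perp_comm f).1 inf_le_right) (le_perp_of_fix_mov hf hA
      (h10.trans h3) (inf_le_left.trans h4))) (le_inf ((le_perp_comm f).1 (le_perp_of_fix_mov hf hA
      (inf_le_left.trans h3) (h12.trans h4))) ((le_perp_comm f).1 inf_le_right))

end Main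

/-! Test elements. -/

section Test

variable (hf : f.Nondeg) (hX : ∀ m : Multiset F[X], (∀ P ∈ m, P ∈ cycFactors F r) →
  m.map (tw s) = m → ord F r * m.card ≤ finrank F V →
    ∃ (A : Module.End F V) (k : ℕ), IsIsom f f A ∧ HasM r A m k)
include hf hX

omit hf in
theorem exists_isom_ker {j : ℕ} (hj : c * j ≤ finrank F V) : ∃ A : Module.End F V,
    IsIsom f f A ∧ A ^ r = 1 ∧ finrank F (LinearMap.ker (A - 1)) = finrank F V - c * j := by
  obtain ⟨m, h1, h2, h3⟩ := D.exists_dual j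
  obtain ⟨A, k, h4, h5⟩ := hX m h1 h2 (h3 ▸ hj)
  have := h5.finrank_eq D.hr
  exact ⟨A, h4, h5.pow_eq_one, by rw [h5.finrank_ker D.hr]; omega⟩

omit hf in
theorem exists_isom_min (hle : c ≤ finrank F V) : ∃ A : Module.End F V,
    IsIsom f f A ∧ A ^ r = 1 ∧ A ≠ 1 ∧ finrank F (LinearMap.ker (A - 1)) = finrank F V % c := by
  obtain ⟨A, h1, h2, h3⟩ := D.exists_isom_ker hX (j := finrank F V / c) (Nat.mul_div_le _ _)
  have h4 := Nat.mod_add_div (finrank F V) c
  have h5 := Nat.mod_lt (finrank F V) D.pos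
  exact ⟨A, h1, h2, ne_one_of_finrank_ker (by omega), by omega⟩

theorem mod_le_of_ts (hle : c ≤ finrank F V) {m : ℕ}
    (h : ∀ A : Module.End F V, IsIsom f f A → A ^ r = 1 → A ≠ 1 →
      ∃ U : Submodule F V, finrank F U = m ∧ f.TotSing U ∧ Inv A U) : 2 * (m % ord F r) ≤ finrank F V % c := by
  obtain ⟨A, h1, h2, h3, h4⟩ := D.exists_isom_min hX hle
  obtain ⟨U, rfl, h5, h6⟩ := h A h1 h2 h3
  obtain ⟨m, k, h7⟩ := exists_hasM D.hr h2
  obtain ⟨u, m', h8, h9, -⟩ := D.ts_finrank_eq hf h1 h7 h5 h6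
  have h10 := Nat.mod_lt (finrank F V) D.pos
  have h11 := D.le_two_mul
  rw [h7.finrank_ker D.hr] at h4
  rw [mod_eq_of_eq_add h8 (by omega)]; omega

theorem add_le_of_ts {m : ℕ} (hm : 2 * m ≤ finrank F V) (hi : ord F r ≤ m)
    (h : ∀ A : Module.End F V, IsIsom f f A → A ^ r = 1 → A ≠ 1 →
      ∃ U : Submodule F V, finrank F U = m ∧ f.TotSing U ∧ Inv A U) :
    τ + 2 * (m / ord F r) ≤ finrank F V / ord F r := by
  have h0 := D.ord_pos
  have h1 : 2 * (m / ord F r) ≤ finrank F V / ord F r :=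
    (Nat.mul_div_le_mul_div_assoc _ _ _).trans (Nat.div_le_div_right hm)
  have h2 : 1 ≤ m / ord F r := (Nat.one_le_div_iff h0).2 hi
  rcases D.cases with hc | hc
  swap
  · omega
  by_contra! hlt
  obtain ⟨m₀, h3, h4, h5, h6⟩ := D.exists_test (o := finrank F V / ord F r - 2 * (m / ord F r) + 1)
    (by omega) (m / ord F r - 1)
  have h7 : m₀.card + 1 = finrank F V / ord F r := by omega
  have h8 := Nat.mod_add_div (finrank F V) (ord F r)
  have h9 := Nat.mod_lt (finrank F V) h0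
  rw [← h7, mul_add, mul_one] at h8
  obtain ⟨A, k, h10, h11⟩ := hX m₀ h3 h4 (by omega)
  obtain ⟨U, rfl, h12, h13⟩ := h A h10 h11.pow_eq_one (fun h12 => by
    rw [(h11.eq_one_iff D.hr).1 h12, Multiset.card_zero] at h5; omega)
  obtain ⟨u, m', h14, h15, -, h16⟩ := D.ts_finrank_eq hf h10 h11 h12 h13
  have h17 := h6 hc.1 m' (h16 hc.1)
  have h18 := h11.finrank_eq D.hr
  have h19 := Nat.div_mul_le_self (finrank F U) (ord F r)
  have h20 := Nat.mul_le_mul_left (ord F r) (show m'.card + 1 ≤ finrank F U / ord F r by omega)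
  rw [mul_comm] at h19
  rw [mul_add] at h20
  omega

theorem mod_le_of_nd (hle : c ≤ finrank F V) {m : ℕ}
    (h : ∀ A : Module.End F V, IsIsom f f A → A ^ r = 1 → A ≠ 1 →
      ∃ U : Submodule F V, finrank F U = m ∧ ND f U ∧ Inv A U) : m % c ≤ finrank F V % c := by
  obtain ⟨A, h1, h2, h3, h4⟩ := D.exists_isom_min hX hle
  obtain ⟨U, rfl, h5, h6⟩ := h A h1 h2 h3
  obtain ⟨j, h7⟩ := D.nd_finrank_eq hf h1 h2 h6 h5
  have h8 := Submodule.finrank_mono (inf_le_right : U ⊓ LinearMap.ker (A - 1) ≤ _)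
  have h10 := Nat.mod_lt (finrank F V) D.pos
  rw [mod_eq_of_eq_add h7 (by omega)]; omega

theorem le_of_decOn (hc : c ≤ r - 1) (hle : c ≤ finrank F V) {a t : ℕ} (ha : 2 ≤ a)
    (hV : finrank F V = a * t)
    (h : ∀ A : Module.End F V, IsIsom f f A → A ^ r = 1 → A ≠ 1 → DecOn f A ⊤ a t) :
    c ≤ a ∧ finrank F V % c = t * (a % c) := by
  have key : ∀ A : Module.End F V, IsIsom f f A → A ^ r = 1 → A ≠ 1 →
      ∃ (E : Fin t → Submodule F V) (σ : Equiv.Perm (Fin t)), (∀ j, finrank F (E j) = a) ∧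
        iSupIndep E ∧ iSup E = ⊤ ∧ (∀ j, (E j).map A = E (σ j)) ∧ σ ^ r = 1 ∧ (σ = 1 → ∀ j, ∃ m,
          finrank F (E j) = finrank F (E j ⊓ LinearMap.ker (A - 1) : Submodule F V) + c * m) := by
    intro A h0 h1 h2
    obtain ⟨E, σ, h3, h4, h5, h7, h6⟩ := (h A h0 h1 h2).toFin (by rw [finrank_top, hV])
    refine ⟨E, σ, h3, h4, h5, h6, perm_pow_eq_one h4 (fun j hj => ?_) h6 one_ne_zero
      (by simpa using h1), fun hσ j => ?_⟩
    · have := h3 j; rw [hj, finrank_bot] at this; omega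
    · exact D.nd_finrank_eq hf h0 h1 (inv_of_map_eq (by rw [h6, hσ]; rfl))
        (nd_of_iSup (h5 ▸ nd_top hf) h7 j)
  have hc0 := D.pos
  have h1 : c ≤ a := by
    obtain ⟨A, h0, h1, h2⟩ := D.exists_isom_ker hX (j := 1) (by omega)
    obtain ⟨E, σ, h4, h5, h6, h7, h8, h9⟩ := key A h0 h1 (ne_one_of_finrank_ker (by omega))
    by_cases hσ : σ = 1
    · exact le_of_all_fixed h6 h4 (h9 hσ) (by intro h10; rw [h10, finrank_top] at h2; omega)
    · have h10 := mul_le_finrank_range_of_ne_one h5 h4 h7 h1 h8 hσ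
      have h11 := finrank_ker_add_range (A - 1)
      have := Nat.mul_le_mul_right (r - 1) ha
      omega
  obtain ⟨A, h0, h2, h3, h4⟩ := D.exists_isom_min hX hle
  have h5 := Nat.mod_lt (finrank F V) hc0
  obtain ⟨E, σ, h6, h7, h8, h9, h10, h11⟩ := key A h0 h2 h3
  refine ⟨h1, ?_⟩
  by_cases hσ : σ = 1
  · simpa [hV] using mod_eq_of_all_fixed h7 h6 (h11 hσ) (h4 ▸ h5)
  · have := le_finrank_ker_of_ne_one h7 h6 h9 h2 h10 hσ
    omega

end Test

end Dat

end CL.Elus
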