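/-
Overgroups of the stabiliser of a pair of complementary totally singular subspaces.
-/
import Cfsg.Agent.CLAS.RootGeo
import Cfsg.Agent.CLAS.Eichler4

set_option autoImplicit false

namespace CL.Root

open Module CL.Witt CL.Witt.Form CL.Tv

variable {F : Type*} [Field F] {T : FormType F} {V : Type*} [AddCommGroup V] [Module F V]
  {f : Form T V} {K : Subgroup (V ≃ₗ[F] V)}

/-- A product of commuting swaps. -/
theorem exists_swap_of_blocks {ι : Type*} [Finite ι] (G : Subgroup (V ≃ₗ[F] V))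
    (X Y : ι → Submodule F V) (w : ι → V ≃ₗ[F] V) (hw : ∀ i, w i ∈ G)
    (h1 : ∀ i, ∀ x ∈ X i, w i x ∈ Y i) (h2 : ∀ i, ∀ y ∈ Y i, w i y ∈ X i)
    (h3 : ∀ i j, i ≠ j → ∀ x ∈ X j, w i x = x) (h4 : ∀ i j, i ≠ j → ∀ y ∈ Y j, w i y = y) :
    ∃ g ∈ G, (∀ i, ∀ x ∈ X i, g x ∈ Y i) ∧ ∀ i, ∀ y ∈ Y i, g y ∈ X i := by
  classical
  have := Fintype.ofFinite ι
  have key : ∀ s : Finset ι, ∃ g ∈ G, (∀ i ∈ s, (∀ x ∈ X i, g x ∈ Y i) ∧ ∀ y ∈ Y i, g y ∈ X i) ∧
      ∀ i ∉ s, (∀ x ∈ X i, g x = x) ∧ ∀ y ∈ Y i, g y = y := by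
    intro s
    induction s using Finset.induction_on with
    | empty => exact ⟨1, G.one_mem, by simp, fun i _ => ⟨fun _ _ => rfl, fun _ _ => rfl⟩⟩
    | insert a s ha ih =>
      obtain ⟨g, hg, hs, hs'⟩ := ih
      refine ⟨w a * g, G.mul_mem (hw a) hg, fun i hi => ?_, fun i hi => ?_⟩
      · rcases Finset.mem_insert.1 hi with rfl | hi
        · refine ⟨fun x hx => ?_, fun y hy => ?_⟩
          · rw [LinearEquiv.mul_apply, (hs' i ha).1 x hx]; exact h1 i x hx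
          · rw [LinearEquiv.mul_apply, (hs' i ha).2 y hy]; exact h2 i y hy
        · have hne : a ≠ i := by rintro rfl; exact ha hi
          refine ⟨fun x hx => ?_, fun y hy => ?_⟩
          · rw [LinearEquiv.mul_apply, h4 a i hne _ ((hs i hi).1 x hx)]; exact (hs i hi).1 x hx
          · rw [LinearEquiv.mul_apply, h3 a i hne _ ((hs i hi).2 y hy)]; exact (hs i hi).2 y hy
      · rw [Finset.mem_insert, not_or] at hi
        refine ⟨fun x hx => ?_, fun y hy => ?_⟩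
        · rw [LinearEquiv.mul_apply, (hs' i hi.2).1 x hx, h3 a i (Ne.symm hi.1) x hx]
        · rw [LinearEquiv.mul_apply, (hs' i hi.2).2 y hy, h4 a i (Ne.symm hi.1) y hy]
  obtain ⟨g, hg, hs, -⟩ := key Finset.univ
  exact ⟨g, hg, fun i => (hs i (Finset.mem_univ i)).1, fun i => (hs i (Finset.mem_univ i)).2⟩

/-- A pair of complementary totally singular subspaces. -/
structure TSPair (f : Form T V) (D₀ D₁ : Submodule F V) : Prop where
  ts₀ : f.TotSing D₀
  ts₁ : f.TotSing D₁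
  compl : IsCompl D₀ D₁

namespace TSPair

variable {D₀ D₁ : Submodule F V} (h : TSPair f D₀ D₁)
include h

theorem symm : TSPair f D₁ D₀ := ⟨h.ts₁, h.ts₀, h.compl.symm⟩

/-- The projection onto the first subspace. -/
noncomputable def pr : V →ₗ[F] V := D₀.projection D₁ h.compl

theorem pr_mem (x : V) : h.pr x ∈ D₀ := Submodule.projection_apply_mem h.compl x
theorem sub_pr_mem (x : V) : x - h.pr x ∈ D₁ := Submodule.sub_projection_mem h.compl x
theorem pr_of_mem {x : V} (hx : x ∈ D₀) : h.pr x = x :=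
  Submodule.projection_apply_of_mem_left h.compl hx
theorem pr_eq_zero_iff {x : V} : h.pr x = 0 ↔ x ∈ D₁ :=
  Submodule.projection_apply_eq_zero_iff h.compl

theorem B_pr_left (x : V) {v : V} (hv : v ∈ D₁) : f.B (h.pr x) v = f.B x v := by
  have := h.ts₁.2 _ (h.sub_pr_mem x) v hv
  rw [f.B_sub_left] at this
  linear_combination -this

theorem B_sub_pr {u : V} (hu : u ∈ D₀) (x : V) : f.B u (x - h.pr x) = f.B u x := by
  rw [f.B_sub_right, h.ts₀.2 u hu _ (h.pr_mem x), sub_zero]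

variable [FiniteDimensional F V] (hf : f.Nondeg)
include hf

theorem finrank_eq : finrank F D₁ = finrank F D₀ := by
  have h1 := h.ts₀.two_mul_finrank_le hf
  have h2 := h.ts₁.two_mul_finrank_le hf
  have h3 := Submodule.finrank_add_eq_of_isCompl h.compl
  omega

theorem exists_dual {H : Submodule F V} (hH : H ≤ D₀) {x : V} (hx : x ∈ D₀) (hxH : x ∉ H) (c : F) :
    ∃ v ∈ D₁, (∀ w ∈ H, f.B w v = 0) ∧ f.B x v = c := by
  obtain ⟨t, ht, ht'⟩ := hf.exists_perp_eq' hxH c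
  exact ⟨t - h.pr t, h.sub_pr_mem t, fun w hw => by rw [h.B_sub_pr (hH hw), ht w hw],
    by rw [h.B_sub_pr hx, ht']⟩

theorem exists_isHyp {κ : Type*} [Fintype κ] [DecidableEq κ]
    (hκ : finrank F D₀ = Fintype.card κ) :
    ∃ e e' : κ → V, f.IsHyp e e' ∧ Submodule.span F (Set.range e) = D₀ ∧
      Submodule.span F (Set.range e') = D₁ := by
  let b := (Module.finBasisOfFinrankEq F D₀ hκ).reindex (Fintype.equivFin κ).symm
  have hli : LinearIndependent F fun i => (b i : V) :=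
    b.linearIndependent.map' D₀.subtype D₀.ker_subtype
  have hex : ∀ j, ∃ v ∈ D₁, ∀ i, f.B (b i) v = if i = j then 1 else 0 := by
    intro j
    obtain ⟨t, ht⟩ := hf.exists_B_eq_family' hli fun i => if i = j then 1 else 0
    exact ⟨t - h.pr t, h.sub_pr_mem t, fun i => by rw [h.B_sub_pr (b i).2, ht]⟩
  choose e' he' he'' using hex
  have hyp : f.IsHyp (fun i => (b i : V)) e' :=
    ⟨fun i => h.ts₀.1 _ (b i).2, fun i => h.ts₁.1 _ (he' i),
      fun i j => h.ts₀.2 _ (b i).2 _ (b j).2, fun i j => h.ts₁.2 _ (he' i) _ (he' j),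
      fun i j => he'' j i⟩
  refine ⟨_, e', hyp, ?_, ?_⟩
  · apply Submodule.eq_of_le_of_finrank_eq
    · rw [Submodule.span_le]; rintro _ ⟨i, rfl⟩; exact (b i).2
    · rw [finrank_span_eq_card hli, hκ]
  · apply Submodule.eq_of_le_of_finrank_eq
    · rw [Submodule.span_le]; rintro _ ⟨i, rfl⟩; exact he' i
    · rw [finrank_span_eq_card hyp.linearIndependent_right, h.finrank_eq hf, hκ]

omit h hf [FiniteDimensional F V] in
theorem swap_of_span {ι : Type*} {X Y : ι → Submodule F V} (hX : iSup X = D₀) (hY : iSup Y = D₁)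
    {g : V ≃ₗ[F] V} (h1 : ∀ i, ∀ x ∈ X i, g x ∈ Y i) : ∀ x ∈ D₀, g x ∈ D₁ := by
  have : D₀ ≤ D₁.comap (g : V →ₗ[F] V) := by
    rw [← hX]
    exact iSup_le fun i x hx => (hY ▸ le_iSup Y i : Y i ≤ D₁) (h1 i x hx)
  exact this

/-- A swap inside `E` when there are transvections. -/
theorem exists_E_swap_of_π {a : F} (ha0 : a ≠ 0) (ha : T.π a = 0) :
    ∃ s ∈ f.E, (∀ x ∈ D₀, s x ∈ D₁) ∧ ∀ y ∈ D₁, s y ∈ D₀ := by
  obtain ⟨e, e', hyp, he, he'⟩ := h.exists_isHyp hf (κ := Fin (finrank F D₀)) (by simp)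
  have hσa : T.σ a = -(T.ε * a) := by
    have := T.π_ker a ha
    have h2 := T.εε
    linear_combination T.ε * this - T.σ a * h2
  set b := -(T.ε * a⁻¹) with hb
  have hb' : T.π b = 0 := by
    have := T.π_norm a⁻¹ a
    rw [ha, mul_zero, map_inv₀, hσa, inv_mul_cancel_right₀ ha0] at this
    rw [← this, hb]
    congr 1
    rcases T.ε_eq with h | h <;> simp [h, inv_neg]
  have hab : T.ε * a * b = -1 := by
    rw [hb]
    have h2 := T.εε
    field_simp
    linear_combination -h2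
  obtain ⟨g, hg, h1, h2⟩ := exists_swap_of_blocks f.E (fun i => F ∙ e i) (fun i => F ∙ e' i)
    (fun i => f.ei (e i) 0 a * f.ei (e' i) 0 b * f.ei (e i) 0 a)
    (fun i => f.E.mul_mem (f.E.mul_mem (ei_mem_E _ _ _) (ei_mem_E _ _ _)) (ei_mem_E _ _ _))
    (fun i x hx => by
      obtain ⟨c, rfl⟩ := Submodule.mem_span_singleton.1 hx
      rw [map_smul]
      refine Submodule.smul_mem _ c (Submodule.mem_span_singleton.2 ⟨-b, ?_⟩)
      simp only [LinearEquiv.mul_apply, ei_zero_apply (hyp.q_left i) ha,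
        ei_zero_apply (hyp.q_right i) hb', map_sub, map_smul, hyp.B_left, hyp.B_self,
        hyp.B_self', mul_zero, zero_smul, sub_zero]
      have h2 := T.εε
      match_scalars
      · linear_combination b * h2
      · linear_combination -hab - T.ε * a * b * h2)
    (fun i x hx => by
      obtain ⟨c, rfl⟩ := Submodule.mem_span_singleton.1 hx
      rw [map_smul]
      refine Submodule.smul_mem _ c (Submodule.mem_span_singleton.2 ⟨-(T.ε * a), ?_⟩)
      simp only [LinearEquiv.mul_apply, ei_zero_apply (hyp.q_left i) ha,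
        ei_zero_apply (hyp.q_right i) hb', map_sub, map_smul, hyp.B_left, hyp.B_self,
        hyp.B_right, hyp.B_self', mul_zero, zero_smul, sub_zero]
      have h2 := T.εε
      match_scalars
      · linear_combination (T.ε * a) * hab + T.ε * a * T.ε * a * b * h2
      · linear_combination -hab - T.ε * a * b * h2)
    (fun i j hij x hx => by
      obtain ⟨c, rfl⟩ := Submodule.mem_span_singleton.1 hx
      rw [map_smul]
      simp only [LinearEquiv.mul_apply, ei_zero_apply (hyp.q_left i) ha,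
        ei_zero_apply (hyp.q_right i) hb', hyp.B_left, hyp.B_ne' hij, mul_zero, zero_smul,
        sub_zero])
    (fun i j hij x hx => by
      obtain ⟨c, rfl⟩ := Submodule.mem_span_singleton.1 hx
      rw [map_smul]
      simp only [LinearEquiv.mul_apply, ei_zero_apply (hyp.q_left i) ha,
        ei_zero_apply (hyp.q_right i) hb', hyp.B_right, hyp.B_ne hij, mul_zero, zero_smul,
        sub_zero])
  have e1 : (⨆ i, F ∙ e i) = D₀ := Submodule.span_range_eq_iSup.symm.trans he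
  have e2 : (⨆ i, F ∙ e' i) = D₁ := Submodule.span_range_eq_iSup.symm.trans he'
  exact ⟨g, hg, swap_of_span e1 e2 h1, swap_of_span e2 e1 h2⟩

/-- A swap inside `E` when the subspaces have even dimension. -/
theorem exists_E_swap_of_even (hev : Even (finrank F D₀)) :
    ∃ s ∈ f.E, (∀ x ∈ D₀, s x ∈ D₁) ∧ ∀ y ∈ D₁, s y ∈ D₀ := by
  obtain ⟨j, hj⟩ := hev
  obtain ⟨e, e', hyp, he, he'⟩ := h.exists_isHyp hf (κ := Fin j ⊕ Fin j) (by simpa using hj)
  have ok : ∀ i, f.EichOK (e (.inl i)) (e (.inr i)) 0 := fun i =>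
    ⟨hyp.q_left _, hyp.B_left _ _, by rw [map_zero, hyp.q_left]⟩
  have ok' : ∀ i, f.EichOK (e' (.inl i)) (e' (.inr i)) 0 := fun i =>
    ⟨hyp.q_right _, hyp.B_right _ _, by rw [map_zero, hyp.q_right]⟩
  have hε := T.εε
  obtain ⟨g, hg, h1, h2⟩ := exists_swap_of_blocks f.E
    (fun i => Submodule.span F {e (.inl i), e (.inr i)})
    (fun i => Submodule.span F {e' (.inl i), e' (.inr i)})
    (fun i => f.ei (e (.inl i)) (e (.inr i)) 0 * f.ei (e' (.inl i)) (e' (.inr i)) 0 *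
      f.ei (e (.inl i)) (e (.inr i)) 0)
    (fun i => f.E.mul_mem (f.E.mul_mem (ei_mem_E _ _ _) (ei_mem_E _ _ _)) (ei_mem_E _ _ _))
    (fun i x hx => by
      obtain ⟨c, d, rfl⟩ := Submodule.mem_span_pair.1 hx
      refine Submodule.mem_span_pair.2 ⟨-d, c * T.ε, ?_⟩
      simp only [LinearEquiv.mul_apply, (ok i).ei_apply, (ok' i).ei_apply, map_sub, map_smul,
        map_add, hyp.B_left, hyp.B_pair, hyp.B_pair']
      simp
      match_scalars
      · linear_combination d * hε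
      · ring
      · linear_combination c * hε
      · linear_combination d * hε)
    (fun i x hx => by
      obtain ⟨c, d, rfl⟩ := Submodule.mem_span_pair.1 hx
      refine Submodule.mem_span_pair.2 ⟨-(d * T.ε), c, ?_⟩
      simp only [LinearEquiv.mul_apply, (ok i).ei_apply, (ok' i).ei_apply, map_sub, map_smul,
        map_add, hyp.B_left, hyp.B_right, hyp.B_pair, hyp.B_pair']
      simp
      match_scalars
      · linear_combination -d * T.ε * hε
      · linear_combination c * hε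
      · linear_combination c * hε
      · linear_combination d * hε)
    (fun i j hij x hx => by
      obtain ⟨c, d, rfl⟩ := Submodule.mem_span_pair.1 hx
      simp [LinearEquiv.mul_apply, (ok i).ei_apply, (ok' i).ei_apply, hyp.B_left, hyp.B_pair', hij])
    (fun i j hij x hx => by
      obtain ⟨c, d, rfl⟩ := Submodule.mem_span_pair.1 hx
      simp [LinearEquiv.mul_apply, (ok i).ei_apply, (ok' i).ei_apply, hyp.B_right, hyp.B_pair, hij])
  have e0 : ∀ e : Fin j ⊕ Fin j → V, (⨆ i, Submodule.span F {e (.inl i), e (.inr i)}) =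
      Submodule.span F (Set.range e) := by
    intro e
    rw [← Submodule.span_iUnion]
    congr 1
    ext v
    simp only [Set.mem_iUnion, Set.mem_insert_iff, Set.mem_singleton_iff, Set.mem_range, Sum.exists]
    constructor
    · rintro ⟨i, rfl | rfl⟩
      exacts [Or.inl ⟨i, rfl⟩, Or.inr ⟨i, rfl⟩]
    · rintro (⟨i, rfl⟩ | ⟨i, rfl⟩)
      exacts [⟨i, Or.inl rfl⟩, ⟨i, Or.inr rfl⟩]
  exact ⟨g, hg, swap_of_span ((e0 e).trans he) ((e0 e').trans he') h1,
    swap_of_span ((e0 e').trans he') ((e0 e).trans he) h2⟩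

omit hf [FiniteDimensional F V] in
theorem hM_symm (hM : ∀ u ∈ D₀, ∀ v ∈ D₁, f.B u v = 0 → f.ei u v 0 ∈ K) :
    ∀ v ∈ D₁, ∀ u ∈ D₀, f.B v u = 0 → f.ei v u 0 ∈ K := by
  intro v hv u hu huv
  rw [ei_swap (h.ts₁.1 v hv) (h.ts₀.1 u hu) huv]
  exact hM u hu _ (D₁.smul_mem _ hv) (by rw [f.B_smul_right, f.B_eq_zero_symm huv, mul_zero])

omit hf [FiniteDimensional F V] in
theorem ok {u v : V} (hu : u ∈ D₀) (hv : v ∈ D₁) (huv : f.B u v = 0) : f.EichOK u v 0 :=
  ⟨h.ts₀.1 u hu, huv, by rw [map_zero, h.ts₁.1 v hv]⟩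

theorem exists_notMem (h3 : 3 ≤ finrank F D₀) (x y : V) :
    ∃ z ∈ D₀, z ∉ Submodule.span F {x, y} := by
  by_contra! H
  have h1 := Submodule.finrank_mono (show D₀ ≤ Submodule.span F {x, y} from H)
  have h2 := finrank_span_pair_le (F := F) x y
  omega

/-- One new vector of `D₀` in the radical gives the whole unipotent radical. -/
theorem U_le_of_rad (h3 : 3 ≤ finrank F D₀) (hπ : ∀ a, T.π a = 0 → ∃ c, a = c - T.ε * T.σ c)
    (hM : ∀ u ∈ D₀, ∀ v ∈ D₁, f.B u v = 0 → f.ei u v 0 ∈ K) {u w : V} (hu : u ∈ D₀) (hu0 : u ≠ 0)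
    (hw : w ∈ D₀) (hwu : w ∉ F ∙ u) (hr : Rad f K u w) : f.U u ≤ K := by
  have r1 : ∀ v ∈ D₁, f.B u v = 0 → Rad f K u v := fun v hv huv =>
    ⟨0, h.ok hu hv huv, hM u hu v hv huv⟩
  have r2 : ∀ z ∈ D₀, z ∉ Submodule.span F {u, w} → Rad f K u z := by
    intro z hz hz'
    have hwz : w ∉ Submodule.span F {u, z} := by
      intro hw'
      obtain ⟨a, b, rfl⟩ := Submodule.mem_span_pair.1 hw'
      have hb : b ≠ 0 := by
        rintro rfl
        exact hwu (Submodule.mem_span_singleton.2 ⟨a, by simp⟩)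
      exact hz' (Submodule.mem_span_pair.2 ⟨-(a / b), b⁻¹, by match_scalars <;> field_simp <;> ring⟩)
    obtain ⟨v, hv, hv1, hv2⟩ := h.exists_dual hf (H := Submodule.span F {u, z})
      (by rw [Submodule.span_le]; rintro _ (rfl | rfl); exacts [hu, hz]) hw hwz (-1)
    have huv : f.B u v = 0 := hv1 u (Submodule.subset_span (by simp))
    have hzv : f.B z v = 0 := hv1 z (Submodule.subset_span (by simp))
    have ok := h.ok hz hv hzv
    have := hr.sub_fix (hM z hz v hv hzv) (ei_mem_O _ _ _)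
      (ok.ei_apply_fix (h.ts₀.2 z hz u hu) (f.B_eq_zero_symm huv))
    rw [ok.ei_apply_of_perp (h.ts₀.2 z hz w hw), f.symm, hv2, T.ε_mul_ε_mul] at this
    simpa using this
  have r3 : ∀ z ∈ D₀, Rad f K u z := by
    intro z hz
    by_cases hz' : z ∈ Submodule.span F {u, w}
    · obtain ⟨z', hz1, hz2⟩ := h.exists_notMem hf h3 u w
      have := (r2 (z + z') (D₀.add_mem hz hz1) fun h' => hz2 (by
        simpa using Submodule.sub_mem _ h' hz')).sub (r2 z' hz1 hz2)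
      simpa using this
    · exact r2 z hz hz'
  have r4 : ∀ z, f.B u z = 0 → Rad f K u z := by
    intro z hz
    have := (r3 _ (h.pr_mem z)).add (r1 _ (h.sub_pr_mem z) (by rw [h.B_sub_pr hu, hz]))
    simpa using this
  refine CL.Root.U_le_of_rad (fun a ha => ?_) r4
  obtain ⟨c, rfl⟩ := hπ a ha
  obtain ⟨v, hv, hv1, hv2⟩ := h.exists_dual hf (H := F ∙ u)
    ((Submodule.span_singleton_le_iff_mem u D₀).2 hu) hw hwu c
  have := (r3 w hw).comm (r1 v hv (hv1 u (Submodule.mem_span_singleton_self u)))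
  rwa [f.symm w v, hv2] at this

theorem E_le_of_U (hKO : K ≤ f.O) (hM : ∀ u ∈ D₀, ∀ v ∈ D₁, f.B u v = 0 → f.ei u v 0 ∈ K)
    {s : V ≃ₗ[F] V} (hs : s ∈ K) (hs' : ∀ x ∈ D₀, s x ∈ D₁) {u : V} (hu : u ∈ D₀) (hu0 : u ≠ 0)
    (hU : f.U u ≤ K) : f.E ≤ K := by
  have hU' : f.U (s u) ≤ K := U_apply_le hU (hKO hs) hs
  have hsu := hs' u hu
  by_cases hB : f.B u (s u) = 0
  swap
  · exact hf.E_le_of_B_ne (h.ts₀.1 u hu) (h.ts₁.1 _ hsu) hB hU hU'
  obtain ⟨z, hz, -, hz'⟩ := h.symm.exists_dual hf (H := ⊥) bot_le hsu (by simpa using hu0) 1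
  have huz : u ∉ F ∙ z := by
    intro h'
    obtain ⟨c, rfl⟩ := Submodule.mem_span_singleton.1 h'
    have := f.B_eq_zero_symm hB
    rw [f.B_smul_right, hz', mul_one] at this
    exact hu0 (by rw [this, zero_smul])
  obtain ⟨v, hv, hv1, hv2⟩ := h.exists_dual hf (H := F ∙ z)
    ((Submodule.span_singleton_le_iff_mem z D₀).2 hz) hu huz (-1)
  have hzv : f.B z v = 0 := hv1 z (Submodule.mem_span_singleton_self z)
  have ok := h.ok hz hv hzv
  have h1 := U_apply_le hU (ei_mem_O z v 0) (hM z hz v hv hzv)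
  rw [ok.ei_apply_of_perp (h.ts₀.2 z hz u hu), f.symm, hv2, T.ε_mul_ε_mul] at h1
  refine hf.E_le_of_B_ne (h.ts₁.1 _ hsu) (h.ts₀.1 _ (D₀.sub_mem hu (D₀.smul_mem _ hz))) ?_ hU' h1
  rw [f.B_sub_right, f.B_smul_right, hz', f.B_eq_zero_symm hB]
  simp

/-- Either `K` contains `E`, or the components in `D₀` of a conjugate root are dependent. -/
theorem E_le_or_dep (h5 : 5 ≤ finrank F D₀) (hπ : ∀ a, T.π a = 0 → ∃ c, a = c - T.ε * T.σ c)
    (hKO : K ≤ f.O) (hM : ∀ u ∈ D₀, ∀ v ∈ D₁, f.B u v = 0 → f.ei u v 0 ∈ K)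
    {s : V ≃ₗ[F] V} (hs : s ∈ K) (hs' : ∀ x ∈ D₀, s x ∈ D₁) {a b : V} (hab : f.EichOK a b 0)
    (hK : f.ei a b 0 ∈ K) : f.E ≤ K ∨ h.pr a = 0 ∨ h.pr b ∈ F ∙ h.pr a := by
  by_contra! H
  obtain ⟨H1, H2, H3⟩ := H
  apply H1
  obtain ⟨u, hu, hu'⟩ : ∃ u ∈ D₀ ⊓ f.perp (Submodule.span F {a, b}),
      u ∉ Submodule.span F {h.pr a, h.pr b} := by
    by_contra! H
    have h1 := Submodule.finrank_mono (show D₀ ⊓ f.perp (Submodule.span F {a, b}) ≤ _ from H)
    have h2 := finrank_span_pair_le (F := F) (h.pr a) (h.pr b)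
    have h3 := finrank_span_pair_le (F := F) a b
    have h4 := hf.finrank_add_finrank_perp (Submodule.span F {a, b})
    have h6 := Submodule.finrank_sup_add_finrank_inf_eq D₀ (f.perp (Submodule.span F {a, b}))
    have h7 := Submodule.finrank_le (D₀ ⊔ f.perp (Submodule.span F {a, b}))
    omega
  obtain ⟨huD, hup⟩ := hu
  obtain ⟨hau, hbu⟩ := f.mem_perp_span_pair.1 hup
  have hu0 : u ≠ 0 := by rintro rfl; exact hu' (Submodule.zero_mem _)
  have hau' : h.pr a ∉ F ∙ u := by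
    intro h'
    obtain ⟨c, hc⟩ := Submodule.mem_span_singleton.1 h'
    have hc0 : c ≠ 0 := by rintro rfl; exact H2 (by simpa using hc.symm)
    exact hu' (Submodule.mem_span_pair.2 ⟨c⁻¹, 0, by rw [← hc, smul_smul, inv_mul_cancel₀ hc0]; simp⟩)
  obtain ⟨v, hv, hv1, hv2⟩ := h.exists_dual hf (H := F ∙ u)
    ((Submodule.span_singleton_le_iff_mem u D₀).2 huD) (h.pr_mem a) hau' 1
  have huv : f.B u v = 0 := hv1 u (Submodule.mem_span_singleton_self u)
  rw [h.B_pr_left a hv] at hv2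
  have r0 : Rad f K u v := ⟨0, h.ok huD hv huv, hM u huD v hv huv⟩
  have r1 := r0.sub_fix hK (ei_mem_O _ _ _) (hab.ei_apply_fix hau hbu)
  set w := f.ei a b 0 v - v with hw
  have r2 : Rad f K u (w - h.pr w) :=
    ⟨0, h.ok huD (h.sub_pr_mem w) (by rw [h.B_sub_pr huD, r1.B_eq]),
      hM u huD _ (h.sub_pr_mem w) (by rw [h.B_sub_pr huD, r1.B_eq])⟩
  have r3 := r1.sub r2
  rw [sub_sub_cancel] at r3
  have e : h.pr w = h.pr b - (T.ε * f.B b v) • h.pr a := by
    rw [hw, hab.ei_apply, hv2]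
    simp only [map_sub, map_add, map_smul]
    module
  refine h.E_le_of_U hf hKO hM hs hs' huD hu0
    (h.U_le_of_rad hf (by omega) hπ hM huD hu0 (h.pr_mem w) (fun h' => ?_) r3)
  obtain ⟨c, hc⟩ := Submodule.mem_span_singleton.1 h'
  rw [e] at hc
  by_cases hc0 : c = 0
  · apply H3
    rw [hc0, zero_smul, eq_comm, sub_eq_zero] at hc
    exact Submodule.mem_span_singleton.2 ⟨_, hc.symm⟩
  · apply hu'
    refine Submodule.mem_span_pair.2 ⟨-(c⁻¹ * (T.ε * f.B b v)), c⁻¹, ?_⟩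
    have : u = c⁻¹ • (c • u) := by rw [smul_smul, inv_mul_cancel₀ hc0, one_smul]
    rw [this, hc]
    module

/-- The rank argument. -/
theorem map_le_or (h5 : 5 ≤ finrank F D₀) {g : V ≃ₗ[F] V}
    (H : ∀ u ∈ D₀, ∀ v ∈ D₁, f.B u v = 0 → h.pr (g u) = 0 ∨ h.pr (g v) ∈ F ∙ h.pr (g u)) :
    (∀ u ∈ D₀, g u ∈ D₁) ∨ ∀ v ∈ D₁, g v ∈ D₁ := by
  by_contra! H'
  obtain ⟨⟨u₀, hu₀, hu₀'⟩, v₀, hv₀, hv₀'⟩ := H'
  rw [← h.pr_eq_zero_iff] at hu₀' hv₀'
  obtain ⟨v₂, hv₂, -, hv₂'⟩ := h.exists_dual hf (H := ⊥) bot_le hu₀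
    (by rintro rfl; simp at hu₀') 1
  obtain ⟨u₂, hu₂, -, hu₂'⟩ := h.symm.exists_dual hf (H := ⊥) bot_le hv₀
    (by rintro rfl; simp at hv₀') 1
  set S := Submodule.span F {h.pr (g u₀), h.pr (g v₂), h.pr (g v₀), h.pr (g u₂)} with hS
  have m1 : h.pr (g u₀) ∈ S := Submodule.subset_span (by simp)
  have m2 : h.pr (g v₂) ∈ S := Submodule.subset_span (by simp)
  have m3 : h.pr (g v₀) ∈ S := Submodule.subset_span (by simp)
  have m4 : h.pr (g u₂) ∈ S := Submodule.subset_span (by simp)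
  have a1 : ∀ v ∈ D₁, h.pr (g v) ∈ S := by
    intro v hv
    rcases H u₀ hu₀ (v - f.B u₀ v • v₂) (D₁.sub_mem hv (D₁.smul_mem _ hv₂))
      (by rw [f.B_sub_right, f.B_smul_right, hv₂']; simp) with h1 | h1
    · exact absurd h1 hu₀'
    · obtain ⟨c, hc⟩ := Submodule.mem_span_singleton.1 h1
      rw [map_sub, map_sub, map_smul, map_smul, eq_sub_iff_add_eq] at hc
      rw [← hc]
      exact S.add_mem (S.smul_mem _ m1) (S.smul_mem _ m2)
  have a2 : ∀ u ∈ D₀, h.pr (g u) ∈ S := by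
    intro u hu
    have : h.pr (g (u - f.B v₀ u • u₂)) ∈ S := by
      rcases H (u - f.B v₀ u • u₂) (D₀.sub_mem hu (D₀.smul_mem _ hu₂)) v₀ hv₀
        (f.B_eq_zero_symm (by rw [f.B_sub_right, f.B_smul_right, hu₂']; simp)) with h1 | h1
      · rw [h1]; exact S.zero_mem
      · obtain ⟨c, hc⟩ := Submodule.mem_span_singleton.1 h1
        have hc0 : c ≠ 0 := by rintro rfl; exact hv₀' (by simpa using hc.symm)
        have := S.smul_mem c⁻¹ m3
        rwa [← hc, smul_smul, inv_mul_cancel₀ hc0, one_smul] at this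
    rw [map_sub, map_sub, map_smul, map_smul] at this
    simpa using S.add_mem this (S.smul_mem (f.B v₀ u) m4)
  have hle : D₀ ≤ S := by
    intro x hx
    have := S.add_mem (a2 _ (h.pr_mem (g.symm x))) (a1 _ (h.sub_pr_mem (g.symm x)))
    rwa [← map_add, ← map_add, add_sub_cancel, LinearEquiv.apply_symm_apply, h.pr_of_mem hx] at this
  have h1 := Submodule.finrank_mono hle
  have h2 := finrank_span_four_le (F := F) (h.pr (g u₀)) (h.pr (g v₂)) (h.pr (g v₀)) (h.pr (g u₂))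
  rw [← hS] at h2
  omega

/-- Overgroups of the stabiliser of the pair. -/
theorem E_le_of_lt (h5 : 5 ≤ finrank F D₀) (hπ : ∀ a, T.π a = 0 → ∃ c, a = c - T.ε * T.σ c)
    (hKO : K ≤ f.O) (hM : ∀ u ∈ D₀, ∀ v ∈ D₁, f.B u v = 0 → f.ei u v 0 ∈ K)
    {s : V ≃ₗ[F] V} (hs : s ∈ K) (hs₀ : ∀ x ∈ D₀, s x ∈ D₁) (hs₁ : ∀ x ∈ D₁, s x ∈ D₀)
    {g : V ≃ₗ[F] V} (hg : g ∈ K) :
    f.E ≤ K ∨ ((∀ x ∈ D₀, g x ∈ D₀) ∧ ∀ x ∈ D₁, g x ∈ D₁) ∨
      ((∀ x ∈ D₀, g x ∈ D₁) ∧ ∀ x ∈ D₁, g x ∈ D₀) := by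
  by_cases hE : f.E ≤ K
  · exact Or.inl hE
  right
  have h5' : 5 ≤ finrank F D₁ := by rw [h.finrank_eq hf]; exact h5
  have conj : ∀ a b, f.EichOK a b 0 → f.ei a b 0 ∈ K → f.ei (g a) (g b) 0 ∈ K := fun a b ok hK => by
    rw [← ok.conj_ei (hKO hg)]
    exact K.mul_mem (K.mul_mem hg hK) (K.inv_mem hg)
  have c1 := h.map_le_or hf h5 (g := g) fun u hu v hv huv =>
    (h.E_le_or_dep hf h5 hπ hKO hM hs hs₀ ((h.ok hu hv huv).map (hKO hg))
      (conj u v (h.ok hu hv huv) (hM u hu v hv huv))).resolve_left hE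
  have c2 := h.symm.map_le_or hf h5' (g := g) fun u hu v hv huv =>
    (h.symm.E_le_or_dep hf h5' hπ hKO (h.hM_symm hM) hs hs₁ ((h.symm.ok hu hv huv).map (hKO hg))
      (conj u v (h.symm.ok hu hv huv) (h.hM_symm hM u hu v hv huv))).resolve_left hE
  have hne : ∀ D : Submodule F V, 0 < finrank F D → (∀ x ∈ D, g x ∈ D₀) → (∀ x ∈ D, g x ∈ D₁) →
      False := by
    intro D hD a1 a2
    have : D = ⊥ := by
      rw [eq_bot_iff]
      intro x hx
      have := Submodule.disjoint_def.1 h.compl.disjoint _ (a1 x hx) (a2 x hx)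
      simpa using this
    rw [this, finrank_bot] at hD
    exact lt_irrefl _ hD
  rcases c1 with c1 | c1 <;> rcases c2 with c2 | c2
  · exact Or.inr ⟨c1, c2⟩
  · exact (hne D₀ (by omega) c2 c1).elim
  · exact (hne D₁ (by omega) c2 c1).elim
  · exact Or.inl ⟨c2, c1⟩

/-- Some root element does not stabilise the pair. -/
theorem exists_E_not_stab (h3 : 3 ≤ finrank F D₀) :
    ∃ g ∈ f.E, ∃ x ∈ D₁, g x ∉ D₀ ∧ g x ∉ D₁ := by
  obtain ⟨u, hu, hu'⟩ := h.exists_notMem hf h3 0 0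
  obtain ⟨w, hw, hw'⟩ := h.exists_notMem hf h3 u u
  have hu0 : u ∉ F ∙ w := by
    intro h'
    obtain ⟨c, rfl⟩ := Submodule.mem_span_singleton.1 h'
    have hc0 : c ≠ 0 := by rintro rfl; simp at hu'
    exact hw' (Submodule.mem_span_pair.2 ⟨c⁻¹, 0, by rw [smul_smul, inv_mul_cancel₀ hc0]; simp⟩)
  obtain ⟨v, hv, hv1, hv2⟩ := h.exists_dual hf (H := F ∙ w)
    ((Submodule.span_singleton_le_iff_mem w D₀).2 hw) hu hu0 1
  have ok : f.EichOK u w 0 := ⟨h.ts₀.1 u hu, h.ts₀.2 u hu w hw, by rw [map_zero, h.ts₀.1 w hw]⟩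
  have e : f.ei u w 0 v = v + w := by
    rw [ok.ei_apply, hv2, hv1 w (Submodule.mem_span_singleton_self w)]; simp
  refine ⟨_, ei_mem_E u w 0, v, hv, fun h' => ?_, fun h' => ?_⟩
  · rw [e] at h'
    have : v ∈ D₀ := by simpa using D₀.sub_mem h' hw
    rw [h.ts₀.2 u hu v this] at hv2
    exact zero_ne_one hv2
  · rw [e] at h'
    have : w ∈ D₁ := by simpa using D₁.sub_mem h' hv
    rw [Submodule.disjoint_def.1 h.compl.disjoint w hw this] at hw'
    exact hw' (Submodule.zero_mem _)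

end TSPair

section Geo

open Cfsg Cfsg.Geo

variable {ι : Type} [Fintype ι] [DecidableEq ι]

theorem isCompl_of_decomp {m : ℕ} {D : Fin 2 → Submodule F (ι → F)} (hD : IsMDecomposition m D) :
    IsCompl (D 0) (D 1) := by
  refine ⟨hD.indep.pairwiseDisjoint (by decide : (0 : Fin 2) ≠ 1), codisjoint_iff.2 ?_⟩
  rw [← hD.iSup_eq_top]
  apply le_antisymm (sup_le (le_iSup D 0) (le_iSup D 1))
  refine iSup_le fun i => ?_
  fin_cases i
  exacts [le_sup_left, le_sup_right]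

theorem map_eq_of_mem {W W' : Submodule F (ι → F)} (h : finrank F W = finrank F W')
    {g : (ι → F) ≃ₗ[F] (ι → F)} (hg : ∀ x ∈ W, g x ∈ W') :
    W.map (g : (ι → F) →ₗ[F] (ι → F)) = W' := by
  apply Submodule.eq_of_le_of_finrank_eq
  · rintro _ ⟨x, hx, rfl⟩; exact hg x hx
  · rw [LinearEquiv.finrank_map_eq, h]

theorem mem_toE_decomp_two {m : ℕ} {D : Fin 2 → Submodule F (ι → F)} (hD : IsMDecomposition m D)
    {g : (ι → F) ≃ₗ[F] (ι → F)} : g ∈ toE (decompositionStabilizer D) ↔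
      ((∀ x ∈ D 0, g x ∈ D 0) ∧ ∀ x ∈ D 1, g x ∈ D 1) ∨
        ((∀ x ∈ D 0, g x ∈ D 1) ∧ ∀ x ∈ D 1, g x ∈ D 0) := by
  rw [mem_toE_decomp]
  have hr : ∀ i j, finrank F (D i) = finrank F (D j) := fun i j => by
    rw [hD.finrank_eq, hD.finrank_eq]
  constructor
  · rintro ⟨σ, hσ⟩
    have h : ∀ i, ∀ x ∈ D i, g x ∈ D (σ i) := fun i x hx => hσ i ▸ ⟨x, hx, rfl⟩
    have h01 : σ 0 ≠ σ 1 := fun h => absurd (σ.injective h) (by decide)
    have h0 := h 0
    have h1 := h 1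
    generalize σ 0 = a at *
    generalize σ 1 = b at *
    fin_cases a <;> fin_cases b
    · exact absurd rfl h01
    · exact Or.inl ⟨h0, h1⟩
    · exact Or.inr ⟨h0, h1⟩
    · exact absurd rfl h01
  · rintro (⟨h0, h1⟩ | ⟨h0, h1⟩)
    · refine ⟨1, fun i => ?_⟩
      fin_cases i
      exacts [map_eq_of_mem rfl h0, map_eq_of_mem rfl h1]
    · refine ⟨Equiv.swap 0 1, fun i => ?_⟩
      fin_cases i
      exacts [map_eq_of_mem (hr _ _) h0, map_eq_of_mem (hr _ _) h1]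

/-- Maximality of the stabiliser of a pair of totally singular subspaces. -/
theorem isMaximalIn_pair {f : Form T (ι → F)} (hf : f.Nondeg) {L : Subgroup (GL ι F)}
    (hL : ∀ g, g ∈ L ↔ act g ∈ f.E) {m : ℕ} (hm : 5 ≤ m) {D : Fin 2 → Submodule F (ι → F)}
    (hD : IsMDecomposition m D) (hts : ∀ i, f.TotSing (D i))
    (hπ : ∀ a, T.π a = 0 → ∃ c, a = c - T.ε * T.σ c)
    (hs : (∃ a : F, a ≠ 0 ∧ T.π a = 0) ∨ Even m) :
    IsMaximalIn L (decompositionStabilizer D ⊓ L) := by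
  have h : TSPair f (D 0) (D 1) := ⟨hts 0, hts 1, isCompl_of_decomp hD⟩
  have hr := hD.finrank_eq 0
  obtain ⟨s, hsE, hs₀, hs₁⟩ : ∃ s ∈ f.E, (∀ x ∈ D 0, s x ∈ D 1) ∧ ∀ y ∈ D 1, s y ∈ D 0 := by
    rcases hs with ⟨a, ha0, ha⟩ | hs
    · exact h.exists_E_swap_of_π hf ha0 ha
    · exact h.exists_E_swap_of_even hf (hr ▸ hs)
  refine isMaximalIn_of_act hL act_mem_toE (fun H => ?_) ?_
  · obtain ⟨g, hg, x, hx, h0, h1⟩ := h.exists_E_not_stab hf (by omega)
    rcases (mem_toE_decomp_two hD).1 (H hg) with h2 | h2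
    exacts [h1 (h2.2 x hx), h0 (h2.2 x hx)]
  rintro K h1 h2 ⟨g, hg, hg'⟩
  refine (h.E_le_of_lt hf (by omega) hπ (h2.trans E_le_O) (fun u hu v hv huv => ?_)
    (h1 ⟨(mem_toE_decomp_two hD).2 (Or.inr ⟨hs₀, hs₁⟩), hsE⟩) hs₀ hs₁ hg).resolve_right
    fun h' => hg' ((mem_toE_decomp_two hD).2 h')
  have ok := h.ok hu hv huv
  refine h1 ⟨(mem_toE_decomp_two hD).2 (Or.inl ⟨fun x hx => ?_, fun x hx => ?_⟩), ei_mem_E _ _ _⟩
  · rw [ok.ei_apply_of_perp (h.ts₀.2 u hu x hx)]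
    exact (D 0).sub_mem hx ((D 0).smul_mem _ hu)
  · rw [ok.ei_apply, h.ts₁.2 v hv x hx]
    simpa using (D 1).add_mem hx ((D 1).smul_mem _ hv)

end Geo

end CL.Root
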