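/-
Counting subspaces of symplectic and unitary spaces, duality data, involutions and unipotent
isometries.
-/
import Mathlib
import Cfsg.Agent.CLAS.Elus5
import Cfsg.Agent.CLAS.MaxPair
import Cfsg.Agent.CLAS.UniOrd

set_option autoImplicit false

namespace CL.Elus

open Module Polynomial CL.GLn CL.SpU CL.Witt CL.Witt.Form CL.PrimeCl CL.Root

variable {F : Type*} [Field F] {T : FormType F} {V : Type*} [AddCommGroup V] [Module F V]
  {V' : Type*} [AddCommGroup V'] [Module F V'] {f : Form T V} {A : Module.End F V}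

/-! ### Hyperbolic subspaces -/

/-- Every non-degenerate subspace of dimension at least two has a singular vector. -/
def Iso (f : Form T V) : Prop :=
  ∀ W, ND f W → 2 ≤ finrank F W → ∃ v ∈ W, v ≠ 0 ∧ f.q v = 0

/-- Non-degenerate subspaces of the same dimension are isometric. -/
def Tr (f : Form T V) : Prop :=
  ∀ U W, ND f U → ND f W → finrank F U = finrank F W →
    ∃ e : U ≃ₗ[F] W, IsIsom (f.restrict U) (f.restrict W) e

section Hyp

variable [FiniteDimensional F V]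

theorem iso_alt (f : Form (FormType.alt F) V) : Iso f := fun W _ h => by
  obtain ⟨v, hv, h0⟩ := Submodule.exists_mem_ne_zero_of_ne_bot (p := W) (by
    rintro rfl; simp at h)
  exact ⟨v, hv, h0, f.alt_q v⟩

theorem tr_alt (f : Form (FormType.alt F) V) : Tr f := fun _ _ hU hW h =>
  hU.nondeg.exists_isIsom_alt hW.nondeg h

theorem Iso.exists_isHyp (hI : Iso f) {W : Submodule F V} (hW : ND f W) {k : ℕ}
    (hk : 2 * k ≤ finrank F W) :
    ∃ e e' : Fin k → V, f.IsHyp e e' ∧ (∀ i, e i ∈ W) ∧ ∀ i, e' i ∈ W := by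
  obtain ⟨m, e, e', h, h1⟩ := hW.nondeg.exists_witt_decomp
  have h2 : k ≤ m := by
    by_contra! hlt
    have h3 := h.finrank_perp
    obtain ⟨_, ⟨v, hv, rfl⟩, h4, h5⟩ := hI _ (nd_map_subtype (ND.perp hW.nondeg
      (nd_of_nondeg h.restrict_nondeg))) (by rw [finrank_map_subtype, h3]; simp; omega)
    exact h4 (congrArg Subtype.val (h1 v hv h5))
  exact ⟨_, _, (h.comp (Fin.castLE_injective h2)).map (f' := f) (g := W.subtype)
    ⟨fun _ _ => rfl, fun _ => rfl⟩, fun i => (e _).2, fun i => (e' _).2⟩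

theorem Iso.exists_pair (hI : Iso f) {W : Submodule F V} (hW : ND f W) {k : ℕ}
    (hk : 2 * k ≤ finrank F W) : ∃ U U' : Submodule F V, U ≤ W ∧ U' ≤ W ∧ f.TotSing U ∧
      f.TotSing U' ∧ finrank F U = k ∧ ND f (U ⊔ U') ∧
      finrank F (U ⊔ U' : Submodule F V) = 2 * k := by
  obtain ⟨e, e', h, h1, h2⟩ := hI.exists_isHyp hW hk
  have h3 := h.restrict_nondeg
  have h4 := h.finrank_span
  rw [Set.Sum.elim_range, Submodule.span_union] at h3 h4
  exact ⟨_, _, Submodule.span_le.2 (Set.range_subset_iff.2 h1),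
    Submodule.span_le.2 (Set.range_subset_iff.2 h2), h.totSing_left, h.totSing_right,
    by simp [finrank_span_eq_card h.linearIndependent_left], nd_of_nondeg h3, by simpa using h4⟩

theorem Iso.exists_ts (hI : Iso f) {W : Submodule F V} (hW : ND f W) {k : ℕ}
    (hk : 2 * k ≤ finrank F W) : ∃ U ≤ W, f.TotSing U ∧ finrank F U = k := by
  obtain ⟨U, -, h1, -, h2, -, h3, -⟩ := hI.exists_pair hW hk
  exact ⟨U, h1, h2, h3⟩

theorem Iso.exists_nd (hI : Iso f) {W : Submodule F V} (hW : ND f W) {e : ℕ}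
    (he : e ≤ finrank F W) (h2 : 2 ∣ e) : ∃ U ≤ W, ND f U ∧ finrank F U = e := by
  obtain ⟨k, rfl⟩ := h2
  obtain ⟨U, U', h1, h2, -, -, -, h3, h4⟩ := hI.exists_pair hW he
  exact ⟨_, sup_le h1 h2, h3, h4⟩

theorem Iso.exists_sup_eq (hI : Iso f) {W : Submodule F V} (hW : ND f W)
    (h : Even (finrank F W)) : ∃ U U' : Submodule F V, f.TotSing U ∧ f.TotSing U' ∧ U ⊔ U' = W := by
  obtain ⟨k, hk⟩ := h.two_dvd
  obtain ⟨U, U', h1, h2, h3, h4, -, -, h5⟩ := hI.exists_pair hW hk.ge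
  exact ⟨U, U', h3, h4, Submodule.eq_of_le_of_finrank_eq (sup_le h1 h2) (h5.trans hk.symm)⟩

theorem tsPair_of_sup (hf : f.Nondeg) {U W : Submodule F V} (hU : f.TotSing U) (hW : f.TotSing W)
    (h : U ⊔ W = ⊤) : TSPair f U W := by
  refine ⟨hU, hW, ⟨Submodule.disjoint_def.2 fun x hx hx' => hf.right x fun y => ?_,
    codisjoint_iff.2 h⟩⟩
  obtain ⟨u, hu, w, hw, rfl⟩ := Submodule.mem_sup.1 (h ▸ Submodule.mem_top (x := y))
  rw [f.B_add_left, hU.2 u hu x hx, hW.2 w hw x hx', add_zero]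

theorem tsPair_finrank (hf : f.Nondeg) {U W : Submodule F V} (h : TSPair f U W) :
    2 * finrank F U = finrank F V := by
  have := Submodule.finrank_add_eq_of_isCompl h.compl
  rw [h.finrank_eq hf] at this
  omega

theorem tsPair_map {U W : Submodule F V} (h : TSPair f U W) {g : V ≃ₗ[F] V} (hg : g ∈ f.O) :
    TSPair f (mp g U) (mp g W) :=
  ⟨h.ts₀.map hg, h.ts₁.map hg, isCompl_mp g h.compl⟩

theorem tsPair_exists_isHyp (hf : f.Nondeg) {U W : Submodule F V} (h : TSPair f U W)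
    {κ : Type*} [Fintype κ] [DecidableEq κ] (b : Basis κ F U) :
    ∃ e' : κ → V, f.IsHyp (fun i => (b i : V)) e' ∧ Submodule.span F (Set.range e') = W := by
  have hli : LinearIndependent F fun i => (b i : V) :=
    b.linearIndependent.map' U.subtype U.ker_subtype
  have hex : ∀ j, ∃ v ∈ W, ∀ i, f.B (b i) v = if i = j then 1 else 0 := by
    intro j
    obtain ⟨t, ht⟩ := hf.exists_B_eq_family' hli fun i => if i = j then 1 else 0
    exact ⟨t - h.pr t, h.sub_pr_mem t, fun i => by rw [h.B_sub_pr (b i).2, ht]⟩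
  choose e' he' he'' using hex
  have hyp : f.IsHyp (fun i => (b i : V)) e' :=
    ⟨fun i => h.ts₀.1 _ (b i).2, fun i => h.ts₁.1 _ (he' i),
      fun i j => h.ts₀.2 _ (b i).2 _ (b j).2, fun i j => h.ts₁.2 _ (he' i) _ (he' j),
      fun i j => he'' j i⟩
  refine ⟨e', hyp, Submodule.eq_of_le_of_finrank_eq
    (Submodule.span_le.2 (Set.range_subset_iff.2 he')) ?_⟩
  rw [finrank_span_eq_card hyp.linearIndependent_right, h.finrank_eq hf, finrank_eq_card_basis b]

/-- Any isomorphism between the first members of two pairs extends to an isometry. -/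
theorem tsPair_exists_O (hf : f.Nondeg) {U W U' W' : Submodule F V} (h : TSPair f U W)
    (h' : TSPair f U' W') (φ : U ≃ₗ[F] U') :
    ∃ g ∈ f.O, (∀ u : U, g u = φ u) ∧ mp g U = U' ∧ mp g W = W' := by
  classical
  let b := Module.finBasis F U
  obtain ⟨e, h1, h2⟩ := tsPair_exists_isHyp hf h b
  obtain ⟨e', h1', h2'⟩ := tsPair_exists_isHyp hf h' (b.map φ)
  obtain ⟨g, hg, h3, h4⟩ := h1.conj hf h1'
  have h5 : ∀ u : U, g u = φ u := fun u => LinearMap.congr_fun (b.ext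
    (f₁ := (g : V →ₗ[F] V) ∘ₗ U.subtype) (f₂ := U'.subtype ∘ₗ (φ : U →ₗ[F] U')) h3) u
  refine ⟨g, hg, h5, Submodule.eq_of_le_of_finrank_eq ?_ (by rw [finrank_mp, φ.finrank_eq]), ?_⟩
  · rintro _ ⟨u, hu, rfl⟩
    exact (h5 ⟨u, hu⟩).symm ▸ (φ ⟨u, hu⟩).2
  · rw [← h2, ← h2', mp, Submodule.map_span, ← Set.range_comp]
    exact congrArg (fun e => Submodule.span F (Set.range e)) (funext h4)

theorem tsPair_trans (hf : f.Nondeg) {U W U' W' : Submodule F V} (h : TSPair f U W)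
    (h' : TSPair f U' W') : ∃ g ∈ f.O, mp g U = U' ∧ mp g W = W' := by
  have h1 := tsPair_finrank hf h
  have h2 := tsPair_finrank hf h'
  obtain ⟨g, hg, -, h3⟩ := tsPair_exists_O hf h h' (LinearEquiv.ofFinrankEq _ _ (by omega))
  exact ⟨g, hg, h3⟩

/-- An isometry fixing both members of a pair and one of them pointwise is trivial. -/
theorem eq_one_of_tsPair (hf : f.Nondeg) {U W : Submodule F V} (h : TSPair f U W)
    (hA : IsIsom f f A) (hU : ∀ u ∈ U, A u = u) (hW : Inv A W) : A = 1 := by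
  have h1 : ∀ w ∈ W, A w = w := fun w hw => sub_eq_zero.1 (hf.right _ fun y => by
    obtain ⟨u, w', rfl⟩ := exists_add_of_isCompl h.compl y
    rw [f.B_add_left, h.ts₁.2 _ w'.2 _ (W.sub_mem (hW _ hw) hw), f.B_sub_right, add_zero]
    conv_lhs => enter [1]; rw [← hU _ u.2, hA.B_eq]
    exact sub_self _)
  ext y
  obtain ⟨u, w, rfl⟩ := exists_add_of_isCompl h.compl y
  rw [map_add, hU _ u.2, h1 _ w.2, Module.End.one_apply]

/-! ### Counting -/

theorem card_ts_mul [Finite F] (hf : f.Nondeg) (hI : Iso f) {m : ℕ} (hm : 2 * m ≤ finrank F V) :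
    ∃ W, ND f W ∧ finrank F W = finrank F V - 2 * m ∧ Nat.card f.O =
      Nat.card {U : Submodule F V // finrank F U = m ∧ f.TotSing U} *
      ((∏ i : Fin m, (Nat.card F ^ m - Nat.card F ^ (i : ℕ))) *
        (Nat.card F ^ (m * (finrank F V - 2 * m) + m * (m - 1) / 2) * Nat.card T.π.ker ^ m *
        Nat.card (f.restrict W).O)) := by
  obtain ⟨e, e', h, -⟩ := hI.exists_isHyp (nd_top hf) (k := m) (by rwa [finrank_top])
  have h1 := hf.card_O_eq_card_totSing_mul h.totSing_left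
  rw [hf.card_stab_isHyp h, finrank_span_eq_card h.linearIndependent_left, Fintype.card_fin] at h1
  exact ⟨_, (nd_of_nondeg h.restrict_nondeg).perp hf, by simpa using h.finrank_perp, h1⟩

theorem card_nd_mul (hf : f.Nondeg) (hT : Tr f) {W : Submodule F V} (hW : ND f W) :
    Nat.card f.O = Nat.card {U : Submodule F V // finrank F U = finrank F W ∧ ND f U} *
      (Nat.card (f.restrict W).O * Nat.card (f.restrict (f.perp W)).O) := by
  rw [card_O_eq_card_orbit_mul_stab W, Nat.card_congr (f.stabEquivProd hW.isCompl).toEquiv,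
    Nat.card_prod]
  congr 1
  refine Nat.card_congr (Equiv.subtypeEquivRight fun U => ⟨?_, fun h => ?_⟩)
  · rintro ⟨g, hg, rfl⟩
    exact ⟨finrank_mp g W, hW.map (mem_O_B hg)⟩
  · obtain ⟨e, he⟩ := hT W U hW h.2 h.1.symm
    obtain ⟨g, hg, -, h1⟩ := hf.witt_equiv e he
    exact ⟨g, hg, h1⟩

theorem card_pair_mul (hf : f.Nondeg) {U W : Submodule F V} (h : TSPair f U W) :
    Nat.card {P : Submodule F V × Submodule F V // TSPair f P.1 P.2} * Nat.card (U ≃ₗ[F] U) ∣
      Nat.card f.O := by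
  obtain ⟨K, h1, h2⟩ := card_mul_card_stab f.O
    (fun g (P : Submodule F V × Submodule F V) => (mp g P.1, mp g P.2))
    (fun P => by simp only [mp_one]) (fun g g' P => by simp only [mp_mul])
    (fun P => TSPair f P.1 P.2) (fun g hg P hP => tsPair_map hP hg) (fun P P' hP hP' => by
      obtain ⟨g, hg, h1, h2⟩ := tsPair_trans hf hP hP'
      exact ⟨g, hg, Prod.ext h1 h2⟩) (a := (U, W)) h
  rw [h2, ← K.index_mul_card]
  refine Nat.mul_dvd_mul_left _ ?_
  let ψ : K →* f.stab U :=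
    { toFun := fun g => ⟨g.1.1, f.mem_stab_iff_map.2 ⟨g.1.2, congrArg Prod.fst ((h1 g.1).1 g.2)⟩⟩
      map_one' := rfl
      map_mul' := fun _ _ => rfl }
  refine Subgroup.card_dvd_of_surjective ((Subgroup.subtype _).comp ((f.stabRes U).comp ψ))
    fun φ => ?_
  obtain ⟨g, hg, h3, h4, h5⟩ := tsPair_exists_O hf h h φ
  exact ⟨⟨⟨g, hg⟩, (h1 _).2 (Prod.ext h4 h5)⟩, LinearEquiv.ext fun u => Subtype.ext (h3 u)⟩

end Hyp

theorem prod_pow_sub_pow (q k : ℕ) : ∏ i : Fin k, (q ^ k - q ^ (i : ℕ)) =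
    q ^ (k * (k - 1) / 2) * ∏ i ∈ Finset.range k, (q ^ (i + 1) - 1) := by
  rw [Fin.prod_univ_eq_prod_range (fun i => q ^ k - q ^ i), ← Finset.sum_range_id,
    ← Finset.prod_pow_eq_pow_sum, ← Finset.prod_range_reflect (fun i => q ^ (i + 1) - 1),
    ← Finset.prod_mul_distrib]
  refine Finset.prod_congr rfl fun i hi => ?_
  rw [Finset.mem_range] at hi
  rw [Nat.mul_sub, ← pow_add, mul_one, show i + (k - 1 - i + 1) = k by omega]

theorem exists_dvd_of_mul_prod {N X c a b r : ℕ} (hr : r.Prime) {g : ℕ → ℕ} (hg : ∀ i, 0 < g i)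
    (hab : a ≤ b) (h : c * ∏ i ∈ Finset.range b, g i = N * (X * ∏ i ∈ Finset.range a, g i))
    (hN : r ∣ N) (hc : ¬ r ∣ c) : ∃ i, a ≤ i ∧ i < b ∧ r ∣ g i := by
  rw [← Finset.prod_range_mul_prod_Ico g hab, mul_comm (∏ i ∈ Finset.range a, g i), ← mul_assoc,
    ← mul_assoc] at h
  have h1 := Nat.eq_of_mul_eq_mul_right (Finset.prod_pos fun i _ => hg i) h
  obtain ⟨i, h2, h3⟩ := (Prime.dvd_finset_prod_iff hr.prime _).1
    (((Nat.Prime.dvd_mul hr).1 (h1 ▸ hN.mul_right X)).resolve_left hc)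
  exact ⟨i, (Finset.mem_Ico.1 h2).1, (Finset.mem_Ico.1 h2).2, h3⟩

theorem not_dvd_pow_sub_one {r q j : ℕ} (hr : r.Prime) (hq : 0 < q) (h : r ∣ q) (hj : j ≠ 0) :
    ¬ r ∣ q ^ j - 1 := fun h1 => hr.one_lt.ne' (Nat.dvd_one.1 (by
  have := Nat.dvd_sub (dvd_pow h hj) h1
  rwa [Nat.sub_sub_self (Nat.one_le_pow _ _ hq)] at this))

theorem pow_sub_one_pos {q j : ℕ} (hq : 2 ≤ q) (hj : j ≠ 0) : 0 < q ^ j - 1 :=
  Nat.sub_pos_of_lt (Nat.one_lt_pow hj hq)

section AltCount

variable [Fintype F] [FiniteDimensional F V] {f : Form (FormType.alt F) V} (hf : f.Nondeg)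
  {d r : ℕ} (hd : finrank F V = 2 * d) (hr : r.Prime)
include hf hd hr

theorem alt_card_O (hq : ¬ r ∣ Fintype.card F) (h : r ∣ Nat.card f.O) :
    ∃ j, 0 < j ∧ j ≤ d ∧ r ∣ Fintype.card F ^ (2 * j) - 1 := by
  rw [Nondeg.card_O_alt d hf hd, Nat.card_eq_fintype_card] at h
  obtain ⟨i, h2, h3⟩ := (Prime.dvd_finset_prod_iff hr.prime _).1
    (((Nat.Prime.dvd_mul hr).1 h).resolve_left fun h => hq (hr.dvd_of_dvd_pow h))
  exact ⟨i + 1, by omega, Finset.mem_range.1 h2, h3⟩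

theorem alt_card_ts {m : ℕ} (hm : m ≤ d)
    (h : r ∣ Nat.card {U : Submodule F V // finrank F U = m ∧ f.TotSing U}) :
    ¬ r ∣ Fintype.card F ∧ ∃ j, d - m < j ∧ j ≤ d ∧ r ∣ Fintype.card F ^ (2 * j) - 1 := by
  obtain ⟨W, h1, h2, h3⟩ := card_ts_mul hf (iso_alt f) (m := m) (by omega)
  have hq : 2 ≤ Fintype.card F := Fintype.one_lt_card
  have h4 : (FormType.alt F).π.ker = ⊤ := by ext a; simp [FormType.alt_π]
  obtain ⟨e, rfl⟩ := Nat.exists_eq_add_of_le hm
  rw [Nondeg.card_O_alt _ hf hd, Nondeg.card_O_alt e h1.nondeg (by omega), h4,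
    AddSubgroup.card_top, Nat.card_eq_fintype_card (α := F), prod_pow_sub_pow, hd,
    show 2 * (m + e) - 2 * m = 2 * e by omega] at h3
  have h5 : (m + e) ^ 2 = m * (m - 1) / 2 + (m * (2 * e) + m * (m - 1) / 2 + m + e ^ 2) := by
    have := Nat.div_mul_cancel (Nat.even_mul_pred_self m).two_dvd
    cases m with
    | zero => simp
    | succ m => simp only [Nat.add_sub_cancel] at this ⊢; nlinarith
  have h6 : 1 * ∏ i ∈ Finset.range (m + e), (Fintype.card F ^ (2 * (i + 1)) - 1) =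
      Nat.card {U : Submodule F V // finrank F U = m ∧ f.TotSing U} *
      ((∏ i ∈ Finset.range m, (Fintype.card F ^ (i + 1) - 1)) *
        ∏ i ∈ Finset.range e, (Fintype.card F ^ (2 * (i + 1)) - 1)) :=
    Nat.eq_of_mul_eq_mul_left (pow_pos (show 0 < Fintype.card F by omega) ((m + e) ^ 2)) (by
      rw [one_mul, h3, h5]; ring)
  obtain ⟨i, h7, h8, h9⟩ := exists_dvd_of_mul_prod hr
    (fun i => pow_sub_one_pos hq (by omega)) (by omega) h6 h (by simp [hr.ne_one])
  exact ⟨fun h => not_dvd_pow_sub_one hr (by omega) h (by omega) h9, i + 1, by omega, h8, h9⟩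

theorem alt_card_nd (hq : ¬ r ∣ Fintype.card F) {e : ℕ} (he : e ≤ d)
    (h : r ∣ Nat.card {U : Submodule F V // finrank F U = 2 * e ∧ ND f U}) :
    ∃ j, d - e < j ∧ j ≤ d ∧ r ∣ Fintype.card F ^ (2 * j) - 1 := by
  obtain ⟨W, -, h1, h2⟩ := (iso_alt f).exists_nd (nd_top hf) (e := 2 * e)
    (by rw [finrank_top]; omega) (dvd_mul_right _ _)
  have h3 := card_nd_mul hf (tr_alt f) h1
  rw [h2, Nondeg.card_O_alt _ hf hd, Nondeg.card_O_alt (d - e) (h1.perp hf).nondeg
    (by rw [hf.finrank_perp]; omega), Nat.card_eq_fintype_card (α := F), ← mul_assoc _ (_ ^ _)] at h3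
  obtain ⟨i, h7, h8, h9⟩ := exists_dvd_of_mul_prod hr
    (fun i => pow_sub_one_pos Fintype.one_lt_card (by omega)) (by omega) h3 h
    fun h => hq (hr.dvd_of_dvd_pow h)
  exact ⟨i + 1, by omega, h8, h9⟩

theorem alt_card_pair (hq : ¬ r ∣ Fintype.card F)
    (h : r ∣ Nat.card {P : Submodule F V × Submodule F V // TSPair f P.1 P.2}) :
    ∃ j, 0 < j ∧ j ≤ d ∧ r ∣ Fintype.card F ^ j + 1 := by
  obtain ⟨U, W, h1, h2, h3⟩ := (iso_alt f).exists_sup_eq (nd_top hf) (by simp [hd])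
  have h4 := tsPair_of_sup hf h1 h2 h3
  have h5 := tsPair_finrank hf h4
  obtain ⟨X, h6⟩ := card_pair_mul hf h4
  rw [card_linearEquiv (k := d) (by omega), Nondeg.card_O_alt _ hf hd, prod_pow_sub_pow,
    Nat.card_eq_fintype_card (α := F), Finset.prod_congr rfl (fun i _ => show
      Fintype.card F ^ (2 * (i + 1)) - 1 = (Fintype.card F ^ (i + 1) + 1) *
        (Fintype.card F ^ (i + 1) - 1) by rw [← Nat.sq_sub_sq, ← pow_mul, mul_comm 2, one_pow]),
    Finset.prod_mul_distrib, ← mul_assoc, mul_right_comm _ _ X, ← mul_assoc] at h6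
  have h7 := Nat.eq_of_mul_eq_mul_right (Finset.prod_pos fun i _ =>
    pow_sub_one_pos Fintype.one_lt_card (by omega)) h6
  obtain ⟨i, h8, h9⟩ := (Prime.dvd_finset_prod_iff hr.prime _).1 (((Nat.Prime.dvd_mul hr).1
    (h7 ▸ (h.mul_right X).mul_right _)).resolve_left fun h => hq (hr.dvd_of_dvd_pow h))
  exact ⟨i + 1, by omega, Finset.mem_range.1 h8, h9⟩

end AltCount

section HermCount

theorem neg_pow_eq_one_of_dvd {q r i : ℕ} (hq : 1 ≤ q)
    (h : r ∣ if Even i then q ^ (i + 1) + 1 else q ^ (i + 1) - 1) :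
    (-(q : ZMod r)) ^ (i + 1) = 1 := by
  rw [← ZMod.natCast_eq_zero_iff] at h
  split_ifs at h with hi
  · rw [hi.add_one.neg_pow]
    push_cast at h
    linear_combination -h
  · rw [(Nat.not_even_iff_odd.1 hi).add_one.neg_pow]
    rw [Nat.cast_sub (Nat.one_le_pow _ _ hq)] at h
    push_cast at h
    linear_combination h

theorem gu_factor_pos {q : ℕ} (hq : 2 ≤ q) (i : ℕ) :
    0 < if Even i then q ^ (i + 1) + 1 else q ^ (i + 1) - 1 := by
  split_ifs
  · omega
  · exact pow_sub_one_pos hq (by omega)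

theorem prod_range_two_mul (g : ℕ → ℕ) (d : ℕ) : ∏ i ∈ Finset.range (2 * d), g i =
    (∏ i ∈ Finset.range d, g (2 * i)) * ∏ i ∈ Finset.range d, g (2 * i + 1) := by
  induction d with
  | zero => simp
  | succ d ih => rw [mul_add, mul_one, Finset.prod_range_succ, Finset.prod_range_succ, ih,
      Finset.prod_range_succ, Finset.prod_range_succ]; ring

variable [Fintype F] [FiniteDimensional F V] {q : ℕ} {hF : Fintype.card F = q ^ 2}
  {f : Form (Uni.HT hF) V}

theorem iso_herm (f : Form (Uni.HT hF) V) : Iso f := fun W hW h => by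
  obtain ⟨v, h0, hv⟩ := Uni.exists_isotropic (Uni.sig_ne_id hF) hW.nondeg h
  exact ⟨v, v.2, fun h => h0 (Subtype.ext h), hv⟩

theorem tr_herm (f : Form (Uni.HT hF) V) : Tr f := fun _ _ hU hW h =>
  Uni.exists_isIsom (Uni.sig_ne_id hF) hU.nondeg hW.nondeg h

theorem herm_exists_nd {W : Submodule F V} (hW : ND f W) {e : ℕ} (he : e ≤ finrank F W) :
    ∃ U ≤ W, ND f U ∧ finrank F U = e := by
  obtain ⟨b, hb⟩ := Uni.exists_isON (Uni.sig_ne_id hF) hW.nondeg he
  exact ⟨_, Submodule.map_subtype_le _ _, nd_map_subtype (nd_of_nondeg hb.restrict_nondeg), by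
    simp [finrank_map_subtype, finrank_span_eq_card hb.linearIndependent]⟩

variable (hf : f.Nondeg) {r : ℕ} (hr : r.Prime)
include hf hr

theorem herm_card_ts {m : ℕ} (hm : 2 * m ≤ finrank F V)
    (h : r ∣ Nat.card {U : Submodule F V // finrank F U = m ∧ f.TotSing U}) :
    ¬ r ∣ q ∧ ∃ j, finrank F V - 2 * m < j ∧ j ≤ finrank F V ∧ (-(q : ZMod r)) ^ j = 1 := by
  obtain ⟨W, h1, h2, h3⟩ := card_ts_mul hf (iso_herm f) hm
  have hq : 2 ≤ q := SqField.two_le hF
  obtain ⟨e, he⟩ := Nat.exists_eq_add_of_le hm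
  rw [Uni.card_O hf, Uni.card_O h1.nondeg, Uni.card_ker_π, Nat.card_eq_fintype_card (α := F),
    prod_pow_sub_pow, h2, he, Nat.add_sub_cancel_left, hF, Uni.guOrder, Uni.guOrder] at h3
  have h5 : (2 * m + e) * (2 * m + e - 1) / 2 = 2 * (m * (m - 1) / 2) +
      (2 * (m * e + m * (m - 1) / 2) + m + e * (e - 1) / 2) := by
    have h6 := Nat.div_mul_cancel (Nat.even_mul_pred_self m).two_dvd
    have h7 := Nat.div_mul_cancel (Nat.even_mul_pred_self e).two_dvd
    refine Nat.div_eq_of_eq_mul_left two_pos ?_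
    rcases m with _ | m
    · simpa using h7.symm
    · rcases e with _ | e
      · simp only [Nat.add_sub_cancel] at h6 ⊢
        rw [show 2 * (m + 1) + 0 - 1 = 2 * m + 1 by omega]; nlinarith
      · simp only [Nat.add_sub_cancel] at h6 h7 ⊢
        rw [show 2 * (m + 1) + (e + 1) - 1 = 2 * m + 2 + e by omega]; nlinarith
  have h6 : 1 * ∏ i ∈ Finset.range (2 * m + e),
        (if Even i then q ^ (i + 1) + 1 else q ^ (i + 1) - 1) =
      Nat.card {U : Submodule F V // finrank F U = m ∧ f.TotSing U} *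
      ((∏ i ∈ Finset.range m, ((q ^ 2) ^ (i + 1) - 1)) *
        ∏ i ∈ Finset.range e, (if Even i then q ^ (i + 1) + 1 else q ^ (i + 1) - 1)) :=
    Nat.eq_of_mul_eq_mul_left (pow_pos (show 0 < q by omega) ((2 * m + e) * (2 * m + e - 1) / 2))
      (by rw [one_mul, h3, h5]; ring)
  obtain ⟨i, h7, h8, h9⟩ := exists_dvd_of_mul_prod hr (gu_factor_pos hq) (by omega) h6 h
    (by simp [hr.ne_one])
  have h10 := neg_pow_eq_one_of_dvd (by omega) h9
  refine ⟨fun h => ?_, i + 1, by omega, by omega, h10⟩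
  have := Fact.mk hr
  rw [(ZMod.natCast_eq_zero_iff _ _).2 h] at h10
  simp at h10

theorem herm_card_nd (hq : ¬ r ∣ q) {m : ℕ} (hm : m ≤ finrank F V)
    (h : r ∣ Nat.card {U : Submodule F V // finrank F U = m ∧ ND f U}) :
    ∃ j, finrank F V - m < j ∧ j ≤ finrank F V ∧ (-(q : ZMod r)) ^ j = 1 := by
  obtain ⟨W, -, h1, h2⟩ := herm_exists_nd (nd_top hf) (e := m) (by rwa [finrank_top])
  have h3 := card_nd_mul hf (tr_herm f) h1
  rw [h2, Uni.card_O hf, Uni.card_O (h1.perp hf).nondeg, hf.finrank_perp, h2, Uni.guOrder,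
    Uni.guOrder, ← mul_assoc _ (_ ^ _)] at h3
  obtain ⟨i, h7, h8, h9⟩ := exists_dvd_of_mul_prod hr (gu_factor_pos (SqField.two_le hF))
    (by omega) h3 h fun h => hq (hr.dvd_of_dvd_pow h)
  exact ⟨i + 1, by omega, h8, neg_pow_eq_one_of_dvd (by have := SqField.two_le hF; omega) h9⟩

theorem herm_card_pair (hq : ¬ r ∣ q) (he : Even (finrank F V))
    (h : r ∣ Nat.card {P : Submodule F V × Submodule F V // TSPair f P.1 P.2}) :
    ∃ j, Odd j ∧ j ≤ finrank F V ∧ (-(q : ZMod r)) ^ j = 1 := by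
  obtain ⟨U, W, h1, h2, h3⟩ := (iso_herm f).exists_sup_eq (nd_top hf) (by simpa using he)
  have h4 := tsPair_of_sup hf h1 h2 h3
  have h5 := tsPair_finrank hf h4
  have hq2 := SqField.two_le hF
  obtain ⟨X, h6⟩ := card_pair_mul hf h4
  rw [card_linearEquiv rfl, Uni.card_O hf, prod_pow_sub_pow, Nat.card_eq_fintype_card (α := F), hF,
    ← h5, Uni.guOrder, prod_range_two_mul, Finset.prod_congr rfl (fun i _ => show
      (if Even (2 * i + 1) then q ^ (2 * i + 1 + 1) + 1 else q ^ (2 * i + 1 + 1) - 1) =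
        (q ^ 2) ^ (i + 1) - 1 by rw [if_neg (by simp), ← pow_mul]; rfl),
    ← mul_assoc, mul_right_comm _ _ X, ← mul_assoc] at h6
  have h7 := Nat.eq_of_mul_eq_mul_right (Finset.prod_pos fun i _ =>
    pow_sub_one_pos (by nlinarith) (by omega)) h6
  obtain ⟨i, h8, h9⟩ := (Prime.dvd_finset_prod_iff hr.prime _).1 (((Nat.Prime.dvd_mul hr).1
    (h7 ▸ (h.mul_right X).mul_right _)).resolve_left fun h => hq (hr.dvd_of_dvd_pow h))
  exact ⟨2 * i + 1, by simp, by have := Finset.mem_range.1 h8; omega,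
    neg_pow_eq_one_of_dvd (by omega) h9⟩

end HermCount

/-! ### Duality data -/

section DatAlt

variable [Fintype F] {r : ℕ} [Fact r.Prime] (hr : (r : F) ≠ 0) (hr2 : r ≠ 2)
include hr hr2

theorem dat_cases : ((∃ j : ℕ, ((r - 1 : ℕ) : ZMod r) = (Fintype.card F : ℕ) ^ j) ∧
    (if Even (ord F r) then ord F r else 2 * ord F r) = ord F r ∧
    (if Even (ord F r) then (r - 1) / ord F r else 0) = (r - 1) / ord F r) ∨
    ((¬ ∃ j : ℕ, ((r - 1 : ℕ) : ZMod r) = (Fintype.card F : ℕ) ^ j) ∧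
    (if Even (ord F r) then ord F r else 2 * ord F r) = 2 * ord F r ∧
    (if Even (ord F r) then (r - 1) / ord F r else 0) = 0) := by
  rw [Orth.exists_neg_one_iff hr hr2]
  by_cases h : Even (ord F r) <;> simp [h]

theorem dat_alt : Dat (FormType.alt F) r (r - 1) (if Even (ord F r) then ord F r else 2 * ord F r)
    (if Even (ord F r) then (r - 1) / ord F r else 0) where
  hr := hr
  hr2 := hr2
  cop := coprime_sub_one
  sq := Orth.exists_sq_sub_one
  nec h h' := (h'.simil_pow_iff hr coprime_sub_one).1 (h.simil_inv h'.pow_sub_one_mul)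
  suf hm hi := (Orth.exists_core hr hr2 hm hi).imp fun _ h => ⟨h.1, h.2.1⟩
  cases := dat_cases hr hr2

theorem dat_quad : Dat (FormType.quad F) r (r - 1)
    (if Even (ord F r) then ord F r else 2 * ord F r)
    (if Even (ord F r) then (r - 1) / ord F r else 0) where
  hr := hr
  hr2 := hr2
  cop := coprime_sub_one
  sq := Orth.exists_sq_sub_one
  nec h h' := (h'.simil_pow_iff hr coprime_sub_one).1
    (Orth.simil_inv_of_isReal_quad h h'.pow_sub_one_mul)
  suf hm hi := (Orth.exists_core hr hr2 hm hi).imp fun _ h => ⟨h.1, h.2.2⟩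
  cases := dat_cases hr hr2

omit hr hr2 [Fintype F] [Fact r.Prime] in
/-- A real endomorphism is similar to an isometry of any isometric form. -/
theorem exists_isom_simil {B : Module.End F V'} {f' : Form T V'} (hB : IsIsom f' f' B)
    (e : V' ≃ₗ[F] V) (he : IsIsom f' f e) : ∃ A : Module.End F V, IsIsom f f A ∧ Simil B A := by
  have h : IsomConj f' f B (e.conj B) := ⟨e, he, fun v => by simp⟩
  exact ⟨_, IsomConj.isIsom h hB, h.simil⟩

omit hr hr2 [Fintype F] [Fact r.Prime] in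
theorem exists_isom_alt [FiniteDimensional F V] [FiniteDimensional F V']
    {f : Form (FormType.alt F) V} (hf : f.Nondeg) {B : Module.End F V'}
    (hB : IsReal (FormType.alt F) B) (h : finrank F V' = finrank F V) :
    ∃ A : Module.End F V, IsIsom f f A ∧ Simil B A := by
  obtain ⟨f', h1, h2⟩ := hB
  obtain ⟨e, he⟩ := h1.exists_isIsom_alt hf h
  exact exists_isom_simil h2 e he

theorem hX_alt [FiniteDimensional F V] {f : Form (FormType.alt F) V} (hf : f.Nondeg)
    (m : Multiset F[X]) (hm : ∀ P ∈ m, P ∈ cycFactors F r) (hi : m.map (tw (r - 1)) = m)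
    (hle : ord F r * m.card ≤ finrank F V) :
    ∃ (A : Module.End F V) (k : ℕ), IsIsom f f A ∧ HasM r A m k := by
  obtain ⟨B, k, h1, h2⟩ := (Orth.exists_isReal_alt_iff hr hr2 hf.even_finrank_alt m).2
    ⟨⟨hm, hi⟩, hle⟩
  obtain ⟨A, h3, h4⟩ := exists_isom_alt hf h1 rfl
  exact ⟨A, k, h3, h2.of_simil h4⟩

omit hr hr2 in
theorem alt_c_dvd {j : ℕ} (h : r ∣ Fintype.card F ^ (2 * j) - 1) :
    (if Even (ord F r) then ord F r else 2 * ord F r) ∣ 2 * j := by
  have h1 : ord F r ∣ 2 * j :=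
    (orderOf_dvd_iff_dvd_pow_sub_one (Fintype.card_pos (α := F))).2 h
  split_ifs with h2
  · exact h1
  · exact Nat.mul_dvd_mul_left 2
      ((Nat.coprime_two_right.2 (Nat.not_even_iff_odd.1 h2)).dvd_of_dvd_mul_left h1)

omit hr in
theorem even_ord_of_dvd {j : ℕ} (h : r ∣ Fintype.card F ^ j + 1) (hr : (r : F) ≠ 0) :
    Even (ord F r) ∧ ord F r ∣ 2 * j := by
  rw [← ZMod.natCast_eq_zero_iff] at h
  push_cast at h
  have h1 : ((Fintype.card F : ℕ) : ZMod r) ^ j = -1 := by linear_combination h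
  exact ⟨(exists_neg_one_eq_pow_iff hr2 (card_ne_zero_zmod hr)).1 ⟨j, h1.symm⟩,
    orderOf_dvd_of_pow_eq_one (by rw [mul_comm, pow_mul, h1]; simp)⟩

end DatAlt

section DatHerm

variable [Fintype F] {q : ℕ} {hF : Fintype.card F = q ^ 2}

theorem isIsom_std_iff {n : ℕ} (B : Matrix (Fin n) (Fin n) F) :
    IsIsom (Uni.std hF (Fin n)) (Uni.std hF (Fin n)) (Matrix.toLin' B) ↔ ct hF B * B = 1 := by
  rw [herm_isIsom_iff, ← preserves_hermForm_iff]
  simp only [Uni.std_B_eq_hermForm, Matrix.toLin'_apply]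
  exact forall_comm

theorem isReal_herm_iff [FiniteDimensional F V] : IsReal (Uni.HT hF) A ↔ UniED.Tw q A := by
  constructor
  · rintro ⟨f, hf, hA⟩
    obtain ⟨e, he⟩ := Uni.exists_isIsom_std hf (ι := Fin (finrank F V)) (by simp)
    obtain ⟨B, h1, h2⟩ := exists_isom_simil hA e he
    obtain ⟨B, rfl⟩ := Matrix.toLin'.surjective B
    exact (UniED.tw_of_unitary hF ((isIsom_std_iff B).1 h1)).of_simil h2.symm
  · intro h
    obtain ⟨B, h1, h2⟩ := h.exists_unitary hF (ι := Fin (finrank F V)) (by simp)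
    exact IsReal.of_simil ⟨_, Uni.std_nondeg hF _, (isIsom_std_iff B).2 h1⟩ h2.symm

theorem exists_isom_herm [FiniteDimensional F V] [FiniteDimensional F V']
    {f : Form (Uni.HT hF) V} (hf : f.Nondeg) {B : Module.End F V'}
    (hB : IsReal (Uni.HT hF) B) (h : finrank F V' = finrank F V) :
    ∃ A : Module.End F V, IsIsom f f A ∧ Simil B A := by
  obtain ⟨f', h1, h2⟩ := hB
  obtain ⟨e, he⟩ := Uni.exists_isIsom (Uni.sig_ne_id hF) h1 hf h
  exact exists_isom_simil h2 e he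

theorem rigid_herm [FiniteDimensional F V] {f : Form (Uni.HT hF) V} (hf : f.Nondeg)
    (hA : IsIsom f f A) : Rigid f A := by
  rintro f' A' hf' hA' ⟨e, he⟩
  have : Finite V := Module.finite_of_finite F
  have : Finite (Module.End F V) := Finite.of_injective _ DFunLike.coe_injective
  obtain ⟨l, hl⟩ : ∃ l : F, l ≠ Uni.sig hF l := by
    by_contra! h
    exact Uni.sig_ne_id hF (RingHom.ext fun l => (h l).symm)
  have hc : ∀ (c : F) (y : Module.End F V), Commute y (algebraMap F _ c) := fun c y =>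
    (Algebra.commutes c y).symm
  have h1 := adj_algebraMap hf l
  have hsA : Commute A (gramOp hf (f'.comap (e : V →ₗ[F] _)).B) :=
    commute_gramOp hf hA fun x y => by simp [comap_B, he, hA'.B_eq]
  obtain ⟨c, hc1, hc2, -, hc3⟩ := (isAntiInvol_adj hf).exists_norm (l := algebraMap F _ l)
    (by rw [h1, ← map_sub]; exact (IsUnit.mk0 _ (sub_ne_zero.2 hl)).map _) (h1 ▸ hc _ _) (hc _ _)
    (isUnit_gramOp hf (nondeg_comap_equiv hf' e)) (adj_gramOp hf _)
  obtain ⟨u, hu1, hu2⟩ := exists_B_isom_of_norm hf e he hc1 (hc3 A hsA (hc _ _) (h1 ▸ hc _ _)) hc2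
  exact ⟨u, (herm_isIsom_iff _ _ _).2 hu1, hu2⟩

variable {r : ℕ} [Fact r.Prime]

theorem dl_eq_tw (hr : (r : F) ≠ 0) {P : F[X]} (hP : P ∈ cycFactors F r) :
    P.coeff 0 ≠ 0 ∧ UniED.dl hF P = tw (q * (r - 1)) P := by
  have hi := (mem_cycFactors.1 hP).1
  have hm := (mem_cycFactors.1 hP).2.1
  have := Fact.mk hi
  have h1 := isPrimitiveRoot_root hr hP
  have h2 := h1.ne_zero (Fact.out : r.Prime).ne_zero
  have h3 : aeval (AdjoinRoot.root P) P = 0 := by rw [AdjoinRoot.aeval_eq, AdjoinRoot.mk_self]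
  have h0 : P.coeff 0 ≠ 0 := (UniED.coeff_zero_ne_zero_iff hi).2 fun h => h2 (by
    simpa using aeval_eq_zero_of_dvd_aeval_eq_zero h h3)
  refine ⟨h0, (tw_eq_of_aeval hi (UniED.irreducible_dl hF hm hi h0) (UniED.monic_dl hF h0) ?_).symm⟩
  rw [← UniED.aeval_dl hF h2 h3]
  congr 2
  refine eq_inv_of_mul_eq_one_left ?_
  rw [← pow_add, ← Nat.mul_succ, Nat.succ_eq_add_one,
    Nat.sub_add_cancel (Fact.out : r.Prime).one_le, mul_comm, pow_mul, h1.pow_eq_one, one_pow]

theorem ued_edOf_iff (hr : (r : F) ≠ 0) {m : Multiset F[X]} (hm : ∀ P ∈ m, P ∈ cycFactors F r)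
    (k : ℕ) : UniED.UED hF (edOf m k) ↔ m.map (tw (q * (r - 1))) = m := by
  have h1 : UniED.dl hF (X - 1 : F[X]) = X - 1 := by
    simpa using UniED.dl_X_sub_C hF (one_ne_zero (α := F))
  have h2 : (edOf m k).map (UniED.DD hF) = edOf (m.map (tw (q * (r - 1)))) k := by
    simp only [edOf, Multiset.map_add, Multiset.map_map, Multiset.map_replicate, UniED.DD, h1]
    congr 1
    exact Multiset.map_congr rfl fun P hP => by simp [UniED.DD, (dl_eq_tw hr (hm P hP)).2]
  rw [UniED.UED, h2]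
  refine ⟨fun h => add_right_cancel (Multiset.map_injective (Prod.mk_left_injective 1) h.2.2),
    fun h => ⟨isED_edOf hm k, fun x hx => ?_, by rw [h]⟩⟩
  rcases (mem_edOf hx).2 with h3 | h3
  · simp [h3]
  · exact (dl_eq_tw (hF := hF) hr (hm _ h3)).1

theorem hasM_isReal_herm_iff [FiniteDimensional F V] (hr : (r : F) ≠ 0) {m : Multiset F[X]}
    {k : ℕ} (h : HasM r A m k) : IsReal (Uni.HT hF) A ↔ m.map (tw (q * (r - 1))) = m := by
  rw [isReal_herm_iff, ← ued_edOf_iff (hF := hF) hr h.mem k]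
  exact ⟨fun h1 => h1.ued hF h.ed, UniED.tw_of_ued hF h.ed⟩

theorem hX_herm [FiniteDimensional F V] (hr : (r : F) ≠ 0) {f : Form (Uni.HT hF) V}
    (hf : f.Nondeg) (m : Multiset F[X]) (hm : ∀ P ∈ m, P ∈ cycFactors F r)
    (hi : m.map (tw (q * (r - 1))) = m) (hle : ord F r * m.card ≤ finrank F V) :
    ∃ (A : Module.End F V) (k : ℕ), IsIsom f f A ∧ HasM r A m k := by
  obtain ⟨B, h⟩ := exists_hasM_of_finrank (V := V) hr hm (Nat.add_sub_cancel' hle)
  obtain ⟨A, h3, h4⟩ := exists_isom_herm hf ((hasM_isReal_herm_iff hr h).2 hi) rfl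
  exact ⟨A, _, h3, h.of_simil h4⟩

include hF in
theorem cast_q_ne_zero (hr : (r : F) ≠ 0) : (q : ZMod r) ≠ 0 := fun h =>
  card_ne_zero_zmod hr (by rw [hF]; simp [h])

include hF in
theorem ord_sq_eq : ord F r =
    if Even (orderOf (q : ZMod r)) then orderOf (q : ZMod r) / 2 else orderOf (q : ZMod r) := by
  rw [ord, hF, Nat.cast_pow, orderOf_pow' _ two_ne_zero]
  split_ifs with h
  · rw [Nat.gcd_eq_right h.two_dvd]
  · rw [Nat.coprime_two_right.2 (Nat.not_even_iff_odd.1 h), Nat.div_one]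

theorem neg_eq_sq_pow_iff (hr2 : r ≠ 2) {x : ZMod r} (hx : x ≠ 0) :
    (∃ j : ℕ, -x = (x ^ 2) ^ j) ↔ orderOf x % 4 = 2 := by
  have hp : r.Prime := Fact.out
  have h0 : 0 < orderOf x := by
    have : NeZero r := ⟨hp.ne_zero⟩
    exact (isOfFinOrder_iff_pow_eq_one.2 ⟨r - 1, by have := hp.two_le; omega,
      ZMod.pow_card_sub_one_eq_one hx⟩).orderOf_pos
  have : Fact (2 < r) := ⟨lt_of_le_of_ne hp.two_le hr2.symm⟩
  have h1 : ∀ k, x ^ k = -1 → Even (orderOf x) ∧ orderOf x ∣ 2 * k := fun k hk =>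
    ⟨(exists_neg_one_eq_pow_iff hr2 hx).1 ⟨k, hk.symm⟩,
      orderOf_dvd_of_pow_eq_one (by rw [mul_comm, pow_mul, hk]; simp)⟩
  constructor
  · rintro ⟨j, hj⟩
    obtain ⟨e, he⟩ : ∃ e, orderOf x = e + 1 := ⟨orderOf x - 1, by omega⟩
    obtain ⟨⟨a, h2⟩, k, h3⟩ := h1 (2 * j + e) (by
      rw [pow_add, pow_mul, ← hj, neg_mul, ← pow_succ', ← he, pow_orderOf_eq_one])
    by_contra h4
    obtain ⟨b, hb⟩ : 4 ∣ orderOf x := by omega
    rw [hb, mul_assoc] at h3
    omega
  · intro h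
    obtain ⟨a, ha⟩ : ∃ a, orderOf x = 2 * (2 * a + 1) := ⟨orderOf x / 4, by omega⟩
    have h2 : x ^ (2 * a + 1) = -1 := by
      refine (sq_eq_one_iff.1 ?_).resolve_left fun h2 => ?_
      · rw [← pow_mul, mul_comm, ← ha, pow_orderOf_eq_one]
      · have := Nat.le_of_dvd (by omega) (orderOf_dvd_of_pow_eq_one h2); omega
    exact ⟨a + 1, by rw [← pow_mul, show 2 * (a + 1) = 2 * a + 1 + 1 by ring, pow_succ, h2]; ring⟩

theorem herm_c_dvd (hr2 : r ≠ 2) {x : ZMod r} (hx : x ≠ 0) {j : ℕ} (h : (-x) ^ j = 1) :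
    (if orderOf x % 4 = 0 then orderOf x else if orderOf x % 4 = 2 then orderOf x / 2
      else 2 * orderOf x) ∣ j ∧ (Odd j → orderOf x % 4 = 2) := by
  rcases Nat.even_or_odd j with hj | hj
  · rw [hj.neg_pow] at h
    have h1 := orderOf_dvd_of_pow_eq_one h
    refine ⟨?_, fun h => absurd hj (Nat.not_even_iff_odd.2 h)⟩
    split_ifs with h2 h3
    · exact h1
    · exact (Nat.div_dvd_of_dvd (by omega)).trans h1
    · exact (Nat.coprime_two_left.2 (Nat.odd_iff.2 (by omega))).mul_dvd_of_dvd_of_dvd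
        hj.two_dvd h1
  · obtain ⟨a, rfl⟩ := hj
    have h1 : orderOf x % 4 = 2 := (neg_eq_sq_pow_iff hr2 hx).1 ⟨a + 1, by
      rw [← neg_sq, ← pow_mul, show 2 * (a + 1) = 2 * a + 1 + 1 by ring, pow_succ, h, one_mul]⟩
    refine ⟨?_, fun _ => h1⟩
    rw [if_neg (by omega), if_pos h1]
    refine Nat.div_dvd_iff_dvd_mul (by omega) two_pos |>.2 (orderOf_dvd_of_pow_eq_one ?_)
    rw [pow_mul, ← neg_sq, ← pow_mul, mul_comm, pow_mul, h, one_pow]

theorem dat_herm (hr : (r : F) ≠ 0) (hr2 : r ≠ 2) : Dat (Uni.HT hF) r (q * (r - 1))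
    (if orderOf (q : ZMod r) % 4 = 0 then orderOf (q : ZMod r) else
      if orderOf (q : ZMod r) % 4 = 2 then orderOf (q : ZMod r) / 2 else 2 * orderOf (q : ZMod r))
    (if orderOf (q : ZMod r) % 4 = 2 then (r - 1) / ord F r else 0) where
  hr := hr
  hr2 := hr2
  cop := Nat.Coprime.mul_left ((Nat.coprime_comm.1 (((Fact.out : r.Prime).coprime_iff_not_dvd).2
    fun h => cast_q_ne_zero (hF := hF) hr ((ZMod.natCast_eq_zero_iff _ _).2 h)))) coprime_sub_one
  sq := ⟨1, by rw [hF, Nat.cast_mul, cast_sub_one]; push_cast; ring⟩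
  nec h h' := (hasM_isReal_herm_iff hr h').1 h
  suf hm hi := (exists_hasM_of_finrank hr hm (k := 0) (by simp)).imp fun _ h =>
    ⟨h, (hasM_isReal_herm_iff hr h).2 hi⟩
  cases := by
    have h1 := neg_eq_sq_pow_iff hr2 (cast_q_ne_zero (hF := hF) hr)
    rw [hF, Nat.cast_mul, cast_sub_one, mul_neg_one, Nat.cast_pow, h1, ord_sq_eq (hF := hF)]
    simp only [Nat.even_iff]
    split_ifs <;> omega

end DatHerm

/-! ### Scalars -/

section Scalars

theorem isIsom_smul (hA : IsIsom f f A) {b : F} (hb : T.σ b * b = 1) :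
    IsIsom f f (b • A : Module.End F V) :=
  ⟨fun x y => by
    rw [LinearMap.smul_apply, LinearMap.smul_apply, f.B_smul_left, f.B_smul_right, ← mul_assoc, hb,
      one_mul, hA.B_eq],
    fun x => by rw [LinearMap.smul_apply, f.q_smul, hb, one_mul, hA.q_eq]⟩

theorem isIsom_pow (hA : IsIsom f f A) (k : ℕ) : IsIsom f f (A ^ k : Module.End F V) := by
  induction k with
  | zero => exact IsIsom.id f
  | succ k ih => rw [pow_succ]; exact ih.comp hA

theorem norm_eq_one [Nontrivial V] (hf : f.Nondeg) {c : F}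
    (h : IsIsom f f (algebraMap F (Module.End F V) c)) : T.σ c * c = 1 := by
  obtain ⟨x, hx⟩ := exists_ne (0 : V)
  by_contra h1
  refine hx (hf x fun y => ?_)
  have h2 := h.B_eq x y
  rw [Module.algebraMap_end_apply, Module.algebraMap_end_apply, f.B_smul_left, f.B_smul_right,
    ← mul_assoc] at h2
  exact (mul_left_eq_self₀.1 h2).resolve_left h1

theorem norm_det [FiniteDimensional F V] (hf : f.Nondeg) (hA : IsIsom f f A) :
    T.σ (LinearMap.det A) * LinearMap.det A = 1 := by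
  obtain ⟨e, he, h⟩ := hA.exists_mem_O hf
  rw [← show (e : V →ₗ[F] V) = A from LinearMap.ext h]
  exact hf.σ_det_mul_det he

theorem norm_inv {b : F} (hb : T.σ b * b = 1) : T.σ b⁻¹ * b⁻¹ = 1 := by
  rw [map_inv₀, ← mul_inv, hb, _root_.inv_one]

theorem norm_pow {b : F} (hb : T.σ b * b = 1) (k : ℕ) : T.σ (b ^ k) * b ^ k = 1 := by
  rw [map_pow, ← mul_pow, hb, one_pow]

theorem ne_zero_of_norm {b c : F} (hb : T.σ b * b = c) (hc : c ≠ 0) : b ≠ 0 := by
  rintro rfl; exact hc (by rw [← hb, mul_zero])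

theorem eq_one_of_coprime {r N : ℕ} (hc : r.Coprime N) {c : F} (h1 : c ^ N = 1) (h2 : c ^ r = 1) :
    c = 1 := by
  have := pow_gcd_eq_one.2 ⟨h2, h1⟩
  rwa [hc, pow_one] at this

theorem det_eq_one_of_coprime [FiniteDimensional F V] (hf : f.Nondeg) {r N : ℕ}
    (hN : ∀ c, T.σ c * c = 1 → c ^ N = 1) (hc : r.Coprime N) (hA : IsIsom f f A)
    (h : A ^ r = 1) : LinearMap.det A = 1 :=
  eq_one_of_coprime hc (hN _ (norm_det hf hA)) (by rw [← map_pow, h, map_one])

theorem forall_proj_iff [Nontrivial V] (hf : f.Nondeg) {r N : ℕ}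
    (hN : ∀ c, T.σ c * c = 1 → c ^ N = 1) (hc : r.Coprime N) (Q P : Module.End F V → Prop)
    (hQ : ∀ A : Module.End F V, IsIsom f f A → A ^ r = 1 → Q A)
    (hP : ∀ (A : Module.End F V) (b : F), b ≠ 0 → P (b • A) → P A) :
    (∀ A : Module.End F V, IsIsom f f A → Q A → (∃ c, A ^ r = algebraMap F _ c) →
      (∀ c, A ≠ algebraMap F _ c) → P A) ↔
    ∀ A : Module.End F V, IsIsom f f A → A ^ r = 1 → A ≠ 1 → P A := by
  refine ⟨fun h A h1 h2 h3 => h A h1 (hQ A h1 h2) ⟨1, by simpa using h2⟩ ?_, ?_⟩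
  · rintro c rfl
    rw [← map_pow, ← map_one (algebraMap F _), (algebraMap F _).injective.eq_iff] at h2
    exact h3 (by rw [eq_one_of_coprime hc (hN c (norm_eq_one hf h1)) h2, map_one])
  · rintro h A h1 - ⟨c, h2⟩ h3
    have h4 := norm_eq_one hf (h2 ▸ isIsom_pow h1 r)
    obtain ⟨k, hk⟩ := exists_pow_eq_self_of_coprime (x := c) (n := r)
      (hc.coprime_dvd_right (orderOf_dvd_of_pow_eq_one (hN c h4)))
    have h5 := norm_pow h4 k
    have h6 := ne_zero_of_norm h5 one_ne_zero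
    exact hP A _ (inv_ne_zero h6) (h _ (isIsom_smul h1 (norm_inv h5)) (smul_pow_eq_one h6 (by
      rw [h2, ← pow_mul, mul_comm, pow_mul, hk])) (smul_ne_one h3 h6))

theorem forall_sp_iff (d r : ℕ) (P : Module.End F (Fin d ⊕ Fin d → F) → Prop) :
    (∀ x : Matrix.symplecticGroup (Fin d) F,
      (∃ c : F, ((x ^ r : Matrix.symplecticGroup (Fin d) F) : Matrix _ _ F) =
        c • (1 : Matrix (Fin d ⊕ Fin d) (Fin d ⊕ Fin d) F)) →
      (∀ c : F, (x : Matrix _ _ F) ≠ c • (1 : Matrix (Fin d ⊕ Fin d) (Fin d ⊕ Fin d) F)) →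
      P (Matrix.toLin' (x : Matrix (Fin d ⊕ Fin d) (Fin d ⊕ Fin d) F))) ↔
    ∀ A : Module.End F (Fin d ⊕ Fin d → F), IsIsom (Sp.spForm d F) (Sp.spForm d F) A → True →
      (∃ c, A ^ r = algebraMap F _ c) → (∀ c, A ≠ algebraMap F _ c) → P A := by
  simp only [SubmonoidClass.coe_pow, ne_eq, toLin'_eq_algebraMap_iff, Matrix.toLin'_pow]
  refine ⟨fun h A h1 _ => ?_, fun h x => h _ (isIsom_sp x) trivial⟩
  obtain ⟨x, rfl⟩ := Matrix.toLin'.surjective A
  exact h ⟨x, mem_sp_of_isIsom h1⟩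

theorem forall_su_iff [Fintype F] {q : ℕ} (hF : Fintype.card F = q ^ 2) (n r : ℕ)
    (P : Module.End F (Fin n → F) → Prop) :
    (∀ x : Matrix.SpecialLinearGroup (Fin n) F, x ∈ Cfsg.SU n F q →
      (∃ c : F, ((x ^ r : Matrix.SpecialLinearGroup (Fin n) F) : Matrix _ _ F) =
        c • (1 : Matrix (Fin n) (Fin n) F)) →
      (∀ c : F, (x : Matrix _ _ F) ≠ c • (1 : Matrix (Fin n) (Fin n) F)) →
      P (Matrix.toLin' (x : Matrix (Fin n) (Fin n) F))) ↔
    ∀ A : Module.End F (Fin n → F), IsIsom (Uni.std hF (Fin n)) (Uni.std hF (Fin n)) A →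
      LinearMap.det A = 1 → (∃ c, A ^ r = algebraMap F _ c) → (∀ c, A ≠ algebraMap F _ c) →
      P A := by
  simp only [Matrix.SpecialLinearGroup.coe_pow, Matrix.toLin'_pow, ne_eq, toLin'_eq_algebraMap_iff,
    SpU.mem_SU_iff hF, ← isIsom_std_iff]
  refine ⟨fun h A h1 h2 => ?_, fun h x h1 => h _ h1 (by simp)⟩
  obtain ⟨x, rfl⟩ := Matrix.toLin'.surjective A
  exact h ⟨x, by simpa using h2⟩ h1

theorem exists_inv_smul (P : Submodule F V → Prop) (A : Module.End F V) (b : F) (hb : b ≠ 0)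
    (h : ∃ U, P U ∧ Inv (b • A) U) : ∃ U, P U ∧ Inv A U :=
  h.imp fun _ h => ⟨h.1, (inv_smul_iff hb).1 h.2⟩

end Scalars

/-! ### Involutions -/

section Invol

variable [FiniteDimensional F V] (hf : f.Nondeg) (hA : IsIsom f f A) (h2 : (2 : F) ≠ 0)

omit [FiniteDimensional F V] in
theorem apply_of_mem_range (h : A ^ 2 = 1) {x : V} (hx : x ∈ LinearMap.range (A - 1)) :
    A x = (-1 : F) • x := by
  obtain ⟨y, rfl⟩ := hx
  have := LinearMap.congr_fun h y
  simp only [pow_two, Module.End.mul_apply, Module.End.one_apply] at this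
  simp [this]

omit [FiniteDimensional F V] in
theorem inv_of_le_range (h : A ^ 2 = 1) {U : Submodule F V} (hU : U ≤ LinearMap.range (A - 1)) :
    Inv A U := inv_of_le_ker_sub fun _ hx => apply_of_mem_range h (hU hx)

include h2 in
omit [FiniteDimensional F V] in
theorem ss_of_sq (h : A ^ 2 = 1) : A.IsSemisimple :=
  isSemisimple_of_pow_eq_one (by exact_mod_cast h2) h

include hf hA h2

theorem invol_ts (hI : Iso f) (h : A ^ 2 = 1) {m : ℕ}
    (hm : m ≤ finrank F (LinearMap.ker (A - 1)) / 2 + finrank F (LinearMap.range (A - 1)) / 2) :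
    ∃ U : Submodule F V, finrank F U = m ∧ f.TotSing U ∧ Inv A U := by
  have hs := ss_of_sq h2 h
  obtain ⟨a, b, ha, hb, rfl⟩ : ∃ a b, 2 * a ≤ finrank F (LinearMap.ker (A - 1)) ∧
      2 * b ≤ finrank F (LinearMap.range (A - 1)) ∧ m = a + b :=
    ⟨min m (finrank F (LinearMap.ker (A - 1)) / 2), m - finrank F (LinearMap.ker (A - 1)) / 2,
      by omega, by omega, by omega⟩
  obtain ⟨U₁, h3, h4, rfl⟩ := hI.exists_ts (nd_ker_sub_one hf hA hs) ha
  obtain ⟨U₂, h5, h6, rfl⟩ := hI.exists_ts (nd_range_sub_one hf hA hs) hb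
  exact ⟨_, finrank_sup_of_disjoint ((isCompl_ker_range hs).disjoint.mono h3 h5),
    h4.sup_of_le_perp h6 (le_perp_of_fix_mov hf hA h3 h5),
    (inv_of_le_fixed h3).sup (inv_of_le_range h h5)⟩

theorem invol_ts_le (h : A ^ 2 = 1) {U : Submodule F V} (hU : f.TotSing U) (hU' : Inv A U) :
    finrank F U ≤
      finrank F (LinearMap.ker (A - 1)) / 2 + finrank F (LinearMap.range (A - 1)) / 2 := by
  have hs := ss_of_sq h2 h
  have h3 := (nd_ker_sub_one hf hA hs).two_mul_finrank_le hU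
  have h4 := (nd_range_sub_one hf hA hs).two_mul_finrank_le hU
  rw [hU'.finrank_eq_add hs]
  omega

theorem invol_nd {d : ℕ} (hC : ∀ W, ND f W → ∀ e ≤ finrank F W, d ∣ e →
      ∃ U ≤ W, ND f U ∧ finrank F U = e) (hd : d ∣ finrank F (LinearMap.ker (A - 1)))
    (h : A ^ 2 = 1) {m : ℕ} (hm : m ≤ finrank F V) (hdm : d ∣ m) :
    ∃ U : Submodule F V, finrank F U = m ∧ ND f U ∧ Inv A U := by
  have hs := ss_of_sq h2 h
  have h0 := finrank_ker_add_range (A - 1)
  obtain ⟨a, b, ha, hb, hda, hdb, rfl⟩ : ∃ a b, a ≤ finrank F (LinearMap.ker (A - 1)) ∧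
      b ≤ finrank F (LinearMap.range (A - 1)) ∧ d ∣ a ∧ d ∣ b ∧ m = a + b := by
    rcases le_total m (finrank F (LinearMap.ker (A - 1))) with h3 | h3
    · exact ⟨m, 0, h3, by omega, hdm, dvd_zero _, rfl⟩
    · exact ⟨_, m - finrank F (LinearMap.ker (A - 1)), le_rfl, by omega, hd, Nat.dvd_sub hdm hd,
        by omega⟩
  obtain ⟨U₁, h3, h4, rfl⟩ := hC _ (nd_ker_sub_one hf hA hs) a ha hda
  obtain ⟨U₂, h5, h6, rfl⟩ := hC _ (nd_range_sub_one hf hA hs) b hb hdb
  exact ⟨_, finrank_sup_of_disjoint ((isCompl_ker_range hs).disjoint.mono h3 h5),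
    h4.sup h6 (le_perp_of_fix_mov hf hA h3 h5), (inv_of_le_fixed h3).sup (inv_of_le_range h h5)⟩

theorem invol_pair (hI : Iso f) (h : A ^ 2 = 1) (h3 : Even (finrank F (LinearMap.ker (A - 1))))
    (h4 : Even (finrank F (LinearMap.range (A - 1)))) :
    ∃ U W, TSPair f U W ∧ Inv A U ∧ Inv A W := by
  have hs := ss_of_sq h2 h
  obtain ⟨U₁, W₁, h5, h6, h7⟩ := hI.exists_sup_eq (nd_ker_sub_one hf hA hs) h3
  obtain ⟨U₂, W₂, h8, h9, h10⟩ := hI.exists_sup_eq (nd_range_sub_one hf hA hs) h4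
  have a1 := le_sup_left.trans h7.le
  have a2 := le_sup_right.trans h7.le
  have a3 := le_sup_left.trans h10.le
  have a4 := le_sup_right.trans h10.le
  exact ⟨_, _, tsPair_of_sup hf (h5.sup_of_le_perp h8 (le_perp_of_fix_mov hf hA a1 a3))
    (h6.sup_of_le_perp h9 (le_perp_of_fix_mov hf hA a2 a4)) (by
      rw [sup_sup_sup_comm, h7, h10, (isCompl_ker_range hs).sup_eq_top]),
    (inv_of_le_fixed a1).sup (inv_of_le_range h a3), (inv_of_le_fixed a2).sup (inv_of_le_range h a4)⟩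

theorem anti_pair {b : F} (hb : T.σ b * b = -1) (h : A ^ 2 = algebraMap F _ (b ^ 2)) :
    ∃ U W, TSPair f U W ∧ (∀ u ∈ U, A u = b • u) ∧ ∀ w ∈ W, A w = (-b) • w := by
  have key : ∀ b : F, T.σ b * b = -1 → f.TotSing (LinearMap.ker (A - algebraMap F _ b)) ∧
      ∀ u ∈ LinearMap.ker (A - algebraMap F _ b), A u = b • u := by
    intro b hb
    have h1 : ∀ u ∈ LinearMap.ker (A - algebraMap F _ b), A u = b • u := fun u hu =>
      sub_eq_zero.1 hu
    refine ⟨⟨fun u hu => ?_, fun u hu v hv => ?_⟩, h1⟩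
    · have := hA.q_eq u
      rw [h1 u hu, f.q_smul, hb] at this
      exact (mul_eq_zero.1 (show 2 * f.q u = 0 by linear_combination -this)).resolve_left h2
    · have := hA.B_eq u v
      rw [h1 u hu, h1 v hv, f.B_smul_left, f.B_smul_right, ← mul_assoc, hb] at this
      exact (mul_eq_zero.1 (show 2 * f.B u v = 0 by linear_combination -this)).resolve_left h2
  have hb' : T.σ (-b) * -b = -1 := by rw [map_neg, neg_mul_neg, hb]
  have h0 := ne_zero_of_norm hb (by simp)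
  refine ⟨_, _, tsPair_of_sup hf (key b hb).1 (key _ hb').1 (eq_top_iff.2 fun v _ => ?_),
    (key b hb).2, (key _ hb').2⟩
  have h3 := LinearMap.congr_fun h v
  simp only [pow_two, Module.End.mul_apply, Module.algebraMap_end_apply] at h3
  refine Submodule.mem_sup.2 ⟨(2 * b)⁻¹ • (A v + b • v), Submodule.smul_mem _ _ ?_,
    (2 * b)⁻¹ • (b • v - A v), Submodule.smul_mem _ _ ?_, ?_⟩
  · simp [h3, smul_smul, add_comm]
  · simp [h3, smul_smul, smul_sub]
  · rw [← smul_add, show A v + b • v + (b • v - A v) = (2 * b) • v by module, smul_smul,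
      inv_mul_cancel₀ (mul_ne_zero h2 h0), one_smul]

theorem anti_ts {b : F} (hb : T.σ b * b = -1) (h : A ^ 2 = algebraMap F _ (b ^ 2)) {m : ℕ}
    (hm : 2 * m ≤ finrank F V) :
    ∃ U : Submodule F V, finrank F U = m ∧ f.TotSing U ∧ Inv A U := by
  obtain ⟨U, W, h3, h4, -⟩ := anti_pair hf hA h2 hb h
  have h5 := tsPair_finrank hf h3
  obtain ⟨X, h6, h7⟩ := exists_finrank_le (M := U) (k := m) (by omega)
  exact ⟨X, h7, h3.ts₀.mono h6, inv_of_le_ker_sub fun x hx => h4 x (h6 hx)⟩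

theorem anti_nd {b : F} (hb : T.σ b * b = -1) (h : A ^ 2 = algebraMap F _ (b ^ 2)) {k : ℕ}
    (hk : 2 * k ≤ finrank F V) :
    ∃ U : Submodule F V, finrank F U = 2 * k ∧ ND f U ∧ Inv A U := by
  obtain ⟨U, W, h3, h4, h5⟩ := anti_pair hf hA h2 hb h
  have h6 := tsPair_finrank hf h3
  obtain ⟨e', h7, rfl⟩ := tsPair_exists_isHyp hf h3 (Module.finBasis F U)
  have h8 := h7.comp (Fin.castLE_injective (show k ≤ finrank F U by omega))
  refine ⟨_, by simpa using h8.finrank_span, nd_of_nondeg h8.restrict_nondeg, ?_⟩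
  rw [Set.Sum.elim_range, Submodule.span_union]
  exact (inv_of_le_ker_sub fun x hx => h4 x (Submodule.span_le.2
    (Set.range_subset_iff.2 fun i => Submodule.coe_mem _) hx)).sup (inv_of_le_ker_sub fun x hx =>
      h5 x (Submodule.span_mono (Set.range_comp_subset_range _ _) hx))

omit hf in
theorem anti_even {b : F} (hb : T.σ b * b = -1) (h : A ^ 2 = algebraMap F _ (b ^ 2))
    {W : Submodule F V} (hW : ND f W) (hW' : Inv A W) : Even (finrank F W) := by
  obtain ⟨U, W', h3, -⟩ := anti_pair hW.nondeg (isIsom_restrict hA hW') h2 hb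
    (LinearMap.ext fun x => Subtype.ext (by rw [restrict_pow_apply, h]; rfl))
  exact tsPair_finrank hW.nondeg h3 ▸ even_two_mul _

end Invol

section Irred

variable [FiniteDimensional F V] {V₁ V₂ : Type*} [AddCommGroup V₁] [Module F V₁]
  [AddCommGroup V₂] [Module F V₂] [FiniteDimensional F V₁] [FiniteDimensional F V₂]
  (hR : Rigid f A) {μ : F[X]} (hi : Irreducible μ) (h : aeval A μ = 0) {A₁ : Module.End F V₁}
  {A₂ : Module.End F V₂} (h₁ : IsReal T A₁) (h₁' : aeval A₁ μ = 0) (h₂ : IsReal T A₂)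
  (h₂' : aeval A₂ μ = 0)
include hR hi h h₁ h₁' h₂ h₂'

theorem exists_ts_of_irred (hV : finrank F V = 2 * finrank F V₁ + finrank F V₂) :
    ∃ U : Submodule F V, finrank F U = finrank F V₁ ∧ f.TotSing U ∧ Inv A U := by
  obtain ⟨U, h3, h4, h5⟩ := hR.diag h₁ h₂ (simil_of_aeval_irreducible hi
    (by simp [aeval_prodMap, h₁', h₂']) h (by simp [hV, two_mul]))
  exact ⟨U, h5.finrank_eq.symm, h3, h4⟩

theorem exists_nd_of_irred (hV : finrank F V = finrank F V₁ + finrank F V₂) :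
    ∃ U : Submodule F V, finrank F U = finrank F V₁ ∧ ND f U ∧ Inv A U := by
  obtain ⟨U, h3, h4, -, h5, -⟩ := hR.split h₁ h₂ (simil_of_aeval_irreducible hi
    (by simp [aeval_prodMap, h₁', h₂']) h (by simp [hV]))
  exact ⟨U, h5.finrank_eq.symm, h3, h4⟩

end Irred

section AltInvol

variable [FiniteDimensional F V] {f : Form (FormType.alt F) V}

theorem exists_real_sq_neg (F : Type*) [Field F] (d : ℕ) :
    ∃ J : Module.End F (Fin d ⊕ Fin d → F), IsReal (FormType.alt F) J ∧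
      J ^ 2 = algebraMap F _ (-1) :=
  ⟨_, isReal_sp ⟨_, SymplecticGroup.J_mem (Fin d) F⟩, by
    rw [← pow_eq_smul_iff, pow_two, Matrix.J_squared, neg_smul, one_smul]⟩

theorem exists_isom_sq_neg (hf : f.Nondeg) :
    ∃ A : Module.End F V, IsIsom f f A ∧ A ^ 2 = algebraMap F _ (-1) := by
  obtain ⟨d, hd⟩ := hf.even_finrank_alt
  obtain ⟨J, h1, h2⟩ := exists_real_sq_neg F d
  obtain ⟨A, h3, h4⟩ := exists_isom_alt hf h1 (by simp [hd])
  exact ⟨A, h3, (h4.pow_eq_algebraMap_iff _ _).1 h2⟩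

variable (hf : f.Nondeg) (hA : IsIsom f f A)
include hf hA

theorem sq_neg_exists (h2 : (2 : F) ≠ 0) (h : A ^ 2 = algebraMap F _ (-1)) (j : ℕ) :
    2 * j ≤ finrank F V → ∃ U : Submodule F V, f.TotSing U ∧ finrank F U = j ∧
      ND f (U ⊔ U.map A) ∧ finrank F (U ⊔ U.map A : Submodule F V) = 2 * j := by
  have hAA : ∀ x, A (A x) = -x := fun x => by simpa [pow_two] using LinearMap.congr_fun h x
  induction j with
  | zero => exact fun _ => ⟨⊥, f.totSing_bot, by simp, by simpa using nd_bot, by simp⟩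
  | succ j ih =>
    intro hj
    obtain ⟨U, h3, rfl, h4, h5⟩ := ih (by omega)
    have h6 : Inv A (U ⊔ U.map A) := inv_iff_map_le.2 (by
      rw [Submodule.map_sup, map_map_eq_of_sq (by simp) h, sup_comm])
    have h7 := h4.inv_perp hA.B_eq h6
    obtain ⟨v, hv, h8⟩ : ∃ v ∈ f.perp (U ⊔ U.map A), f.B v (A v) ≠ 0 := by
      by_contra! h8
      obtain ⟨u, hu, h0⟩ := Submodule.exists_mem_ne_zero_of_ne_bot
        (p := f.perp (U ⊔ U.map A)) (fun h9 => by
          have := hf.finrank_add_finrank_perp (U ⊔ U.map A)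
          rw [h9, finrank_bot] at this; omega)
      obtain ⟨w, hw, h9⟩ := nd_iff.1 (h4.perp hf) u hu h0
      have h10 := h8 _ (add_mem hu (h7 _ hw))
      have h11 := h8 _ (h7 _ hw)
      rw [map_add A, f.B_add_left, f.B_add_right, f.B_add_right, h8 u hu, h11, hAA, hA.B_eq,
        f.B_neg_right, f.alt_symm u w] at h10
      exact h9 ((mul_eq_zero.1 (show 2 * f.B u w = 0 by linear_combination -h10)).resolve_left h2)
    have h9 : f.B v ((f.B v (A v))⁻¹ • A v) = 1 := by rw [f.B_smul_right, inv_mul_cancel₀ h8]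
    have h10 : U ⊔ F ∙ v ⊔ (U ⊔ F ∙ v).map A =
        U ⊔ U.map A ⊔ Submodule.span F {v, (f.B v (A v))⁻¹ • A v} := by
      rw [Submodule.map_sup, sup_sup_sup_comm, Submodule.span_insert, Submodule.map_span,
        Set.image_singleton, Submodule.span_singleton_smul_eq (IsUnit.mk0 _ (inv_ne_zero h8))]
    have h11 : Submodule.span F {v, (f.B v (A v))⁻¹ • A v} ≤ f.perp (U ⊔ U.map A) :=
      Submodule.span_le.2 (by
        rintro _ (rfl | rfl)
        exacts [hv, Submodule.smul_mem _ _ (h7 _ hv)])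
    refine ⟨U ⊔ F ∙ v, h3.sup_span (f.alt_q v) (perp_anti f le_sup_left hv), ?_, ?_, ?_⟩
    · rw [finrank_sup_of_disjoint (h4.disjoint_of_le ((Submodule.span_singleton_le_iff_mem _ _).2
        hv) |>.mono_left le_sup_left), finrank_span_singleton (by rintro rfl; simp at h8)]
    · rw [h10]
      exact h4.sup (nd_of_nondeg (f.restrict_nondeg_pair (f.alt_q _) (f.alt_q _) h9))
        ((le_perp_comm f).1 h11)
    · rw [h10, finrank_sup_of_disjoint (h4.disjoint_of_le h11), h5,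
        f.finrank_span_pair (f.alt_q _) (f.alt_q _) h9, mul_add]

theorem alt_sq_cases [Nontrivial V] {c : F} (h : A ^ 2 = algebraMap F _ c) :
    A ^ 2 = 1 ∨ A ^ 2 = algebraMap F _ (-1) := by
  rcases mul_self_eq_one_iff.1 (norm_eq_one hf (h ▸ isIsom_pow hA 2)) with rfl | rfl
  · exact Or.inl (by simpa using h)
  · exact Or.inr h

theorem alt_invol_nd {c : F} (hc : c ≠ 0) (h : A ^ 2 = algebraMap F _ c) {d e : ℕ}
    (hd : finrank F V = 2 * d) (he : e ≤ d) (h1 : Even e ∨ Odd d) :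
    ∃ U : Submodule F V, finrank F U = 2 * e ∧ ND f U ∧ Inv A U := by
  classical
  obtain ⟨D, σ, h2, h3, h4, h5, h6⟩ := (decOn_planes (hA.injective hf) hA.B_eq hc h d ⊤
    (inv_top _) (nd_top hf) (by rw [finrank_top, hd])).toFin (by rw [finrank_top, hd])
  have h7 : σ ^ 2 = 1 := perm_pow_eq_one h3 (fun j hj => by
    have := h2 j; rw [hj, finrank_bot] at this; omega) h6 hc h
  obtain ⟨s, -, h8, rfl⟩ := exists_inv_subset (σ := σ) (fun x => by
    simpa [pow_two] using Equiv.congr_fun h7 x) e (s := Finset.univ) (by simp) (by simpa using he)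
    (h1.imp_right fun h1 => by
      obtain ⟨x, hx⟩ := Equiv.Perm.exists_fixed_point_of_prime (p := 2) (n := 1) (σ := σ)
        (by simpa [Nat.odd_iff] using h1) (by simpa using h7)
      exact ⟨x, by simp, hx⟩)
  refine ⟨s.sup D, by simp [finrank_sup_eq h3, h2, mul_comm], ND.of_sup (W := sᶜ.sup D) ?_
    (sup_le_perp_sup h5 (by simp)), inv_of_map_eq (by rw [map_finset_sup h6, image_eq_of_inv h8])⟩
  rw [← Finset.sup_union, Finset.union_compl, Finset.sup_univ_eq_iSup, h4]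
  exact nd_top hf

end AltInvol

/-! ### Criteria for elements of prime order -/

theorem mod_le_sub_of_dvd {c j n : ℕ} (h : c ∣ j) (hj : j ≤ n) : n % c ≤ n - j := by
  obtain ⟨k, rfl⟩ := h
  obtain ⟨e, rfl⟩ := Nat.exists_eq_add_of_le hj
  rw [Nat.mul_add_mod, Nat.add_sub_cancel_left]
  exact Nat.mod_le _ _

/-- `A` fixes or interchanges the members of a pair of complementary totally singular spaces. -/
def FixPair (f : Form T V) (A : Module.End F V) : Prop :=
  ∃ U W, TSPair f U W ∧ ((U.map A = U ∧ W.map A = W) ∨ (U.map A = W ∧ W.map A = U))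

theorem FixPair.of_smul {b : F} (hb : b ≠ 0) (h : FixPair f (b • A)) : FixPair f A := by
  simpa only [FixPair, map_smul_eq hb] using h

theorem fixPair_of_inv [FiniteDimensional F V] (hf : f.Nondeg) (hA : IsIsom f f A)
    (h : ∃ U W, TSPair f U W ∧ Inv A U ∧ Inv A W) : FixPair f A := by
  obtain ⟨U, W, h1, h2, h3⟩ := h
  exact ⟨U, W, h1, Or.inl ⟨h2.map_eq (hA.injective hf), h3.map_eq (hA.injective hf)⟩⟩

theorem FixPair.exists_inv [Nontrivial V] (h : FixPair f A) {r : ℕ} (hr : Odd r)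
    (h1 : A ^ r = 1) : ∃ U W, TSPair f U W ∧ Inv A U ∧ Inv A W := by
  obtain ⟨U, W, h2, h3 | h3⟩ := h
  · exact ⟨U, W, h2, inv_of_map_eq h3.1, inv_of_map_eq h3.2⟩
  · obtain ⟨k, rfl⟩ := hr
    have h4 : ∀ k, U.map (A ^ (2 * k)) = U := fun k => by
      induction k with
      | zero => simp [Module.End.one_eq_id]
      | succ k ih => rw [mul_add, mul_one, ← map_pow_succ, ← map_pow_succ, ih, h3.1, h3.2]
    have h5 := map_pow_succ (A := A) U (2 * k)
    rw [h4, h3.1, h1, Module.End.one_eq_id, Submodule.map_id] at h5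
    subst h5
    exact absurd (h2.compl.inf_eq_bot.symm.trans ((inf_idem _).trans
      ((sup_idem _).symm.trans h2.compl.sup_eq_top))) bot_ne_top

theorem not_fixPair_of_rank [FiniteDimensional F V] (hf : f.Nondeg) (hA : IsIsom f f A)
    (h : finrank F (LinearMap.range (A - 1)) = 1) (h4 : 2 < finrank F V) : ¬ FixPair f A := by
  rintro ⟨U, W, h1, h2 | h2⟩
  · have key : ∀ U W, TSPair f U W → Inv A U → Inv A W → LinearMap.range (A - 1) ≤ U := by
      intro U W h1 h2 h3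
      by_contra h5
      have h6 : U ⊓ LinearMap.range (A - 1) = ⊥ := by
        rw [← Submodule.finrank_eq_zero, ← Nat.lt_one_iff, ← h]
        exact Submodule.finrank_lt_finrank_of_lt (inf_lt_right.2 h5)
      rw [eq_one_of_tsPair hf h1 hA (fun u hu => sub_eq_zero.1 ((Submodule.mem_bot F).1
        (h6 ▸ ⟨U.sub_mem (h2 u hu) hu, u, rfl⟩))) h3, sub_self, LinearMap.range_zero,
        finrank_bot] at h
      omega
    have h5 := le_inf (key U W h1 (inv_of_map_eq h2.1) (inv_of_map_eq h2.2))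
      (key W U h1.symm (inv_of_map_eq h2.2) (inv_of_map_eq h2.1))
    rw [h1.compl.inf_eq_bot, le_bot_iff] at h5
    rw [h5, finrank_bot] at h
    omega
  · have h3 := tsPair_finrank hf h1
    have h5 := LinearMap.finrank_le_finrank_of_injective
      (f := (A - 1).rangeRestrict ∘ₗ U.subtype) ((injective_iff_map_eq_zero _).2 fun u hu =>
        Subtype.ext (Submodule.disjoint_def.1 h1.compl.disjoint _ u.2
          (h2.1 ▸ ⟨u, u.2, sub_eq_zero.1 (congrArg Subtype.val hu)⟩)))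
    omega

namespace Dat

variable [Fintype F] [FiniteDimensional F V] {r s c τ : ℕ} [Fact r.Prime] (D : Dat T r s c τ)
  (hf : f.Nondeg)
include D hf

theorem two_mul_le_of_nodup (hA : IsIsom f f A) {m : Multiset F[X]} {k : ℕ} (h : HasM r A m k)
    (hs : ∃ j : ℕ, (s : ZMod r) = (Fintype.card F : ℕ) ^ j) (hm : m.Nodup) {U : Submodule F V}
    (hU : f.TotSing U) (hU' : Inv A U) : 2 * finrank F U ≤ k := by
  obtain ⟨u, m', h1, h2, -, h3⟩ := D.ts_finrank_eq hf hA h hU hU'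
  obtain rfl : m' = 0 := Multiset.eq_zero_of_forall_notMem fun P hP =>
    Multiset.disjoint_left.1 (Multiset.disjoint_of_nodup_add (Multiset.nodup_of_le (h3 hs) hm))
      hP hP
  simpa [h1] using h2

theorem not_fixPair (hA : IsIsom f f A) {m : Multiset F[X]} {k : ℕ} (h : HasM r A m k)
    (hs : ∃ j : ℕ, (s : ZMod r) = (Fintype.card F : ℕ) ^ j) (hm : m.Nodup) (h0 : m ≠ 0) :
    ¬ FixPair f A := fun h1 => by
  have h2 := h.finrank_eq D.hr
  have h3 := Nat.mul_pos D.ord_pos (Multiset.card_pos.2 h0)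
  have : Nontrivial V := Module.nontrivial_of_finrank_pos (R := F) (by omega)
  obtain ⟨U, W, h4, h5, -⟩ := h1.exists_inv ((Fact.out : r.Prime).odd_of_ne_two D.hr2) h.pow_eq_one
  have h6 := D.two_mul_le_of_nodup hf hA h hs hm h4.ts₀ h5
  have h7 := tsPair_finrank hf h4
  omega

variable (hX : ∀ m : Multiset F[X], (∀ P ∈ m, P ∈ cycFactors F r) →
  m.map (tw s) = m → ord F r * m.card ≤ finrank F V →
    ∃ (A : Module.End F V) (k : ℕ), IsIsom f f A ∧ HasM r A m k)
include hX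

theorem elu_ts (hI : Iso f) {m : ℕ} (hm : 2 * m ≤ finrank F V)
    (hΩ : ∃ j, finrank F V - 2 * m < j ∧ j ≤ finrank F V ∧ c ∣ j) :
    (∀ A : Module.End F V, IsIsom f f A → A ^ r = 1 → A ≠ 1 →
      ∃ U : Submodule F V, finrank F U = m ∧ f.TotSing U ∧ Inv A U) ↔
    (ord F r ≤ m ∧ 2 * (m % ord F r) ≤ finrank F V % c ∧
      τ + 2 * (m / ord F r) ≤ finrank F V / ord F r) := by
  obtain ⟨j, h1, h2, h3⟩ := hΩ
  refine ⟨fun h => ?_, fun h A h4 h5 _ => D.exists_ts_of_le hf h4 h5 (fun e he => hI.exists_ts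
    (nd_ker_sub_one hf h4 (isSemisimple_of_pow_eq_one D.hr h5)) he) hm h.2.1 (Or.inr h.2.2)⟩
  have h4 := D.mod_le_of_ts hf hX ((Nat.le_of_dvd (by omega) h3).trans h2) h
  have h5 : ord F r ≤ m := by
    by_contra! h5
    have := mod_le_sub_of_dvd h3 h2
    rw [Nat.mod_eq_of_lt h5] at h4
    omega
  exact ⟨h5, h4, D.add_le_of_ts hf hX hm h5 h⟩

theorem elu_nd {d : ℕ} (hd : d ∣ c) (hC : ∀ W, ND f W → ∀ e ≤ finrank F W, d ∣ e →
      ∃ U ≤ W, ND f U ∧ finrank F U = e) {m : ℕ} (hdm : d ∣ m) (hm : m ≤ finrank F V)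
    (hΩ : ∃ j, finrank F V - m < j ∧ j ≤ finrank F V ∧ c ∣ j) :
    (∀ A : Module.End F V, IsIsom f f A → A ^ r = 1 → A ≠ 1 →
      ∃ U : Submodule F V, finrank F U = m ∧ ND f U ∧ Inv A U) ↔
    (c ≤ m ∧ m % c ≤ finrank F V % c) := by
  obtain ⟨j, h1, h2, h3⟩ := hΩ
  refine ⟨fun h => ?_, fun h A h4 h5 _ => D.exists_nd_of_le hf h4 h5 hd
    (hC _ (nd_ker_sub_one hf h4 (isSemisimple_of_pow_eq_one D.hr h5))) hdm hm h.2⟩
  have h4 := D.mod_le_of_nd hf hX ((Nat.le_of_dvd (by omega) h3).trans h2) h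
  refine ⟨?_, h4⟩
  by_contra! h5
  have := mod_le_sub_of_dvd h3 h2
  rw [Nat.mod_eq_of_lt h5] at h4
  omega

end Dat

theorem alt_norm_sq (c : F) (h : (FormType.alt F).σ c * c = 1) : c ^ 2 = 1 := by
  rw [sq]; exact h

theorem not_dvd_card_iff [Fintype F] (p : ℕ) [Fact p.Prime] [CharP F p] {r : ℕ} [Fact r.Prime] :
    ¬ r ∣ Fintype.card F ↔ r ≠ p := by
  refine ⟨?_, not_dvd_card p⟩
  rintro h rfl
  exact h ((CharP.cast_eq_zero_iff F r _).1 (Nat.cast_card_eq_zero F))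

end CL.Elus
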