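/-
Unipotent isometries and special elements of unitary groups.
-/
import Mathlib
import Cfsg.Agent.CLAS.Elus6

set_option autoImplicit false

namespace CL.Elus

open Module Polynomial CL.GLn CL.SpU CL.Witt CL.Witt.Form CL.PrimeCl CL.Root

universe u

variable {F : Type*} [Field F] {T : FormType F} {V : Type*} [AddCommGroup V] [Module F V]
  {V' : Type*} [AddCommGroup V'] [Module F V'] {f : Form T V} {A : Module.End F V}

/-! ### Unipotent isometries -/

theorem eq_replicate_of_count {μ : Multiset ℕ} {a t : ℕ} (hpos : ∀ b ∈ μ, 0 < b)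
    (h1 : t ≤ μ.count a) (h2 : μ.sum ≤ t * a) : μ = Multiset.replicate t a := by
  obtain ⟨ν, rfl⟩ := Multiset.le_iff_exists_add.1 (Multiset.le_count_iff_replicate_le.1 h1)
  rw [Multiset.sum_add, Multiset.sum_replicate, smul_eq_mul] at h2
  rw [Multiset.eq_zero_of_forall_notMem (s := ν) fun b hb => by
    have := Multiset.le_sum_of_mem hb
    have := hpos b (Multiset.mem_add.2 (Or.inr hb))
    omega, add_zero]

section Unip

variable [FiniteDimensional F V]

theorem exists_hasJT_restrict {μ : Multiset ℕ} (h : HasJT A 1 μ) {W : Submodule F V}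
    (hW : Inv A W) : ∃ ν, HasJT (A.restrict hW) 1 ν :=
  exists_hasJT (isNilpotent_restrict_sub hW h.isNilpotent)

theorem ND.exists_jt (hA : IsIsom f f A) {μ : Multiset ℕ} (h : HasJT A 1 μ) {W : Submodule F V}
    (hW : ND f W) (hW' : Inv A W) : ∃ ν ≤ μ, HasJT (A.restrict hW') 1 ν := by
  obtain ⟨ν, h1⟩ := exists_hasJT_restrict h hW'
  exact ⟨ν, h.le_of_isCompl hW.isCompl hW' (hW.inv_perp hA.B_eq hW') h1, h1⟩

variable (hf : f.Nondeg) (hA : IsIsom f f A)
include hf hA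

theorem B_pow_pow (i j : ℕ) (x y : V) : f.B (((A - 1) ^ i) x) (((A - 1) ^ j) y) =
    f.B x (((-adj hf A) ^ i) (((A - 1) ^ (i + j)) y)) := by
  rw [← B_adj' hf, adj_sub_one_pow hf hA, pow_add]; rfl

theorem B_pow_pow_eq {k : ℕ} (hk : (A - 1) ^ (k + 1) = 0) {i j : ℕ} (h : i + j = k) (x y : V) :
    f.B (((A - 1) ^ i) x) (((A - 1) ^ j) y) = (-1) ^ i * f.B x (((A - 1) ^ k) y) := by
  have h1 : A (((A - 1) ^ k) y) = ((A - 1) ^ k) y :=
    sub_eq_zero.1 (by simpa [pow_succ'] using LinearMap.congr_fun hk y)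
  have h2 : adj hf A (((A - 1) ^ k) y) = ((A - 1) ^ k) y := by
    conv_lhs => rw [← h1]
    exact LinearMap.congr_fun (adj_mul_self hf hA) _
  rw [B_pow_pow hf hA, h, ← f.B_smul_right]
  congr 1
  clear h
  induction i with
  | zero => simp
  | succ i ih => rw [pow_succ', Module.End.mul_apply, ih]; simp [h2, pow_succ']

theorem exists_block {k : ℕ} (hk : (A - 1) ^ (k + 1) = 0) (U : Submodule F V)
    (hU : ∀ u ∈ U, (∀ x ∈ U, f.B x (((A - 1) ^ k) u) = 0) → u = 0) :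
    ∃ W, ND f W ∧ ∃ hW : Inv A W,
      HasJT (A.restrict hW) 1 (Multiset.replicate (finrank F U) (k + 1)) := by
  let Φ : (Fin (k + 1) → U) →ₗ[F] V :=
    ∑ i : Fin (k + 1), ((A - 1) ^ (i : ℕ)) ∘ₗ U.subtype ∘ₗ LinearMap.proj i
  have hΦ : ∀ u, Φ u = ∑ i : Fin (k + 1), ((A - 1) ^ (i : ℕ)) (u i) := fun u => by simp [Φ]
  have h1 : ∀ (i : ℕ), ∀ u ∈ U, ((A - 1) ^ i) u ∈ LinearMap.range Φ := by
    intro i u hu
    by_cases hi : i < k + 1
    · refine ⟨Pi.single ⟨i, hi⟩ ⟨u, hu⟩, ?_⟩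
      rw [hΦ, Finset.sum_eq_single ⟨i, hi⟩ (fun j _ hj => by simp [hj]) (by simp)]
      simp
    · rw [pow_eq_zero_of_le (not_lt.1 hi) hk]; exact zero_mem _
  have h2 : Inv A (LinearMap.range Φ) := by
    rintro _ ⟨u, rfl⟩
    rw [hΦ, map_sum]
    refine Submodule.sum_mem _ fun i _ => ?_
    have := add_mem (h1 (i + 1) _ (u i).2) (h1 i _ (u i).2)
    simpa [pow_succ'] using this
  have h3 : ND f (LinearMap.range Φ) := by
    rw [ND, Submodule.disjoint_def]
    rintro _ ⟨u, rfl⟩ hu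
    have key : ∀ j : Fin (k + 1), u j = 0 := fun j => by
      induction j using WellFoundedLT.induction with
      | _ j ih =>
        refine Subtype.ext (hU _ (u j).2 fun x hx => ?_)
        have h4 := (mem_perp f).1 hu _ (h1 (k - j) x hx)
        rw [hΦ, map_sum, Finset.sum_eq_single j (fun i _ hi => ?_) (by simp),
          B_pow_pow_eq hf hA hk (by omega)] at h4
        · simpa using h4
        · rcases lt_or_gt_of_ne hi with h5 | h5
          · simp [ih i h5]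
          · rw [B_pow_pow hf hA, pow_eq_zero_of_le (by omega) hk]; simp
    simp [hΦ, key]
  obtain ⟨ν, h4, h5⟩ := exists_hasJT_of_pow (A := A.restrict h2) (k := k + 1)
    (LinearMap.ext fun x => Subtype.ext (by
      have := aeval_restrict_apply h2 ((X - 1) ^ (k + 1)) x
      simpa [hk] using this))
  refine ⟨_, h3, h2, eq_replicate_of_count (fun b hb => (h5 b hb).1) ?_ ?_ ▸ h4⟩
  · rw [← finrank_range_pow_eq_count h4 fun b hb => (h5 b hb).2]
    refine LinearMap.finrank_le_finrank_of_injective (f := LinearMap.rangeRestrict _ ∘ₗ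
      Submodule.inclusion fun u hu => by simpa using h1 0 u hu)
      ((injective_iff_map_eq_zero _).2 fun u hu => Subtype.ext (hU _ u.2 fun x _ => ?_))
    have h6 := aeval_restrict_apply h2 ((X - 1) ^ k) ⟨u, by simpa using h1 0 u u.2⟩
    simp only [map_pow, map_sub, aeval_X, map_one] at h6
    rw [← h6, show ((A.restrict h2 - 1) ^ k) ⟨u, _⟩ = 0 from congrArg Subtype.val hu]
    simp
  · rw [h4.sum_eq]
    exact (LinearMap.finrank_range_le Φ).trans (by simp [Module.finrank_pi_fintype, mul_comm])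

end Unip

theorem exists_block_alt [FiniteDimensional F V] {f : Form (FormType.alt F) V} (hf : f.Nondeg)
    (hA : IsIsom f f A) (h2 : (2 : F) ≠ 0) {k : ℕ} (hk : (A - 1) ^ (k + 1) = 0)
    (hk' : (A - 1) ^ k ≠ 0) : ∃ W, ND f W ∧ ∃ hW : Inv A W,
      HasJT (A.restrict hW) 1 (Multiset.replicate (if Odd k then 1 else 2) (k + 1)) := by
  have h1 : ∀ x y, f.B y (((A - 1) ^ k) x) = -((-1) ^ k * f.B x (((A - 1) ^ k) y)) := fun x y => by
    rw [f.alt_symm, ← B_pow_pow_eq hf hA hk (add_zero k)]; rfl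
  obtain ⟨y, hy⟩ : ∃ y, ((A - 1) ^ k) y ≠ 0 := by
    by_contra! h; exact hk' (LinearMap.ext h)
  obtain ⟨x, hx⟩ : ∃ x, f.B x (((A - 1) ^ k) y) = 1 := by
    obtain ⟨x, hx⟩ := hf.exists_B_eq hy (-1)
    exact ⟨x, by rw [f.alt_symm, hx, neg_neg]⟩
  split_ifs with h
  · obtain ⟨v, hv⟩ : ∃ v, f.B v (((A - 1) ^ k) v) ≠ 0 := by
      by_contra! h3
      have h4 := h3 (x + y)
      rw [map_add ((A - 1) ^ k), f.B_add_left, f.B_add_right, f.B_add_right, h3, h3, h1 x y, hx,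
        h.neg_one_pow] at h4
      exact h2 (by linear_combination h4)
    have h3 := exists_block hf hA hk (F ∙ v) fun u hu h3 => by
      obtain ⟨c, rfl⟩ := Submodule.mem_span_singleton.1 hu
      have := h3 v (Submodule.mem_span_singleton_self v)
      rw [map_smul, f.B_smul_right] at this
      rw [(mul_eq_zero.1 this).resolve_right hv, zero_smul]
    rwa [finrank_span_singleton (by rintro rfl; simp at hv)] at h3
  · have h3 := (Nat.not_odd_iff_even.1 h).neg_one_pow (α := F)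
    let g := Form.ofAlt ((bil f).compl₂ ((A - 1) ^ k)) fun v => by
      have := h1 v v
      rw [h3] at this
      exact (mul_eq_zero.1 (show 2 * f.B v (((A - 1) ^ k) v) = 0 by
        linear_combination this)).resolve_left h2
    have h4 := exists_block hf hA hk (Submodule.span F {x, y}) fun u hu h4 => by
      by_contra h5
      obtain ⟨v, hv, h6⟩ := nd_iff.1 (nd_of_nondeg (g.restrict_nondeg_pair rfl rfl hx)) u hu h5
      exact h6 (g.B_eq_zero_symm (h4 v hv))
    rwa [g.finrank_span_pair rfl rfl hx] at h4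

theorem exists_nd_of_jt (h2 : (2 : F) ≠ 0) (n : ℕ) : ∀ {V : Type u} [AddCommGroup V] [Module F V]
    [FiniteDimensional F V] {f : Form (FormType.alt F) V} {A : Module.End F V} {μ ν : Multiset ℕ},
    finrank F V = n → f.Nondeg → IsIsom f f A → HasJT A 1 μ → ν ≤ μ →
    (∀ a, Odd a → Even (ν.count a)) →
    ∃ U : Submodule F V, finrank F U = ν.sum ∧ ND f U ∧ Inv A U := by
  induction n using Nat.strong_induction_on with
  | _ n ih =>
    intro V _ _ _ f A μ ν hn hf hA hμ hν h1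
    by_cases h0 : μ = 0
    · exact ⟨⊥, by simp [Multiset.le_zero.1 (h0 ▸ hν)], nd_bot, inv_bot A⟩
    obtain ⟨a, ha, h3⟩ := Multiset.exists_max_image id h0
    obtain ⟨k, rfl⟩ : ∃ k, a = k + 1 := ⟨a - 1, by have := hμ.pos a ha; omega⟩
    obtain ⟨W, h4, hW, h5⟩ := exists_block_alt hf hA h2 (k := k)
      (by simpa using (hμ.pow_eq_zero_iff _).2 h3) (fun h => by
        have := (hμ.pow_eq_zero_iff k).1 (by simpa using h) _ ha; omega)
    have hW' := h4.inv_perp hA.B_eq hW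
    obtain ⟨μ', h6⟩ := exists_hasJT_restrict hμ hW'
    obtain rfl := hμ.unique ((h5.prodMap h6).of_simil (simil_prod_of_isCompl h4.isCompl hW hW'))
    have h7 := h5.sum_eq
    have h8 := hf.finrank_add_finrank_perp W
    have h9 : finrank F (f.perp W) < n := by
      rw [Multiset.sum_replicate, smul_eq_mul] at h7
      split_ifs at h7 <;> omega
    have ih' := fun ν => ih _ h9 (ν := ν) rfl (h4.perp hf).nondeg (isIsom_restrict hA hW') h6
    by_cases h10 : Multiset.replicate (if Odd k then 1 else 2) (k + 1) ≤ ν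
    · obtain ⟨ν', rfl⟩ := Multiset.le_iff_exists_add.1 h10
      obtain ⟨U, h11, h12, h13⟩ := ih' ν' (le_of_add_le_add_left hν) fun a ha => by
        have h11 := h1 a ha
        rw [Multiset.count_add, Multiset.count_replicate] at h11
        simp only [Nat.even_iff, Nat.odd_iff] at h11 ha ⊢
        split_ifs at h11 <;> omega
      have h14 := Submodule.map_subtype_le _ U
      exact ⟨W ⊔ U.map (f.perp W).subtype, by
        rw [finrank_sup_of_disjoint (h4.disjoint_of_le h14), finrank_map_subtype, h11,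
          Multiset.sum_add, h7], h4.sup (nd_map_subtype h12) ((le_perp_comm f).1 h14),
        hW.sup (hW'.map_subtype h13)⟩
    · rw [← Multiset.le_count_iff_replicate_le] at h10
      obtain ⟨U, h11, h12, h13⟩ := ih' ν (Multiset.le_iff_count.2 fun a => by
        have h11 := Multiset.le_iff_count.1 hν a
        have h12 := h1 (k + 1)
        rw [Multiset.count_add, Multiset.count_replicate] at h11
        simp only [Nat.even_iff, Nat.odd_iff] at h10 h11 h12
        by_cases h13 : k + 1 = a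
        · subst h13; split_ifs at h10 <;> omega
        · rwa [if_neg h13, zero_add] at h11) h1
      exact ⟨U.map (f.perp W).subtype, by rw [finrank_map_subtype, h11], nd_map_subtype h12,
        hW'.map_subtype h13⟩

section Char

variable [FiniteDimensional F V] (p : ℕ) [Fact p.Prime] [CharP F p]

theorem exists_hasJT_of_pow_char (h : A ^ p = 1) : ∃ μ, HasJT A 1 μ ∧ ∀ a ∈ μ, 0 < a ∧ a ≤ p :=
  exists_hasJT_of_pow (by simpa [h] using (pow_char_pow_sub_one (F := F) p A 1).symm)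

omit [FiniteDimensional F V] in
theorem ne_one_of_hasJT {μ : Multiset ℕ} (h : HasJT A 1 μ) (h1 : ∃ a ∈ μ, a ≠ 1) : A ≠ 1 := by
  obtain ⟨a, h2, h3⟩ := h1
  rintro rfl
  have := (h.pow_eq_zero_iff 1).1 (by simp) a h2
  have := h.pos a h2
  omega

theorem alt_elu_unip [Fintype F] {f : Form (FormType.alt F) V} (hf : f.Nondeg) (hp : p ≠ 2) {m : ℕ}
    (hm : m ≤ finrank F V) (hme : Even m) :
    (∀ A : Module.End F V, IsIsom f f A → A ^ p = 1 → A ≠ 1 →
      ∃ U : Submodule F V, finrank F U = m ∧ ND f U ∧ Inv A U) ↔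
    ∀ μ : Multiset ℕ, (∀ a ∈ μ, 0 < a ∧ a ≤ p) → (∀ a, Odd a → Even (μ.count a)) →
      μ.sum = finrank F V → ∃ ν ≤ μ, ν.sum = m ∧ ∀ a, Odd a → Even (ν.count a) := by
  constructor
  · intro h μ h1 h2 h3
    by_cases h4 : ∃ a ∈ μ, a ≠ 1
    · obtain ⟨B, hB⟩ := exists_hasJT_of_sum (V := V) (1 : F) (fun a ha => (h1 a ha).1) h3
      obtain ⟨A, h5, h6⟩ := exists_isom_alt hf ((isReal_iff_even_count hB).2 h2) rfl
      have h7 := hB.of_simil h6
      obtain ⟨U, rfl, h8, h9⟩ := h A h5 (pow_eq_one_of_hasJT p h7 fun a ha => (h1 a ha).2)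
        (ne_one_of_hasJT h7 h4)
      obtain ⟨ν, h10, h11⟩ := h8.exists_jt h5 h7 h9
      exact ⟨ν, h10, h11.sum_eq, (isReal_iff_even_count h11).1 ⟨_, h8.nondeg,
        isIsom_restrict h5 h9⟩⟩
    · push Not at h4
      obtain ⟨ν, h5, rfl⟩ := exists_le_sum_of_ones h4 (h3 ▸ hm)
      refine ⟨ν, h5, rfl, fun a _ => ?_⟩
      rw [Multiset.eq_replicate_card.2 fun b hb => h4 b (Multiset.mem_of_le h5 hb)] at hme ⊢
      rw [Multiset.count_replicate]
      split_ifs
      · simpa using hme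
      · simp
  · intro h A h1 h2 _
    obtain ⟨μ, h3, h4⟩ := exists_hasJT_of_pow_char p h2
    obtain ⟨ν, h5, rfl, h6⟩ := h μ h4 ((isReal_iff_even_count h3).1 ⟨f, hf, h1⟩) h3.sum_eq
    exact exists_nd_of_jt (by exact_mod_cast natCast_ne_zero (F := F) (r := 2) p hp.symm) _ rfl hf
      h1 h3 h5 h6

end Char

/-- In characteristic two there is an involution all of whose invariant non-degenerate subspaces
have dimension divisible by four. -/
theorem exists_invol_four_dvd [FiniteDimensional F V] [CharP F 2] {f : Form (FormType.alt F) V}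
    (hf : f.Nondeg) {d : ℕ} (hd : finrank F V = 2 * d) (he : Even d) (h0 : 0 < d) :
    ∃ A : Module.End F V, IsIsom f f A ∧ A ^ 2 = 1 ∧ A ≠ 1 ∧
      ∀ U, ND f U → Inv A U → 4 ∣ finrank F U := by
  obtain ⟨g, hg⟩ := exists_alt_nondeg (F := F) (V := Fin d → F) (by simpa using he)
  obtain ⟨e, he⟩ := (prodForm_nondeg hg hg).exists_isIsom_alt hf (by simp [hd, two_mul])
  let S : Module.End F ((Fin d → F) × (Fin d → F)) := (LinearEquiv.prodComm F _ _).toLinearMap
  have h1 : IsomConj (prodForm g g) f S (e.conj S) := ⟨e, he, fun v => by simp⟩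
  have h2 := IsomConj.isIsom h1 ((alt_isIsom_iff _ _ _).2 fun x y => by
    simp [S, prodForm_B, add_comm])
  have h3 : e.conj S ^ 2 = 1 := by ext; simp [S, pow_two]
  have h4 : ∀ x, f.B x (e.conj S x) = 0 := fun x => by
    obtain ⟨x, rfl⟩ := e.surjective x
    simp [S, he.B_eq, prodForm_B, g.alt_symm x.1 x.2]
  obtain ⟨μ, h5, h6⟩ := exists_hasJT_of_pow_char 2 h3
  obtain rfl : μ = Multiset.replicate d 2 := by
    refine eq_replicate_of_count (fun b hb => (h6 b hb).1) ?_ (by rw [h5.sum_eq, hd, mul_comm])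
    rw [← finrank_range_pow_eq_count (k := 1) h5 fun b hb => (h6 b hb).2, pow_one]
    simpa using LinearMap.finrank_le_finrank_of_injective
      (f := (e.conj S - 1).rangeRestrict ∘ₗ e.toLinearMap ∘ₗ LinearMap.inl F _ _)
      ((injective_iff_map_eq_zero _).2 fun u hu => by
        simpa [S, ← map_sub, Subtype.ext_iff] using hu)
  refine ⟨_, h2, h3, ne_one_of_hasJT h5 ⟨2, Multiset.mem_replicate.2 ⟨h0.ne', rfl⟩, by simp⟩, fun U h7 h8 => ?_⟩
  obtain ⟨ν, h9, h10⟩ := h7.exists_jt h2 h5 h8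
  obtain ⟨j, -, rfl⟩ := Multiset.le_replicate_iff.1 h9
  have h11 := Orth.even_count_of_alt h7.nondeg (isIsom_restrict h2 h8) h10 (k := 1)
    (Form.ofAlt ((bil (f.restrict U)).compl₂ ((e.conj S).restrict h8 - 1)) fun v => by
      simpa [bil_apply, restrict_B, f.alt_B_self] using h4 v) isUnit_one (Commute.one_left _)
      fun x y => by rw [pow_one]; rfl
  rw [← h10.sum_eq]
  obtain ⟨i, hi⟩ := h11
  simp only [Multiset.count_replicate_self] at hi
  simp; omega

/-! ### Roots of unity -/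

theorem padic_lt_of_pow_eq_neg_one (h2 : (2 : F) ≠ 0) {z : F} {N k : ℕ} (hk : k ≠ 0)
    (h1 : z ^ N = -1) (h3 : z ^ k = 1) : padicValNat 2 N < padicValNat 2 k := by
  have h4 : (1 : F) ≠ -1 := fun h => h2 (by linear_combination h)
  by_contra! h5
  obtain ⟨a, u, hu, rfl⟩ := Nat.exists_eq_two_pow_mul_odd hk
  obtain ⟨w, rfl⟩ := (padicValNat_dvd_iff_le (by rintro rfl; exact h4 (by simpa using h1))).2
    (((padicValNat_dvd_iff_le hk).1 (dvd_mul_right _ _)).trans h5)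
  refine h4 ?_
  rw [← hu.neg_one_pow, ← h1, ← pow_mul, mul_right_comm, pow_mul, h3, one_pow]

theorem exists_orderOf_eq [Fintype F] {d : ℕ} (h : d ∣ Fintype.card F - 1) :
    ∃ ζ : F, orderOf ζ = d := by
  classical
  obtain ⟨g, hg⟩ := IsCyclic.exists_ofOrder_eq_natCard (α := Fˣ)
  rw [Nat.card_eq_fintype_card, Fintype.card_units] at hg
  exact ⟨(g ^ (orderOf g / d) : Fˣ), by
    rw [orderOf_units, orderOf_pow_orderOf_div (orderOf_pos g).ne' (hg ▸ h)]⟩

theorem exists_pow_eq_neg_one [Fintype F] {N : ℕ} (hN : N ≠ 0)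
    (h : 2 ^ (padicValNat 2 N + 1) ∣ Fintype.card F - 1) :
    ∃ ζ : F, ζ ^ N = -1 ∧ ζ ^ 2 ^ (padicValNat 2 N + 1) = 1 := by
  obtain ⟨ζ, h1⟩ := exists_orderOf_eq h
  have h2 : ζ ^ 2 ^ (padicValNat 2 N + 1) = 1 := h1 ▸ pow_orderOf_eq_one ζ
  have h3 : ζ ^ 2 ^ padicValNat 2 N = -1 :=
    (sq_eq_one_iff.1 (by rw [← pow_mul, ← pow_succ, h2])).resolve_left fun h3 => by
      have := Nat.le_of_dvd (by positivity) (h1 ▸ orderOf_dvd_of_pow_eq_one h3)
      have := Nat.pow_lt_pow_right one_lt_two (Nat.lt_succ_self (padicValNat 2 N))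
      omega
  obtain ⟨u, hu⟩ : 2 ^ padicValNat 2 N ∣ N := pow_padicValNat_dvd
  have h4 : Odd u := Nat.not_even_iff_odd.1 fun ⟨w, hw⟩ =>
    pow_succ_padicValNat_not_dvd hN ⟨w, by rw [pow_succ, mul_assoc, two_mul, ← hw, ← hu]⟩
  exact ⟨ζ, by rw [hu, pow_mul, h3, h4.neg_one_pow], h2⟩

/-! ### Special isometries -/

section Special

variable [FiniteDimensional F V]

theorem det_of_isCompl {U W : Submodule F V} (h : IsCompl U W) {a b : F}
    (hU : ∀ u ∈ U, A u = a • u) (hW : ∀ w ∈ W, A w = b • w) :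
    LinearMap.det A = a ^ finrank F U * b ^ finrank F W := by
  rw [← (simil_prod_of_isCompl h (inv_of_le_ker_sub hU) (inv_of_le_ker_sub hW)).det,
    LinearMap.det_prodMap, show A.restrict (inv_of_le_ker_sub hU) = a • LinearMap.id from
      LinearMap.ext fun x => Subtype.ext (hU _ x.2), show A.restrict (inv_of_le_ker_sub hW) =
      b • LinearMap.id from LinearMap.ext fun x => Subtype.ext (hW _ x.2)]
  simp

theorem det_of_sq (h2 : (2 : F) ≠ 0) (h : A ^ 2 = 1) :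
    LinearMap.det A = (-1) ^ finrank F (LinearMap.range (A - 1)) := by
  rw [det_of_isCompl (isCompl_ker_range (ss_of_sq h2 h)) (a := 1) (fun u hu => by
    simpa [sub_eq_zero] using hu) fun w hw => apply_of_mem_range h hw, one_pow, one_mul]

omit [FiniteDimensional F V] in
theorem exists_diag {U W : Submodule F V} (h : IsCompl U W) (a b : F) :
    ∃ A : Module.End F V, (∀ u ∈ U, A u = a • u) ∧ ∀ w ∈ W, A w = b • w :=
  ⟨LinearMap.ofIsCompl h (a • U.subtype) (b • W.subtype),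
    fun u hu => LinearMap.ofIsCompl_apply_left h ⟨u, hu⟩,
    fun w hw => LinearMap.ofIsCompl_apply_right h ⟨w, hw⟩⟩

omit [FiniteDimensional F V] in
theorem sq_eq_of_diag {U W : Submodule F V} (h : IsCompl U W) {a : F}
    (hU : ∀ u ∈ U, A u = a • u) (hW : ∀ w ∈ W, A w = (-a) • w) :
    A ^ 2 = algebraMap F _ (a ^ 2) := by
  ext v
  obtain ⟨u, w, rfl⟩ := exists_add_of_isCompl h v
  simp [pow_two, hU _ u.2, hW _ w.2, smul_smul]

omit [FiniteDimensional F V] in
theorem ne_algebraMap_of_diag (h2 : (2 : F) ≠ 0) {U W : Submodule F V} (hU0 : U ≠ ⊥) (hW0 : W ≠ ⊥)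
    {a : F} (ha : a ≠ 0) (hU : ∀ u ∈ U, A u = a • u) (hW : ∀ w ∈ W, A w = (-a) • w) (c : F) :
    A ≠ algebraMap F _ c := by
  rintro rfl
  obtain ⟨u, hu, h0⟩ := Submodule.exists_mem_ne_zero_of_ne_bot hU0
  obtain ⟨w, hw, h0'⟩ := Submodule.exists_mem_ne_zero_of_ne_bot hW0
  have h3 := smul_left_injective F h0 (hU u hu)
  have h4 := smul_left_injective F h0' (hW w hw)
  exact mul_ne_zero h2 ha (by linear_combination h4 - h3)

theorem exists_invol (hf : f.Nondeg) (h2 : (2 : F) ≠ 0) {W : Submodule F V} (hW : ND f W) :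
    ∃ A : Module.End F V, IsIsom f f A ∧ A ^ 2 = 1 ∧ LinearMap.range (A - 1) = W := by
  obtain ⟨A, h3, h4⟩ := exists_diag hW.isCompl.symm (1 : F) (-1)
  refine ⟨A, isIsom_of_span f f A (s := f.perp W ∪ W) (by
    rw [Submodule.span_union, Submodule.span_eq, Submodule.span_eq,
      hW.isCompl.symm.sup_eq_top]) ?_ ?_, by simpa using sq_eq_of_diag hW.isCompl.symm h3 h4,
      le_antisymm ?_ fun w hw => ⟨(-2 : F)⁻¹ • w, ?_⟩⟩
  · rintro x (hx | hx) y (hy | hy)
    · simp [h3 x hx, h3 y hy]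
    · simp [h3 x hx, h4 y hy, (mem_perp' f).1 hx y hy]
    · simp [h4 x hx, h3 y hy, (mem_perp f).1 hy x hx]
    · simp [h4 x hx, h4 y hy]
  · rintro x (hx | hx)
    · simp [h3 x hx]
    · simp [h4 x hx, q_neg]
  · rintro _ ⟨v, rfl⟩
    obtain ⟨w, u, rfl⟩ := exists_add_of_isCompl hW.isCompl v
    simpa [h3 _ u.2, h4 _ w.2] using W.sub_mem (W.neg_mem w.2) w.2
  · rw [map_smul, LinearMap.sub_apply, h4 w hw, Module.End.one_apply,
      show (-1 : F) • w - w = (-2 : F) • w by module, smul_smul,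
      inv_mul_cancel₀ (neg_ne_zero.2 h2), one_smul]

omit [FiniteDimensional F V] in
theorem exists_anti {U W : Submodule F V} (h : TSPair f U W) {b : F} (hb : T.σ b * b = -1) :
    ∃ A : Module.End F V, IsIsom f f A ∧ (∀ u ∈ U, A u = b • u) ∧ ∀ w ∈ W, A w = (-b) • w := by
  obtain ⟨A, h3, h4⟩ := exists_diag h.compl b (-b)
  refine ⟨A, isIsom_of_span f f A (s := U ∪ W) (by
    rw [Submodule.span_union, Submodule.span_eq, Submodule.span_eq, h.compl.sup_eq_top]) ?_ ?_,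
    h3, h4⟩
  · rintro x (hx | hx) y (hy | hy)
    · simp [h3 x hx, h3 y hy, h.ts₀.2 x hx y hy]
    · rw [h3 x hx, h4 y hy, f.B_smul_left, f.B_smul_right]
      linear_combination -f.B x y * hb
    · rw [h4 x hx, h3 y hy, f.B_smul_left, f.B_smul_right, map_neg]
      linear_combination -f.B x y * hb
    · simp [h4 x hx, h4 y hy, h.ts₁.2 x hx y hy]
  · rintro x (hx | hx)
    · rw [h3 x hx, f.q_smul, h.ts₀.1 x hx, mul_zero]
    · rw [h4 x hx, f.q_smul, h.ts₁.1 x hx, mul_zero]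

theorem exists_torus_pair [Nontrivial V] (hf : f.Nondeg) {U W : Submodule F V} (h : TSPair f U W)
    {c : F} (hc : c ≠ 0) : ∃ g ∈ f.O, mp g U = U ∧ mp g W = W ∧
      LinearMap.det (g : V →ₗ[F] V) = c * (T.σ c)⁻¹ := by
  obtain ⟨u, hu, h0⟩ := Submodule.exists_mem_ne_zero_of_ne_bot (p := U) (by
    rintro rfl
    have := tsPair_finrank hf h
    have := Module.finrank_pos (R := F) (M := V)
    simp_all)
  obtain ⟨w, hw, -, h1⟩ := h.exists_dual hf bot_le hu h0 1
  obtain ⟨g, hg, h2, h3, h4, h5⟩ := hf.exists_torus (h.ts₀.1 u hu) (h.ts₁.1 w hw) h1 hc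
  have h6 : f.B w u = T.ε := by rw [f.symm, h1, map_one, mul_one]
  refine ⟨g, hg, mp_eq_of_mem fun x hx => ?_, mp_eq_of_mem fun x hx => ?_, h5⟩
  · have h7 := h4 (x - (T.ε * f.B w x) • u) (h.ts₀.2 u hu _ (U.sub_mem hx (U.smul_mem _ hu))) (by
      rw [f.B_sub_right, f.B_smul_right, h6, mul_right_comm, T.εε, one_mul, sub_self])
    rw [map_sub, map_smul, h2, sub_eq_iff_eq_add] at h7
    exact h7 ▸ U.add_mem (U.sub_mem hx (U.smul_mem _ hu)) (U.smul_mem _ (U.smul_mem _ hu))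
  · have h7 := h4 (x - f.B u x • w) (by rw [f.B_sub_right, f.B_smul_right, h1, mul_one, sub_self])
      (h.ts₁.2 w hw _ (W.sub_mem hx (W.smul_mem _ hw)))
    rw [map_sub, map_smul, h3, sub_eq_iff_eq_add] at h7
    exact h7 ▸ W.add_mem (W.sub_mem hx (W.smul_mem _ hw)) (W.smul_mem _ (W.smul_mem _ hw))

variable [Fintype F] {r : ℕ} [Fact r.Prime] (hr : (r : F) ≠ 0) (hr2 : r ≠ 2)
include hr hr2

theorem det_eq_one_of_inv {m : Multiset F[X]} {k : ℕ} (h : HasM r A m k)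
    (hi : m.map (tw (r - 1)) = m) :
    LinearMap.det A = 1 ∧ (m ≠ 0 → ∀ c, A ≠ algebraMap F _ c) := by
  have h1 := (h.simil_pow_iff hr coprime_sub_one).2 hi
  have h2 := (Nat.coprime_primes (Fact.out : r.Prime) Nat.prime_two).2 hr2
  refine ⟨eq_one_of_coprime h2 ?_ (by rw [← map_pow, h.pow_eq_one, map_one]), fun h0 c hc => ?_⟩
  · rw [sq]
    nth_rw 1 [h1.det]
    rw [← map_mul, h.pow_sub_one_mul, map_one]
  · have h3 := (h1.pow_eq_algebraMap_iff 1 c).1 (by rw [pow_one, hc])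
    have h4 := h.pow_sub_one_mul
    rw [pow_one, ← hc] at h3
    rw [h3, ← sq] at h4
    have h5 := pow_gcd_eq_one.2 ⟨h.pow_eq_one, h4⟩
    rw [h2, pow_one] at h5
    exact h0 ((h.eq_one_iff hr).1 h5)

omit [FiniteDimensional F V] in
theorem exists_nodup_inv (ho : Odd (ord F r)) {h : ℕ} (hh : 2 * h ≤ (r - 1) / ord F r) :
    ∃ m : Multiset F[X], (∀ P ∈ m, P ∈ cycFactors F r) ∧ m.Nodup ∧ m.card = 2 * h ∧
      m.map (tw (r - 1)) = m := by
  obtain ⟨S, h1, h2, h3⟩ := exists_half_tw hr coprime_sub_one Orth.exists_sq_sub_one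
    (mt (Orth.exists_neg_one_iff hr hr2).1 (Nat.not_even_iff_odd.2 ho))
  rw [card_cyc hr] at h3
  obtain ⟨S', h4, rfl⟩ := Finset.exists_subset_card_eq (s := S) (n := h) (by omega)
  have h5 : ∀ P ∈ S'.1, P ∈ cycFactors F r := fun P hP => h1 P (h4 hP)
  refine ⟨_, (dat_alt hr hr2).mem_add_map h5, Multiset.nodup_add.2 ⟨S'.2, S'.2.map_on
    fun x hx y hy h => ?_, Multiset.disjoint_left.2 fun hP hP' => ?_⟩, by simp [two_mul],
    (dat_alt hr hr2).map_add_map h5⟩
  · rw [← tw_tw_eq hr Orth.exists_sq_sub_one x (h5 x hx), h,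
      tw_tw_eq hr Orth.exists_sq_sub_one y (h5 y hy)]
  · obtain ⟨Q, hQ, rfl⟩ := Multiset.mem_map.1 hP'
    exact (h2 Q (h5 Q hQ)).1 (h4 hQ) (h4 hP)

end Special

/-! ### Unitary groups -/

section Unitary

variable [Fintype F] {q : ℕ} {hF : Fintype.card F = q ^ 2}

theorem herm_norm (c : F) : (Uni.HT hF).σ c * c = c ^ (q + 1) := by rw [Uni.HT_σ, pow_succ]

theorem herm_norm_pow (c : F) (h : (Uni.HT hF).σ c * c = 1) : c ^ (q + 1) = 1 :=
  (herm_norm c).symm.trans h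

include hF in
theorem dvd_q_iff (p : ℕ) [Fact p.Prime] [CharP F p] {r : ℕ} [Fact r.Prime] : ¬ r ∣ q ↔ r ≠ p := by
  rw [← not_dvd_card_iff (F := F) p, hF, (Fact.out : r.Prime).prime.dvd_pow_iff_dvd two_ne_zero]

include hF in
theorem coprime_char_succ (p : ℕ) [Fact p.Prime] [CharP F p] : p.Coprime (q + 1) := by
  have h : p ∣ q := by simpa using dvd_q_iff (hF := hF) p (r := p)
  exact (Nat.coprime_self_add_right.2 (Nat.coprime_one_right q)).coprime_dvd_left h

theorem ord_eq_two_iff {r : ℕ} [Fact r.Prime] (hr2 : r ≠ 2) :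
    orderOf (q : ZMod r) = 2 ↔ r ∣ q + 1 := by
  have : Fact (2 < r) := ⟨lt_of_le_of_ne (Fact.out : r.Prime).two_le hr2.symm⟩
  rw [← ZMod.natCast_eq_zero_iff, Nat.cast_succ, ← eq_neg_iff_add_eq_zero]
  refine ⟨fun h => (sq_eq_one_iff.1 (h ▸ pow_orderOf_eq_one _)).resolve_left fun h1 => ?_,
    fun h => orderOf_eq_prime (by simp [h]) (h ▸ ZMod.neg_one_ne_one)⟩
  simp [h1] at h

include hF in
theorem norm_eq_one_of_pow {r : ℕ} [Fact r.Prime] (hr2 : r ≠ 2) (hrq : r ∣ q + 1) {b c : F}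
    (h : b ^ r = c) (hc : c ^ (q + 1) = 1) : b ^ (q + 1) = 1 := by
  have hq := SqField.two_le hF
  have h1 : (b ^ (q + 1)) ^ r = 1 := by rw [← pow_mul, mul_comm, pow_mul, h, hc]
  refine eq_one_of_coprime (N := q - 1) (((Fact.out : r.Prime).coprime_iff_not_dvd).2 fun h2 =>
    hr2 ((Nat.prime_dvd_prime_iff_eq Fact.out Nat.prime_two).1 ?_))
    ((SqField.pow_q_eq_iff hF ?_).1 (SqField.norm_pow_q hF b)) h1
  · simpa [show q + 1 - (q - 1) = 2 by omega] using Nat.dvd_sub hrq h2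
  · intro h2
    simp [h2, (Fact.out : r.Prime).ne_zero] at h1

include hF in
theorem exists_norm_not_pow_iff {r : ℕ} [Fact r.Prime] (hr2 : r ≠ 2) (hrq : r ∣ q + 1) {k : ℕ}
    (hk : k ≠ 0) : (∃ c : F, (∀ b, b ^ r ≠ c) ∧ c ^ (q + 1) = 1 ∧ c ^ k = 1) ↔
      padicValNat r (q + 1) ≤ padicValNat r k := by
  have h1 := SqField.card_ker_norm hF
  rw [← show _ ↔ padicValNat r (q + 1) ≤ _ from h1 ▸ exists_not_pow_iff (hrq.trans h1.symm.dvd) hk]
  have h0 : ∀ c : F, c ^ (q + 1) = 1 → c ≠ 0 := by rintro _ h rfl; simp at h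
  constructor
  · rintro ⟨c, h2, h3, h4⟩
    exact ⟨⟨Units.mk0 c (h0 c h3), Units.ext (by simpa using h3)⟩, fun b hb =>
      h2 b.1 (by simpa using congrArg (fun x => (x.1 : F)) hb),
      Subtype.ext (Units.ext (by simpa using h4))⟩
  · rintro ⟨c, h2, h3⟩
    have h4 : (c.1 : F) ^ (q + 1) = 1 := by simpa using congrArg Units.val c.2
    refine ⟨c.1, fun b hb => ?_, h4, by simpa using congrArg (fun x => (x.1 : F)) h3⟩
    have h5 := norm_eq_one_of_pow (hF := hF) hr2 hrq hb h4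
    exact h2 ⟨Units.mk0 b (h0 b h5), Units.ext (by simpa using h5)⟩
      (Subtype.ext (Units.ext (by simpa using hb)))

include hF in
theorem exists_sq_of_norm (hq : Odd q) {c : F} (hc : c ^ (q + 1) = 1) : ∃ b : F, b ^ 2 = c := by
  obtain ⟨y, h0, h1⟩ := SqField.exists_div_of_norm_one hF hc
  obtain ⟨k, rfl⟩ := hq
  refine ⟨(y ^ k)⁻¹, ?_⟩
  rw [inv_pow, ← pow_mul, mul_comm k, eq_comm]
  refine eq_inv_of_mul_eq_one_left (mul_right_cancel₀ h0 ?_)
  rw [mul_assoc, ← pow_succ, h1, one_mul]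

include hF in
theorem two_ne_zero_of_odd_q (hq : Odd q) : (2 : F) ≠ 0 :=
  two_ne_zero_of_odd_card (hF ▸ hq.pow)

include hF in
theorem exists_anti_iff (hq : Odd q) {k : ℕ} (hk : k ≠ 0) :
    (∃ b : F, b ^ (q + 1) = -1 ∧ (-b ^ 2) ^ k = 1) ↔
      ¬ (padicValNat 2 (2 * k) ≤ padicValNat 2 (q + 1) ∧ q % 4 = 3) := by
  have h2 := two_ne_zero_of_odd_q (hF := hF) hq
  obtain ⟨e, he⟩ : ∃ e, q + 1 = 2 * e := hq.add_one.two_dvd
  have h3 : ∀ {k}, k ≠ 0 → padicValNat 2 (2 * k) = padicValNat 2 k + 1 := fun hk => by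
    rw [padicValNat.mul two_ne_zero hk, padicValNat.self one_lt_two, add_comm]
  have h4 : 2 ^ (padicValNat 2 (q + 1) + 1) ∣ Fintype.card F - 1 := by
    rw [hF, show q ^ 2 - 1 = (q + 1) * (q - 1) from Nat.sq_sub_sq q 1, pow_succ]
    exact Nat.mul_dvd_mul pow_padicValNat_dvd (Nat.Odd.sub_odd hq odd_one).two_dvd
  constructor
  · rintro ⟨b, h5, h6⟩ ⟨h7, h8⟩
    have h9 := padic_lt_of_pow_eq_neg_one h2 (N := e) hk (by
      rw [(show Even e by rw [Nat.even_iff]; omega).neg_pow, ← pow_mul, ← he, h5]) h6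
    rw [he, h3 hk, h3 (by omega)] at h7
    omega
  · intro h
    obtain ⟨b, h5, h6⟩ := exists_pow_eq_neg_one (by omega) h4
    refine ⟨b, h5, ?_⟩
    by_cases h7 : q % 4 = 3
    · have h8 := not_le.1 fun h8 => h ⟨h8, h7⟩
      obtain ⟨w, hw⟩ := (padicValNat_dvd_iff_le (by omega)).2 h8
      have h9 : 1 ≤ padicValNat 2 k := by rw [he, h3 hk, h3 (by omega)] at h8; omega
      rw [(even_iff_two_dvd.2 (dvd_of_one_le_padicValNat h9)).neg_pow, ← pow_mul, hw, pow_mul, h6,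
        one_pow]
    · have h8 : ¬ 2 ∣ e := by rw [Nat.odd_iff] at hq; omega
      rw [he, h3 (by omega), padicValNat.eq_zero_of_not_dvd h8] at h6
      rw [he, pow_mul] at h5
      rcases sq_eq_one_iff.1 (show (b ^ 2) ^ 2 = 1 by rw [← pow_mul]; exact h6) with h9 | h9
      · exact absurd (by rw [h9, one_pow] at h5; linear_combination h5) h2
      · simp [h9]

variable [FiniteDimensional F V] {f : Form (Uni.HT hF) V}

theorem isReal_herm_of_hasJT {μ : Multiset ℕ} (h : HasJT A 1 μ) : IsReal (Uni.HT hF) A := by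
  refine isReal_herm_iff.2 (UniED.tw_of_ued hF h ⟨h.1, fun x hx => ?_, ?_⟩)
  · obtain ⟨e, -, rfl⟩ := Multiset.mem_map.1 hx
    simp
  · rw [Multiset.map_map]
    exact Multiset.map_congr rfl fun e _ => Prod.ext
      ((UniED.dl_X_sub_C_eq_iff hF one_ne_zero).2 (one_pow _)) rfl

theorem isReal_herm_of_irred {r : ℕ} (hr : r ≠ 0) {c : F} (hc : c ^ (q + 1) = 1)
    (hi : Irreducible (X ^ r - C c : F[X])) (h : aeval A (X ^ r - C c : F[X]) = 0) :
    IsReal (Uni.HT hF) A := by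
  have h0 : c ≠ 0 := by rintro rfl; simp at hc
  have h1 : (X ^ r - C c : F[X]).coeff 0 ≠ 0 := by simpa [coeff_X_pow, hr.symm] using h0
  obtain ⟨k, hk⟩ := hasED_of_irreducible (monic_X_pow_sub_C c hr) hi h
  refine isReal_herm_iff.2 (UniED.tw_of_ued hF hk ⟨hk.1, fun x hx => ?_, ?_⟩)
  · rw [Multiset.eq_of_mem_replicate hx]; exact h1
  · have h2 := UniED.dl_dvd_X_pow_sub_C hF h1 h0 dvd_rfl
    rw [(UniED.inv_pow_eq_iff h0).2 hc] at h2
    rw [Multiset.map_replicate, UniED.DD, ← eq_of_monic_of_dvd_of_natDegree_le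
      (UniED.monic_dl hF h1) (monic_X_pow_sub_C c hr) h2 (UniED.natDegree_dl hF h1).ge]

theorem exists_real_irred {r : ℕ} (hr : r ≠ 0) {c : F} (hc : c ^ (q + 1) = 1)
    (hi : Irreducible (X ^ r - C c : F[X])) {n : ℕ} (hn : r ∣ n) :
    ∃ A : Module.End F (Fin n → F), IsReal (Uni.HT hF) A ∧ aeval A (X ^ r - C c : F[X]) = 0 := by
  obtain ⟨k, rfl⟩ := hn
  obtain ⟨A, hA⟩ := exists_hasED_replicate (V := Fin (r * k) → F) (monic_X_pow_sub_C c hr) hi
    (k := k) (by simp)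
  exact ⟨A, isReal_herm_of_irred hr hc hi (aeval_eq_zero_of_replicate hA),
    aeval_eq_zero_of_replicate hA⟩

variable (hf : f.Nondeg)
include hf

theorem herm_elu_unip (p : ℕ) [Fact p.Prime] [CharP F p] {m : ℕ} (hm : m ≤ finrank F V) :
    (∀ A : Module.End F V, IsIsom f f A → A ^ p = 1 → A ≠ 1 →
      ∃ U : Submodule F V, finrank F U = m ∧ ND f U ∧ Inv A U) ↔
    ∀ μ : Multiset ℕ, (∀ a ∈ μ, 0 < a ∧ a ≤ p) → μ.sum = finrank F V → ∃ ν ≤ μ, ν.sum = m := by
  constructor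
  · intro h μ h1 h3
    by_cases h4 : ∃ a ∈ μ, a ≠ 1
    · obtain ⟨B, hB⟩ := exists_hasJT_of_sum (V := V) (1 : F) (fun a ha => (h1 a ha).1) h3
      obtain ⟨A, h5, h6⟩ := exists_isom_herm hf (isReal_herm_of_hasJT hB) rfl
      have h7 := hB.of_simil h6
      obtain ⟨U, rfl, h8, h9⟩ := h A h5 (pow_eq_one_of_hasJT p h7 fun a ha => (h1 a ha).2)
        (ne_one_of_hasJT h7 h4)
      obtain ⟨ν, h10, h11⟩ := h8.exists_jt h5 h7 h9
      exact ⟨ν, h10, h11.sum_eq⟩
    · push Not at h4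
      exact exists_le_sum_of_ones h4 (h3 ▸ hm)
  · intro h A h1 h2 _
    obtain ⟨μ, h3, h4⟩ := exists_hasJT_of_pow_char p h2
    obtain ⟨ν, h5, rfl⟩ := h μ h4 h3.sum_eq
    obtain ⟨ν', rfl⟩ := Multiset.le_iff_exists_add.1 h5
    obtain ⟨B, hB⟩ := exists_hasJT_of_sum (V := Fin ν.sum → F) (1 : F) (μ := ν)
      (fun a ha => (h4 a (by simp [ha])).1) (by simp)
    obtain ⟨C, hC⟩ := exists_hasJT_of_sum (V := Fin ν'.sum → F) (1 : F) (μ := ν')
      (fun a ha => (h4 a (by simp [ha])).1) (by simp)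
    obtain ⟨U, h6, h7, -, h8, -⟩ := (rigid_herm hf h1).split (isReal_herm_of_hasJT hB)
      (isReal_herm_of_hasJT hC) ((hB.prodMap hC).simil h3)
    exact ⟨U, by simpa using h8.finrank_eq.symm, h6, h7⟩

theorem herm_exists_transv (p : ℕ) [Fact p.Prime] [CharP F p] (h : 2 ≤ finrank F V) :
    ∃ A : Module.End F V, IsIsom f f A ∧ A ^ p = 1 ∧ finrank F (LinearMap.range (A - 1)) = 1 := by
  have h1 : ∀ a ∈ 2 ::ₘ Multiset.replicate (finrank F V - 2) 1, 0 < a ∧ a ≤ 2 := fun a ha => by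
    rcases Multiset.mem_cons.1 ha with rfl | ha
    · omega
    · rw [Multiset.eq_of_mem_replicate ha]; omega
  obtain ⟨B, hB⟩ := exists_hasJT_of_sum (V := V) (1 : F) (fun a ha => (h1 a ha).1)
    (by simp; omega)
  obtain ⟨A, h5, h6⟩ := exists_isom_herm hf (isReal_herm_of_hasJT hB) rfl
  have h7 := hB.of_simil h6
  refine ⟨A, h5, pow_eq_one_of_hasJT p h7 fun a ha => (h1 a ha).2.trans (Fact.out : p.Prime).two_le,
    ?_⟩
  have h8 := finrank_range_pow_eq_count (k := 1) h7 fun a ha => (h1 a ha).2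
  rw [pow_one] at h8
  simpa [Multiset.count_replicate] using h8

theorem herm_invol_cases [Nontrivial V] (hq : Odd q) (hA : IsIsom f f A) (hd : LinearMap.det A = 1)
    {c : F} (h : A ^ 2 = algebraMap F _ c) :
    (∃ b, (Uni.HT hF).σ b * b = -1 ∧ A ^ 2 = algebraMap F _ (b ^ 2) ∧ Even (finrank F V) ∧
      ¬ (padicValNat 2 (finrank F V) ≤ padicValNat 2 (q + 1) ∧ q % 4 = 3)) ∨
    ∃ b : F, b ≠ 0 ∧ IsIsom f f (b • A : Module.End F V) ∧ (b • A) ^ 2 = 1 ∧
      (padicValNat 2 (q + 1) ≤ padicValNat 2 (finrank F V) →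
        Even (finrank F (LinearMap.range (b • A - 1)))) := by
  have h2 := two_ne_zero_of_odd_q (hF := hF) hq
  have h3 := herm_norm_pow _ (norm_eq_one hf (h ▸ isIsom_pow hA 2))
  obtain ⟨b, rfl⟩ := exists_sq_of_norm (hF := hF) hq h3
  rcases sq_eq_one_iff.1 (show (b ^ (q + 1)) ^ 2 = 1 by rw [← pow_mul, mul_comm, pow_mul, h3])
    with h4 | h4
  · have h0 : b ≠ 0 := by rintro rfl; simp at h4
    have h5 := smul_pow_eq_one h0 h
    refine Or.inr ⟨_, inv_ne_zero h0, isIsom_smul hA (norm_inv ((herm_norm b).trans h4)), h5,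
      fun h6 => Nat.not_odd_iff_even.1 fun h7 => ?_⟩
    have h8 := det_of_sq h2 h5
    rw [LinearMap.det_smul, hd, mul_one, h7.neg_one_pow] at h8
    exact absurd (padic_lt_of_pow_eq_neg_one h2 (k := q + 1) (by omega) h8 (by simp [h4]))
      (not_lt.2 h6)
  · have h5 := (herm_norm (hF := hF) b).trans h4
    obtain ⟨U, W, h6, h7, h8⟩ := anti_pair hf hA h2 h5 h
    have h9 := tsPair_finrank hf h6
    have h10 := Module.finrank_pos (R := F) (M := V)
    refine Or.inl ⟨b, h5, h, h9 ▸ even_two_mul _, h9 ▸ (exists_anti_iff (hF := hF) hq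
      (by omega)).1 ⟨b, h4, ?_⟩⟩
    rw [← hd, det_of_isCompl h6.compl h7 h8, h6.finrank_eq hf, ← mul_pow, mul_neg, sq]

theorem herm_exists_refl (hq : Odd q) (hn : 2 ≤ finrank F V)
    (h : padicValNat 2 (finrank F V) < padicValNat 2 (q + 1)) :
    ∃ (b : F) (A : Module.End F V), b ≠ 0 ∧ IsIsom f f A ∧ A ^ 2 = 1 ∧
      finrank F (LinearMap.range (A - 1)) = 1 ∧ IsIsom f f (b • A : Module.End F V) ∧
      LinearMap.det (b • A) = 1 ∧ (∃ c, (b • A) ^ 2 = algebraMap F _ c) ∧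
      ∀ c, b • A ≠ algebraMap F _ c := by
  have h2 := two_ne_zero_of_odd_q (hF := hF) hq
  have h3 := (padicValNat_dvd_iff_le (by omega)).2 h
  obtain ⟨b, h4, h5⟩ := exists_pow_eq_neg_one (F := F) (N := finrank F V) (by omega) (h3.trans (by
    rw [hF, show q ^ 2 - 1 = (q + 1) * (q - 1) from Nat.sq_sub_sq q 1]; exact dvd_mul_right _ _))
  obtain ⟨w, hw⟩ := h3
  have h6 : (Uni.HT hF).σ b * b = 1 := by rw [herm_norm, hw, pow_mul, h5, one_pow]
  have h0 := ne_zero_of_norm h6 one_ne_zero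
  obtain ⟨W, -, h7, h8⟩ := herm_exists_nd (nd_top hf) (e := 1) (by rw [finrank_top]; omega)
  obtain ⟨A, h9, h10, rfl⟩ := exists_invol hf h2 h7
  have h11 := finrank_ker_add_range (A - 1)
  refine ⟨b, A, h0, h9, h10, h8, isIsom_smul h9 h6, by
    rw [LinearMap.det_smul, det_of_sq h2 h10, h8, h4]; simp, ⟨b ^ 2, by
      rw [_root_.smul_pow, h10, Algebra.algebraMap_eq_smul_one]⟩, fun c hc => ?_⟩
  refine ne_algebraMap_of_ker (A := A) (fun h => ?_) (ne_one_of_finrank_ker (by omega))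
    (b⁻¹ * c) (by
    rw [map_mul, ← hc, Algebra.algebraMap_eq_smul_one, smul_mul_smul_comm, inv_mul_cancel₀ h0,
      one_smul, one_mul])
  rw [h, finrank_bot] at h11
  omega

theorem herm_exists_anti [Nontrivial V] (hq : Odd q) (he : Even (finrank F V))
    (h : ¬ (padicValNat 2 (finrank F V) ≤ padicValNat 2 (q + 1) ∧ q % 4 = 3)) :
    ∃ (b : F) (A : Module.End F V), (Uni.HT hF).σ b * b = -1 ∧ IsIsom f f A ∧
      LinearMap.det A = 1 ∧ A ^ 2 = algebraMap F _ (b ^ 2) ∧ ∀ c, A ≠ algebraMap F _ c := by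
  obtain ⟨U, W, h1, h2, h3⟩ := (iso_herm f).exists_sup_eq (nd_top hf) (by simpa using he)
  have h4 := tsPair_of_sup hf h1 h2 h3
  have h5 := tsPair_finrank hf h4
  have h6 := h4.finrank_eq hf
  have h7 := Module.finrank_pos (R := F) (M := V)
  obtain ⟨b, h8, h9⟩ := (exists_anti_iff (hF := hF) hq (k := finrank F U) (by omega)).2 (h5 ▸ h)
  have h10 := (herm_norm (hF := hF) b).trans h8
  obtain ⟨A, h11, h12, h13⟩ := exists_anti h4 h10
  exact ⟨b, A, h10, h11, by rw [det_of_isCompl h4.compl h12 h13, h6, ← mul_pow, mul_neg, ← sq, h9],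
    sq_eq_of_diag h4.compl h12 h13, ne_algebraMap_of_diag (two_ne_zero_of_odd_q (hF := hF) hq)
      (by rintro rfl; simp at h5; omega) (by rintro rfl; simp at h6; omega)
      (ne_zero_of_norm h10 (by simp)) h12 h13⟩

theorem tsPair_trans_SO [Nontrivial V] {U W U' W' : Submodule F V} (h : TSPair f U W)
    (h' : TSPair f U' W') : ∃ g ∈ f.SO, mp g U = U' ∧ mp g W = W' := by
  obtain ⟨g, hg, h1, h2⟩ := tsPair_trans hf h h'
  obtain ⟨y, h0, h3⟩ := SqField.exists_div_of_norm_one hF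
    (herm_norm_pow _ (norm_inv (hf.σ_det_mul_det hg)))
  obtain ⟨t, ht, h4, h5, h6⟩ := exists_torus_pair hf h h0
  refine ⟨g * t, f.mem_SO.2 ⟨mul_mem hg ht, ?_⟩, by rw [mp_mul, h4, h1], by rw [mp_mul, h5, h2]⟩
  rw [det_mul_equiv, h6, Uni.HT_σ]
  nth_rw 1 [← h3]
  rw [mul_inv_cancel_right₀ (pow_ne_zero _ h0), mul_inv_cancel₀ (det_equiv_ne_zero g)]

variable {r : ℕ} [Fact r.Prime] (hr2 : r ≠ 2) (hrq : r ∣ q + 1)
include hr2 hrq

/-- Elements of prime order `r ∣ q + 1` of the projective special unitary group. -/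
theorem herm_elu_two [Nontrivial V] (hr : (r : F) ≠ 0) (S : Submodule F V → Prop) {m : ℕ}
    (TA : Prop)
    (h1 : TA → ∀ A : Module.End F V, IsIsom f f A → A ^ r = 1 →
      ∃ U : Submodule F V, finrank F U = m ∧ S U ∧ Inv A U)
    (h2 : r ∣ m → ∀ (A : Module.End F V) (c : F), IsIsom f f A → c ^ (q + 1) = 1 →
      Irreducible (X ^ r - C c : F[X]) → aeval A (X ^ r - C c : F[X]) = 0 → r ∣ finrank F V →
      ∃ U : Submodule F V, finrank F U = m ∧ S U ∧ Inv A U)
    (h3 : ¬ TA → ∃ A : Module.End F V, IsIsom f f A ∧ LinearMap.det A = 1 ∧ A ^ r = 1 ∧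
      (∀ c, A ≠ algebraMap F _ c) ∧ ¬ ∃ U : Submodule F V, finrank F U = m ∧ S U ∧ Inv A U) :
    (∀ A : Module.End F V, IsIsom f f A → LinearMap.det A = 1 → (∃ c, A ^ r = algebraMap F _ c) →
      (∀ c, A ≠ algebraMap F _ c) → ∃ U : Submodule F V, finrank F U = m ∧ S U ∧ Inv A U) ↔
    (TA ∧ (r ∣ m ∨ padicValNat r (finrank F V) ≤ padicValNat r (q + 1))) := by
  have hp : r.Prime := Fact.out
  have hn := Module.finrank_pos (R := F) (M := V)
  have h4 : ∀ {k}, k ≠ 0 → padicValNat r (r * k) = padicValNat r k + 1 := fun hk => by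
    rw [padicValNat.mul hp.ne_zero hk, padicValNat.self hp.one_lt, add_comm]
  have h5 : (-1 : F) ^ (r + 1) = 1 := (hp.odd_of_ne_two hr2).add_one.neg_one_pow
  constructor
  · refine fun h => ⟨by_contra fun h6 => ?_, by_contra fun h6 => ?_⟩
    · obtain ⟨A, h7, h8, h9, h10, h11⟩ := h3 h6
      exact h11 (h A h7 h8 ⟨1, by simpa using h9⟩ h10)
    · push Not at h6
      obtain ⟨k, hk⟩ : r ∣ finrank F V := dvd_of_one_le_padicValNat (by omega)
      have h7 : k ≠ 0 := by rintro rfl; omega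
      obtain ⟨c, h8, h9, h10⟩ := (exists_norm_not_pow_iff (hF := hF) hr2 hrq h7).2 (by
        rw [hk, h4 h7] at h6; omega)
      have h11 := (irreducible_or_root c).resolve_left fun ⟨b, hb⟩ => h8 b hb
      obtain ⟨B, h12, h13⟩ := exists_real_irred (hF := hF) hp.ne_zero h9 h11 ⟨k, hk⟩
      obtain ⟨A, h14, h15⟩ := exists_isom_herm hf h12 (by simp)
      have h16 := (h15.aeval_eq_zero_iff _).1 h13
      have h17 : A ^ r = algebraMap F _ c := sub_eq_zero.1 (by simpa using h16)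
      obtain ⟨k', h18⟩ := hasED_of_irreducible (monic_X_pow_sub_C c hp.ne_zero) h11 h16
      obtain ⟨h19, h20⟩ := det_of_pow_irreducible hp.ne_zero h18
      obtain rfl := Nat.eq_of_mul_eq_mul_left hp.pos (hk.symm.trans h19)
      obtain ⟨U, rfl, -, h21⟩ := h A h14 (by rw [h20, h5, one_mul, h10]) ⟨c, h17⟩
        (ne_algebraMap_of_pow h17 h8)
      exact h6.1 (((hom_top_of_irreducible h17 h11).mono le_top).dvd (ss_of_irreducible h11 h16) h21)
  · rintro ⟨h6, h7⟩ A h8 h9 ⟨c, h10⟩ -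
    have h11 := herm_norm_pow _ (norm_eq_one hf (h10 ▸ isIsom_pow h8 r))
    rcases irreducible_or_root (r := r) c with ⟨b, rfl⟩ | h12
    · have h12 := (herm_norm (hF := hF) b).trans (norm_eq_one_of_pow (hF := hF) hr2 hrq rfl h11)
      have h0 := ne_zero_of_norm h12 one_ne_zero
      exact (h1 h6 _ (isIsom_smul h8 (norm_inv h12)) (smul_pow_eq_one h0 h10)).imp fun U h =>
        ⟨h.1, h.2.1, (inv_smul_iff (inv_ne_zero h0)).1 h.2.2⟩
    · obtain ⟨k, h13⟩ := hasED_of_irreducible (monic_X_pow_sub_C c hp.ne_zero) h12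
        (aeval_X_pow_sub_C h10)
      obtain ⟨h14, h15⟩ := det_of_pow_irreducible hp.ne_zero h13
      have h16 : k ≠ 0 := by rintro rfl; omega
      have h17 := (exists_norm_not_pow_iff (hF := hF) hr2 hrq h16).1 ⟨c,
        pow_ne_of_irreducible_X_pow_sub_C h12 dvd_rfl hp.ne_one, h11, by
          rw [← h9, h15, h5, one_mul]⟩
      exact h2 (h7.resolve_right (by rw [h14, h4 h16]; omega)) A c h8 h11 h12
        (aeval_X_pow_sub_C h10) ⟨k, h14⟩

theorem herm_exists_test (hr : (r : F) ≠ 0) {h : ℕ} (h0 : 0 < h) (h1 : 2 * h ≤ r - 1)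
    (h2 : 2 * h ≤ finrank F V) : ∃ (A : Module.End F V) (m : Multiset F[X]),
      IsIsom f f A ∧ HasM r A m (finrank F V - 2 * h) ∧ m.Nodup ∧ m ≠ 0 ∧ LinearMap.det A = 1 ∧
      ∀ c, A ≠ algebraMap F _ c := by
  have h3 := (ord_eq_two_iff hr2).2 hrq
  have h4 : ord F r = 1 := by rw [ord_sq_eq (hF := hF), h3]; simp
  obtain ⟨m, h5, h6, h7, h8⟩ := exists_nodup_inv hr hr2 (h := h) (by simp [h4]) (by simpa [h4])
  obtain ⟨A, k, h9, h10⟩ := hX_herm hr hf m h5 ((dat_herm (hF := hF) hr hr2).map_eq_of_self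
    ((dat_herm (hF := hF) hr hr2).cases.resolve_right (by simp [h3, h4])).1 h5)
    (by rw [h4, h7]; omega)
  have h11 := h10.finrank_eq hr
  have h12 : m ≠ 0 := by rintro rfl; simp at h7; omega
  obtain rfl : k = finrank F V - 2 * h := by rw [h4, h7] at h11; omega
  exact ⟨A, m, h9, h10, h6, h12, (det_eq_one_of_inv hr hr2 h10 h8).1,
    (det_eq_one_of_inv hr hr2 h10 h8).2 h12⟩

end Unitary

end CL.Elus
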