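/-
Passing from matrix groups to isometries.
-/
import Mathlib
import Cfsg.Agent.CLAS.Elus7
import Cfsg.Agent.CLAS.FormGL

set_option autoImplicit false

namespace CL.Elus

open Module Polynomial CL.GLn CL.SpU CL.Witt CL.Witt.Form CL.PrimeCl CL.Root Cfsg.Geo
open scoped MatrixGroups

variable {F : Type*} [Field F] {T : FormType F} {ι : Type} [Fintype ι] [DecidableEq ι]
  {f : Form T (ι → F)}

theorem exists_gl_of_isIsom (hf : f.Nondeg) {A : Module.End F (ι → F)} (hA : IsIsom f f A) :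
    ∃ x : GL ι F, Matrix.toLin' (x : Matrix ι ι F) = A := by
  obtain ⟨e, -, he⟩ := hA.exists_mem_O hf
  exact ⟨(Orth.glEquiv ι F).symm e, by
    rw [FGL.toLin'_eq, MulEquiv.apply_symm_apply]; exact LinearMap.ext he⟩

theorem forall_gl_iff (hf : f.Nondeg) (L : Subgroup (GL ι F)) (Q : Module.End F (ι → F) → Prop)
    (hL : ∀ x : GL ι F, x ∈ L ↔ IsIsom f f (Matrix.toLin' (x : Matrix ι ι F)) ∧
      Q (Matrix.toLin' (x : Matrix ι ι F))) (r : ℕ) (P : Module.End F (ι → F) → Prop) :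
    (∀ x : GL ι F, x ∈ L →
      (∃ z : F, ((x ^ r : GL ι F) : Matrix ι ι F) = z • (1 : Matrix ι ι F)) →
      (∀ z : F, (x : Matrix ι ι F) ≠ z • (1 : Matrix ι ι F)) →
      P (Matrix.toLin' (x : Matrix ι ι F))) ↔
    ∀ A : Module.End F (ι → F), IsIsom f f A → Q A → (∃ c, A ^ r = algebraMap F _ c) →
      (∀ c, A ≠ algebraMap F _ c) → P A := by
  simp only [Units.val_pow_eq_pow_val, Matrix.toLin'_pow, ne_eq, toLin'_eq_algebraMap_iff, hL]
  refine ⟨fun h A h1 h2 => ?_, fun h x h1 => h _ h1.1 h1.2⟩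
  obtain ⟨x, rfl⟩ := exists_gl_of_isIsom hf h1
  exact h x ⟨h1, h2⟩

theorem forall_gl_order_iff (hf : f.Nondeg) (L : Subgroup (GL ι F))
    (Q : Module.End F (ι → F) → Prop)
    (hL : ∀ x : GL ι F, x ∈ L ↔ IsIsom f f (Matrix.toLin' (x : Matrix ι ι F)) ∧
      Q (Matrix.toLin' (x : Matrix ι ι F))) (r : ℕ) [Fact r.Prime]
      (P : Module.End F (ι → F) → Prop) :
    (∀ x : GL ι F, x ∈ L → orderOf x = r → P (Matrix.toLin' (x : Matrix ι ι F))) ↔
    ∀ A : Module.End F (ι → F), IsIsom f f A → Q A → A ^ r = 1 → A ≠ 1 → P A := by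
  have h0 : ∀ x : GL ι F, Matrix.toLin' (x : Matrix ι ι F) = 1 ↔ x = 1 := fun x => by
    rw [← Units.val_inj, ← Matrix.toLin'.injective.eq_iff, Units.val_one, Matrix.toLin'_one]; rfl
  simp only [orderOf_eq_prime_iff, ← h0, ne_eq, Units.val_pow_eq_pow_val, Matrix.toLin'_pow, hL]
  refine ⟨fun h A h1 h2 h3 h4 => ?_, fun h x h1 h2 => h _ h1.1 h1.2 h2.1 h2.2⟩
  obtain ⟨x, rfl⟩ := exists_gl_of_isIsom hf h1
  exact h x ⟨h1, h2⟩ ⟨h3, h4⟩

theorem exists_perm_two_iff (R : Fin 2 → Fin 2 → Prop) :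
    (∃ σ : Equiv.Perm (Fin 2), ∀ i, R i (σ i)) ↔ (R 0 0 ∧ R 1 1) ∨ (R 0 1 ∧ R 1 0) := by
  refine ⟨fun ⟨σ, h⟩ => ?_, fun h => h.elim (fun h => ⟨1, by simpa using h⟩)
    fun h => ⟨Equiv.swap 0 1, by simpa using h⟩⟩
  rcases (by decide : ∀ σ : Equiv.Perm (Fin 2), σ = 1 ∨ σ = Equiv.swap 0 1) σ with rfl | rfl
  · exact Or.inl (by simpa using h)
  · exact Or.inr (by simpa using h)

theorem mp_conj_eq_iff {V : Type*} [AddCommGroup V] [Module F V] (g x : V ≃ₗ[F] V)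
    (U W : Submodule F V) : mp (g⁻¹ * x * g) U = W ↔ mp x (mp g U) = mp g W := by
  rw [mp_mul, mp_mul]
  exact ⟨fun h => by rw [← h, ← mp_mul g, mul_inv_cancel, mp_one],
    fun h => by rw [h, ← mp_mul, inv_mul_cancel, mp_one]⟩

section Pair

variable {L : Subgroup (GL ι F)} {H : Subgroup ((ι → F) ≃ₗ[F] (ι → F))}
  (hL : ∀ g, g ∈ L ↔ Orth.glEquiv ι F g ∈ H) (hH : H ≤ f.O)
  (htr : ∀ U W U' W', TSPair f U W → TSPair f U' W' → ∃ g ∈ H, mp g U = U' ∧ mp g W = W')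
  {D : Fin 2 → Submodule F (ι → F)} (hD : TSPair f (D 0) (D 1))
include hL hH htr hD

theorem conj_mem_decomp_iff (x : GL ι F) : (∃ g ∈ L, g⁻¹ * x * g ∈ decompositionStabilizer D) ↔
    FixPair f (Matrix.toLin' (x : Matrix ι ι F)) := by
  simp only [FGL.mem_decompositionStabilizer, map_mul, map_inv, mp_conj_eq_iff, FGL.toLin'_eq]
  refine ⟨fun ⟨g, hg, h⟩ => ⟨_, _, tsPair_map hD (hH ((hL g).1 hg)),
    (exists_perm_two_iff fun i j => mp _ (mp _ (D i)) = mp _ (D j)).1 h⟩, fun ⟨U, W, h1, h2⟩ => ?_⟩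
  obtain ⟨g, hg, rfl, rfl⟩ := htr _ _ _ _ hD h1
  obtain ⟨g, rfl⟩ := (Orth.glEquiv ι F).surjective g
  exact ⟨g, (hL g).2 hg, (exists_perm_two_iff fun i j => mp _ (mp _ (D i)) = mp _ (D j)).2 h2⟩

theorem relIndex_decomp_dvd : (decompositionStabilizer D).relIndex L ∣
    Nat.card {P : Submodule F (ι → F) × Submodule F (ι → F) // TSPair f P.1 P.2} := by
  obtain ⟨K, h1, h2⟩ := card_mul_card_stab L
    (fun g (P : Submodule F (ι → F) × Submodule F (ι → F)) =>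
      (mp (Orth.glEquiv ι F g) P.1, mp (Orth.glEquiv ι F g) P.2))
    (fun P => by simp only [map_one, mp_one]) (fun g g' P => by simp only [map_mul, mp_mul])
    (fun P => TSPair f P.1 P.2) (fun g hg P hP => tsPair_map hP (hH ((hL g).1 hg)))
    (fun P P' hP hP' => by
      obtain ⟨g, hg, h1, h2⟩ := htr _ _ _ _ hP hP'
      obtain ⟨g, rfl⟩ := (Orth.glEquiv ι F).surjective g
      exact ⟨g, (hL g).2 hg, Prod.ext h1 h2⟩) (a := (D 0, D 1)) hD
  rw [h2]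
  refine Subgroup.index_dvd_of_le fun g hg => ?_
  have h3 := Prod.ext_iff.1 ((h1 g).1 hg)
  exact ⟨1, Fin.forall_fin_two.2 h3⟩

end Pair

end CL.Elus
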