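/-
Types of non-degenerate subspaces of orthogonal spaces and the orders of their groups.
-/
import Mathlib
import Cfsg.Agent.CLAS.Elus8
import Cfsg.Agent.CLAS.AschOr1
import Cfsg.Agent.CLAS.OrthOrder
import Cfsg.Agent.KSG.OrthCore
import Cfsg.Agent.KSG.OrthInvol

set_option autoImplicit false

namespace CL.Elus

open Module Polynomial CL.GLn CL.SpU CL.Witt CL.Witt.Form CL.PrimeCl CL.Root
open QuadraticMap (polar polarBilin)
open CL.Orth (qfOf IsPlus dsc sqSign qfOf_nondeg)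

variable {F : Type*} [Field F] {T : FormType F} {V : Type*} [AddCommGroup V] [Module F V]
  {V' : Type*} [AddCommGroup V'] [Module F V'] {A : Module.End F V} {U W : Submodule F V}

/-- `W` has plus type. -/
def Pl (f : Form T V) (W : Submodule F V) : Prop :=
  ∃ U ≤ W, f.TotSing U ∧ 2 * finrank F U = finrank F W

theorem pl_bot (f : Form T V) : Pl f ⊥ := ⟨⊥, le_rfl, f.totSing_bot, by simp⟩

theorem Pl.even {f : Form T V} (h : Pl f W) : Even (finrank F W) :=
  let ⟨_, _, _, h⟩ := h; h ▸ even_two_mul _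

theorem exists_equiv_sup (h : Disjoint U W) :
    ∃ e : (U × W) ≃ₗ[F] (U ⊔ W : Submodule F V), ∀ x, (e x : V) = x.1 + x.2 := by
  refine ⟨.ofBijective ((Submodule.inclusion le_sup_left).coprod (Submodule.inclusion le_sup_right))
    ⟨(injective_iff_map_eq_zero _).2 fun x hx => ?_, fun x => ?_⟩, fun _ => rfl⟩
  · have h1 : (x.1 : V) = -x.2 := eq_neg_of_add_eq_zero_left (congrArg Subtype.val hx)
    have h2 := Submodule.disjoint_def.1 h _ x.1.2 (h1 ▸ W.neg_mem x.2.2)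
    exact Prod.ext (Subtype.ext h2) (Subtype.ext (neg_eq_zero.1 (h1 ▸ h2)))
  · obtain ⟨u, hu, w, hw, h1⟩ := Submodule.mem_sup.1 x.2
    exact ⟨(⟨u, hu⟩, ⟨w, hw⟩), Subtype.ext h1⟩

variable {f : Form (FormType.quad F) V}

/-- The quadratic form on a subspace. -/
abbrev qr (f : Form (FormType.quad F) V) (W : Submodule F V) : QuadraticForm F W :=
  qfOf (f.restrict W)

theorem ND.qr_nondeg (h : ND f W) : (polarBilin (qr f W)).Nondegenerate := qfOf_nondeg h.nondeg

theorem pl_iff : Pl f W ↔ IsPlus (qr f W) := by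
  simp only [Pl, quad_totSing_iff]
  exact (Asch.isPlus_restrict_iff (Q := qfOf f)).symm

theorem pl_top_iff : Pl f ⊤ ↔ IsPlus (qfOf f) := by
  simp [Pl, quad_totSing_iff, IsPlus, Orth.qfOf_apply]

theorem pl_restrict_top : Pl (f.restrict W) ⊤ ↔ Pl f W := by rw [pl_top_iff, pl_iff]

theorem isIsom_qfOf : IsIsom f f A ↔ ∀ v, qfOf f (A v) = qfOf f v := quad_isIsom_iff f f A

theorem O_qfOf (f : Form (FormType.quad F) V) : f.O = Orth.O (qfOf f) :=
  Subgroup.ext fun g => isIsom_qfOf (A := (g : V →ₗ[F] V))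

theorem quad_norm_sq (c : F) (h : (FormType.quad F).σ c * c = 1) : c ^ 2 = 1 := by
  rw [sq]; exact h

theorem nd_span (h2 : (2 : F) ≠ 0) {v : V} (hv : f.q v ≠ 0) : ND f (F ∙ v) :=
  nd_iff.2 fun u hu h0 => ⟨v, Submodule.mem_span_singleton_self v, by
    obtain ⟨c, rfl⟩ := Submodule.mem_span_singleton.1 hu
    rw [f.B_smul_left, quad_B_self]
    exact mul_ne_zero (by rintro (rfl : c = 0); simp at h0) (mul_ne_zero h2 hv)⟩

theorem ne_zero_of_q {v : V} (hv : f.q v ≠ 0) : v ≠ 0 := by rintro rfl; exact hv f.q_zero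

/-- The subspaces `U` and `W` are isometric. -/
def Isom (f : Form (FormType.quad F) V) (U W : Submodule F V) : Prop :=
  ∃ e : U ≃ₗ[F] W, ∀ u : U, f.q (e u) = f.q u

theorem Isom.pl_iff (h : Isom f U W) : Pl f U ↔ Pl f W := by
  obtain ⟨e, he⟩ := h
  rw [Elus.pl_iff, Elus.pl_iff]
  exact Orth.isPlus_congr e he

variable [FiniteDimensional F V]

/-- The discriminant of a subspace. -/
noncomputable def ds (f : Form (FormType.quad F) V) (W : Submodule F V) : ℤˣ := dsc (qr f W)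

variable [Finite F]

theorem Isom.ds_eq (hU : ND f U) (h : Isom f U W) : ds f W = ds f U :=
  let ⟨e, he⟩ := h; Orth.dsc_congr hU.qr_nondeg e he

theorem isom_of_pl (hU : ND f U) (hW : ND f W) (he : Even (finrank F U))
    (h : finrank F U = finrank F W) (hp : Pl f U ↔ Pl f W) : Isom f U W :=
  Orth.exists_isometry_of_isPlus_iff hU.qr_nondeg hW.qr_nondeg he h (by rwa [← pl_iff, ← pl_iff])

theorem isom_of_ds (h2 : (2 : F) ≠ 0) (hU : ND f U) (hW : ND f W)
    (h : finrank F U = finrank F W) (hp : ds f U = ds f W) : Isom f U W :=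
  Orth.exists_isometry_of_dsc_eq h2 hU.qr_nondeg hW.qr_nondeg h hp

theorem ds_top (hf : f.Nondeg) : ds f ⊤ = dsc (qfOf f) :=
  (Orth.dsc_congr (nd_top hf).qr_nondeg Submodule.topEquiv fun _ => rfl).symm

theorem sup_type (hU : ND f U) (hW : ND f W) (ho : U ≤ f.perp W) :
    ds f (U ⊔ W) = ds f U * ds f W ∧ (Even (finrank F U) → Even (finrank F W) →
      (Pl f (U ⊔ W) ↔ (Pl f U ↔ Pl f W))) := by
  obtain ⟨e, he⟩ := exists_equiv_sup (hW.disjoint_of_le ho).symm
  have h : ∀ x, qr f (U ⊔ W) (e x) = ((qr f U).prod (qr f W)) x := fun x =>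
    (congrArg f.q (he x)).trans (f.q_add_of_B_eq_zero ((mem_perp' f).1 (ho x.1.2) _ x.2.2))
  refine ⟨(Orth.dsc_congr (Orth.prod_nondeg hU.qr_nondeg hW.qr_nondeg) e h).trans
    (Orth.dsc_prod hU.qr_nondeg hW.qr_nondeg), fun h1 h2 => ?_⟩
  rw [pl_iff, pl_iff, pl_iff, ← Orth.isPlus_congr e h,
    Asch.isPlus_prod_iff hU.qr_nondeg hW.qr_nondeg h1 h2]

theorem ds_perp (hf : f.Nondeg) (hW : ND f W) : ds f ⊤ = ds f W * ds f (f.perp W) := by
  rw [← hW.isCompl.sup_eq_top, (sup_type hW (hW.perp hf) (f.le_perp_perp W)).1]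

theorem pl_perp (hf : f.Nondeg) (hW : ND f W) (h1 : Even (finrank F V))
    (h2 : Even (finrank F W)) : Pl f ⊤ ↔ (Pl f W ↔ Pl f (f.perp W)) := by
  have := hf.finrank_add_finrank_perp W
  rw [← hW.isCompl.sup_eq_top, (sup_type hW (hW.perp hf) (f.le_perp_perp W)).2 h2 (by
    rw [Nat.even_iff] at *; omega)]

theorem pl_iff_ds (h2 : (2 : F) ≠ 0) (hW : ND f W) {a : ℕ} (h : finrank F W = 2 * a) :
    Pl f W ↔ ds f W = sqSign (-1 : F) ^ a :=
  pl_iff.trans (Orth.isPlus_iff_dsc h2 hW.qr_nondeg h)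

theorem ds_span (h2 : (2 : F) ≠ 0) {v : V} (hv : f.q v ≠ 0) :
    ds f (F ∙ v) = sqSign (2 * f.q v) := by
  rw [ds, Orth.dsc_eq (nd_span h2 hv).qr_nondeg ((Basis.singleton Unit F).map
    (LinearEquiv.toSpanNonzeroSingleton F V v (ne_zero_of_q hv))), Matrix.det_unique,
    Orth.gram_apply, Orth.polar_self']
  simp [Orth.qfOf_apply, restrict_q]

theorem ND.exists_q_eq (hW : ND f W) (h : 2 ≤ finrank F W) (c : F) : ∃ v ∈ W, f.q v = c :=
  let ⟨v, hv⟩ := Orth.exists_Q_eq hW.qr_nondeg h c; ⟨v, v.2, hv⟩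

theorem exists_sqSign_eq (h2 : (2 : F) ≠ 0) (δ : ℤˣ) : ∃ c : F, c ≠ 0 ∧ sqSign c = δ := by
  rcases Int.units_eq_one_or δ with rfl | rfl
  exacts [⟨1, one_ne_zero, Orth.sqSign_one⟩, Orth.exists_sqSign_eq_neg_one h2]

theorem exists_nd_ds (h2 : (2 : F) ≠ 0) (hW : ND f W) (e : ℕ) : e < finrank F W → ∀ δ : ℤˣ,
    ∃ U ≤ W, ND f U ∧ finrank F U = e ∧ (0 < e → ds f U = δ) := by
  induction e with
  | zero => exact fun _ _ => ⟨⊥, bot_le, nd_bot, by simp, by simp⟩
  | succ e ih =>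
    intro h δ
    obtain ⟨U, h1, h3, rfl, -⟩ := ih (by omega) 1
    have h4 := h3.finrank_inf_perp h1
    obtain ⟨c, hc, h5⟩ := exists_sqSign_eq h2 (ds f U * δ)
    obtain ⟨v, hv, h6⟩ := (hW.inf_perp h3 h1).exists_q_eq (by omega) (c / 2)
    have h7 : f.q v ≠ 0 := h6 ▸ div_ne_zero hc h2
    have h8 := (Submodule.span_singleton_le_iff_mem _ _).2 hv.2
    have h9 := (le_perp_comm f).1 h8
    refine ⟨U ⊔ F ∙ v, sup_le h1 ((Submodule.span_singleton_le_iff_mem _ _).2 hv.1),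
      h3.sup (nd_span h2 h7) h9, by rw [finrank_sup_of_disjoint (h3.disjoint_of_le h8),
        finrank_span_singleton (ne_zero_of_q h7)], fun _ => ?_⟩
    rw [(sup_type h3 (nd_span h2 h7) h9).1, ds_span h2 h7, h6, mul_div_cancel₀ _ h2, h5,
      ← mul_assoc, Int.units_mul_self, one_mul]

theorem exists_nd_le (h2 : (2 : F) ≠ 0) (hW : ND f W) {e : ℕ} (he : e ≤ finrank F W) :
    ∃ U ≤ W, ND f U ∧ finrank F U = e := by
  rcases he.lt_or_eq with h | rfl
  · obtain ⟨U, h3, h4, h5, -⟩ := exists_nd_ds h2 hW e h 1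
    exact ⟨U, h3, h4, h5⟩
  · exact ⟨W, le_rfl, hW, rfl⟩

theorem exists_nd_of_form [FiniteDimensional F V'] (hW : ND f W) {Q : QuadraticForm F V'}
    (hQ : (polarBilin Q).Nondegenerate) (he : Even (finrank F V'))
    (h : finrank F V' < finrank F W) :
    ∃ U ≤ W, ND f U ∧ finrank F U = finrank F V' ∧ (Pl f U ↔ IsPlus Q) := by
  obtain ⟨ι, hι⟩ := Orth.exists_embedding hW.qr_nondeg hQ he h
  have h1 : Function.Injective (W.subtype ∘ₗ ι) :=
    W.injective_subtype.comp (Orth.injective_of_isom hQ ι hι)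
  refine ⟨LinearMap.range (W.subtype ∘ₗ ι), by rintro _ ⟨x, rfl⟩; exact (ι x).2,
    nd_range ((ofQuad_nondeg_iff Q).2 hQ) ((quad_isIsom_iff _ _ _).2 hι),
    LinearMap.finrank_range_of_inj h1, ?_⟩
  rw [pl_iff]
  exact (Orth.isPlus_congr (LinearEquiv.ofInjective _ h1) hι).symm

theorem exists_nd_pl (hW : ND f W) {e : ℕ} (he : Even e) (h0 : 0 < e) (h : e < finrank F W)
    (η : Prop) : ∃ U ≤ W, ND f U ∧ finrank F U = e ∧ (Pl f U ↔ η) := by
  obtain ⟨a, rfl⟩ := he.two_dvd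
  by_cases hη : η
  · simpa [hη, Orth.isPlus_QPlus, two_mul] using exists_nd_of_form hW (Orth.QPlus_nondeg a F)
      (by simp) (by simpa [two_mul] using h)
  · obtain ⟨a, rfl⟩ : ∃ b, a = b + 1 := ⟨a - 1, by omega⟩
    obtain ⟨ζ, hζ⟩ := Orth.exists_irred_quadratic F
    have h1 := Orth.aniso_of_irred hζ
    simpa only [hη, Orth.not_isPlus_QMinus h1, Orth.finrank_minus] using exists_nd_of_form hW
      (Orth.QMinus_nondeg a F h1) (by simp [Orth.finrank_minus, parity_simps]) (by rwa [Orth.finrank_minus])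

theorem exists_ts_iff (hW : ND f W) {e : ℕ} : (∃ U ≤ W, f.TotSing U ∧ finrank F U = e) ↔
    2 * e ≤ finrank F W ∧ (2 * e = finrank F W → Pl f W) := by
  refine ⟨fun ⟨U, h1, h2, h3⟩ => ⟨?_, fun h => ⟨U, h1, h2, h3 ▸ h⟩⟩, fun ⟨h1, h2⟩ => ?_⟩
  · have := hW.two_mul_finrank_le h2
    rwa [inf_eq_left.2 h1, h3] at this
  obtain ⟨U, h3, h4, h5⟩ : ∃ U ≤ W, Pl f U ∧ finrank F U = 2 * e := by
    rcases h1.lt_or_eq with h | h
    · rcases e.eq_zero_or_pos with rfl | h0
      · exact ⟨⊥, bot_le, pl_bot f, by simp⟩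
      obtain ⟨U, h3, -, h4, h5⟩ := exists_nd_pl hW (even_two_mul e) (by omega) h True
      exact ⟨U, h3, h5.2 trivial, h4⟩
    · exact ⟨W, le_rfl, h2 h, h.symm⟩
  obtain ⟨X, h6, h7, h8⟩ := h4
  exact ⟨X, h6.trans h3, h7, by omega⟩


/-! ### Counting -/

section Count

omit [Finite F]
variable [Fintype F]

open Classical in
/-- The factor `q^d ∓ 1` in the order of an orthogonal group. -/
noncomputable def oy (q n : ℕ) (ε : Prop) : ℕ :=
  if Even n then (if ε then q ^ (n / 2) - 1 else q ^ (n / 2) + 1) else 1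

theorem card_O_quad (hf : f.Nondeg) {n : ℕ} (hn : finrank F V = n) (h0 : 0 < n) :
    Nat.card f.O = 2 * Fintype.card F ^ (n / 2 * ((n - 1) / 2)) * oy (Fintype.card F) n (Pl f ⊤) *
      ∏ i ∈ Finset.range ((n - 1) / 2), (Fintype.card F ^ (2 * (i + 1)) - 1) := by
  have hQ := qfOf_nondeg hf
  rw [O_qfOf, oy]
  rcases Nat.even_or_odd' n with ⟨d, rfl | rfl⟩
  · obtain ⟨d, rfl⟩ : ∃ e, d = e + 1 := ⟨d - 1, by omega⟩
    rw [if_pos (even_two_mul _), show 2 * (d + 1) / 2 = d + 1 by omega,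
      show (2 * (d + 1) - 1) / 2 = d by omega, pl_top_iff]
    split_ifs with h
    · rw [Orth.card_O_of_isPlus hQ h hn, OrthE.card_O_QPlus rfl]
    · obtain ⟨ζ, hζ⟩ := Orth.exists_irred_quadratic F
      obtain ⟨φ, hφ⟩ := Orth.exists_isometry_QMinus hQ hn h (Orth.aniso_of_irred hζ)
      rw [← OrthE.card_O_congr φ hφ, OrthE.card_O_QMinus rfl (Orth.aniso_of_irred hζ)]
  · obtain ⟨c, φ, hc, hφ⟩ := Orth.odd_classification hQ hn
    rw [← OrthE.card_O_congr (Q := c • Orth.QOdd d F) φ hφ, show Orth.O (c • Orth.QOdd d F) =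
      Orth.O (Orth.QOdd d F) from Subgroup.ext fun g => by simp [Orth.mem_O, hc],
      OrthE.card_O_QOdd rfl (Orth.two_ne_zero_of_odd hQ (hn ▸ odd_two_mul_add_one d)),
      if_neg (by simp), show (2 * d + 1) / 2 = d by omega, show (2 * d + 1 - 1) / 2 = d by omega,
      mul_one, sq]

theorem oy_pos {q : ℕ} (hq : 2 ≤ q) {n : ℕ} (hn : 0 < n) (ε : Prop) : 0 < oy q n ε := by
  unfold oy
  split_ifs with h1
  exacts [pow_sub_one_pos hq (by rw [Nat.even_iff] at h1; omega), by omega, one_pos]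

theorem not_dvd_oy {r q n : ℕ} (hr : r.Prime) (hq : 0 < q) (h : r ∣ q) (hn : 0 < n) (ε : Prop) :
    ¬ r ∣ oy q n ε := by
  unfold oy
  split_ifs with h1
  · exact not_dvd_pow_sub_one hr hq h (by rw [Nat.even_iff] at h1; omega)
  · rw [Nat.dvd_add_right (dvd_pow h (by rw [Nat.even_iff] at h1; omega)), Nat.dvd_one]
    exact hr.ne_one
  · rw [Nat.dvd_one]; exact hr.ne_one

theorem oy_mul_oy (q : ℕ) {n : ℕ} (hn : 0 < n) (ε : Prop) :
    oy q n ε * (∏ i ∈ Finset.range ((n - 1) / 2), (q ^ (2 * (i + 1)) - 1)) * oy q n (¬ ε) =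
      ∏ i ∈ Finset.range (n / 2), (q ^ (2 * (i + 1)) - 1) := by
  rcases Nat.even_or_odd' n with ⟨d, rfl | rfl⟩
  · obtain ⟨d, rfl⟩ : ∃ e, d = e + 1 := ⟨d - 1, by omega⟩
    rw [oy, oy, if_pos (even_two_mul _), if_pos (even_two_mul _),
      show 2 * (d + 1) / 2 = d + 1 by omega, show (2 * (d + 1) - 1) / 2 = d by omega,
      Finset.prod_range_succ, ← OrthE.sub_one_mul_add_one]
    by_cases h : ε <;> simp [h] <;> ring
  · rw [oy, oy, if_neg (by simp), if_neg (by simp), show (2 * d + 1) / 2 = d by omega,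
      show (2 * d + 1 - 1) / 2 = d by omega, one_mul, mul_one]

theorem quad_card_ts (hf : f.Nondeg) {m : ℕ} (hm : 2 * m < finrank F V) :
    ∃ W, ND f W ∧ finrank F W = finrank F V - 2 * m ∧ (Even (finrank F V) → (Pl f W ↔ Pl f ⊤)) ∧
      Nat.card f.O = Nat.card {U : Submodule F V // finrank F U = m ∧ f.TotSing U} *
        (((∏ i ∈ Finset.range m, (Fintype.card F ^ (i + 1) - 1)) * Fintype.card F ^
          (m * (finrank F V - 2 * m) + m * (m - 1))) * Nat.card (f.restrict W).O) := by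
  obtain ⟨U, -, h1, h2⟩ := (exists_ts_iff (nd_top hf) (e := m)).2 (by rw [finrank_top]; omega)
  obtain ⟨e, e', h, rfl⟩ := hf.exists_isHyp_of_totSing h1 h2
  have h3 := hf.card_O_eq_card_totSing_mul h.totSing_left
  have h4 : (FormType.quad F).π.ker = ⊥ := by ext a; simp [FormType.quad_π]
  rw [hf.card_stab_isHyp h, h2, h4, AddSubgroup.card_bot, prod_pow_sub_pow,
    Nat.card_eq_fintype_card (α := F)] at h3
  have h5 := nd_of_nondeg h.restrict_nondeg
  refine ⟨_, h5.perp hf, by simpa using h.finrank_perp, fun h6 => ?_, ?_⟩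
  · rw [pl_perp hf h5 h6 (by simp [h.finrank_span]), iff_true_intro (show Pl f _ from
      ⟨_, Submodule.span_mono (by rintro _ ⟨i, rfl⟩; exact ⟨.inl i, rfl⟩), h1, by
        simp [h.finrank_span, h2]⟩), true_iff]
  · rw [h3, ← Nat.div_mul_cancel (Nat.even_mul_pred_self m).two_dvd, Nat.mul_div_cancel _ two_pos]
    ring

theorem quad_not_dvd_ts (hf : f.Nondeg) {m : ℕ} (hm : 2 * m < finrank F V) {r : ℕ} (hr : r.Prime)
    (h : r ∣ Nat.card {U : Submodule F V // finrank F U = m ∧ f.TotSing U}) :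
    ¬ r ∣ Fintype.card F := fun hq => by
  obtain ⟨W, h1, h2, -, h3⟩ := quad_card_ts hf hm
  have h0 : 0 < Fintype.card F := Fintype.card_pos
  obtain ⟨k, hk⟩ : ∃ k, finrank F V = k + 1 + 2 * m := ⟨finrank F V - 2 * m - 1, by omega⟩
  rw [card_O_quad hf hk (by omega), card_O_quad h1.nondeg (n := k + 1) (by omega) (by omega), hk,
    Nat.add_sub_cancel, show (k + 1 + 2 * m) / 2 * ((k + 1 + 2 * m - 1) / 2) =
      m * (k + 1) + m * (m - 1) + (k + 1) / 2 * ((k + 1 - 1) / 2) by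
        rw [show (k + 1 + 2 * m) / 2 = (k + 1) / 2 + m by omega, show (k + 1 + 2 * m - 1) / 2 =
          k / 2 + m by omega, Nat.add_sub_cancel]
        have : k = (k + 1) / 2 + k / 2 := by omega
        generalize (k + 1) / 2 = a at *
        generalize k / 2 = b at *
        subst this
        cases m with
        | zero => simp
        | succ m => simp only [Nat.add_sub_cancel]; ring] at h3
  have h4 : r ∣ oy (Fintype.card F) (k + 1 + 2 * m) (Pl f ⊤) * ∏ i ∈ Finset.range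
      ((k + 1 + 2 * m - 1) / 2), (Fintype.card F ^ (2 * (i + 1)) - 1) := by
    refine Nat.dvd_of_mul_dvd_mul_left (show 0 < 2 * Fintype.card F ^ (m * (k + 1) + m * (m - 1) +
      (k + 1) / 2 * ((k + 1 - 1) / 2)) by positivity) ?_
    rw [← mul_assoc, h3, mul_comm _ r, pow_add _ (_ + _), mul_left_comm 2]
    exact mul_dvd_mul h (mul_dvd_mul (dvd_mul_left _ _) ((dvd_mul_right _ _).mul_right _))
  rcases (Nat.Prime.dvd_mul hr).1 h4 with h5 | h5
  · exact not_dvd_oy hr h0 hq (by omega) _ h5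
  · obtain ⟨i, -, h6⟩ := (Prime.dvd_finset_prod_iff hr.prime _).1 h5
    exact not_dvd_pow_sub_one hr h0 hq (by omega) h6

theorem card_cls_mul {f : Form T V} (hf : f.Nondeg) (hW : ND f W) (S : Submodule F V → Prop)
    (h1 : ∀ g ∈ f.O, S (mp g W))
    (h2 : ∀ U, S U → ∃ e : W ≃ₗ[F] U, IsIsom (f.restrict W) (f.restrict U) e) :
    Nat.card f.O = Nat.card {U // S U} *
      (Nat.card (f.restrict W).O * Nat.card (f.restrict (f.perp W)).O) := by
  rw [card_O_eq_card_orbit_mul_stab W, Nat.card_congr (f.stabEquivProd hW.isCompl).toEquiv,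
    Nat.card_prod]
  congr 1
  refine Nat.card_congr (Equiv.subtypeEquivRight fun U => ⟨?_, fun h => ?_⟩)
  · rintro ⟨g, hg, rfl⟩
    exact h1 g hg
  · obtain ⟨e, he⟩ := h2 U h
    obtain ⟨g, hg, -, h1⟩ := hf.witt_equiv e he
    exact ⟨g, hg, h1⟩

theorem isom_mp {g : V ≃ₗ[F] V} (hg : g ∈ f.O) (W : Submodule F V) : Isom f W (mp g W) :=
  ⟨g.submoduleMap W, fun u => mem_O_q hg u⟩

theorem card_pl_mul (hf : f.Nondeg) (hW : ND f W) (he : Even (finrank F W)) :
    Nat.card f.O = Nat.card {U : Submodule F V // finrank F U = finrank F W ∧ ND f U ∧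
      (Pl f U ↔ Pl f W)} * (Nat.card (f.restrict W).O * Nat.card (f.restrict (f.perp W)).O) :=
  card_cls_mul hf hW _ (fun g hg => ⟨finrank_mp g W, hW.map (mem_O_B hg), (isom_mp hg W).pl_iff.symm⟩)
    fun _ h => (isom_of_pl hW h.2.1 he h.1.symm h.2.2.symm).imp fun _ => (quad_isIsom_iff _ _ _).2

theorem card_ds_mul (h2 : (2 : F) ≠ 0) (hf : f.Nondeg) (hW : ND f W) :
    Nat.card f.O = Nat.card {U : Submodule F V // finrank F U = finrank F W ∧ ND f U ∧
      ds f U = ds f W} * (Nat.card (f.restrict W).O * Nat.card (f.restrict (f.perp W)).O) :=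
  card_cls_mul hf hW _ (fun g hg => ⟨finrank_mp g W, hW.map (mem_O_B hg), (isom_mp hg W).ds_eq hW⟩)
    fun _ h => (isom_of_ds h2 hW h.2.1 h.1.symm h.2.2.symm).imp fun _ => (quad_isIsom_iff _ _ _).2

/-- What the divisibility of `|O(V)| / |O(W)|` by `r` says. -/
def Rat (i c n : ℕ) (ε : Prop) (n' : ℕ) (η : Prop) : Prop :=
  (c ∣ n ∧ (ε ↔ (Even i → Even (n / c)))) ∨ (c ∣ n' ∧ ¬ (η ↔ (Even i → Even (n' / c)))) ∨
    ∃ j, n' < j ∧ j < n ∧ c ∣ j

variable {r : ℕ} [Fact r.Prime] (hr : (r : F) ≠ 0) (hr2 : r ≠ 2)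
include hr hr2

theorem dvd_of_dvd_oy {n : ℕ} {ε : Prop} (h : r ∣ oy (Fintype.card F) n ε) :
    (if Even (ord F r) then ord F r else 2 * ord F r) ∣ n ∧ (ε ↔ (Even (ord F r) →
      Even (n / if Even (ord F r) then ord F r else 2 * ord F r))) := by
  unfold oy at h
  have hp : r.Prime := Fact.out
  by_cases h1 : Even n
  swap
  · exact absurd (Nat.dvd_one.1 (by simpa [h1] using h)) hp.ne_one
  obtain ⟨d, rfl⟩ := h1.two_dvd
  have h0 := PrimeCl.ord_pos hr
  rw [if_pos h1, Nat.mul_div_cancel_left _ two_pos] at h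
  by_cases h2 : ε
  · rw [if_pos h2] at h
    obtain ⟨k, rfl⟩ := (orderOf_dvd_iff_dvd_pow_sub_one (Fintype.card_pos (α := F))).2 h
    split_ifs with h3
    · rw [mul_left_comm, Nat.mul_div_cancel_left _ h0]; simp [h2]
    · simp [h2, h3, Nat.mul_dvd_mul_left]
  · rw [if_neg h2] at h
    obtain ⟨h3, k, h4⟩ := even_ord_of_dvd hr2 h hr
    rw [if_pos h3, h4, Nat.mul_div_cancel_left _ h0]
    refine ⟨dvd_mul_right _ _, iff_of_false h2 fun h5 => ?_⟩
    obtain ⟨k, rfl⟩ := (h5 h3).two_dvd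
    have h6 := (orderOf_dvd_iff_dvd_pow_sub_one (r := r) (Fintype.card_pos (α := F))).1
      ⟨k, show d = _ by nlinarith⟩
    have h7 := Nat.dvd_sub h h6
    rw [show Fintype.card F ^ d + 1 - (Fintype.card F ^ d - 1) = 2 by
      have := Nat.one_le_pow d _ (Fintype.card_pos (α := F)); omega] at h7
    exact hr2 ((Nat.prime_dvd_prime_iff_eq hp Nat.prime_two).1 h7)

theorem quad_rat (hf : f.Nondeg) (hW : ND f W) (h0 : 0 < finrank F W)
    (h1 : finrank F W < finrank F V) {N X : ℕ}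
    (h : Nat.card f.O = N * (X * Nat.card (f.restrict W).O)) (hN : r ∣ N) :
    Rat (ord F r) (if Even (ord F r) then ord F r else 2 * ord F r) (finrank F V) (Pl f ⊤)
      (finrank F W) (Pl f W) := by
  have hp : r.Prime := Fact.out
  rw [card_O_quad hf rfl (by omega), card_O_quad hW.nondeg rfl h0, pl_restrict_top] at h
  by_cases h2 : r ∣ oy (Fintype.card F) (finrank F V) (Pl f ⊤)
  · exact Or.inl (dvd_of_dvd_oy hr hr2 h2)
  by_cases h3 : r ∣ oy (Fintype.card F) (finrank F W) (¬ Pl f W)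
  · exact Or.inr (Or.inl ((dvd_of_dvd_oy hr hr2 h3).imp_right fun h => by tauto))
  obtain ⟨j, h4, h5, h6⟩ := exists_dvd_of_mul_prod hp (N := N) (a := finrank F W / 2)
    (b := (finrank F V - 1) / 2) (fun i => pow_sub_one_pos (j := 2 * (i + 1))
      (Fintype.one_lt_card (α := F)) (by omega)) (by omega)
    (X := X * (2 * Fintype.card F ^ (finrank F W / 2 * ((finrank F W - 1) / 2))))
    (c := 2 * Fintype.card F ^ (finrank F V / 2 * ((finrank F V - 1) / 2)) *
      oy (Fintype.card F) (finrank F V) (Pl f ⊤) * oy (Fintype.card F) (finrank F W) (¬ Pl f W))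
    (by rw [mul_right_comm, h, ← oy_mul_oy _ h0 (Pl f W)]; ring) hN (by
      simp only [hp.dvd_mul, h2, h3, or_false, not_or]
      refine ⟨fun h => hr2 ((Nat.prime_dvd_prime_iff_eq hp Nat.prime_two).1 h), fun h => ?_⟩
      exact card_ne_zero_zmod hr ((ZMod.natCast_eq_zero_iff _ _).2 (hp.dvd_of_dvd_pow h)))
  exact Or.inr (Or.inr ⟨2 * (j + 1), by omega, by omega, alt_c_dvd h6⟩)

end Count

end CL.Elus
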