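/-
Arithmetic of the fixed subspace conditions in orthogonal groups.
-/
import Mathlib
import Cfsg.Agent.CLAS.Elus9

set_option autoImplicit false

namespace CL.Elus

theorem lex_iff {c x : ℕ} (hx : x < 2 * c) (a n : ℕ) (e : Prop) :
    (c * a + x ≤ n ∧ (c * a + x = n → e)) ↔ a + 1 < n / c ∨
      (a + 1 = n / c ∧ x ≤ c + n % c ∧ (x = c + n % c → e)) ∨
      (a = n / c ∧ x ≤ n % c ∧ (x = n % c → e)) := by
  have h1 := Nat.mod_lt n (show 0 < c by omega)
  have h2 := Nat.div_add_mod n c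
  obtain ⟨z, hz⟩ : ∃ z : ℕ, e ↔ z = 0 := by by_cases e <;> simp_all; exact ⟨1, by simp⟩
  rw [hz]
  generalize n / c = b at *
  generalize n % c = k at *
  subst h2
  rcases lt_trichotomy a b with h | rfl | h
  · obtain ⟨d, rfl⟩ := Nat.exists_eq_add_of_lt h
    have h1 : c * (a + d + 1) = c * a + c * d + c := by ring
    have h2 : d = 0 ∨ c ≤ c * d := (Nat.eq_zero_or_pos d).imp_right (Nat.le_mul_of_pos_right c)
    lia
  · omega
  · obtain ⟨d, rfl⟩ := Nat.exists_eq_add_of_lt h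
    simp only [mul_add, mul_one]; omega

theorem exists_eq_add_mul_iff {c : ℕ} (hc : 0 < c) (m j : ℕ) (R : ℕ → Prop) :
    (∃ e, m = e + c * j ∧ R e) ↔ j ≤ m / c ∧ R (c * (m / c - j) + m % c) := by
  constructor
  · rintro ⟨e, rfl, h⟩
    rw [Nat.add_mul_div_left _ _ hc, Nat.add_mul_mod_self_left, Nat.add_sub_cancel,
      Nat.div_add_mod]
    exact ⟨Nat.le_add_left _ _, h⟩
  · rintro ⟨h1, h2⟩
    refine ⟨_, ?_, h2⟩
    rw [add_right_comm, ← mul_add, Nat.sub_add_cancel h1, Nat.div_add_mod]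

theorem Rat.red {i c n b x : ℕ} {ε η : Prop} (hx : x < 2 * c) (hn : c * b + x < n)
    (h : Rat i c n ε (n - (c * b + x)) η) :
    (n % c = 0 ∧ (ε ↔ (Even i → Even (n / c)))) ∨
    (x = n % c ∧ ¬ (η ↔ (Even i → Even (n / c - b)))) ∨
    (x = c + n % c ∧ ¬ (η ↔ (Even i → Even (n / c - b - 1)))) ∨
    (0 < n % c ∧ 0 < n / c ∧ (0 < b ∨ n % c < x)) ∨
    (n % c = 0 ∧ 1 < n / c ∧ (1 < b ∨ (b = 1 ∧ 0 < x) ∨ c < x)) := by
  have hc : 0 < c := by omega
  rcases h with h | ⟨⟨a, h1⟩, h2⟩ | ⟨_, h1, h2, a, rfl⟩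
  · exact Or.inl ⟨Nat.mod_eq_zero_of_dvd h.1, h.2⟩
  · rw [h1, Nat.mul_div_cancel_left _ hc] at h2
    have h3 := (lex_iff hx (b + a) n True).1 ⟨by rw [mul_add]; omega, fun _ => trivial⟩
    have h4 := (lex_iff hx (b + a) n False).not.1 fun h => h.2 (by rw [mul_add]; omega)
    by_cases h5 : x = n % c
    · exact Or.inr (Or.inl ⟨h5, by rwa [show n / c - b = a by omega]⟩)
    · exact Or.inr (Or.inr (Or.inl ⟨by omega, by rwa [show n / c - b - 1 = a by omega]⟩))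
  · have h3 := (lex_iff (c := c) (x := 0) (by omega) a n False).1 ⟨by omega, by omega⟩
    have h4 := (lex_iff hx (b + a) n True).not.1 fun ⟨h, _⟩ => by rw [mul_add] at h; omega
    have h5 : 0 < a := Nat.pos_of_ne_zero (by rintro rfl; omega)
    clear h1 h2 hn
    grind (splits := 40)

/-- The condition for every element of order `r` to fix a non-degenerate subspace. -/
def NdE (i c n : ℕ) (ε : Prop) (m : ℕ) (η : Prop) : Prop :=
  ∀ N, 0 < N → (c * N ≤ n ∧ (c * N = n → (ε ↔ (Even i → Even N)))) → ∃ j ≤ N, ∃ e,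
    m = e + c * j ∧ (e = 0 → (η ↔ (Even i → Even j))) ∧ e + c * N ≤ n ∧
      (e + c * N = n → (η ↔ ((Even i → Even j) ↔ (ε ↔ (Even i → Even N)))))

theorem exists_iff_eq_zero (e : Prop) : ∃ z : ℕ, e = (z = 0) := by
  by_cases h : e
  exacts [⟨0, by simp [h]⟩, ⟨1, by simp [h]⟩]

theorem ndE_iff {i c n m : ℕ} {ε η η' : Prop} (hc : 0 < c) (h0 : 0 < m) (hm : m < n)
    (h : Rat i c n ε (n - m) η') (h' : c ∣ n - m → (η' ↔ (ε ↔ η))) : NdE i c n ε m η ↔
    (n % c = 0 ∧ (¬ (ε ↔ (Even i → Even (n / c))) ∨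
      (m % c = 0 ∧ (η ↔ (Even i → Even (m / c)))))) ∨
    (0 < n % c ∧ c ≤ m ∧ ((0 < m % c ∧ m % c < n % c) ∨
      (m % c = 0 ∧ (η ↔ (Even i → Even (m / c)))) ∨ (m % c = n % c ∧
        (η ↔ ((Even i → Even (m / c)) ↔ (ε ↔ (Even i → Even (n / c)))))))) := by
  have h1 := Nat.mod_lt m hc
  have h2 := Nat.div_add_mod m c
  replace h : Rat i c n ε (n - m) (ε ↔ η) :=
    h.imp_right (Or.imp_left fun h => ⟨h.1, by rw [← h' h.1]; exact h.2⟩)
  have h3 := Rat.red (b := m / c) (x := m % c) (by omega) (by omega) (h2.symm ▸ h)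
  have h4 := (lex_iff (c := c) (x := m % c) (by omega) (m / c) n False).1 ⟨by omega, by omega⟩
  have h5 : c ≤ m ↔ 1 ≤ m / c := (Nat.one_le_div_iff hc).symm
  have h6 : m / c = 0 → 0 < m % c := fun h => by rw [h] at h2; omega
  have h7 := Nat.mod_lt n hc
  have h8 : ∀ a b, c * a + m % c + c * b = c * (a + b) + m % c := fun a b => by ring
  have h9 := fun a => lex_iff (c := c) (x := 0) (by omega) a n
  simp only [NdE, exists_eq_add_mul_iff hc, h8, lex_iff (show m % c < 2 * c by omega), h5,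
    add_eq_zero, mul_eq_zero, hc.ne', false_or]
  simp only [add_zero] at h9
  simp only [h9]
  obtain ⟨z₁, rfl⟩ := exists_iff_eq_zero ε
  obtain ⟨z₂, rfl⟩ := exists_iff_eq_zero η
  clear h h' h2 h5 h8 h9
  generalize m / c = m₁ at *
  generalize m % c = l at *
  generalize n / c = n₁ at *
  generalize n % c = k at *
  simp only [Nat.even_iff] at *
  constructor
  · intro h
    by_cases h8 : 0 < n₁ ∧ (k = 0 → (z₁ = 0 ↔ (i % 2 = 0 → n₁ % 2 = 0)))
    · obtain ⟨j, h⟩ := h n₁ h8.1 (by omega)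
      omega
    · grind (splits := 60)
  · intro h N h8 h9
    by_contra h10
    have h11 := fun h => h10 ⟨min N m₁, h⟩
    have h12 := fun h => h10 ⟨min N m₁ - 1, h⟩
    grind (splits := 60)

/-- The condition for every element of order `r` to fix a totally singular subspace. -/
def TsE (i τ n : ℕ) (ε : Prop) (m : ℕ) : Prop :=
  ∀ o ≤ τ, ∀ w, 0 < o + 2 * w → (i * (o + 2 * w) ≤ n ∧ (i * (o + 2 * w) = n → (ε ↔ Even o))) →
    ∃ j ≤ w, ∃ u, m = u + i * j ∧ 2 * u + i * (o + 2 * w) ≤ n ∧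
      (2 * u + i * (o + 2 * w) = n → (ε ↔ Even o))

theorem tsE_iff_even {i τ n m : ℕ} {ε η : Prop} (hc : 0 < i) (hi : Even i) (hτ : 0 < τ) (h0 : 0 < m)
    (hm : 2 * m < n) (h : Rat i i n ε (n - 2 * m) η) (h' : Even n → (η ↔ ε)) : TsE i τ n ε m ↔
    i ≤ m ∧ τ + 2 * (m / i) ≤ n / i ∧ ((2 * (m % i) ≤ i ∧ n % i = 0 ∧ ¬ (ε ↔ Even (n / i)) ∧
      τ + 2 * (m / i) < n / i) ∨ (2 * (m % i) ≤ n % i ∧ (ε ↔ Even (n / i))) ∨
      (2 * (m % i) < n % i ∧ ¬ (ε ↔ Even (n / i)))) := by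
  have h1 := Nat.mod_lt m hc
  have h2 : i * (2 * (m / i)) + 2 * (m % i) = 2 * m := by
    rw [mul_left_comm, ← mul_add, Nat.div_add_mod]
  replace h : Rat i i n ε (n - 2 * m) ε := h.imp_right (Or.imp_left fun h => ⟨h.1, by
    rw [← h' (by have := hi.two_dvd.trans h.1; rw [Nat.even_iff]; omega)]; exact h.2⟩)
  have h3 := Rat.red (by omega) (by omega) (h2.symm ▸ h)
  have h4 := (lex_iff (c := i) (x := 2 * (m % i)) (by omega) (2 * (m / i)) n False).1
    ⟨by omega, by omega⟩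
  have h5 : i ≤ m ↔ 1 ≤ m / i := (Nat.one_le_div_iff hc).symm
  have h6 : m / i = 0 → 0 < m % i := fun h => by rw [h] at h2; omega
  have h7 := Nat.mod_lt n hc
  have h8 : ∀ a b, 2 * (i * a + m % i) + i * b = i * (2 * a + b) + 2 * (m % i) := fun a b => by ring
  have h9 := fun a => lex_iff (c := i) (x := 0) (by omega) a n
  simp only [TsE, exists_eq_add_mul_iff hc, h8, lex_iff (show 2 * (m % i) < 2 * i by omega), h5]
  simp only [add_zero] at h9
  simp only [h9]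
  simp only [hi, true_implies] at h3
  obtain ⟨z₁, rfl⟩ := exists_iff_eq_zero ε
  clear h h' h2 h5 h8 h9
  generalize m / i = m₁ at *
  generalize m % i = l at *
  generalize n / i = n₁ at *
  generalize n % i = k at *
  simp only [Nat.even_iff] at *
  constructor
  · intro h
    have h8 : 1 ≤ m₁ ∧ ((2 * l ≤ i ∧ k = 0 ∧ ¬ (z₁ = 0 ↔ n₁ % 2 = 0)) ∨
        (2 * l ≤ k ∧ (z₁ = 0 ↔ n₁ % 2 = 0)) ∨ (2 * l < k ∧ ¬ (z₁ = 0 ↔ n₁ % 2 = 0))) := by
      by_cases h8 : k = 0 → (z₁ = 0 ↔ n₁ % 2 = 0)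
      · obtain ⟨j, h⟩ := h (n₁ % 2) (by omega) (n₁ / 2) (by lia) (by lia)
        omega
      · obtain ⟨j, h⟩ := h ((n₁ - 1) % 2) (by omega) ((n₁ - 1) / 2) (by omega) (by omega)
        omega
    have h9 : τ + 2 * m₁ ≤ n₁ := by
      by_contra h9
      obtain ⟨j, h⟩ := h (n₁ + 1 - 2 * m₁) (by omega) (m₁ - 1) (by omega) (by omega)
      omega
    by_cases h10 : τ + 2 * m₁ = n₁ ∧ k = 0 ∧ ¬ (z₁ = 0 ↔ n₁ % 2 = 0)
    · obtain ⟨j, h⟩ := h τ le_rfl (m₁ - 1) (by omega) (by omega)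
      omega
    · omega
  · exact fun h o h8 w h9 h10 => ⟨min w m₁, by omega⟩

theorem tsE_iff_odd {i n m : ℕ} {ε η : Prop} (hc : 0 < i) (hi : ¬ Even i) (h0 : 0 < m)
    (hm : 2 * m < n) (h : Rat i (2 * i) n ε (n - 2 * m) η) (h' : Even n → (η ↔ ε)) :
    TsE i 0 n ε m ↔ i ≤ m ∧ ((ε ∧ 2 * (m % i) ≤ n % (2 * i)) ∨
      (¬ ε ∧ (n % (2 * i) = 0 ∨ 2 * (m % i) < n % (2 * i)))) := by
  have h1 := Nat.mod_lt m hc
  have h2 : 2 * i * (m / i) + 2 * (m % i) = 2 * m := by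
    rw [mul_assoc, ← mul_add, Nat.div_add_mod]
  replace h : Rat i (2 * i) n ε (n - 2 * m) ε := h.imp_right (Or.imp_left fun h => ⟨h.1, by
    rw [← h' (by have := (dvd_mul_right 2 i).trans h.1; rw [Nat.even_iff]; omega)]; exact h.2⟩)
  have h3 := Rat.red (by omega) (by omega) (h2.symm ▸ h)
  have h4 := (lex_iff (c := 2 * i) (x := 2 * (m % i)) (by omega) (m / i) n False).1
    ⟨by omega, by omega⟩
  have h5 : i ≤ m ↔ 1 ≤ m / i := (Nat.one_le_div_iff hc).symm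
  have h6 : m / i = 0 → 0 < m % i := fun h => by rw [h] at h2; omega
  have h7 := Nat.mod_lt n (show 0 < 2 * i by omega)
  have h8 : ∀ a b, 2 * (i * a + m % i) + 2 * i * b = 2 * i * (a + b) + 2 * (m % i) :=
    fun a b => by ring
  have h9 := fun a => lex_iff (c := 2 * i) (x := 0) (by omega) a n
  simp only [TsE, Nat.le_zero, forall_eq, zero_add, ← mul_assoc, mul_comm i 2, Even.zero, iff_true,
    exists_eq_add_mul_iff hc, h8, lex_iff (show 2 * (m % i) < 2 * (2 * i) by omega), h5]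
  simp only [add_zero] at h9
  simp only [h9]
  simp only [hi, false_implies, iff_true] at h3
  obtain ⟨z₁, rfl⟩ := exists_iff_eq_zero ε
  clear h h' h2 h5 h8 h9
  generalize m / i = m₁ at *
  generalize m % i = l at *
  generalize n / (2 * i) = n₁ at *
  generalize n % (2 * i) = k at *
  constructor
  · intro h
    by_cases h8 : k = 0 → z₁ = 0
    · obtain ⟨j, h⟩ := h n₁ (by lia) (by lia)
      omega
    · omega
  · exact fun h w h9 h10 => ⟨min w m₁, by grind (splits := 60)⟩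

end CL.Elus
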