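/-
Semisimple elements of odd prime order in orthogonal groups and their fixed subspaces.
-/
import Mathlib
import Cfsg.Agent.CLAS.Elus10

set_option autoImplicit false

namespace CL.Elus

open Module Polynomial CL.GLn CL.SpU CL.Witt CL.Witt.Form CL.PrimeCl CL.Root
open QuadraticMap (polar polarBilin)
open CL.Orth (qfOf IsPlus dsc sqSign qfOf_nondeg)

variable {F : Type*} [Field F] {V : Type*} [AddCommGroup V] [Module F V] {A : Module.End F V}
  {U W : Submodule F V} {f : Form (FormType.quad F) V} [FiniteDimensional F V]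

theorem exists_nd_pl_iff [Finite F] (hW : ND f W) {e : ℕ} (he : Even e) (η : Prop) :
    (∃ U ≤ W, ND f U ∧ finrank F U = e ∧ (Pl f U ↔ η)) ↔
      (e = 0 → η) ∧ e ≤ finrank F W ∧ (e = finrank F W → (η ↔ Pl f W)) := by
  constructor
  · rintro ⟨U, h1, -, rfl, h2⟩
    exact ⟨fun h => h2.1 (Submodule.finrank_eq_zero.1 h ▸ pl_bot f), Submodule.finrank_mono h1,
      fun h => Submodule.eq_of_le_of_finrank_eq h1 h ▸ h2.symm⟩
  · rintro ⟨h1, h2, h3⟩
    rcases Nat.eq_zero_or_pos e with rfl | h0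
    · exact ⟨⊥, bot_le, nd_bot, finrank_bot _ _, iff_of_true (pl_bot f) (h1 rfl)⟩
    rcases h2.eq_or_lt with h | h
    exacts [⟨W, le_rfl, hW, h.symm, (h3 h).symm⟩, exists_nd_pl hW he h0 h η]

variable [Fintype F] {r : ℕ} [Fact r.Prime] (hr : (r : F) ≠ 0) (hr2 : r ≠ 2)

/-- The dimension of a minimal non-degenerate block. -/
noncomputable def oc (F : Type*) [Fintype F] (r : ℕ) : ℕ :=
  if Even (ord F r) then ord F r else 2 * ord F r

theorem even_oc : Even (oc F r) := by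
  unfold oc; split_ifs with h
  exacts [h, even_two_mul _]

include hr hr2

theorem datq : Dat (FormType.quad F) r (r - 1) (oc F r)
    (if Even (ord F r) then (r - 1) / ord F r else 0) := dat_quad hr hr2

theorem even_iff_oc {a j : ℕ} (h : ord F r * a = oc F r * j) :
    Even a ↔ (Even (ord F r) → Even j) := by
  have h0 := PrimeCl.ord_pos hr
  unfold oc at h
  split_ifs at h with he
  · simp [Nat.eq_of_mul_eq_mul_left h0 h, he]
  · rw [mul_comm 2, mul_assoc] at h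
    simp [Nat.eq_of_mul_eq_mul_left h0 h, he]

theorem pl_mov (hA : IsIsom f f A) (h1 : A ^ r = 1) (hW : Inv A W) (hN : ND f W)
    (hle : W ≤ LinearMap.range (A - 1)) {a : ℕ} (h : finrank F W = ord F r * a) :
    Pl f W ↔ Even a := by
  obtain ⟨m, h2⟩ := exists_hasM_restrict_le_range hr h1 hW hle
  have h3 := h2.finrank_eq hr
  rw [pl_iff, Orth.isPlus_iff_even_card hr hr2 hN.qr_nondeg (fun v => hA.q_eq v) h2,
    Nat.eq_of_mul_eq_mul_left (PrimeCl.ord_pos hr) (h3.symm.trans h)]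

theorem pl_mov' (hA : IsIsom f f A) (h1 : A ^ r = 1) (hW : Inv A W) (hN : ND f W)
    (hle : W ≤ LinearMap.range (A - 1)) {j : ℕ} (h : finrank F W = oc F r * j) :
    Pl f W ↔ (Even (ord F r) → Even j) := by
  obtain ⟨a, ha⟩ := (datq hr hr2).ord_dvd.mul_right j
  rw [pl_mov hr hr2 hA h1 hW hN hle (h.trans ha), even_iff_oc hr hr2 ha.symm]

variable (hf : f.Nondeg)
include hf

theorem exists_quad_hasM {m : Multiset F[X]} (h1 : ∀ P ∈ m, P ∈ cycFactors F r)
    (h2 : m.map (tw (r - 1)) = m) (h3 : ord F r * m.card ≤ finrank F V)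
    (h4 : ord F r * m.card = finrank F V → (Pl f ⊤ ↔ Even m.card)) :
    ∃ (A : Module.End F V) (k : ℕ), IsIsom f f A ∧ HasM r A m k := by
  obtain ⟨g, k, h⟩ := (Orth.exists_O_hasM_iff hr hr2 (qfOf_nondeg hf) m).2
    ⟨⟨h1, h2⟩, h3, fun h => pl_top_iff.symm.trans (h4 h)⟩
  exact ⟨_, k, isIsom_qfOf.2 (Orth.O_map g), h⟩

theorem exists_mov {N : ℕ} (h1 : oc F r * N ≤ finrank F V)
    (h2 : oc F r * N = finrank F V → (Pl f ⊤ ↔ (Even (ord F r) → Even N))) :
    ∃ A : Module.End F V, IsIsom f f A ∧ A ^ r = 1 ∧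
      finrank F (LinearMap.range (A - 1)) = oc F r * N := by
  obtain ⟨m, h3, h4, h5⟩ := (datq hr hr2).exists_dual N
  obtain ⟨A, k, h6, h7⟩ := exists_quad_hasM hr hr2 hf h3 h4 (h5 ▸ h1) fun h => by
    rw [h2 (h5 ▸ h), even_iff_oc hr hr2 h5]
  exact ⟨A, h6, h7.pow_eq_one, (hasM_finrank_range hr h7).trans h5⟩

/-- Reduction to the dimension of the moved space. -/
theorem forall_mov_iff (P : Module.End F V → Prop) (R : ℕ → Prop)
    (h : ∀ (A : Module.End F V) (N : ℕ), IsIsom f f A → A ^ r = 1 →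
      finrank F (LinearMap.range (A - 1)) = oc F r * N → (P A ↔ R N)) :
    (∀ A : Module.End F V, IsIsom f f A → A ^ r = 1 → A ≠ 1 → P A) ↔ ∀ N, 0 < N →
      (oc F r * N ≤ finrank F V ∧ (oc F r * N = finrank F V →
        (Pl f ⊤ ↔ (Even (ord F r) → Even N)))) → R N := by
  constructor
  · intro h0 N h1 h2
    obtain ⟨A, h3, h4, h5⟩ := exists_mov hr hr2 hf h2.1 h2.2
    refine (h A N h3 h4 h5).1 (h0 A h3 h4 ?_)
    rintro rfl
    rw [sub_self, LinearMap.range_zero, finrank_bot] at h5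
    exact (Nat.mul_pos (datq hr hr2).pos h1).ne h5
  · intro h0 A h1 h2 h3
    obtain ⟨N, h4⟩ := (datq hr hr2).dvd_finrank_range hf h1 h2
    refine (h A N h1 h2 h4).2 (h0 N (Nat.pos_of_mul_pos_left (h4 ▸ finrank_range_pos h3))
      ⟨h4 ▸ Submodule.finrank_le _, fun h5 => ?_⟩)
    rw [← Submodule.eq_top_of_finrank_eq (h4.trans h5)]
    exact pl_mov' hr hr2 h1 h2 (inv_range_sub_one A)
      (nd_range_sub_one hf h1 (isSemisimple_of_pow_eq_one hr h2)) le_rfl h4

/-- Invariant non-degenerate subspaces split along the fixed and the moved space. -/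
theorem exists_nd_split (hA : IsIsom f f A) (h1 : A ^ r = 1) {N : ℕ}
    (hN : finrank F (LinearMap.range (A - 1)) = oc F r * N) (m : ℕ) (S : Submodule F V → Prop)
    (R : ℕ → ℕ → Prop) (h : ∀ j e, m = e + oc F r * j → ∀ W, ND f W → W ≤ LinearMap.range (A - 1) →
      finrank F W = oc F r * j → (Pl f W ↔ (Even (ord F r) → Even j)) →
      ((∃ U ≤ LinearMap.ker (A - 1), ND f U ∧ finrank F U = e ∧ S (U ⊔ W)) ↔ R j e)) :
    (∃ U : Submodule F V, (finrank F U = m ∧ ND f U ∧ S U) ∧ Inv A U) ↔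
      ∃ j ≤ N, ∃ e, m = e + oc F r * j ∧ R j e := by
  have hs := isSemisimple_of_pow_eq_one hr h1
  have D := datq (F := F) hr hr2
  constructor
  · rintro ⟨U, ⟨rfl, h2, h3⟩, h4⟩
    have h5 := h4.inf (inv_range_sub_one A)
    have h6 := h2.inf_range hf hA hs h4
    obtain ⟨j, h7⟩ := D.dvd_finrank hA h1 h5 h6 inf_le_right
    have h8 := h4.finrank_eq_add hs
    rw [h7] at h8
    exact ⟨j, Nat.le_of_mul_le_mul_left (h7 ▸ hN ▸ Submodule.finrank_mono inf_le_right) D.pos, _,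
      h8, (h j _ h8 _ h6 inf_le_right h7 (pl_mov' hr hr2 hA h1 h5 h6 inf_le_right h7)).1
        ⟨_, inf_le_right, h2.inf_ker hf hA hs h4, rfl, h4.eq_sup hs ▸ h3⟩⟩
  · rintro ⟨j, h2, e, h3, h4⟩
    obtain ⟨W, h5, h6, h7, h8⟩ := D.exists_nd hA h1 (inv_range_sub_one A)
      (nd_range_sub_one hf hA hs) le_rfl (j := j) (hN ▸ Nat.mul_le_mul_left _ h2)
    obtain ⟨U, h9, h10, rfl, h11⟩ := (h j e h3 W h7 h5 h8 (pl_mov' hr hr2 hA h1 h6 h7 h5 h8)).2 h4
    exact ⟨U ⊔ W, ⟨by rw [finrank_sup_of_disjoint ((isCompl_ker_range hs).disjoint.mono h9 h5),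
      h8, h3], h10.sup h7 (le_perp_of_fix_mov hf hA h9 h5), h11⟩, (inv_of_le_fixed h9).sup h6⟩

theorem nd_pl_iff {m : ℕ} (hm : Even m) (η : Prop) :
    (∀ A : Module.End F V, IsIsom f f A → A ^ r = 1 → A ≠ 1 →
      ∃ U : Submodule F V, (finrank F U = m ∧ ND f U ∧ (Pl f U ↔ η)) ∧ Inv A U) ↔
    NdE (ord F r) (oc F r) (finrank F V) (Pl f ⊤) m η := by
  refine forall_mov_iff hr hr2 hf _ _ fun A N hA h1 hN => exists_nd_split hr hr2 hf hA h1 hN m _ _
    fun j e h2 W h3 h4 h5 h6 => ?_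
  have hs := isSemisimple_of_pow_eq_one hr h1
  have h7 := finrank_ker_add_range (A - 1)
  have h8 : ∀ a, Even (oc F r * a) := fun a => even_oc.mul_right a
  have he : Even e := (Nat.even_add.1 (h2 ▸ hm)).2 (h8 j)
  have h9 := nd_range_sub_one hf hA hs
  refine (exists_congr fun U => and_congr_right fun h10 => and_congr_right fun h11 =>
    and_congr_right fun h12 => ?_).trans ((exists_nd_pl_iff (nd_ker_sub_one hf hA hs) he
      (η ↔ (Even (ord F r) → Even j))).trans (and_congr_right fun _ => and_congr (by omega)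
        (imp_congr (by omega) Iff.rfl |>.trans (imp_congr_right fun h10 => ?_))))
  · rw [(sup_type h11 h3 (le_perp_of_fix_mov hf hA h10 h4)).2 (h12 ▸ he) (h5 ▸ h8 j), h6]
    tauto
  · rw [pl_perp hf h9 (h10 ▸ he.add (h8 N)) (hN ▸ h8 N), perp_range_sub_one hf hA,
      pl_mov' hr hr2 hA h1 (inv_range_sub_one A) h9 le_rfl hN]
    tauto

theorem nd_ds_iff (h2 : (2 : F) ≠ 0) {m : ℕ} (hm : Odd m) (hn : Even (finrank F V)) (δ : ℤˣ) :
    (∀ A : Module.End F V, IsIsom f f A → A ^ r = 1 → A ≠ 1 →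
      ∃ U : Submodule F V, (finrank F U = m ∧ ND f U ∧ ds f U = δ) ∧ Inv A U) ↔
    NdE (ord F r) (oc F r) (finrank F V) (Pl f ⊤) m True := by
  refine forall_mov_iff hr hr2 hf _ _ fun A N hA h1 hN => exists_nd_split hr hr2 hf hA h1 hN m _ _
    fun j e h3 W h4 h5 _ _ => ?_
  have h7 := finrank_ker_add_range (A - 1)
  have h8 : ∀ a, oc F r * a % 2 = 0 := fun a => Nat.even_iff.1 (even_oc.mul_right a)
  have h9 := h8 j
  have h10 := h8 N
  rw [Nat.odd_iff] at hm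
  rw [Nat.even_iff] at hn
  refine ⟨fun ⟨U, h11, _, h12, _⟩ => ?_, fun h11 => ?_⟩
  · have := Submodule.finrank_mono h11
    exact ⟨by omega, by omega, by omega⟩
  · obtain ⟨U, h12, h13, h14, h15⟩ := exists_nd_ds h2 (nd_ker_sub_one hf hA
      (isSemisimple_of_pow_eq_one hr h1)) e (by omega) (δ * ds f W)
    exact ⟨U, h12, h13, h14, by rw [(sup_type h13 h4 (le_perp_of_fix_mov hf hA h12 h5)).1,
      h15 (by omega), mul_assoc, Int.units_mul_self, mul_one]⟩

omit hr hr2 in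
theorem exists_ts_ker_iff (hA : IsIsom f f A) (hs : A.IsSemisimple) {a : ℕ} {ε : Prop}
    (h1 : finrank F (LinearMap.range (A - 1)) = a) (h2 : Even a)
    (h3 : Pl f (LinearMap.range (A - 1)) ↔ ε) (u : ℕ) :
    (∃ U ≤ LinearMap.ker (A - 1), f.TotSing U ∧ finrank F U = u) ↔
      2 * u + a ≤ finrank F V ∧ (2 * u + a = finrank F V → (Pl f ⊤ ↔ ε)) := by
  have h7 := finrank_ker_add_range (A - 1)
  refine (exists_ts_iff (nd_ker_sub_one hf hA hs)).trans (and_congr (by omega)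
    (imp_congr (by omega) Iff.rfl |>.trans (imp_congr_right fun h10 => ?_)))
  rw [pl_perp hf (nd_range_sub_one hf hA hs) (h10 ▸ (even_two_mul u).add h2) (h1 ▸ h2),
    perp_range_sub_one hf hA, h3]
  tauto

theorem ts_iff (m : ℕ) : (∀ A : Module.End F V, IsIsom f f A → A ^ r = 1 → A ≠ 1 →
      ∃ U : Submodule F V, (finrank F U = m ∧ f.TotSing U) ∧ Inv A U) ↔
    TsE (ord F r) (if Even (ord F r) then (r - 1) / ord F r else 0) (finrank F V) (Pl f ⊤) m := by
  have D := datq (F := F) hr hr2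
  have h0 : ∀ o w, Even (o + 2 * w) ↔ Even o := fun o w => by simp [Nat.even_add]
  have key : ∀ {A : Module.End F V} {o w : ℕ}, IsIsom f f A → A ^ r = 1 →
      finrank F (LinearMap.range (A - 1)) = ord F r * (o + 2 * w) →
      Even (ord F r * (o + 2 * w)) ∧ (Pl f (LinearMap.range (A - 1)) ↔ Even o) :=
    fun hA h1 h2 => ⟨h2 ▸ even_iff_two_dvd.2 (even_oc.two_dvd.trans (D.dvd_finrank_range hf hA h1)),
      (pl_mov hr hr2 hA h1 (inv_range_sub_one _) (nd_range_sub_one hf hA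
        (isSemisimple_of_pow_eq_one hr h1)) le_rfl h2).trans (h0 _ _)⟩
  constructor
  · intro h o ho w h1 h2
    obtain ⟨m₀, h3, h4, h5, h6⟩ := D.exists_test ho w
    obtain ⟨A, k, hA, h7⟩ := exists_quad_hasM hr hr2 hf h3 h4 (h5 ▸ h2.1) (by
      rw [h5, h0]; exact h2.2)
    have hs := hasM_ss hr h7
    obtain ⟨U, ⟨rfl, h8⟩, h9⟩ := h A hA h7.pow_eq_one fun h8 => by
      rw [(h7.eq_one_iff hr).1 h8, Multiset.card_zero] at h5; omega
    obtain ⟨u, m', h10, h11, h12, h13⟩ := D.ts_finrank_eq (nd_range_sub_one hf hA hs).nondeg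
      (isIsom_restrict hA _) (hasM_restrict_range hr h7) (totSing_comap_subtype h8 _)
      ((inv_range_sub_one A).comap_subtype h9)
    have h14 := hasM_finrank_range hr h7
    rw [h5] at h14
    obtain ⟨h15, h16⟩ := key hA h7.pow_eq_one h14
    refine ⟨m'.card, ?_, _, by rw [h9.finrank_eq_add hs, 
      ← finrank_comap_subtype (W := LinearMap.range _), h10]; omega,
      (exists_ts_ker_iff hf hA hs h14 h15 h16 _).1 ⟨_, inf_le_right, h8.mono inf_le_left, rfl⟩⟩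
    rcases D.cases with hc | hc
    exacts [h6 hc.1 m' (h13 hc.1), by omega]
  · intro h A hA h1 h2
    have hs := isSemisimple_of_pow_eq_one hr h1
    obtain ⟨N, w, h3, h4, h5, h6⟩ := D.exists_ts hf hA h1
    obtain ⟨o, rfl⟩ : ∃ o, N = o + 2 * w := ⟨N - 2 * w, by omega⟩
    obtain ⟨h7, h8⟩ := key hA h1 h3
    obtain ⟨j, h9, u, rfl, h10⟩ := h o (by omega) w (Nat.pos_of_mul_pos_left
      (h3 ▸ finrank_range_pos h2)) ⟨h3 ▸ Submodule.finrank_le _, fun h9 => by
        rwa [← Submodule.eq_top_of_finrank_eq (h3.trans h9)]⟩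
    obtain ⟨U₁, h13, h14, rfl⟩ := (exists_ts_ker_iff hf hA hs h3 h7 h8 u).2 h10
    obtain ⟨U₂, h15, h16, h17, h18⟩ := h6 j h9
    exact ⟨U₁ ⊔ U₂, ⟨by rw [finrank_sup_of_disjoint ((isCompl_ker_range hs).disjoint.mono h13 h15),
      h18], h14.sup_of_le_perp h16 (le_perp_of_fix_mov hf hA h13 h15)⟩,
      (inv_of_le_fixed h13).sup h17⟩

theorem quad_elu_pl {m : ℕ} (hm : Even m) (h0 : 0 < m) (hn : m < finrank F V) (η : Prop)
    (hΩ : r ∣ Nat.card {U : Submodule F V // finrank F U = m ∧ ND f U ∧ (Pl f U ↔ η)})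
    {i c n : ℕ} (hi : i = ord F r) (hc : c = oc F r) (hV : finrank F V = n) {ε : Prop}
    (hε : Pl f ⊤ ↔ ε) : (∀ A : Module.End F V, IsIsom f f A → A ^ r = 1 → A ≠ 1 →
      ∃ U : Submodule F V, (finrank F U = m ∧ ND f U ∧ (Pl f U ↔ η)) ∧ Inv A U) ↔
    (n % c = 0 ∧ (¬ (ε ↔ (Even i → Even (n / c))) ∨
      (m % c = 0 ∧ (η ↔ (Even i → Even (m / c)))))) ∨
    (0 < n % c ∧ c ≤ m ∧ ((0 < m % c ∧ m % c < n % c) ∨
      (m % c = 0 ∧ (η ↔ (Even i → Even (m / c)))) ∨ (m % c = n % c ∧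
        (η ↔ ((Even i → Even (m / c)) ↔ (ε ↔ (Even i → Even (n / c)))))))) := by
  subst hi hc hV
  obtain rfl := propext hε
  obtain ⟨W, -, hW, rfl, h1⟩ := exists_nd_pl (nd_top hf) hm h0 (by rwa [finrank_top]) η
  obtain rfl := propext h1
  have h2 := Submodule.finrank_add_eq_of_isCompl hW.isCompl
  have h3 := quad_rat hr hr2 hf (hW.perp hf) (by omega) (by omega) (card_pl_mul hf hW hm) hΩ
  rw [show finrank F (f.perp W) = finrank F V - finrank F W by omega] at h3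
  refine (nd_pl_iff hr hr2 hf hm _).trans (ndE_iff (datq hr hr2).pos h0 hn h3 fun h4 => ?_)
  have h5 := even_oc.two_dvd.trans h4
  rw [pl_perp hf hW (by rw [Nat.even_iff] at hm ⊢; omega) hm]
  tauto

theorem quad_elu_ds (h2 : (2 : F) ≠ 0) {m : ℕ} (hm : Odd m) (he : Even (finrank F V))
    (hn : m < finrank F V) (δ : ℤˣ)
    (hΩ : r ∣ Nat.card {U : Submodule F V // finrank F U = m ∧ ND f U ∧ ds f U = δ})
    {i c n : ℕ} (hi : i = ord F r) (hc : c = oc F r) (hV : finrank F V = n) {ε : Prop}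
    (hε : Pl f ⊤ ↔ ε) : (∀ A : Module.End F V, IsIsom f f A → A ^ r = 1 → A ≠ 1 →
      ∃ U : Submodule F V, (finrank F U = m ∧ ND f U ∧ ds f U = δ) ∧ Inv A U) ↔
    (n % c = 0 ∧ ¬ (ε ↔ (Even i → Even (n / c)))) ∨ (c ≤ m ∧ 0 < m % c ∧ m % c < n % c) := by
  subst hi hc hV
  obtain rfl := propext hε
  obtain ⟨W, -, hW, rfl, h1⟩ := exists_nd_ds h2 (nd_top hf) m (by rwa [finrank_top]) δ
  obtain rfl := h1 hm.pos
  have h4 := Submodule.finrank_add_eq_of_isCompl hW.isCompl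
  have h3 := quad_rat hr hr2 hf (hW.perp hf) (by omega) (by have := hm.pos; omega)
    (card_ds_mul h2 hf hW) hΩ
  rw [show finrank F (f.perp W) = finrank F V - finrank F W by omega] at h3
  have h5 := (even_oc (F := F) (r := r)).two_dvd
  have h6 := Nat.mod_mod_of_dvd (finrank F V) h5
  have h7 := Nat.mod_mod_of_dvd (finrank F W) h5
  rw [Nat.odd_iff] at hm
  rw [Nat.even_iff] at he
  refine ((nd_ds_iff hr hr2 hf h2 (Nat.odd_iff.2 hm) (Nat.even_iff.2 he) _).trans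
    (ndE_iff (datq hr hr2).pos (by omega) hn h3 fun h4 => ?_)).trans ?_
  · have := h5.trans h4; omega
  · have h8 : ¬ finrank F W % oc F r = 0 := by omega
    have h9 : ¬ finrank F W % oc F r = finrank F V % oc F r := by omega
    simp only [h8, h9, false_and, or_false]
    exact or_congr_right ⟨fun h => h.2, fun h => ⟨by omega, h⟩⟩

theorem quad_elu_ts {m : ℕ} (h0 : 0 < m) (hn : 2 * m < finrank F V)
    (hΩ : r ∣ Nat.card {U : Submodule F V // finrank F U = m ∧ f.TotSing U})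
    {i c n : ℕ} (hi : i = ord F r) (hc : c = oc F r) (hV : finrank F V = n) {ε : Prop}
    (hε : Pl f ⊤ ↔ ε) : (∀ A : Module.End F V, IsIsom f f A → A ^ r = 1 → A ≠ 1 →
      ∃ U : Submodule F V, (finrank F U = m ∧ f.TotSing U) ∧ Inv A U) ↔
    (Odd i ∧ i ≤ m ∧ ((ε ∧ 2 * (m % i) ≤ n % c) ∨ (¬ ε ∧ (n % c = 0 ∨ 2 * (m % i) < n % c)))) ∨
    (Even i ∧ i ≤ m ∧ (r - 1) / i + 2 * (m / i) ≤ n / i ∧ ((2 * (m % i) ≤ i ∧ n % c = 0 ∧
      ¬ (ε ↔ Even (n / i)) ∧ (r - 1) / i + 2 * (m / i) < n / i) ∨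
      (2 * (m % i) ≤ n % c ∧ (ε ↔ Even (n / i))) ∨
      (2 * (m % i) < n % c ∧ ¬ (ε ↔ Even (n / i))))) := by
  subst hi hc hV
  obtain rfl := propext hε
  obtain ⟨W, hW, h1, h2, h3⟩ := quad_card_ts hf hn
  have h4 := quad_rat hr hr2 hf hW (by omega) (by omega) h3 hΩ
  have h5 := PrimeCl.ord_pos hr
  rw [h1] at h4
  rw [ts_iff hr hr2 hf, oc, ← Nat.not_even_iff_odd]
  split_ifs at h4 ⊢ with he
  · simp only [he, not_true, false_and, false_or, true_and]
    refine tsE_iff_even h5 he (Nat.div_pos (Nat.le_of_dvd ?_ ?_) h5) h0 hn h4 h2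
    · have := (Fact.out : r.Prime).two_le; omega
    · exact orderOf_dvd_of_pow_eq_one (ZMod.pow_card_sub_one_eq_one (card_ne_zero_zmod hr))
  · simp only [he, not_false_iff, false_and, or_false, true_and]
    exact tsE_iff_odd h5 he h0 hn h4 h2

end CL.Elus
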