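/-
Membership in `Ω` and projective involutions of orthogonal groups in odd characteristic.
-/
import Mathlib
import Cfsg.Agent.CLAS.Elus11

set_option autoImplicit false

namespace CL.Elus

open Module Polynomial CL.GLn CL.SpU CL.Witt CL.Witt.Form CL.PrimeCl CL.Root
open QuadraticMap (polar polarBilin)
open CL.Orth (qfOf IsPlus dsc sqSign qfOf_nondeg toEnd)

variable {F : Type*} [Field F] {V : Type*} [AddCommGroup V] [Module F V] {A : Module.End F V}
  {U W : Submodule F V} {f : Form (FormType.quad F) V}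

/-- `A` lies in the commutator subgroup of the isometry group. -/
def InOm (f : Form (FormType.quad F) V) (A : Module.End F V) : Prop :=
  ∃ g ∈ commutator (Orth.O (qfOf f)), toEnd _ g = A

theorem isIsom_toEnd' (g : Orth.O (qfOf f)) : IsIsom f f (toEnd _ g) := isIsom_qfOf.2 (Orth.O_map g)

theorem mem_omegaGL_iff_inOm {ι : Type} [Fintype ι] [DecidableEq ι] (Q : QuadraticForm F (ι → F))
    (x : GL ι F) : x ∈ Cfsg.Geo.omegaGL ⇑Q ↔ IsIsom (ofQuad Q) (ofQuad Q)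
      (Matrix.toLin' (x : Matrix ι ι F)) ∧ InOm (ofQuad Q) (Matrix.toLin' (x : Matrix ι ι F)) := by
  constructor
  · rintro ⟨g, hg, rfl⟩
    have h : toEnd _ (Orth.toO Q g) = Matrix.toLin' ((g : GL ι F) : Matrix ι ι F) :=
      LinearMap.ext (Orth.toO_apply g)
    exact ⟨h ▸ Orth.isIsom_toEnd _, _, (Orth.mem_Omega_iff g).1 hg, h⟩
  · rintro ⟨-, g, hg, h⟩
    obtain ⟨y, h1, h2⟩ := (Orth.exists_mem_Omega_iff (R := Q) g _ (LinearMap.congr_fun h)).2 hg
    exact ⟨y, h1, Units.ext h2⟩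

theorem forall_omega_iff {ι : Type} [Fintype ι] [DecidableEq ι] {Q : QuadraticForm F (ι → F)}
    (hf : (ofQuad Q).Nondeg) (r : ℕ) (S : Submodule F (ι → F) → Prop) :
    (∀ x : GL ι F, x ∈ Cfsg.Geo.omegaGL ⇑Q →
      (∃ z : F, ((x ^ r : GL ι F) : Matrix ι ι F) = z • (1 : Matrix ι ι F)) →
      (∀ z : F, (x : Matrix ι ι F) ≠ z • (1 : Matrix ι ι F)) →
      ∃ W, S W ∧ W.map (Matrix.toLin' (x : Matrix ι ι F)) ≤ W) ↔
    ∀ A : Module.End F (ι → F), IsIsom (ofQuad Q) (ofQuad Q) A → InOm (ofQuad Q) A →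
      (∃ c, A ^ r = algebraMap F _ c) → (∀ c, A ≠ algebraMap F _ c) → ∃ W, S W ∧ Inv A W := by
  simp only [← inv_iff_map_le]
  exact forall_gl_iff hf _ _ (mem_omegaGL_iff_inOm Q) r fun A => ∃ W, S W ∧ Inv A W

theorem forall_omega_order_iff {ι : Type} [Fintype ι] [DecidableEq ι]
    {Q : QuadraticForm F (ι → F)} (hf : (ofQuad Q).Nondeg) (r : ℕ) [Fact r.Prime]
    (S : Submodule F (ι → F) → Prop) :
    (∀ x : GL ι F, x ∈ Cfsg.Geo.omegaGL ⇑Q → orderOf x = r →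
      ∃ W, S W ∧ W.map (Matrix.toLin' (x : Matrix ι ι F)) ≤ W) ↔
    ∀ A : Module.End F (ι → F), IsIsom (ofQuad Q) (ofQuad Q) A → InOm (ofQuad Q) A →
      A ^ r = 1 → A ≠ 1 → ∃ W, S W ∧ Inv A W := by
  simp only [← inv_iff_map_le]
  exact forall_gl_order_iff hf _ _ (mem_omegaGL_iff_inOm Q) r fun A => ∃ W, S W ∧ Inv A W

theorem nondegOn_iff {ι : Type} [Fintype ι] [DecidableEq ι] (Q : QuadraticForm F (ι → F))
    (W : Submodule F (ι → F)) : Cfsg.Geo.IsNondegenerateOn (polar Q) W ↔ ND (ofQuad Q) W :=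
  ⟨fun h => nd_of_nondeg (FGL.restrict_nondeg_of _ (FGL.quad_B_iff Q) h),
    fun h => FGL.isNondegenerateOn_of _ (FGL.quad_B_iff Q) h.nondeg⟩

theorem plusOn_iff {ι : Type} [Fintype ι] [DecidableEq ι] (Q : QuadraticForm F (ι → F))
    (W : Submodule F (ι → F)) : Cfsg.Geo.IsPlusTypeOn Q W ↔ Pl (ofQuad Q) W := by
  simp only [Cfsg.Geo.IsPlusTypeOn, Pl, FGL.quad_totSing_iff']

theorem plusOn_iff_true {ι : Type} [Fintype ι] [DecidableEq ι] (Q : QuadraticForm F (ι → F))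
    (W : Submodule F (ι → F)) : Cfsg.Geo.IsPlusTypeOn Q W ↔ (Pl (ofQuad Q) W ↔ True) := by
  rw [plusOn_iff, iff_true]

theorem not_plusOn_iff {ι : Type} [Fintype ι] [DecidableEq ι] (Q : QuadraticForm F (ι → F))
    (W : Submodule F (ι → F)) : ¬ Cfsg.Geo.IsPlusTypeOn Q W ↔ (Pl (ofQuad Q) W ↔ False) := by
  rw [plusOn_iff, iff_false]

theorem two_dvd_of_eq_ite {i c : ℕ} (hc : c = if Even i then i else 2 * i) : 2 ∣ c := by
  rw [hc]; split_ifs with h; exacts [h.two_dvd, dvd_mul_right _ _]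

theorem two_ne_zero_of_ne [Fintype F] (p : ℕ) [Fact p.Prime] [CharP F p] (hp : p ≠ 2) : (2 : F) ≠ 0 :=
  natCast_ne_zero (F := F) (r := 2) p hp.symm

theorem isUnit_of_anti (h2 : (2 : F) ≠ 0) (h : A ^ 2 = algebraMap F _ (-1)) :
    IsUnit (A ^ 2 - 1) ∧ IsUnit (A + 1) ∧ IsUnit (A - 1) := by
  have h1 : IsUnit (A ^ 2 - 1) := by
    rw [h, ← map_one (algebraMap F (Module.End F V)), ← map_sub]
    exact (IsUnit.mk0 _ fun h => h2 (by linear_combination -h)).map _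
  have h3 : Commute (A + 1) (A - 1) := by rw [Commute, SemiconjBy]; noncomm_ring
  exact ⟨h1, (h3.isUnit_mul_iff).1 (by convert h1 using 1; noncomm_ring)⟩

theorem restrict_pow_eq_algebraMap (hW : Inv A W) {k : ℕ} {c : F} (h : A ^ k = algebraMap F _ c) :
    A.restrict hW ^ k = algebraMap F _ c :=
  LinearMap.ext fun x => Subtype.ext (by rw [restrict_pow_apply, h]; rfl)

theorem irreducible_sq_add_one (h : ¬ IsSquare (-1 : F)) : Irreducible (X ^ 2 - C (-1) : F[X]) :=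
  (irreducible_or_root (r := 2) (-1 : F)).resolve_left fun ⟨b, hb⟩ => h ⟨b, by rw [← hb, sq]⟩

theorem exists_quad_sq_neg (h2 : (2 : F) ≠ 0) (d : ℕ) : ∃ J : Module.End F (Fin d ⊕ Fin d → F),
    IsReal (FormType.quad F) J ∧ J ^ 2 = algebraMap F _ (-1) :=
  let ⟨J, h, h'⟩ := exists_real_sq_neg F d
  ⟨J, Orth.isReal_quad_of_alt h (isUnit_of_anti h2 h').2.1 (isUnit_of_anti h2 h').2.2, h'⟩

variable [FiniteDimensional F V]

theorem even_of_anti (h : A ^ 2 = algebraMap F _ (-1)) (h1 : ¬ IsSquare (-1 : F)) (hU : Inv A U) :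
    Even (finrank F U) := by
  obtain ⟨k, hk⟩ := hasED_of_irreducible (monic_X_pow_sub_C _ two_ne_zero)
    (irreducible_sq_add_one h1) (aeval_X_pow_sub_C (restrict_pow_eq_algebraMap hU h))
  exact (det_of_pow_irreducible two_ne_zero hk).1 ▸ even_two_mul k

variable [Fintype F] (hf : f.Nondeg)
include hf

theorem exists_toEnd (hA : IsIsom f f A) : ∃ g : Orth.O (qfOf f), toEnd _ g = A :=
  Orth.exists_O_of_isom (qfOf_nondeg hf) (isIsom_qfOf.1 hA)

omit [Fintype F] in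
theorem det_one_sub (h2 : (2 : F) ≠ 0) (hA : IsIsom f f A) (h : A ^ 2 = algebraMap F _ (-1))
    {d : ℕ} (hd : finrank F V = 2 * d) : LinearMap.det (1 - A) = 2 ^ d := by
  by_cases h1 : IsSquare (-1 : F)
  · obtain ⟨b, hb⟩ := h1
    obtain ⟨U, W, h3, h4, h5⟩ := anti_pair hf hA h2 (b := b) hb.symm (by rw [h, hb, sq])
    have h6 := tsPair_finrank hf h3
    have h7 := Submodule.finrank_add_eq_of_isCompl h3.compl
    rw [det_of_isCompl h3.compl (a := 1 - b) (b := 1 + b) (fun u hu => by simp [h4 u hu, sub_smul])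
      (fun u hu => by simp [h5 u hu, add_smul]), show finrank F U = d by omega,
      show finrank F W = d by omega, ← mul_pow]
    congr 1; linear_combination hb
  · have h3 : (X ^ 2 - C 2 * X + C 2 : F[X]).natDegree = 2 := by compute_degree!
    have h4 : (X ^ 2 - C 2 * X + C 2 : F[X]).Monic := by monicity!
    obtain ⟨k, hk⟩ := hasED_of_irreducible (A := 1 - A) h4 ((h4.irreducible_iff_roots_eq_zero_of_degree_le_three
      (by omega) (by omega)).2 (Multiset.eq_zero_of_forall_notMem fun x hx => h1 ⟨x - 1, by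
        have := (mem_roots h4.ne_zero).1 hx
        simp at this
        linear_combination -this⟩)) (by
      simp only [map_add, map_sub, map_mul, map_pow, aeval_X, aeval_C, map_ofNat]
      rw [show (1 - A) ^ 2 = A ^ 2 + 1 - 2 * A by noncomm_ring, h, map_neg, map_one]
      noncomm_ring
      simp)
    have h5 := hk.finrank_eq_wt
    rw [wt_replicate, h3, hd] at h5
    rw [det_of_hasED hk, hd, show d = k by simp at h5; omega]
    simp

theorem anti_type (h2 : (2 : F) ≠ 0) (hA : IsIsom f f A) (h : A ^ 2 = algebraMap F _ (-1)) :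
    Even (finrank F V) ∧ dsc (qfOf f) = 1 := by
  obtain ⟨g, rfl⟩ := exists_toEnd hf hA
  obtain ⟨h3, -, h4⟩ := isUnit_of_anti h2 h
  obtain ⟨d, hd⟩ := (Orth.twA_nondeg (qfOf_nondeg hf) h3).even_finrank_alt
  refine ⟨⟨d, hd⟩, ?_⟩
  generalize toEnd _ g = A at *
  have h5 : IsUnit A := IsUnit.of_pow_eq_one (n := 2 * 2) (by rw [pow_mul, h, ← map_pow]; simp)
    (by simp)
  have h6 := Orth.sqSign_det_skew (qfOf_nondeg hf) h5 fun x => by
    have h6 := hA.B_eq (A x) x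
    rw [show A (A x) = -x by simpa [pow_two] using LinearMap.congr_fun h x, f.B_neg_left,
      f.quad_symm] at h6
    rw [Orth.polar_qfOf]
    exact (mul_eq_zero.1 (show 2 * f.B (A x) x = 0 by linear_combination -h6)).resolve_left h2
  have h7 : LinearMap.det (1 - A) ^ 2 = LinearMap.det ((-2 : F) • A) := by
    rw [← map_pow, show (1 - A) ^ 2 = A ^ 2 + 1 - 2 * A by noncomm_ring, h, map_neg, map_one,
      neg_smul, ← Nat.cast_ofNat (R := F), Nat.cast_smul_eq_nsmul]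
    simp
  rw [det_one_sub hf h2 hA h (hd.trans (two_mul d).symm), LinearMap.det_smul, hd, ← two_mul,
    pow_mul, neg_sq, ← pow_mul, ← pow_mul, mul_comm d, eq_comm,
    mul_eq_left₀ (pow_ne_zero _ h2)] at h7
  rwa [h7, Orth.sqSign_one, one_mul] at h6

omit hf in
theorem anti_ds (h2 : (2 : F) ≠ 0) (hA : IsIsom f f A) (h : A ^ 2 = algebraMap F _ (-1))
    (hW : ND f W) (hW' : Inv A W) : Even (finrank F W) ∧ ds f W = 1 :=
  anti_type hW.nondeg h2 (isIsom_restrict hA hW') (restrict_pow_eq_algebraMap hW' h)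

theorem exists_quad_anti (h2 : (2 : F) ≠ 0) (he : Even (finrank F V)) (h : ds f ⊤ = 1) :
    ∃ A : Module.End F V, IsIsom f f A ∧ A ^ 2 = algebraMap F _ (-1) := by
  obtain ⟨d, hd⟩ := he
  obtain ⟨J, ⟨g, hg, h1⟩, h3⟩ := exists_quad_sq_neg h2 d
  obtain ⟨e, he⟩ := Orth.exists_isometry_of_dsc_eq h2 (qfOf_nondeg hg) (qfOf_nondeg hf)
    (by simp [hd]) (by rw [(anti_type hg h2 h1 h3).2, ← ds_top hf, h])
  obtain ⟨A, h4, h5⟩ := exists_isom_simil h1 e ((quad_isIsom_iff g f e.toLinearMap).2 he)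
  exact ⟨A, h4, (h5.pow_eq_algebraMap_iff _ _).1 h3⟩

theorem anti_exists_nd (h2 : (2 : F) ≠ 0) (hA : IsIsom f f A) (h : A ^ 2 = algebraMap F _ (-1))
    {m : ℕ} (he : Even m) (hm : m ≤ finrank F V) :
    ∃ U : Submodule F V, finrank F U = m ∧ ND f U ∧ Inv A U := by
  obtain ⟨k, rfl⟩ := he.two_dvd
  by_cases h1 : IsSquare (-1 : F)
  · obtain ⟨b, hb⟩ := h1
    exact anti_nd hf hA h2 (b := b) hb.symm (by rw [h, hb, sq]) hm
  · obtain ⟨d, hd⟩ := (anti_type hf h2 hA h).1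
    obtain ⟨J, h3, h4⟩ := exists_quad_sq_neg h2 k
    obtain ⟨J', h5, h6⟩ := exists_quad_sq_neg h2 (d - k)
    simpa [two_mul] using exists_nd_of_irred (rigid_of_isUnit hf hA (isUnit_of_anti h2 h).1)
      (irreducible_sq_add_one h1) (aeval_X_pow_sub_C h) h3 (aeval_X_pow_sub_C h4) h5
      (aeval_X_pow_sub_C h6) (by simp; omega)

theorem anti_exists_ts (h2 : (2 : F) ≠ 0) (hA : IsIsom f f A) (h : A ^ 2 = algebraMap F _ (-1))
    {m : ℕ} (he : Even m ∨ IsSquare (-1 : F)) (hm : 2 * m ≤ finrank F V) :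
    ∃ U : Submodule F V, finrank F U = m ∧ f.TotSing U ∧ Inv A U := by
  by_cases h1 : IsSquare (-1 : F)
  · obtain ⟨b, hb⟩ := h1
    exact anti_ts hf hA h2 (b := b) hb.symm (by rw [h, hb, sq]) hm
  · obtain ⟨d, hd⟩ := (anti_type hf h2 hA h).1
    obtain ⟨k, rfl⟩ := he.resolve_right h1
    obtain ⟨J, h3, h4⟩ := exists_quad_sq_neg h2 k
    obtain ⟨J', h5, h6⟩ := exists_quad_sq_neg h2 (d - 2 * k)
    simpa using exists_ts_of_irred (rigid_of_isUnit hf hA (isUnit_of_anti h2 h).1)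
      (irreducible_sq_add_one h1) (aeval_X_pow_sub_C h) h3 (aeval_X_pow_sub_C h4) h5
      (aeval_X_pow_sub_C h6) (by simp; omega)

variable (h5 : 5 ≤ finrank F V)
include h5

theorem inOm_iff (g : Orth.O (qfOf f)) : InOm f (toEnd _ g) ↔
    Even (finrank F (LinearMap.range (toEnd _ g - 1))) ∧ Orth.spin g = 1 := by
  refine Iff.trans ?_ ((Orth.mem_commutator_iff (qfOf_nondeg hf) (Or.inr (by omega)) g).trans
    (and_congr_left' Orth.dsign_eq_one_iff))
  exact ⟨fun ⟨h, h1, h2⟩ => Orth.toEnd_injective h2 ▸ h1, fun h => ⟨g, h, rfl⟩⟩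

theorem inOm_of_odd {r : ℕ} (hr : Odd r) (hA : IsIsom f f A) (h : A ^ r = 1) : InOm f A := by
  obtain ⟨g, rfl⟩ := exists_toEnd hf hA
  have h1 : g ^ r = 1 := Orth.toEnd_injective (by rw [map_pow, h, map_one])
  have h2 : Nat.card F ≠ 2 ∨ finrank F V ≠ 4 := Or.inr (by omega)
  exact ⟨g, (Orth.mem_commutator_iff (qfOf_nondeg hf) h2 g).2
    ⟨Orth.units_eq_one_of_pow_odd hr (by
      rw [← Orth.dickson_apply (qfOf_nondeg hf) h2, ← map_pow, h1, map_one]),
    Orth.units_eq_one_of_pow_odd hr (by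
      rw [← Orth.spinor_apply (qfOf_nondeg hf) h2, ← map_pow, h1, map_one])⟩, rfl⟩

theorem forall_om_odd {r : ℕ} (hr : Odd r) (S : Submodule F V → Prop) :
    (∀ A : Module.End F V, IsIsom f f A → InOm f A → (∃ c, A ^ r = algebraMap F _ c) →
      (∀ c, A ≠ algebraMap F _ c) → ∃ W, S W ∧ Inv A W) ↔
    ∀ A : Module.End F V, IsIsom f f A → A ^ r = 1 → A ≠ 1 → ∃ W, S W ∧ Inv A W :=
  have := Module.nontrivial_of_finrank_pos (R := F) (M := V) (by omega)
  forall_proj_iff hf quad_norm_sq hr.coprime_two_right _ _ (fun _ => inOm_of_odd hf h5 hr)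
    (exists_inv_smul S)

theorem forall_om_odd' {r : ℕ} (hr : Odd r) (P : Module.End F V → Prop) :
    (∀ A : Module.End F V, IsIsom f f A → InOm f A → A ^ r = 1 → A ≠ 1 → P A) ↔
    ∀ A : Module.End F V, IsIsom f f A → A ^ r = 1 → A ≠ 1 → P A :=
  ⟨fun h A h1 h2 => h A h1 (inOm_of_odd hf h5 hr h1 h2) h2, fun h A h1 _ => h A h1⟩

theorem inOm_anti_iff (h2 : (2 : F) ≠ 0) (hA : IsIsom f f A) (h : A ^ 2 = algebraMap F _ (-1))
    {d : ℕ} (hd : finrank F V = 2 * d) : InOm f A ↔ sqSign (2 : F) ^ d = 1 := by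
  have h3 := (isUnit_of_anti h2 h).2.2
  have h4 := anti_type hf h2 hA h
  have h6 := det_one_sub hf h2 hA h hd
  obtain ⟨g, rfl⟩ := exists_toEnd hf hA
  rw [inOm_iff hf h5, Orth.spin_of_isUnit (qfOf_nondeg hf) (neg_sub (toEnd _ g) 1 ▸ h3.neg), h6,
    h4.2, mul_one, Orth.sqSign_pow h2, LinearMap.range_eq_top.2 ((Module.End.isUnit_iff _).1 h3).2,
    finrank_top, and_iff_right h4.1]

theorem inOm_invol_iff (h2 : (2 : F) ≠ 0) (hA : IsIsom f f A) (h : A ^ 2 = 1) : InOm f A ↔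
    Even (finrank F (LinearMap.range (A - 1))) ∧ ds f (LinearMap.range (A - 1)) = 1 := by
  have h3 := (nd_range_sub_one hf hA (ss_of_sq h2 h)).qr_nondeg
  have h4 := fun x => apply_of_mem_range (x := x) h
  obtain ⟨g, rfl⟩ := exists_toEnd hf hA
  have hc := Orth.isCompl_perp ((Orth.restrict_nondeg_iff (Q := qfOf f)).1 h3)
  have h6 : g = Orth.glue hc (Orth.negOne _, 1) := by
    refine (Orth.eq_glue_restrict g hc (inv_range_sub_one (toEnd _ g))).trans (congrArg _ (Prod.ext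
      (Orth.O_ext fun v => Subtype.ext ?_) (Orth.O_ext fun v => Subtype.ext ?_)))
    · exact (h4 _ v.2).trans (neg_one_smul _ _)
    · exact Orth.mem_fixed.1 ((Orth.fixed_eq_perp (qfOf_nondeg hf) g).ge v.2)
  have h7 := congrArg Orth.spin h6
  rw [Orth.spin_glue (qfOf_nondeg hf), Orth.spin_one, mul_one] at h7
  rw [inOm_iff hf h5, h7.trans (Orth.spin_negOne h2 h3)]
  exact and_congr_right fun ⟨a, h⟩ => by rw [h, ← two_mul, pow_mul, Int.units_sq, one_pow, one_mul]; rfl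

omit h5 in
theorem invol_nd_ds (h2 : (2 : F) ≠ 0) (hA : IsIsom f f A) (h : A ^ 2 = 1)
    (h3 : 2 ≤ finrank F (LinearMap.range (A - 1)))
    (h4 : finrank F (LinearMap.range (A - 1)) < finrank F V) {m : ℕ} (h0 : 0 < m)
    (hm : m < finrank F V) (δ : ℤˣ) :
    ∃ U : Submodule F V, (finrank F U = m ∧ ND f U ∧ ds f U = δ) ∧ Inv A U := by
  have hs := ss_of_sq h2 h
  have h5 := finrank_ker_add_range (A - 1)
  obtain ⟨U, h6, h7, h8⟩ := exists_nd_le h2 (nd_ker_sub_one hf hA hs)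
    (e := m - min m (finrank F (LinearMap.range (A - 1)) - 1)) (by omega)
  obtain ⟨W, h9, h10, h11, h12⟩ := exists_nd_ds h2 (nd_range_sub_one hf hA hs)
    (min m (finrank F (LinearMap.range (A - 1)) - 1)) (by omega) (ds f U * δ)
  have h13 := le_perp_of_fix_mov hf hA h6 h9
  exact ⟨U ⊔ W, ⟨by rw [finrank_sup_of_disjoint ((isCompl_ker_range hs).disjoint.mono h6 h9)]; omega,
    h7.sup h10 h13, by rw [(sup_type h7 h10 h13).1, h12 (by omega), ← mul_assoc,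
      Int.units_mul_self, one_mul]⟩, (inv_of_le_fixed h6).sup (inv_of_le_range h h9)⟩

omit h5 in
theorem invol_ts_iff (h2 : (2 : F) ≠ 0) (hA : IsIsom f f A) (h : A ^ 2 = 1) {a : ℕ}
    (h3 : finrank F (LinearMap.range (A - 1)) = 2 * a) {η : Prop}
    (h4 : Pl f (LinearMap.range (A - 1)) ↔ η) (m : ℕ) :
    (∃ U : Submodule F V, (finrank F U = m ∧ f.TotSing U) ∧ Inv A U) ↔ ∃ u e, m = u + e ∧
      (2 * u + 2 * a ≤ finrank F V ∧ (2 * u + 2 * a = finrank F V → (Pl f ⊤ ↔ η))) ∧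
      e ≤ a ∧ (e = a → η) := by
  have hs := ss_of_sq h2 h
  have h5 := exists_ts_ker_iff hf hA hs h3 (even_two_mul a) h4
  have h6 := fun e => exists_ts_iff (nd_range_sub_one hf hA hs) (e := e)
  simp only [h3, h4, Nat.mul_le_mul_left_iff two_pos, Nat.mul_right_inj two_ne_zero] at h6
  simp only [← h5, ← h6]
  constructor
  · rintro ⟨U, ⟨rfl, h7⟩, h8⟩
    exact ⟨_, _, h8.finrank_eq_add hs, ⟨_, inf_le_right, h7.mono inf_le_left, rfl⟩,
      _, inf_le_right, h7.mono inf_le_left, rfl⟩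
  · rintro ⟨_, _, rfl, ⟨U, h7, h8, rfl⟩, W, h9, h10, rfl⟩
    exact ⟨U ⊔ W, ⟨finrank_sup_of_disjoint ((isCompl_ker_range hs).disjoint.mono h7 h9),
      h8.sup_of_le_perp h10 (le_perp_of_fix_mov hf hA h7 h9)⟩,
      (inv_of_le_fixed h7).sup (inv_of_le_range h h9)⟩

omit hf h5 in
/-- `Ω` contains an element with square `-1`. -/
def HasB (f : Form (FormType.quad F) V) : Prop :=
  ∃ d, finrank F V = 2 * d ∧ ds f ⊤ = 1 ∧ sqSign (2 : F) ^ d = 1

variable (h2 : (2 : F) ≠ 0)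
include h2

theorem forall_om_two (P : Module.End F V → Prop) :
    (∀ A : Module.End F V, IsIsom f f A → InOm f A → (∃ c, A ^ 2 = algebraMap F _ c) →
      (∀ c, A ≠ algebraMap F _ c) → P A) ↔
    (∀ (A : Module.End F V) (a : ℕ), IsIsom f f A → A ^ 2 = 1 → 0 < a → 2 * a < finrank F V →
      finrank F (LinearMap.range (A - 1)) = 2 * a → ds f (LinearMap.range (A - 1)) = 1 → P A) ∧
    (HasB f → ∀ A : Module.End F V, IsIsom f f A → A ^ 2 = algebraMap F _ (-1) →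
      (∀ c, A ≠ algebraMap F _ c) → P A) := by
  have := Module.nontrivial_of_finrank_pos (R := F) (M := V) (by omega)
  refine ⟨fun h => ⟨fun A a h1 h3 h4 h6 h7 h8 => h A h1 ((inOm_invol_iff hf h5 h2 h1 h3).2
    ⟨h7 ▸ even_two_mul a, h8⟩) ⟨1, by simpa using h3⟩ (ne_algebraMap_of_ker (fun h9 => ?_) ?_),
    fun ⟨d, h1, _, h3⟩ A h4 h6 => h A h4 ((inOm_anti_iff hf h5 h2 h4 h6 h1).2 h3) ⟨_, h6⟩⟩,
    fun ⟨h, h'⟩ A h1 h3 ⟨c, h4⟩ h6 => ?_⟩
  · have := finrank_ker_add_range (A - 1)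
    rw [h9, finrank_bot] at this; omega
  · rintro rfl
    rw [sub_self, LinearMap.range_zero, finrank_bot] at h7; omega
  rcases sq_eq_one_iff.1 (quad_norm_sq c (norm_eq_one hf (h4 ▸ isIsom_pow h1 2)))
    with rfl | rfl
  · rw [map_one] at h4
    obtain ⟨h7, h8⟩ := (inOm_invol_iff hf h5 h2 h1 h4).1 h3
    obtain ⟨a, ha⟩ := h7.two_dvd
    have h9 := finrank_range_pos (A := A) (by simpa using h6 1)
    refine h A a h1 h4 (by omega) (ha ▸ Submodule.finrank_lt fun h10 => h6 (-1) ?_) ha h8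
    exact LinearMap.ext fun x => apply_of_mem_range h4 (h10 ▸ Submodule.mem_top)
  · obtain ⟨h7, h8⟩ := anti_type hf h2 h1 h4
    obtain ⟨d, hd⟩ := h7.two_dvd
    exact h' ⟨d, hd, (ds_top hf).trans h8, (inOm_anti_iff hf h5 h2 h1 h4 hd).1 h3⟩ A h1 h4 h6

theorem forall_om_two' (hn : Odd (finrank F V)) (P : Module.End F V → Prop) :
    (∀ A : Module.End F V, IsIsom f f A → InOm f A → A ^ 2 = 1 → A ≠ 1 → P A) ↔
    (∀ A : Module.End F V, IsIsom f f A → InOm f A → (∃ c, A ^ 2 = algebraMap F _ c) →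
      (∀ c, A ≠ algebraMap F _ c) → P A) := by
  have := Module.nontrivial_of_finrank_pos (R := F) (M := V) (by omega)
  refine ⟨fun h => (forall_om_two hf h5 h2 P).2 ⟨fun A a h1 h3 h4 _ h7 h8 => h A h1
    ((inOm_invol_iff hf h5 h2 h1 h3).2 ⟨h7 ▸ even_two_mul a, h8⟩) h3 ?_, fun ⟨d, h1, _⟩ => ?_⟩,
    fun h A h1 h3 h4 h6 => h A h1 h3 ⟨1, by simpa using h4⟩ (ne_algebraMap_of_ker (fun h7 => ?_) h6)⟩
  · rintro rfl
    rw [sub_self, LinearMap.range_zero, finrank_bot] at h7; omega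
  · rw [Nat.odd_iff] at hn; omega
  · have h8 := finrank_ker_add_range (A - 1)
    rw [h7, finrank_bot, zero_add] at h8
    exact Nat.not_even_iff_odd.2 hn (h8 ▸ ((inOm_invol_iff hf h5 h2 h1 h4).1 h3).1)

omit h5 in
theorem HasB.exists_anti [Nontrivial V] (h : HasB f) : ∃ A : Module.End F V, IsIsom f f A ∧
    A ^ 2 = algebraMap F _ (-1) ∧ ∀ c, A ≠ algebraMap F _ c := by
  obtain ⟨d, h1, h3, -⟩ := h
  obtain ⟨A, h4, h6⟩ := exists_quad_anti hf h2 (h1 ▸ even_two_mul d) h3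
  refine ⟨A, h4, h6, ?_⟩
  rintro c rfl
  rw [← map_pow, (algebraMap F _).injective.eq_iff, quad_norm_sq c (norm_eq_one hf h4)] at h6
  exact h2 (by linear_combination h6)

theorem om_two_ds {m : ℕ} (h0 : 0 < m) (hm : m < finrank F V) (δ : ℤˣ) :
    (∀ A : Module.End F V, IsIsom f f A → InOm f A → (∃ c, A ^ 2 = algebraMap F _ c) →
      (∀ c, A ≠ algebraMap F _ c) →
      ∃ U : Submodule F V, (finrank F U = m ∧ ND f U ∧ ds f U = δ) ∧ Inv A U) ↔
    (HasB f → Even m ∧ δ = 1) := by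
  have := Module.nontrivial_of_finrank_pos (R := F) (M := V) (by omega)
  rw [forall_om_two hf h5 h2, and_iff_right fun A a h1 h3 h4 h6 h7 _ =>
    invol_nd_ds hf h2 h1 h3 (by omega) (by omega) h0 hm δ]
  refine forall_congr' fun h => ⟨fun h1 => ?_, fun h1 A h3 h4 _ => ?_⟩
  · obtain ⟨A, h3, h4, h6⟩ := h.exists_anti hf h2
    obtain ⟨U, ⟨rfl, h7, rfl⟩, h8⟩ := h1 A h3 h4 h6
    exact anti_ds h2 h3 h4 h7 h8
  · obtain ⟨U, h6, h7, h8⟩ := anti_exists_nd hf h2 h3 h4 h1.1 hm.le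
    exact ⟨U, ⟨h6, h7, h1.2 ▸ (anti_ds h2 h3 h4 h7 h8).2⟩, h8⟩

theorem om_two_pl {k : ℕ} (h0 : 0 < k) (hm : 2 * k < finrank F V) (η : Prop) :
    (∀ A : Module.End F V, IsIsom f f A → InOm f A → (∃ c, A ^ 2 = algebraMap F _ c) →
      (∀ c, A ≠ algebraMap F _ c) →
      ∃ U : Submodule F V, (finrank F U = 2 * k ∧ ND f U ∧ (Pl f U ↔ η)) ∧ Inv A U) ↔
    (HasB f → (η ↔ sqSign (-1 : F) ^ k = 1)) := by
  obtain ⟨δ, hδ⟩ : ∃ δ : ℤˣ, ∀ x : ℤˣ, (x = sqSign (-1 : F) ^ k ↔ η) ↔ x = δ := by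
    by_cases h : η
    · exact ⟨sqSign (-1 : F) ^ k, fun x => by simp [h]⟩
    · exact ⟨-sqSign (-1 : F) ^ k, fun x => by simp [h, Int.units_ne_iff_eq_neg]⟩
  have h1 : ∀ U : Submodule F V, (finrank F U = 2 * k ∧ ND f U ∧ (Pl f U ↔ η)) ↔
      (finrank F U = 2 * k ∧ ND f U ∧ ds f U = δ) := fun U => and_congr_right fun h1 =>
    and_congr_right fun h3 => by rw [pl_iff_ds h2 h3 h1, hδ]
  simp only [h1, om_two_ds hf h5 h2 (show 0 < 2 * k by omega) hm, even_two_mul, true_and]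
  rw [eq_comm (a := δ), ← hδ, eq_comm, iff_comm (a := η)]

theorem om_two_ts {m : ℕ} (hm : 2 * m < finrank F V) :
    (∀ A : Module.End F V, IsIsom f f A → InOm f A → (∃ c, A ^ 2 = algebraMap F _ c) →
      (∀ c, A ≠ algebraMap F _ c) →
      ∃ U : Submodule F V, (finrank F U = m ∧ f.TotSing U) ∧ Inv A U) ↔
    (IsSquare (-1 : F) ∨ (2 * m + 2 ≤ finrank F V ∧ (Pl f ⊤ → 2 * m + 4 ≤ finrank F V))) ∧
      (HasB f → Even m ∨ IsSquare (-1 : F)) := by
  have := Module.nontrivial_of_finrank_pos (R := F) (M := V) (by omega)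
  have h0 : Pl f ⊤ → finrank F V % 2 = 0 := fun h => by simpa [Nat.even_iff] using h.even
  have key : ∀ {A : Module.End F V} {a : ℕ}, IsIsom f f A → A ^ 2 = 1 →
      finrank F (LinearMap.range (A - 1)) = 2 * a → ds f (LinearMap.range (A - 1)) = 1 →
      (Pl f (LinearMap.range (A - 1)) ↔ 1 = sqSign (-1 : F) ^ a) := fun h1 h3 h4 h6 => by
    rw [pl_iff_ds h2 (nd_range_sub_one hf h1 (ss_of_sq h2 h3)) h4, h6]
  rw [forall_om_two hf h5 h2]
  refine and_congr ⟨fun h => ?_, fun h A a h1 h3 h4 h6 h7 h8 => ?_⟩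
    (forall_congr' fun h => ⟨fun h1 => ?_, fun h1 A h3 h4 _ => ?_⟩)
  · obtain ⟨W, -, h1, h3, h4⟩ := exists_nd_ds h2 (nd_top hf) 2 (by rw [finrank_top]; omega) 1
    obtain ⟨A, h6, h7, rfl⟩ := exists_invol hf h2 h1
    obtain ⟨u, e, rfl, h8, h9⟩ := (invol_ts_iff hf h2 h6 h7 (a := 1) h3
      (key (a := 1) h6 h7 h3 (h4 two_pos)) m).1 (h A 1 h6 h7 one_pos (by omega) h3 (h4 two_pos))
    rw [pow_one, eq_comm (a := (1 : ℤˣ)), Orth.sqSign_eq_one_iff] at h8 h9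
    grind
  · rw [invol_ts_iff hf h2 h1 h3 h7 (key h1 h3 h7 h8)]
    by_cases h9 : 1 = sqSign (-1 : F) ^ a
    · exact ⟨m - min m a, min m a, by grind⟩
    · have h10 : ¬ IsSquare (-1 : F) := fun h => h9 (by simp [Orth.sqSign_of_isSquare h])
      exact ⟨m - min m (a - 1), min m (a - 1), by grind⟩
  · obtain ⟨A, h3, h4, h6⟩ := h.exists_anti hf h2
    obtain ⟨U, ⟨rfl, -⟩, h8⟩ := h1 A h3 h4 h6
    exact or_iff_not_imp_right.2 fun h => even_of_anti h4 h h8
  · obtain ⟨U, h6, h7, h8⟩ := anti_exists_ts hf h2 h3 h4 h1 hm.le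
    exact ⟨U, ⟨h6, h7⟩, h8⟩

omit hf h5 in
theorem sqSign_neg_one_pow_iff (k : ℕ) :
    sqSign (-1 : F) ^ k = 1 ↔ Even k ∨ Fintype.card F % 4 = 1 := by
  have h := FiniteField.odd_card_of_char_ne_two (Orth.ringChar_ne_two_of h2)
  rw [Orth.sqSign_neg_one (Nat.odd_iff.2 h)]
  split_ifs with h1 <;> simp [h1, neg_one_pow_eq_one_iff_even]

omit hf h5 in
theorem isSquare_neg_one_iff' : IsSquare (-1 : F) ↔ Fintype.card F % 4 = 1 := by
  simpa [Orth.sqSign_eq_one_iff] using sqSign_neg_one_pow_iff h2 1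

omit h5 in
theorem hasB_iff {d : ℕ} (hd : finrank F V = 2 * d) : HasB f ↔
    (Pl f ⊤ ↔ (Even d ∨ Fintype.card F % 4 = 1)) ∧
      (Even d ∨ Fintype.card F % 8 = 1 ∨ Fintype.card F % 8 = 7) := by
  have h := FiniteField.odd_card_of_char_ne_two (Orth.ringChar_ne_two_of h2)
  simp only [HasB, hd, Nat.mul_right_inj two_ne_zero, exists_eq_left']
  rw [pl_iff_ds h2 (nd_top hf) (finrank_top F V ▸ hd), ← sqSign_neg_one_pow_iff h2]
  refine and_congr ?_ ?_
  · rcases Int.units_eq_one_or (ds f ⊤) with h | h <;>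
      rcases Int.units_eq_one_or (sqSign (-1 : F) ^ d) with h' | h' <;> simp [h, h']
  · by_cases h1 : IsSquare (2 : F)
    · have := FiniteField.isSquare_two_iff.1 h1
      exact iff_of_true (by simp [Orth.sqSign_of_isSquare h1]) (Or.inr (by omega))
    · have := FiniteField.isSquare_two_iff.not.1 h1
      rw [Orth.sqSign_eq_neg_one_iff.2 h1, neg_one_pow_eq_one_iff_even (by decide),
        or_iff_left (by omega)]

omit hf h5 h2 in
theorem not_hasB (h : Odd (finrank F V)) : ¬ HasB f := fun ⟨d, h1, _⟩ => by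
  rw [Nat.odd_iff] at h; omega

end CL.Elus
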