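/-
Unipotent elements of orthogonal groups and their fixed non-degenerate subspaces.
-/
import Mathlib
import Cfsg.Agent.CLAS.Elus12

set_option autoImplicit false

namespace CL.Elus

open Module Polynomial CL.GLn CL.SpU CL.Witt CL.Witt.Form CL.PrimeCl CL.Root
open QuadraticMap (polar polarBilin)
open CL.Orth (qfOf IsPlus dsc sqSign qfOf_nondeg toEnd)

variable {F : Type*} [Field F] {V : Type*} [AddCommGroup V] [Module F V] {A : Module.End F V}
  {U W : Submodule F V} {f : Form (FormType.quad F) V}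

theorem range_sub_one_eq (h : IsCompl U W) (hU : Inv A U) (hW : Inv A W) :
    LinearMap.range (A - 1) = (LinearMap.range (A.restrict hU - 1)).map U.subtype ⊔
      (LinearMap.range (A.restrict hW - 1)).map W.subtype := by
  refine le_antisymm ?_ (sup_le ?_ ?_)
  · rintro _ ⟨x, rfl⟩
    obtain ⟨u, hu, w, hw, rfl⟩ := Submodule.mem_sup.1 (h.sup_eq_top ▸ Submodule.mem_top (x := x))
    rw [map_add]
    exact Submodule.add_mem_sup ⟨_, ⟨⟨u, hu⟩, rfl⟩, rfl⟩ ⟨_, ⟨⟨w, hw⟩, rfl⟩, rfl⟩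
  all_goals
    rintro _ ⟨_, ⟨x, rfl⟩, rfl⟩
    exact ⟨x, rfl⟩

theorem pow_eq_one_of_isCompl (h : IsCompl U W) (hU : Inv A U) (hW : Inv A W) {k : ℕ}
    (h1 : A.restrict hU ^ k = 1) (h2 : A.restrict hW ^ k = 1) : A ^ k = 1 := by
  ext x
  obtain ⟨u, hu, w, hw, rfl⟩ := Submodule.mem_sup.1 (h.sup_eq_top ▸ Submodule.mem_top (x := x))
  rw [map_add, ← restrict_pow_apply hU k ⟨u, hu⟩, ← restrict_pow_apply hW k ⟨w, hw⟩, h1, h2]
  rfl

theorem le_cons_cases {α : Type*} {s t : Multiset α} {a : α} (h : s ≤ a ::ₘ t) :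
    s ≤ t ∨ ∃ s' ≤ t, s = a ::ₘ s' := by
  by_cases ha : a ∈ s
  · obtain ⟨s', rfl⟩ := Multiset.exists_cons_of_mem ha
    exact Or.inr ⟨s', (Multiset.cons_le_cons_iff a).1 h, rfl⟩
  · exact Or.inl ((Multiset.le_cons_of_notMem ha).1 h)

theorem le_cons_cons_cases {α : Type*} {s t : Multiset α} {a b : α} (h : s ≤ a ::ₘ b ::ₘ t) :
    ∃ s' ≤ t, s = s' ∨ s = b ::ₘ s' ∨ s = a ::ₘ s' ∨ s = a ::ₘ b ::ₘ s' := by
  obtain h1 | ⟨s, h1, rfl⟩ := le_cons_cases h <;> obtain h2 | ⟨s, h2, rfl⟩ := le_cons_cases h1 <;>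
    exact ⟨_, h2, by simp⟩

variable [FiniteDimensional F V]

theorem exists_glue (hW : ND f W) {A₁ : Module.End F W} {A₂ : Module.End F (f.perp W)}
    (h₁ : IsIsom (f.restrict W) (f.restrict W) A₁)
    (h₂ : IsIsom (f.restrict (f.perp W)) (f.restrict (f.perp W)) A₂) :
    ∃ A : Module.End F V, IsIsom f f A ∧ ∃ (h : Inv A W) (h' : Inv A (f.perp W)),
      A.restrict h = A₁ ∧ A.restrict h' = A₂ := by
  have hc := hW.isCompl
  have h1 := LinearMap.ofIsCompl_apply_left hc (φ := W.subtype ∘ₗ A₁) (ψ := (f.perp W).subtype ∘ₗ A₂)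
  have h2 := LinearMap.ofIsCompl_apply_right hc (φ := W.subtype ∘ₗ A₁)
    (ψ := (f.perp W).subtype ∘ₗ A₂)
  generalize LinearMap.ofIsCompl hc (W.subtype ∘ₗ A₁) _ = A at h1 h2
  refine ⟨A, isIsom_qfOf.2 fun x => ?_, fun x hx => (h1 ⟨x, hx⟩).symm ▸ (A₁ _).2,
    fun x hx => (h2 ⟨x, hx⟩).symm ▸ (A₂ _).2, LinearMap.ext fun x => Subtype.ext (h1 x),
    LinearMap.ext fun x => Subtype.ext (h2 x)⟩
  obtain ⟨u, hu, w, hw, rfl⟩ := Submodule.mem_sup.1 (hc.sup_eq_top ▸ Submodule.mem_top (x := x))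
  rw [map_add, h1 ⟨u, hu⟩, h2 ⟨w, hw⟩]
  exact (f.q_add_of_B_eq_zero ((mem_perp f).1 (A₂ _).2 _ (A₁ _).2)).trans
    ((congrArg₂ _ (h₁.q_eq _) (h₂.q_eq _)).trans
      (f.q_add_of_B_eq_zero ((mem_perp f).1 hw _ hu)).symm)

theorem split_range (hW : ND f W) (h : Inv A W) (h' : Inv A (f.perp W)) :
    finrank F (LinearMap.range (A - 1)) = finrank F (LinearMap.range (A.restrict h - 1)) +
      finrank F (LinearMap.range (A.restrict h' - 1)) ∧ (f.TotSing (LinearMap.range (A - 1)) ↔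
      (f.restrict W).TotSing (LinearMap.range (A.restrict h - 1)) ∧
      (f.restrict (f.perp W)).TotSing (LinearMap.range (A.restrict h' - 1))) := by
  rw [range_sub_one_eq hW.isCompl h h']
  refine ⟨by rw [finrank_sup_of_disjoint (hW.isCompl.disjoint.mono (Submodule.map_subtype_le _ _)
    (Submodule.map_subtype_le _ _)), finrank_map_subtype, finrank_map_subtype], fun h1 => ?_,
    fun h1 => (totSing_map_subtype h1.1).sup_of_le_perp (totSing_map_subtype h1.2)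
      ((Submodule.map_subtype_le _ _).trans ((le_perp_comm f).1 (Submodule.map_subtype_le _ _)))⟩
  simp only [quad_totSing_iff] at h1 ⊢
  exact ⟨fun x hx => h1 _ (Submodule.mem_sup_left ⟨x, hx, rfl⟩),
    fun x hx => h1 _ (Submodule.mem_sup_right ⟨x, hx, rfl⟩)⟩

theorem ker_le_range_of_jt {μ : Multiset ℕ} (h : HasJT A 1 μ) (h2 : ∀ a ∈ μ, 2 ≤ a) :
    LinearMap.ker (A - 1) ≤ LinearMap.range (A - 1) := by
  have h1 := h.finrank_ker
  have h3 := h.finrank_ker_pow 2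
  rw [Multiset.map_congr rfl fun e he => min_eq_left (h2 e he), map_one] at h3
  rw [map_one] at h1
  generalize A - 1 = N at *
  have h4 := (N.domRestrict (LinearMap.ker (N ^ 2))).finrank_range_add_finrank_ker
  rw [LinearMap.ker_domRestrict, finrank_comap_subtype, LinearMap.range_domRestrict] at h4
  have h5 := Submodule.finrank_mono (inf_le_left : LinearMap.ker N ⊓ LinearMap.ker (N ^ 2) ≤ _)
  exact (Submodule.eq_of_le_of_finrank_le (S₁ := (LinearMap.ker (N ^ 2)).map N)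
    (by rintro _ ⟨x, hx, rfl⟩; simpa [pow_two] using hx) (by simp at h3; omega)).ge.trans
    LinearMap.map_le_range

theorem isomFor_iff [Finite F] (h2 : (2 : F) ≠ 0) {ι : Type} [Fintype ι] [DecidableEq ι]
    (Q : QuadraticForm F (ι → F)) {W₀ : Submodule F (ι → F)} {m : ℕ}
    (h : finrank F W₀ = m ∧ ND (ofQuad Q) W₀) (W : Submodule F (ι → F)) :
    (finrank F W = m ∧ ND (ofQuad Q) W ∧ Cfsg.Geo.AreIsometricFor Q W W₀) ↔
      finrank F W = m ∧ ND (ofQuad Q) W ∧ ds (ofQuad Q) W = ds (ofQuad Q) W₀ :=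
  and_congr_right fun h1 => and_congr_right fun h3 => ⟨fun h4 => (Isom.ds_eq h3 h4).symm,
    isom_of_ds h2 h3 h.2 (h1.trans h.1.symm)⟩

variable [Fintype F] (hf : f.Nondeg)
include hf

theorem aType_iff {s : ℕ} : (∃ A : Module.End F V, IsIsom f f A ∧
    f.TotSing (LinearMap.range (A - 1)) ∧ finrank F (LinearMap.range (A - 1)) = s) ↔
    Even s ∧ 2 * s ≤ finrank F V ∧ (2 * s = finrank F V → Pl f ⊤) := by
  rw [← finrank_top F V, ← exists_ts_iff (nd_top hf)]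
  constructor
  · rintro ⟨A, h1, h2, rfl⟩
    obtain ⟨g, rfl⟩ := exists_toEnd hf h1
    exact ⟨Orth.SingMoved.even (qfOf_nondeg hf) (g := g) h2.1, _, le_top, h2, rfl⟩
  · rintro ⟨h1, U, -, h2, rfl⟩
    obtain ⟨θ, hθ⟩ := exists_alt_nondeg h1
    obtain ⟨g, φ, h3, -⟩ := Orth.exists_of_wall (qfOf_nondeg hf) U.subtype U.injective_subtype
      (bil θ) (θ.nondeg_iff.1 hθ) fun u => by
        rw [bil_apply, θ.alt_B_self, Orth.qfOf_apply, U.subtype_apply, h2.1 _ u.2, neg_zero]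
    refine ⟨_, isIsom_toEnd' g, h2.mono fun v hv => ?_, φ.finrank_eq.symm⟩
    obtain ⟨u, hu⟩ := φ.surjective ⟨v, hv⟩
    exact (show (u : V) = v from (h3 u).symm.trans (congrArg Subtype.val hu)) ▸ u.2

omit [Fintype F] in
theorem sq_eq_zero_of_ts (hA : IsIsom f f A) (h : f.TotSing (LinearMap.range (A - 1))) :
    (A - 1) ^ 2 = 0 :=
  LinearMap.ext fun x => (perp_range_sub_one hf hA).le (h.le_perp ⟨x, rfl⟩)

omit hf in
/-- Every unipotent element of order `p` fixes a subspace in the class `S`. -/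
def Unip (f : Form (FormType.quad F) V) (p : ℕ) (S : Submodule F V → Prop) : Prop :=
  ∀ A : Module.End F V, IsIsom f f A → InOm f A → A ^ p = 1 → (∀ c, A ≠ algebraMap F _ c) →
    ∃ U, S U ∧ Inv A U

variable {p : ℕ} {S : Submodule F V → Prop}

omit hf [FiniteDimensional F V] [Fintype F] in
theorem unip_of_proj (h : ∀ A : Module.End F V, IsIsom f f A → InOm f A →
    (∃ c, A ^ p = algebraMap F _ c) → (∀ c, A ≠ algebraMap F _ c) → ∃ U, S U ∧ Inv A U) :
    Unip f p S := fun A h1 h2 h3 => h A h1 h2 ⟨1, by simpa using h3⟩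

omit hf [FiniteDimensional F V] [Fintype F] in
theorem unip_of_ord (h : ∀ A : Module.End F V, IsIsom f f A → InOm f A → A ^ p = 1 → A ≠ 1 →
    ∃ U, S U ∧ Inv A U) : Unip f p S := fun A h1 h2 h3 h4 => h A h1 h2 h3 (by simpa using h4 1)

theorem inOm_iff_two (h5 : 5 ≤ finrank F V) (h2 : (2 : F) = 0) (hA : IsIsom f f A) :
    InOm f A ↔ Even (finrank F (LinearMap.range (A - 1))) := by
  obtain ⟨g, rfl⟩ := exists_toEnd hf hA
  rw [inOm_iff hf h5, and_iff_left (Orth.spin_of_two_eq_zero h2 g)]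

theorem exists_isom_jt (h2 : (2 : F) ≠ 0) {μ : Multiset ℕ} (h0 : ∀ a ∈ μ, 0 < a)
    (h1 : ∀ a, Even a → Even (μ.count a)) (h3 : μ.sum = finrank F V) (h4 : ∃ a ∈ μ, Odd a) :
    ∃ A : Module.End F V, IsIsom f f A ∧ HasJT A 1 μ := by
  obtain ⟨a, ha, h4⟩ := h4
  obtain ⟨ν, rfl⟩ := Multiset.exists_cons_of_mem ha
  obtain ⟨B, h5, h6⟩ := Orth.exists_isReal_quad_single h2 h4
  obtain ⟨C, h7, h8⟩ := Orth.exists_isReal_quad_of_even_count h2 _ ν rfl
    (fun b hb => h0 b (Multiset.mem_cons_of_mem hb)) fun j hj _ => by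
      simpa [Multiset.count_cons_of_ne (show j ≠ a by rintro rfl; exact absurd hj (by simpa))]
        using h1 j hj
  obtain ⟨Q₁, h9, h10⟩ := Orth.isReal_quad_iff.1 h6
  obtain ⟨Q₂, h11, h12⟩ := Orth.isReal_quad_iff.1 h8
  obtain ⟨c, hc, h13⟩ := exists_sqSign_eq h2 (dsc (qfOf f) * (dsc Q₁ * dsc Q₂))
  have h14 := Orth.smul_nondeg h9 hc
  obtain ⟨e, he⟩ := Orth.exists_isometry_of_dsc_eq h2 (Orth.prod_nondeg h14 h11) (qfOf_nondeg hf)
    (by simpa using h3) (by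
      rw [Orth.dsc_prod h14 h11, Orth.dsc_smul h9 hc, h13, finrank_fin_fun,
        Int.units_pow_eq_pow_mod_two, Nat.odd_iff.1 h4, pow_one, mul_assoc, mul_assoc,
        Int.units_mul_self, mul_one])
  obtain ⟨A, h15, h16⟩ := exists_isom_simil (f := f) (f' := ofQuad ((c • Q₁).prod Q₂))
    (B := B.prodMap C) ((quad_isIsom_iff _ _ _).2 fun x => by simp [ofQuad_q, h10, h12]) e
    ((quad_isIsom_iff _ f e.toLinearMap).2 he)
  exact ⟨A, h15, (h5.prodMap h7).of_simil h16⟩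

theorem ds_of_jt (h2 : (2 : F) ≠ 0) (hA : IsIsom f f A) {k : ℕ}
    (h : HasJT A 1 (1 ::ₘ Multiset.replicate (2 * k) 2)) :
    ∃ v, A v = v ∧ f.q v ≠ 0 ∧ dsc (qfOf f) = sqSign (2 * f.q v) := by
  have h1 : ∀ b ∈ 1 ::ₘ Multiset.replicate (2 * k) 2, b ≤ 2 := by simp [Multiset.mem_replicate]
  have h3 := finrank_range_pow_eq_count (k := 1) h h1
  have h4 := h.sum_eq
  have h5 := finrank_ker_add_range (A - 1)
  have h6 : LinearMap.range (A - 1) ≤ LinearMap.ker (A - 1) := by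
    rintro _ ⟨x, rfl⟩
    simpa [pow_two] using LinearMap.congr_fun ((h.pow_eq_zero_iff 2).2 h1) x
  simp only [Multiset.sum_cons, Multiset.sum_replicate, smul_eq_mul] at h4
  rw [pow_one, Multiset.count_cons_of_ne (by simp), Multiset.count_replicate_self] at h3
  obtain ⟨v, hv, h7⟩ : ∃ v ∈ LinearMap.ker (A - 1), f.q v ≠ 0 := by
    by_contra! h7
    have := (nd_top hf).two_mul_finrank_le ((quad_totSing_iff _ _).2 h7)
    rw [inf_top_eq, finrank_top] at this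
    omega
  have h8 := nd_span h2 h7
  have h9 := Submodule.finrank_add_eq_of_isCompl h8.isCompl
  rw [finrank_span_singleton (ne_zero_of_q h7)] at h9
  refine ⟨v, sub_eq_zero.1 hv, h7, ?_⟩
  rw [← ds_top hf, ds_perp hf h8, ds_span h2 h7, (pl_iff_ds h2 (h8.perp hf) (a := 2 * k)
    (by omega)).1 ⟨_, (le_perp_comm f).1 (le_perp_of_fix_mov hf hA
      ((Submodule.span_singleton_le_iff_mem _ _).2 hv) le_rfl), (quad_totSing_iff _ _).2
      fun x hx => (mul_eq_zero.1 ((f.quad_B_self x).symm.trans ((mem_perp f).1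
        (le_perp_of_fix_mov hf hA h6 le_rfl hx) x hx))).resolve_left h2, by omega⟩,
    pow_mul, Int.units_sq, one_pow, mul_one]

/-- A test element determining the discriminant of its invariant subspaces. -/
theorem exists_ds_test (h2 : (2 : F) ≠ 0) {j : ℕ} (hj : finrank F V = 4 * j + 4) (ζ : ℤˣ) :
    ∃ A : Module.End F V, IsIsom f f A ∧ HasJT A 1 (1 ::ₘ 3 ::ₘ Multiset.replicate (2 * j) 2) ∧
      ∀ W, ND f W → Inv A W → finrank F W % 4 = 1 → ds f W = ζ := by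
  obtain ⟨c, hc, rfl⟩ := exists_sqSign_eq h2 ζ
  obtain ⟨v, -, hv⟩ := (nd_top hf).exists_q_eq (by rw [finrank_top]; omega) (c / 2)
  have h1 : f.q v ≠ 0 := hv ▸ div_ne_zero hc h2
  have h3 := nd_span h2 h1
  have h4 := Submodule.finrank_add_eq_of_isCompl h3.isCompl
  have h5 := finrank_span_singleton (K := F) (ne_zero_of_q h1)
  obtain ⟨B, h6, h7⟩ := exists_isom_jt (h3.perp hf).nondeg h2
    (μ := 3 ::ₘ Multiset.replicate (2 * j) 2) (by simp [Multiset.mem_replicate])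
    (fun a ha => by
      rw [Multiset.count_cons_of_ne (by rintro rfl; exact absurd ha (by decide)),
        Multiset.count_replicate]
      split_ifs <;> simp) (by simp; omega) ⟨3, by simp, by decide⟩
  obtain ⟨A, h8, h9, h10, h11, rfl⟩ := exists_glue h3 (A₁ := 1) (IsIsom.id _) h6
  obtain ⟨μ, h12, h13⟩ := exists_hasJT_of_pow (A := A.restrict h9) (k := 1) (by simp [h11])
  obtain rfl : μ = {1} := by
    have h14 := Multiset.eq_replicate_card.2 fun b hb => le_antisymm (h13 b hb).2 (h13 b hb).1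
    have h15 := h12.sum_eq
    rw [h14, Multiset.sum_replicate, h5, smul_eq_mul, mul_one] at h15
    rw [h14, h15]; rfl
  have h14 := (h12.prodMap h7).of_simil (simil_prod_of_isCompl h3.isCompl h9 h10)
  rw [Multiset.singleton_add] at h14
  refine ⟨A, h8, h14, fun W hW hW' h15 => ?_⟩
  obtain ⟨ν, h16, h17⟩ := hW.exists_jt h8 h14 hW'
  have h18 := Orth.even_count_quad h2 ⟨_, hW.nondeg, isIsom_restrict h8 hW'⟩ h17 even_two two_pos
  obtain ⟨k, rfl⟩ : ∃ k, ν = 1 ::ₘ Multiset.replicate (2 * k) 2 := by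
    rw [← h17.sum_eq] at h15
    clear h17
    obtain ⟨ν, h16, h17⟩ := le_cons_cons_cases h16
    obtain ⟨k, -, rfl⟩ := Multiset.le_replicate_iff.1 h16
    rcases h17 with rfl | rfl | rfl | rfl <;> simp [Nat.even_iff] at h15 h18
    any_goals omega
    exact ⟨k / 2, by rw [Nat.mul_div_cancel' (by omega)]⟩
  obtain ⟨w, h19, h20, h21⟩ := ds_of_jt hW.nondeg h2 (isIsom_restrict h8 hW') h17
  obtain ⟨u, hu, x, hx, h22⟩ := Submodule.mem_sup.1
    (h3.isCompl.sup_eq_top ▸ Submodule.mem_top (x := (w : V)))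
  have h23 : A.restrict h10 ⟨x, hx⟩ = ⟨x, hx⟩ := Subtype.ext (by
    have h23 := congrArg Subtype.val h19
    have h24 : A u = u := congrArg Subtype.val (LinearMap.congr_fun h11 ⟨u, hu⟩)
    rw [LinearMap.restrict_coe_apply, ← h22, map_add, h24] at h23
    exact add_left_cancel h23)
  have h24 : f.q x = 0 := (mul_eq_zero.1 ((f.quad_B_self x).symm.trans ((mem_perp _).1
    (le_perp_of_fix_mov (h3.perp hf).nondeg h6 le_rfl le_rfl (sub_eq_zero.2 h23)) _
    (ker_le_range_of_jt h7 (by simp [Multiset.mem_replicate]) (sub_eq_zero.2 h23))))).resolve_left h2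
  obtain ⟨a, rfl⟩ := Submodule.mem_span_singleton.1 hu
  have h25 : (f.restrict W).q w = a * a * f.q v := by
    rw [restrict_q, ← h22, f.q_add_of_B_eq_zero ((mem_perp f).1 hx _ hu), h24, f.quad_q_smul]; ring
  rw [h25] at h20 h21
  rw [ds, h21, mul_left_comm, hv, mul_div_cancel₀ _ h2, Orth.sqSign_mul (left_ne_zero_of_mul h20) hc,
    Orth.sqSign_mul_self, one_mul]

variable [Fact p.Prime] [CharP F p] (h5 : 5 ≤ finrank F V) (h : Unip f p S)
include h5 h

theorem Unip.aType (hS : ∀ U, S U → ND f U) {s : ℕ} (h0 : 0 < s) (h1 : Even s)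
    (h2 : 2 * s ≤ finrank F V) (h3 : 2 * s = finrank F V → Pl f ⊤) :
    ∃ U s₁ s₂, S U ∧ s = s₁ + s₂ ∧
      (Even s₁ ∧ 2 * s₁ ≤ finrank F U ∧ (2 * s₁ = finrank F U → Pl f U)) ∧
      Even s₂ ∧ 2 * s₂ ≤ finrank F (f.perp U) ∧ (2 * s₂ = finrank F (f.perp U) → Pl f (f.perp U)) := by
  obtain ⟨A, h4, h6, rfl⟩ := (aType_iff hf).2 ⟨h1, h2, h3⟩
  obtain ⟨μ, h7, h8⟩ := exists_hasJT_of_pow (sq_eq_zero_of_ts hf h4 h6)
  have hp := (Fact.out : p.Prime)
  have h9 := pow_eq_one_of_hasJT p h7 fun a ha => (h8 a ha).2.trans hp.two_le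
  have h10 := finrank_ker_add_range (A - 1)
  obtain ⟨U, h11, h12⟩ := h A h4 (by
    rcases hp.eq_two_or_odd' with rfl | ho
    exacts [(inOm_iff_two hf h5 CharTwo.two_eq_zero h4).2 h1, inOm_of_odd hf h5 ho h4 h9]) h9
    (ne_algebraMap_of_ker (fun h11 => by rw [h11, finrank_bot] at h10; omega) (by
      rintro rfl; rw [sub_self, LinearMap.range_zero, finrank_bot] at h0; omega))
  have h13 := (hS U h11).inv_perp h4.B_eq h12
  obtain ⟨h14, h15⟩ := split_range (hS U h11) h12 h13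
  have h16 := (aType_iff (hS U h11).nondeg).1 ⟨_, isIsom_restrict h4 h12, (h15.1 h6).1, rfl⟩
  have h17 := (aType_iff ((hS U h11).perp hf).nondeg).1
    ⟨_, isIsom_restrict h4 h13, (h15.1 h6).2, rfl⟩
  rw [pl_restrict_top] at h16 h17
  exact ⟨U, _, _, h11, h14, h16, h17⟩

variable (hp : p ≠ 2)
include hp

theorem Unip.jt {μ : Multiset ℕ} (hA : IsIsom f f A) (h1 : HasJT A 1 μ) (h2 : ∀ a ∈ μ, a ≤ p)
    (h3 : ∃ a ∈ μ, a ≠ 1) : ∃ U, S U ∧ Inv A U :=
  have h4 := pow_eq_one_of_hasJT p h1 h2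
  h A hA (inOm_of_odd hf h5 ((Fact.out : p.Prime).odd_of_ne_two hp) hA h4) h4
    (ne_algebraMap_of_hasJT h1 h3)

theorem Unip.partition {m : ℕ} (hS : ∀ U, S U → finrank F U = m ∧ ND f U) (hm : m ≤ finrank F V)
    {μ : Multiset ℕ} (h1 : ∀ a ∈ μ, 0 < a ∧ a ≤ p) (h2 : ∀ a, Even a → Even (μ.count a))
    (h3 : μ.sum = finrank F V) (h4 : ∃ a ∈ μ, Odd a) :
    ∃ ν ≤ μ, ν.sum = m ∧ ∀ a, Even a → Even (ν.count a) := by
  have h0 := two_ne_zero_of_ne (F := F) p hp
  by_cases h6 : ∃ a ∈ μ, a ≠ 1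
  · obtain ⟨A, h7, h8⟩ := exists_isom_jt hf h0 (fun a ha => (h1 a ha).1) h2 h3 h4
    obtain ⟨U, h9, h10⟩ := h.jt hf h5 hp h7 h8 (fun a ha => (h1 a ha).2) h6
    obtain ⟨rfl, h11⟩ := hS U h9
    obtain ⟨ν, h12, h13⟩ := h11.exists_jt h7 h8 h10
    refine ⟨ν, h12, h13.sum_eq, fun a ha => ?_⟩
    rcases a.eq_zero_or_pos with rfl | h14
    · rw [Multiset.count_eq_zero_of_notMem fun h => (h13.pos 0 h).false]; exact Even.zero
    · exact Orth.even_count_quad h0 ⟨_, h11.nondeg, isIsom_restrict h7 h10⟩ h13 ha h14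
  · push Not at h6
    obtain ⟨ν, h7, rfl⟩ := exists_le_sum_of_ones h6 (h3 ▸ hm)
    refine ⟨ν, h7, rfl, fun a ha => ?_⟩
    rw [Multiset.count_eq_zero_of_notMem fun h => by
      obtain rfl := h6 a (Multiset.mem_of_le h7 h); exact absurd ha (by decide)]
    exact Even.zero

theorem Unip.partition_even {m : ℕ} (hS : ∀ U, S U → finrank F U = m ∧ ND f U)
    (hm : m ≤ finrank F V) (he : Even m) (μ : Multiset ℕ) (h1 : ∀ a ∈ μ, 0 < a ∧ a ≤ p)
    (h2 : ∀ a, Even a → Even (μ.count a)) (h3 : μ.sum = finrank F V) :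
    ∃ ν ≤ μ, ν.sum = m ∧ ∀ a, Even a → Even (ν.count a) := by
  by_cases h4 : ∃ a ∈ μ, Odd a
  · exact h.partition hf h5 hp hS hm h1 h2 h3 h4
  simp only [not_exists, not_and, Nat.not_odd_iff_even] at h4
  obtain ⟨a, ha⟩ := Multiset.exists_mem_of_ne_zero (s := μ) (by rintro rfl; simp at h3; omega)
  have h6 := h4 a ha
  obtain ⟨μ, rfl⟩ := Multiset.exists_cons_of_mem ha
  obtain ⟨μ, rfl⟩ := Multiset.exists_cons_of_mem (s := μ) (a := a) (by
    by_contra h7
    simpa [Multiset.count_eq_zero_of_notMem h7] using h2 a h6)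
  have h7 := h1 a ha
  have h8 := Nat.odd_iff.1 ((Fact.out : p.Prime).odd_of_ne_two hp)
  have h9 := Nat.even_iff.1 h6
  have h10 : ∀ (ν : Multiset ℕ) b, Even b → (((a + 1) ::ₘ (a - 1) ::ₘ ν).count b = ν.count b ∧
      (Even ((a ::ₘ a ::ₘ ν).count b) ↔ Even (ν.count b))) := fun ν b hb => by
    rw [Nat.even_iff] at hb
    rw [Multiset.count_cons_of_ne (by omega), Multiset.count_cons_of_ne (by omega)]
    by_cases h : b = a <;> simp [h, parity_simps]
  obtain ⟨ν, h11, rfl, h12⟩ := h.partition hf h5 hp hS hm (μ := (a + 1) ::ₘ (a - 1) ::ₘ μ)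
    (fun b hb => by
      simp only [Multiset.mem_cons] at hb
      rcases hb with rfl | rfl | hb
      exacts [by omega, by omega, h1 b (by simp [hb])])
    (fun b hb => (h10 μ b hb).1 ▸ (h10 μ b hb).2.1 (h2 b hb)) (by simp at h3 ⊢; omega)
    ⟨a + 1, by simp, h6.add_one⟩
  have h13 : ∀ ν ≤ μ, 2 ∣ ν.sum := fun ν hν => Multiset.dvd_sum fun b hb =>
    (h4 b (by simp [Multiset.mem_of_le hν hb])).two_dvd
  rw [Nat.even_iff] at he
  obtain ⟨ν', h11, h14⟩ := le_cons_cons_cases h11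
  have h15 := h13 ν' h11
  rcases h14 with rfl | rfl | rfl | rfl
  · exact ⟨ν, h11.trans ((Multiset.le_cons_self _ _).trans (Multiset.le_cons_self _ _)), rfl, h12⟩
  · simp at he; omega
  · simp at he; omega
  · exact ⟨a ::ₘ a ::ₘ ν', by simpa, by simp; omega,
      fun b hb => (h10 ν' b hb).2.2 ((h10 ν' b hb).1 ▸ h12 b hb)⟩

theorem Unip.test {m : ℕ} (hS : ∀ U, S U → finrank F U = m ∧ ND f U) (hm : m ≤ finrank F V)
    {a t : ℕ} (ha : a = 1 ∨ a = 3) {s : Multiset ℕ} (hs : s = 0 ∨ s = {3})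
    (h1 : a + s.sum + 4 * t = finrank F V) : m % 4 = 0 ∨ m % 4 = a ∨ m % 4 = s.sum ∨
      m % 4 = (a + s.sum) % 4 := by
  have h3 := (Fact.out : p.Prime).two_le
  obtain ⟨ν, h6, rfl, h7⟩ := h.partition hf h5 hp hS hm
    (μ := a ::ₘ (s + Multiset.replicate (2 * t) 2))
    (by rcases hs with rfl | rfl <;> simp [Multiset.mem_replicate] <;> omega)
    (fun b hb => by
      rw [Nat.even_iff] at hb
      rcases hs with rfl | rfl <;> simp [Multiset.count_cons, Multiset.count_replicate] <;>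
        split_ifs <;> rw [Nat.even_iff] <;> omega)
    (by simp; omega) ⟨a, by simp, by rw [Nat.odd_iff]; omega⟩
  have h8 := h7 2 even_two
  obtain ⟨ν', h9, h10⟩ := le_cons_cons_cases (b := s.sum) (t := Multiset.replicate (2 * t) 2)
    (h6.trans (Multiset.cons_le_cons _ (by rcases hs with rfl | rfl <;> simp [Multiset.le_cons_self])))
  obtain ⟨k, -, rfl⟩ := Multiset.le_replicate_iff.1 h9
  rcases hs with rfl | rfl <;> rcases ha with rfl | rfl <;> rcases h10 with rfl | rfl | rfl | rfl <;>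
    simp [Nat.even_iff] at h8 ⊢ <;> omega

theorem Unip.not_ds {m : ℕ} {δ : ℤˣ} (hS : ∀ U, S U → finrank F U = m ∧ ND f U ∧ ds f U = δ)
    (hn : finrank F V % 4 = 0) (hm : Odd m) : False := by
  have h0 := two_ne_zero_of_ne (F := F) p hp
  have h3 := (Fact.out : p.Prime).two_le
  obtain ⟨A, h1, h2, h4⟩ := exists_ds_test hf h0 (j := finrank F V / 4 - 1) (by omega)
    (if m % 4 = 1 then -δ else -(ds f ⊤ * δ))
  obtain ⟨U, h6, h7⟩ := h.jt hf h5 hp h1 h2 (by simp [Multiset.mem_replicate]; omega) ⟨3, by simp⟩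
  obtain ⟨rfl, h8, rfl⟩ := hS U h6
  split_ifs at h4 with h9
  · exact absurd (h4 U h8 h7 h9) (Int.units_ne_iff_eq_neg.2 (neg_neg _).symm)
  · have h10 := Submodule.finrank_add_eq_of_isCompl h8.isCompl
    have h11 := h4 _ (h8.perp hf) (h8.inv_perp h1.B_eq h7) (by rw [Nat.odd_iff] at hm; omega)
    rw [ds_perp hf h8, mul_right_comm, Int.units_mul_self, one_mul] at h11
    exact absurd h11 (Int.units_ne_iff_eq_neg.2 (neg_neg _).symm)

end CL.Elus
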