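/-
Involutions of orthogonal groups in characteristic two and their fixed subspaces.
-/
import Mathlib
import Cfsg.Agent.CLAS.Elus13

set_option autoImplicit false

namespace CL.Elus

open Module Polynomial CL.GLn CL.SpU CL.Witt CL.Witt.Form CL.PrimeCl CL.Root
open QuadraticMap (polar polarBilin)
open CL.Orth (qfOf IsPlus dsc sqSign qfOf_nondeg toEnd)

theorem add_sub_div {i m n : ℕ} (h : m % i = n % i) :
    (n + m - 2 * (n % i)) / i = n / i + m / i := by
  rcases i.eq_zero_or_pos with rfl | hi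
  · simp
  · have h1 := Nat.div_add_mod n i
    have h2 := Nat.div_add_mod m i
    rw [show n + m - 2 * (n % i) = i * (n / i + m / i) by rw [mul_add]; omega,
      Nat.mul_div_cancel_left _ hi]

variable {F : Type*} [Field F] {V : Type*} [AddCommGroup V] [Module F V] {A : Module.End F V}
  {U W : Submodule F V} {f : Form (FormType.quad F) V} [FiniteDimensional F V] [Fintype F]

theorem exists_fpf {r : ℕ} [Fact r.Prime] (hr : (r : F) ≠ 0) (hr2 : r ≠ 2) (hf : f.Nondeg)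
    (h : r ∣ oy (Fintype.card F) (finrank F V) (Pl f ⊤)) :
    ∃ A : Module.End F V, IsIsom f f A ∧ A ^ r = 1 ∧ LinearMap.range (A - 1) = ⊤ := by
  obtain ⟨h1, h2⟩ := dvd_of_dvd_oy hr hr2 h
  have h3 : oc F r * (finrank F V / oc F r) = finrank F V := Nat.mul_div_cancel' h1
  obtain ⟨A, h4, h5, h6⟩ := exists_mov hr hr2 hf h3.le fun _ => h2
  exact ⟨A, h4, h5, Submodule.eq_top_of_finrank_eq (h6.trans h3)⟩

variable [CharP F 2]

omit [FiniteDimensional F V] [Fintype F] in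
theorem sq_sub_one_two (A : Module.End F V) : (A - 1) ^ 2 = A ^ 2 - 1 := by
  simpa using (pow_char_pow_sub_one (F := F) 2 A 1).symm

omit [FiniteDimensional F V] [Fintype F] in
theorem eq_one_of_sq_two {c : F} (h : c ^ 2 = 1) : c = 1 :=
  (sq_eq_one_iff.1 h).elim id fun h => h.trans (CharTwo.neg_eq 1)

omit [FiniteDimensional F V] [Fintype F] in
theorem range_le_ker_two (h : A ^ 2 = 1) : LinearMap.range (A - 1) ≤ LinearMap.ker (A - 1) := by
  rintro _ ⟨x, rfl⟩
  simpa [pow_two] using LinearMap.congr_fun ((sq_sub_one_two A).trans (sub_eq_zero.2 h)) x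

omit [Fintype F] in
theorem two_mul_rank_le (h : A ^ 2 = 1) :
    2 * finrank F (LinearMap.range (A - 1)) ≤ finrank F V := by
  have := finrank_ker_add_range (A - 1)
  have := Submodule.finrank_mono (range_le_ker_two h)
  omega

theorem card_pts : Nat.card {W : Submodule F V // finrank F W = 1 ∧ ∃ v ∈ W, f.q v ≠ 0} =
    Nat.card {v : V // f.q v = 1} := by
  refine (Nat.card_eq_of_bijective (fun v => ⟨F ∙ v.1, finrank_span_singleton
    (ne_zero_of_q (v.2.trans_ne one_ne_zero)), v.1, Submodule.mem_span_singleton_self _,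
    v.2.trans_ne one_ne_zero⟩) ⟨fun u v h => ?_, fun ⟨W, h1, v, h2, h3⟩ => ?_⟩).symm
  · obtain ⟨c, hc⟩ := Submodule.mem_span_singleton.1 ((congrArg Subtype.val h).le
      (Submodule.mem_span_singleton_self u.1))
    have := u.2
    rw [← hc, f.quad_q_smul, v.2, mul_one] at this
    exact Subtype.ext (by rw [← hc, eq_one_of_sq_two this, one_smul])
  · obtain ⟨c, hc⟩ := Orth.isSquare_of_two_eq_zero CharTwo.two_eq_zero (f.q v)⁻¹
    have h4 : f.q (c • v) = 1 := by rw [f.quad_q_smul, sq, ← hc, inv_mul_cancel₀ h3]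
    exact ⟨⟨c • v, h4⟩, Subtype.ext (Submodule.eq_of_le_of_finrank_eq
      ((Submodule.span_singleton_le_iff_mem _ _).2 (W.smul_mem c h2))
      (by rw [finrank_span_singleton (ne_zero_of_q (h4 ▸ one_ne_zero)), h1]))⟩

omit [Fintype F] in
theorem fix_pt_iff (hA : IsIsom f f A) :
    (∃ W : Submodule F V, (finrank F W = 1 ∧ ∃ v ∈ W, f.q v ≠ 0) ∧ Inv A W) ↔
      ¬ f.TotSing (LinearMap.ker (A - 1)) := by
  simp only [quad_totSing_iff, not_forall]
  constructor
  · rintro ⟨W, ⟨h1, v, h2, h3⟩, h4⟩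
    obtain rfl : (F ∙ v) = W := Submodule.eq_of_le_of_finrank_eq
      ((Submodule.span_singleton_le_iff_mem _ _).2 h2)
      (by rw [finrank_span_singleton (ne_zero_of_q h3), h1])
    obtain ⟨c, hc⟩ := Submodule.mem_span_singleton.1 (h4 v h2)
    have := hA.q_eq v
    rw [← hc, f.quad_q_smul, mul_eq_right₀ h3] at this
    exact ⟨v, by simp [← hc, eq_one_of_sq_two this], h3⟩
  · rintro ⟨v, h1, h2⟩
    exact ⟨F ∙ v, ⟨finrank_span_singleton (ne_zero_of_q h2), v,
      Submodule.mem_span_singleton_self v, h2⟩,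
      inv_of_le_fixed ((Submodule.span_singleton_le_iff_mem _ _).2 h1)⟩

variable (hf : f.Nondeg)
include hf

theorem exists_invol_two {s : ℕ} (h0 : 0 < s) (h : 2 * s ≤ finrank F V) :
    ∃ A : Module.End F V, IsIsom f f A ∧ A ^ 2 = 1 ∧ finrank F (LinearMap.range (A - 1)) = s ∧
      ¬ f.TotSing (LinearMap.range (A - 1)) := by
  have hQ := qfOf_nondeg hf
  obtain ⟨d, hd⟩ := (Orth.even_finrank_of_two_eq_zero hQ CharTwo.two_eq_zero).two_dvd
  obtain ⟨d, rfl⟩ : ∃ e, d = e + 1 := ⟨d - 1, by omega⟩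
  obtain ⟨t, h1, h2, h3⟩ : ∃ t : Orth.O (qfOf f), t * t = 1 ∧ finrank F (Orth.moved t) = s ∧
      ¬ Orth.SingMoved t := by
    rcases Orth.even_structure hQ hd with ⟨e, e', h1⟩ | ⟨e, e', x, y, h1, h2, -, h3, -⟩
    · exact h1.exists_invol hQ h0 (by omega)
    · rcases (show s ≤ d + 1 by omega).eq_or_lt with rfl | h4
      · exact h1.exists_invol_succ hQ h3 (fun i => Orth.mem_perp_span.1 h2 _ ⟨.inl i, rfl⟩)
          fun i => Orth.mem_perp_span.1 h2 _ ⟨.inr i, rfl⟩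
      · exact h1.exists_invol hQ h0 (by omega)
  exact ⟨_, isIsom_toEnd' t, by rw [← map_pow, sq, h1, map_one], h2, fun h => h3 h.1⟩

theorem exists_invol_aType {s : ℕ} (h1 : Even s) (h2 : 2 * s ≤ finrank F V)
    (h3 : 2 * s = finrank F V → Pl f ⊤) :
    ∃ A : Module.End F V, IsIsom f f A ∧ A ^ 2 = 1 ∧ finrank F (LinearMap.range (A - 1)) = s ∧
      f.TotSing (LinearMap.range (A - 1)) :=
  let ⟨A, h4, h5, h6⟩ := (aType_iff hf).2 ⟨h1, h2, h3⟩
  ⟨A, h4, sub_eq_zero.1 ((sq_sub_one_two A).symm.trans (sq_eq_zero_of_ts hf h4 h5)), h6, h5⟩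

theorem invol_conj {B : Module.End F V} (hA : IsIsom f f A) (hB : IsIsom f f B) (h1 : A ^ 2 = 1)
    (h2 : B ^ 2 = 1) (h3 : finrank F (LinearMap.range (B - 1)) = finrank F (LinearMap.range (A - 1)))
    (h4 : f.TotSing (LinearMap.range (B - 1)) ↔ f.TotSing (LinearMap.range (A - 1)))
    (hW : Inv B W) : ∃ g ∈ f.O, Inv A (mp g W) := by
  obtain ⟨a, rfl⟩ := exists_toEnd hf hA
  obtain ⟨b, rfl⟩ := exists_toEnd hf hB
  simp only [quad_totSing_iff] at h4
  obtain ⟨g, hg⟩ := isConj_iff.1 ((Orth.isConj_invol_iff (qfOf_nondeg hf) (t := b) (s := a)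
    (Orth.toEnd_injective (by rw [map_mul, ← sq, h2, map_one]))
    (Orth.toEnd_injective (by rw [map_mul, ← sq, h1, map_one]))).2 ⟨h3, h4⟩)
  exact ⟨g, (O_qfOf f).ge g.2, hW.map_equiv (g.1 : V →ₗ[F] V) fun v => by
    simp [← hg, Orth.toEnd_apply]⟩

theorem invol_fix (hW : ND f W) (hA : IsIsom f f A) (h1 : A ^ 2 = 1) {A₁ : Module.End F W}
    {A₂ : Module.End F (f.perp W)} (h₁ : IsIsom (f.restrict W) (f.restrict W) A₁)
    (h₂ : IsIsom (f.restrict (f.perp W)) (f.restrict (f.perp W)) A₂) (h₃ : A₁ ^ 2 = 1)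
    (h₄ : A₂ ^ 2 = 1) (h₅ : finrank F (LinearMap.range (A₁ - 1)) +
      finrank F (LinearMap.range (A₂ - 1)) = finrank F (LinearMap.range (A - 1)))
    (h₆ : (f.restrict W).TotSing (LinearMap.range (A₁ - 1)) ∧
      (f.restrict (f.perp W)).TotSing (LinearMap.range (A₂ - 1)) ↔
      f.TotSing (LinearMap.range (A - 1))) : ∃ g ∈ f.O, Inv A (mp g W) := by
  obtain ⟨B, h2, h3, h4, rfl, rfl⟩ := exists_glue hW h₁ h₂
  obtain ⟨h5, h6⟩ := split_range hW h3 h4
  exact invol_conj hf hA h2 h1 (pow_eq_one_of_isCompl hW.isCompl h3 h4 h₃ h₄) (h5.trans h₅)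
    (h6.trans h₆) h3

variable (h5 : 5 ≤ finrank F V)
include h5

theorem forall_om_char_two (P : Module.End F V → Prop) :
    (∀ A : Module.End F V, IsIsom f f A → InOm f A → (∃ c, A ^ 2 = algebraMap F _ c) →
      (∀ c, A ≠ algebraMap F _ c) → P A) ↔ ∀ A : Module.End F V, IsIsom f f A →
      Even (finrank F (LinearMap.range (A - 1))) → A ^ 2 = 1 → A ≠ 1 → P A := by
  have := Module.nontrivial_of_finrank_pos (R := F) (M := V) (by omega)
  refine forall_congr' fun A => imp_congr_right fun hA => imp_congr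
    (inOm_iff_two hf h5 CharTwo.two_eq_zero hA) ⟨fun h h1 h2 => h ⟨1, by simpa using h1⟩ ?_,
      fun h ⟨c, h1⟩ h2 => h ?_ (by simpa using h2 1)⟩
  · rintro c rfl
    exact h2 (by rw [eq_one_of_sq_two (quad_norm_sq c (norm_eq_one hf hA)), map_one])
  · rw [h1, eq_one_of_sq_two (quad_norm_sq c (norm_eq_one hf (h1 ▸ isIsom_pow hA 2))), map_one]

theorem om_char_two_pl {k d : ℕ} (h0 : 0 < k) (hm : k < d) (hd : finrank F V = 2 * d) (η : Prop) :
    (∀ A : Module.End F V, IsIsom f f A → InOm f A → (∃ c, A ^ 2 = algebraMap F _ c) →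
      (∀ c, A ≠ algebraMap F _ c) →
      ∃ U : Submodule F V, (finrank F U = 2 * k ∧ ND f U ∧ (Pl f U ↔ η)) ∧ Inv A U) ↔
    ∀ s, 0 < s → Even s → s ≤ d → (s = d → Pl f ⊤) → ∃ s₁ s₂, s = s₁ + s₂ ∧
      (Even s₁ ∧ s₁ ≤ k ∧ (s₁ = k → η)) ∧ Even s₂ ∧ s₂ + k ≤ d ∧ (s₂ + k = d → (Pl f ⊤ ↔ η)) := by
  have key : ∀ U : Submodule F V, finrank F U = 2 * k → ND f U → (Pl f U ↔ η) →
      finrank F (f.perp U) + 2 * k = 2 * d ∧ (Pl f (f.perp U) ↔ (Pl f ⊤ ↔ η)) :=
    fun U h1 h2 h3 => ⟨by have := Submodule.finrank_add_eq_of_isCompl h2.isCompl; omega, by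
      rw [pl_perp hf h2 (hd ▸ even_two_mul d) (h1 ▸ even_two_mul k), h3]; tauto⟩
  constructor
  · intro h s h1 h2 h3 h4
    obtain ⟨U, s₁, s₂, h6, h7, h8, h9⟩ := (unip_of_proj h).aType hf h5 (fun U h => h.2.1) h1 h2
      (by omega) fun h => h4 (by omega)
    obtain ⟨h10, h11⟩ := key U h6.1 h6.2.1 h6.2.2
    exact ⟨s₁, s₂, h7, ⟨h8.1, by omega, fun h => h6.2.2.1 (h8.2.2 (by omega))⟩, h9.1, by omega,
      fun h => h11.1 (h9.2.2 (by omega))⟩
  · rw [forall_om_char_two hf h5]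
    intro h A hA h1 h2 h3
    obtain ⟨W, -, hW, h4, h6⟩ := exists_nd_pl (nd_top hf) (even_two_mul k) (by omega)
      (by rw [finrank_top]; omega) η
    obtain ⟨h7, h8⟩ := key W h4 hW h6
    have h9 := two_mul_rank_le h2
    have h10 := finrank_range_pos h3
    obtain ⟨g, hg, h11⟩ : ∃ g ∈ f.O, Inv A (mp g W) := by
      by_cases h11 : f.TotSing (LinearMap.range (A - 1))
      · obtain ⟨s₁, s₂, h12, h13, h14⟩ := h _ h10 h1 (by omega) fun h =>
          ((aType_iff hf).1 ⟨A, hA, h11, rfl⟩).2.2 (by omega)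
        obtain ⟨A₁, a1, a2, a3, a4⟩ := exists_invol_aType hW.nondeg h13.1 (by omega) fun h =>
          pl_restrict_top.2 (h6.2 (h13.2.2 (by omega)))
        obtain ⟨A₂, b1, b2, b3, b4⟩ := exists_invol_aType (hW.perp hf).nondeg h14.1 (by omega)
          fun h => pl_restrict_top.2 (h8.2 (h14.2.2 (by omega)))
        exact invol_fix hf hW hA h2 a1 b1 a2 b2 (by omega) (iff_of_true ⟨a4, b4⟩ h11)
      · obtain ⟨A₂, b1, b2, b3, b4⟩ := exists_invol_two (hW.perp hf).nondeg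
          (s := min (finrank F (LinearMap.range (A - 1))) (d - k)) (by omega) (by omega)
        by_cases h12 : finrank F (LinearMap.range (A - 1)) ≤ d - k
        · exact invol_fix hf hW hA h2 (A₁ := 1) (IsIsom.id _) b1 (one_pow 2) b2 (by
            rw [sub_self, LinearMap.range_zero, finrank_bot]; omega)
            (iff_of_false (fun h => b4 h.2) h11)
        · obtain ⟨A₁, a1, a2, a3, -⟩ := exists_invol_two hW.nondeg
            (s := finrank F (LinearMap.range (A - 1)) - (d - k)) (by omega) (by omega)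
          exact invol_fix hf hW hA h2 a1 b1 a2 b2 (by omega) (iff_of_false (fun h => b4 h.2) h11)
    exact ⟨_, ⟨(finrank_mp g W).trans h4, hW.map (f.mem_O.1 hg).B_eq,
      (isom_mp hg W).pl_iff.symm.trans h6⟩, h11⟩

theorem om_char_two_pts {d : ℕ} (hd : finrank F V = 2 * d) :
    (∀ A : Module.End F V, IsIsom f f A → InOm f A → (∃ c, A ^ 2 = algebraMap F _ c) →
      (∀ c, A ≠ algebraMap F _ c) →
      ∃ W : Submodule F V, (finrank F W = 1 ∧ ∃ v ∈ W, f.q v ≠ 0) ∧ Inv A W) ↔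
    (Pl f ⊤ → Odd d) := by
  rw [forall_om_char_two hf h5, ← Nat.not_even_iff_odd]
  constructor
  · intro h h1 h2
    obtain ⟨A, h3, h4, h6, h7⟩ := exists_invol_aType hf h2 hd.ge fun _ => h1
    have h8 := finrank_ker_add_range (A - 1)
    refine (fix_pt_iff h3).1 (h A h3 (h6 ▸ h2) h4 (ne_one_of_finrank_ker (by omega))) ?_
    rwa [← Submodule.eq_of_le_of_finrank_eq (range_le_ker_two h4) (by omega)]
  · refine fun h A h1 h2 h3 _ => (fix_pt_iff h1).2 fun h6 => ?_
    have h7 := two_mul_rank_le h3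
    have h8 := finrank_ker_add_range (A - 1)
    have h9 := (nd_top hf).two_mul_finrank_le h6
    rw [inf_top_eq, finrank_top] at h9
    exact h ⟨_, le_top, h6, by rw [finrank_top]; omega⟩ (by convert h2 using 1; omega)

theorem not_om_odd_pts {r : ℕ} [Fact r.Prime] (hr2 : r ≠ 2)
    (h : r ∣ oy (Fintype.card F) (finrank F V) (Pl f ⊤)) :
    ¬ ∀ A : Module.End F V, IsIsom f f A → InOm f A → (∃ c, A ^ r = algebraMap F _ c) →
      (∀ c, A ≠ algebraMap F _ c) →
      ∃ W : Submodule F V, (finrank F W = 1 ∧ ∃ v ∈ W, f.q v ≠ 0) ∧ Inv A W := by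
  rw [forall_om_odd hf h5 ((Fact.out : r.Prime).odd_of_ne_two hr2)]
  obtain ⟨A, h1, h2, h3⟩ := exists_fpf (natCast_ne_zero 2 hr2) hr2 hf h
  have h4 := finrank_ker_add_range (A - 1)
  rw [h3, finrank_top] at h4
  refine fun h => (fix_pt_iff h1).1 (h A h1 h2 (ne_one_of_finrank_ker (by omega))) ?_
  rw [Submodule.finrank_eq_zero.1 (show finrank F (LinearMap.ker (A - 1)) = 0 by omega)]
  exact f.totSing_bot

end CL.Elus
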