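/-
Elements of symplectic groups in characteristic two fixing a quadratic form.
-/
import Mathlib
import Cfsg.Agent.CLAS.Elus14
import Cfsg.Agent.KSG.SpUWall

set_option autoImplicit false

namespace CL.Elus

open Module Polynomial CL.GLn CL.SpU CL.Witt CL.Witt.Form CL.PrimeCl CL.Root
open QuadraticMap (polar polarBilin)
open CL.Orth (qfOf IsPlus qfOf_nondeg)
open scoped MatrixGroups

variable {F : Type*} [Field F] {V : Type*} [AddCommGroup V] [Module F V] {A : Module.End F V}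
  {g : Form (FormType.alt F) V} {f : Form (FormType.quad F) V}

/-- `f` polarises to `g`. -/
def Pol (f : Form (FormType.quad F) V) (g : Form (FormType.alt F) V) : Prop :=
  ∀ x y, f.B x y = g.B x y

theorem Pol.nondeg (h : Pol f g) (hg : g.Nondeg) : f.Nondeg :=
  fun x hx => hg x fun y => by rw [← h, hx]

theorem Pol.isIsom (h : Pol f g) (hA : IsIsom f f A) : IsIsom g g A :=
  (alt_isIsom_iff _ _ _).2 fun x y => by rw [← h, ← h, hA.B_eq]

theorem Pol.comap (h : Pol f g) {e : V →ₗ[F] V} (he : IsIsom g g e) : Pol (f.comap e) g :=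
  fun x y => (h _ _).trans (he.B_eq x y)

theorem pl_comap (e : V ≃ₗ[F] V) : Pl (f.comap (e : V →ₗ[F] V)) ⊤ ↔ Pl f ⊤ := by
  rw [pl_top_iff, pl_top_iff]
  exact Orth.isPlus_congr e fun _ => rfl

/-- `A` fixes a quadratic form of type `ε` polarising to `g`. -/
def FixQ (g : Form (FormType.alt F) V) (ε : Prop) (A : Module.End F V) : Prop :=
  ∃ f : Form (FormType.quad F) V, Pol f g ∧ (Pl f ⊤ ↔ ε) ∧ IsIsom f f A

theorem Pol.fixQ (h : Pol f g) {B : Module.End F V} (hB : IsIsom f f B) (e : V ≃ₗ[F] V)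
    (he : IsIsom g g e) (h1 : ∀ v, e (A v) = B (e v)) : FixQ g (Pl f ⊤) A :=
  ⟨_, h.comap (e := (e : V →ₗ[F] V)) he, pl_comap e, (quad_isIsom_iff _ _ _).2 fun v =>
    (congrArg f.q (h1 v)).trans (hB.q_eq _)⟩

theorem Pol.totSing_iff [CharP F 2] (h : Pol f g) (hA : IsIsom f f A) :
    f.TotSing (LinearMap.range (A - 1)) ↔ ∀ v, g.B v (A v) = 0 := by
  have key : ∀ v, f.q ((A - 1) v) = g.B v (A v) := fun v => by
    have h1 := f.quad_q_add v ((A - 1) v)
    have h2 : f.B v ((A - 1) v) = g.B v (A v) := by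
      rw [h, LinearMap.sub_apply, B_sub_right, Module.End.one_apply, g.alt_B_self, sub_zero]
    rw [h2, show v + (A - 1) v = A v by simp, hA.q_eq] at h1
    linear_combination -h1 - g.B v (A v) * CharTwo.two_eq_zero (R := F)
  rw [quad_totSing_iff]
  exact ⟨fun h v => (key v).symm.trans (h _ ⟨v, rfl⟩), by rintro h _ ⟨v, rfl⟩; rw [key, h]⟩

variable [FiniteDimensional F V] [Fintype F] [CharP F 2] (hg : g.Nondeg)
include hg

theorem exists_pol_of {V' : Type*} [AddCommGroup V'] [Module F V'] [FiniteDimensional F V']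
    {Q : QuadraticForm F V'} (hQ : (polarBilin Q).Nondegenerate)
    (h : finrank F V = finrank F V') : ∃ f, Pol f g ∧ (Pl f ⊤ ↔ IsPlus Q) := by
  have h1 : LinearMap.BilinForm.IsAlt (polarBilin Q) := fun x => by
    simp [CharTwo.two_eq_zero]
  obtain ⟨e, he⟩ := hg.exists_isIsom_alt ((ofAlt_nondeg_iff _ h1).2 hQ) h
  exact ⟨(ofQuad Q).comap (e : V →ₗ[F] V'), he.B_eq,
    pl_top_iff.trans (Orth.isPlus_congr e fun _ => rfl)⟩

theorem exists_pol (h0 : 0 < finrank F V) (η : Prop) : ∃ f, Pol f g ∧ (Pl f ⊤ ↔ η) := by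
  obtain ⟨a, ha⟩ := hg.even_finrank_alt.two_dvd
  by_cases hη : η
  · simpa [hη, Orth.isPlus_QPlus] using exists_pol_of hg (Orth.QPlus_nondeg a F)
      (by simp [ha, two_mul])
  · obtain ⟨a, rfl⟩ : ∃ b, a = b + 1 := ⟨a - 1, by omega⟩
    obtain ⟨ζ, hζ⟩ := Orth.exists_irred_quadratic F
    have h1 := Orth.aniso_of_irred hζ
    simpa only [hη, Orth.not_isPlus_QMinus h1] using exists_pol_of hg
      (Orth.QMinus_nondeg a F h1) (by rwa [Orth.finrank_minus])

omit [Fintype F] in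
theorem exists_sp_invol (hA : IsIsom g g A) (h : A ^ 2 = 1) : ∃ a : g.O, (∀ v, a.1 v = A v) ∧
    mov a = LinearMap.range (A - 1) ∧ (wall a).IsSymm := by
  obtain ⟨a, ha, h1⟩ := hA.exists_mem_O hg
  refine ⟨⟨a, ha⟩, h1, by ext; simp [mem_mov, h1], (wall_isSymm_iff _).2 ((totSing_mov_iff hg _).2
    ((mv_mv_eq_zero_iff _).2 (Subtype.ext (LinearEquiv.ext fun v => ?_))))⟩
  simpa [h1, sq] using LinearMap.congr_fun h v

theorem sp_invol_conj {B : Module.End F V} (hA : IsIsom g g A) (hB : IsIsom g g B)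
    (h1 : A ^ 2 = 1) (h2 : B ^ 2 = 1)
    (h3 : finrank F (LinearMap.range (A - 1)) = finrank F (LinearMap.range (B - 1)))
    (h4 : (∀ v, g.B v (A v) = 0) ↔ ∀ v, g.B v (B v) = 0) :
    ∃ e : V ≃ₗ[F] V, IsIsom g g e ∧ ∀ v, e (A v) = B (e v) := by
  obtain ⟨a, a1, a2, a3⟩ := exists_sp_invol hg hA h1
  obtain ⟨b, b1, b2, b3⟩ := exists_sp_invol hg hB h2
  obtain ⟨φ, hφ⟩ := SymmTwo.exists_equiv_of_alt_iff a3 b3 (wall_nondeg hg _) (wall_nondeg hg _)
    (by simpa only [wall_isAlt_iff, a1, b1] using h4) (by rwa [a2, b2])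
  obtain ⟨k, hk, -⟩ := exists_conj_of_wall hg φ hφ
  exact ⟨k.1, g.mem_O.1 k.2, fun v => by
    rw [← a1, ← b1]; exact LinearEquiv.congr_fun (congrArg Subtype.val hk) v⟩

omit [Fintype F] in
theorem even_rank_of_aType (hA : IsIsom g g A) (h1 : A ^ 2 = 1) (h : ∀ v, g.B v (A v) = 0) :
    Even (finrank F (LinearMap.range (A - 1))) := by
  obtain ⟨a, a1, a2, -⟩ := exists_sp_invol hg hA h1
  rw [← a2]
  exact SymmTwo.even_finrank_of_alt (wall_nondeg hg a) (by simpa only [wall_isAlt_iff, a1])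

omit [FiniteDimensional F V] [Fintype F] in
theorem alt_scalar_eq_one [Nontrivial V] {c : F}
    (h : IsIsom g g (algebraMap F (Module.End F V) c)) : c = 1 :=
  eq_one_of_sq_two (by rw [sq]; exact norm_eq_one hg h)

theorem fixQ_two {d : ℕ} (hd : finrank F V = 2 * d) (h0 : 0 < d) (ε : Prop) :
    (∀ A : Module.End F V, IsIsom g g A → (∃ c, A ^ 2 = algebraMap F _ c) →
      (∀ c, A ≠ algebraMap F _ c) → FixQ g ε A) ↔ (ε ∨ Odd d) := by
  have := Module.nontrivial_of_finrank_pos (R := F) (M := V) (by omega)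
  constructor
  · intro h
    refine or_iff_not_imp_right.2 fun h1 => ?_
    rw [Nat.not_odd_iff_even] at h1
    obtain ⟨f, h2, h3⟩ := exists_pol hg (by omega) True
    obtain ⟨A, h4, h5, h6, h7⟩ := exists_invol_aType (h2.nondeg hg) h1 hd.ge fun _ => h3.2 trivial
    obtain ⟨f', h8, h9, h10⟩ := h A (h2.isIsom h4) ⟨1, by simpa using h5⟩ (by
      rintro c rfl
      rw [alt_scalar_eq_one hg (h2.isIsom h4), map_one, sub_self, LinearMap.range_zero,
        finrank_bot] at h6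
      omega)
    exact h9.1 ⟨_, le_top, (h8.totSing_iff h10).2 ((h2.totSing_iff h4).1 h7), by
      rw [h6, finrank_top, hd]⟩
  · rintro h A hA ⟨c, h1⟩ h2
    rw [alt_scalar_eq_one hg (c := c) (h1 ▸ isIsom_pow hA 2), map_one] at h1
    obtain ⟨f, h3, h4⟩ := exists_pol hg (by omega) ε
    have h5 := two_mul_rank_le h1
    obtain ⟨B, h6, h7, h8, h9⟩ : ∃ B : Module.End F V, IsIsom f f B ∧ B ^ 2 = 1 ∧
        finrank F (LinearMap.range (B - 1)) = finrank F (LinearMap.range (A - 1)) ∧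
        (f.TotSing (LinearMap.range (B - 1)) ↔ ∀ v, g.B v (A v) = 0) := by
      by_cases h6 : ∀ v, g.B v (A v) = 0
      · have h7 := even_rank_of_aType hg hA h1 h6
        simpa only [h6, implies_true, iff_true] using exists_invol_aType (h3.nondeg hg) h7 h5
          fun h8 => h4.2 (h.resolve_right (Nat.not_odd_iff_even.2 (by convert h7 using 1; omega)))
      · simpa only [h6, iff_false] using exists_invol_two (h3.nondeg hg) (Nat.pos_of_ne_zero
          fun h7 => h2 1 (by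
            rw [map_one, ← sub_eq_zero, ← LinearMap.range_eq_bot, ← Submodule.finrank_eq_zero, h7])) h5
    obtain ⟨e, h10, h11⟩ := sp_invol_conj hg hA (h3.isIsom h6) h1 h7 h8.symm
      (by rw [← h9, h3.totSing_iff h6])
    exact propext h4 ▸ h3.fixQ h6 e h10 h11

theorem not_fixQ_odd {r : ℕ} [Fact r.Prime] (hr2 : r ≠ 2) (h0 : 0 < finrank F V) {ε : Prop}
    (h : r ∣ oy (Fintype.card F) (finrank F V) (¬ ε)) :
    ¬ ∀ A : Module.End F V, IsIsom g g A → (∃ c, A ^ r = algebraMap F _ c) →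
      (∀ c, A ≠ algebraMap F _ c) → FixQ g ε A := fun H => by
  have := Module.nontrivial_of_finrank_pos h0
  have hr := natCast_ne_zero (F := F) 2 hr2
  obtain ⟨f, h1, h2⟩ := exists_pol hg h0 (¬ ε)
  rw [← propext h2] at h
  obtain ⟨A, h3, h4, h5⟩ := exists_fpf hr hr2 (h1.nondeg hg) h
  obtain ⟨f', h6, h7, h8⟩ := H A (h1.isIsom h3) ⟨1, by simpa using h4⟩ (by
    rintro c rfl
    rw [alt_scalar_eq_one hg (h1.isIsom h3), map_one, sub_self, LinearMap.range_zero] at h5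
    exact bot_ne_top h5)
  obtain ⟨j, hj⟩ := (dvd_of_dvd_oy hr hr2 h).1
  have key := fun (f : Form (FormType.quad F) V) (h1 : Pol f g) (h3 : IsIsom f f A) =>
    pl_mov' hr hr2 h3 h4 (inv_top A) (nd_top (h1.nondeg hg)) h5.ge ((finrank_top F V).trans hj)
  exact iff_not_self (h7.symm.trans ((key _ h6 h8).trans ((key _ h1 h3).symm.trans h2)))

theorem Pol.card_O (h : Pol f g) {d : ℕ} (hd : finrank F V = 2 * d) (h0 : 0 < d) :
    Fintype.card F ^ d * oy (Fintype.card F) (finrank F V) (¬ Pl f ⊤) * Nat.card f.O =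
      2 * Nat.card g.O := by
  obtain ⟨d, rfl⟩ : ∃ e, d = e + 1 := ⟨d - 1, by omega⟩
  have h1 := oy_mul_oy (Fintype.card F) (n := 2 * (d + 1)) (by omega) (Pl f ⊤)
  rw [card_O_quad (h.nondeg hg) hd (by omega), Nondeg.card_O_alt _ hg hd, hd,
    Nat.card_eq_fintype_card (α := F)]
  rw [show 2 * (d + 1) / 2 = d + 1 by omega, show (2 * (d + 1) - 1) / 2 = d by omega] at *
  rw [← h1]; ring

section Mat

variable {ι : Type} [Fintype ι] [DecidableEq ι] [Nonempty ι] {Q : QuadraticForm F (ι → F)}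
  {g : Form (FormType.alt F) (ι → F)} {L : Subgroup (GL ι F)}

omit [FiniteDimensional F V] [Fintype F] [CharP F 2] hg in
theorem Pol.mem_sim_iff (hg : g.Nondeg) (h : Pol (ofQuad Q) g) {x : GL ι F}
    (hx : Orth.glEquiv ι F x ∈ g.O) :
    x ∈ Cfsg.Geo.quadSimilarityGroup ⇑Q ↔ Orth.glEquiv ι F x ∈ (ofQuad Q).O := by
  rw [mem_O, ← LinearEquiv.coe_coe, quad_isIsom_iff]
  refine ⟨fun ⟨c, hc⟩ v => ?_, fun h => ⟨1, fun v => (h v).trans (one_mul _).symm⟩⟩
  obtain ⟨u, hu⟩ := exists_ne (0 : ι → F)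
  obtain ⟨w, hw⟩ := not_forall.1 fun h => hu (hg u h)
  have h1 : g.B u w = c * g.B u w := by
    conv_lhs => rw [← (g.mem_O.1 hx).B_eq]
    rw [← h, ← h, quad_B, quad_B, ← map_add]
    exact (congrArg₂ _ (congrArg₂ _ (hc _) (hc _)) (hc _)).trans (by simp only [ofQuad_q]; ring)
  exact (hc v).trans (by rw [(mul_eq_right₀ hw).1 h1.symm, one_mul]; rfl)

omit [FiniteDimensional F V] hg in
theorem Pol.conj_mem_sim_iff (hg : g.Nondeg) (h : Pol (ofQuad Q) g)
    (hL : ∀ x, x ∈ L ↔ Orth.glEquiv ι F x ∈ g.O) {x : GL ι F} (hx : x ∈ L) :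
    (∃ y ∈ L, y⁻¹ * x * y ∈ Cfsg.Geo.quadSimilarityGroup ⇑Q) ↔
      FixQ g (Pl (ofQuad Q) ⊤) (Matrix.toLin' (x : Matrix ι ι F)) := by
  constructor
  · rintro ⟨y, hy, h1⟩
    rw [h.mem_sim_iff hg ((hL _).1 (L.mul_mem (L.mul_mem (L.inv_mem hy) hx) hy))] at h1
    exact h.fixQ (B := (Orth.glEquiv ι F (y⁻¹ * x * y) : (ι → F) ≃ₗ[F] (ι → F))) ((mem_O _).1 h1)
      (Orth.glEquiv ι F y⁻¹) (g.mem_O.1 ((hL _).1 (L.inv_mem hy))) fun v => by
        simp [FGL.toLin'_eq]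
  · rintro ⟨f, h1, h2, h3⟩
    obtain ⟨e, he⟩ := Orth.exists_isometry_of_isPlus_iff (qfOf_nondeg (h.nondeg hg))
      (qfOf_nondeg (h1.nondeg hg)) hg.even_finrank_alt rfl (by rw [← pl_top_iff, ← pl_top_iff, h2])
    have h4 : IsIsom (ofQuad Q) f e := (quad_isIsom_iff _ _ (e : (ι → F) →ₗ[F] (ι → F))).2 he
    obtain ⟨y, rfl⟩ := (Orth.glEquiv ι F).surjective e
    have hy := (hL y).2 (g.mem_O.2 ((alt_isIsom_iff _ _ _).2 fun u v => by
      rw [← h1, h4.B_eq, h]))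
    refine ⟨y, hy, (h.mem_sim_iff hg ((hL _).1 (L.mul_mem (L.mul_mem (L.inv_mem hy) hx) hy))).2 ?_⟩
    rw [FGL.toLin'_eq] at h3
    rw [map_mul, map_mul, map_inv]
    exact (mem_O _).2 ((h4.symm.comp h3).comp h4)

omit [FiniteDimensional F V] hg in
theorem Pol.dvd_oy (hg : g.Nondeg) (h : Pol (ofQuad Q) g)
    (hL : ∀ x, x ∈ L ↔ Orth.glEquiv ι F x ∈ g.O) {r : ℕ} [hr : Fact r.Prime] (hr2 : r ≠ 2)
    (hΩ : r ∣ (Cfsg.Geo.quadSimilarityGroup ⇑Q).relIndex L) :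
    r ∣ oy (Fintype.card F) (finrank F (ι → F)) (¬ Pl (ofQuad Q) ⊤) := by
  obtain ⟨d, hd⟩ := hg.even_finrank_alt.two_dvd
  have h0 : 0 < finrank F (ι → F) := finrank_pos
  have h1 := h.card_O hg hd (by omega)
  have h2 := (Subgroup.subgroupOf (Cfsg.Geo.quadSimilarityGroup ⇑Q) L).index_mul_card
  have h3 : Nat.card L = Nat.card g.O := Nat.card_congr ((Orth.glEquiv ι F).toEquiv.subtypeEquiv hL)
  have h4 : Nat.card (Subgroup.subgroupOf (Cfsg.Geo.quadSimilarityGroup ⇑Q) L) =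
      Nat.card (ofQuad Q).O := by
    rw [← Subgroup.inf_subgroupOf_right,
      Nat.card_congr (Subgroup.subgroupOfEquivOfLe inf_le_right).toEquiv]
    refine Nat.card_congr ((Orth.glEquiv ι F).toEquiv.subtypeEquiv fun x => ?_)
    refine ⟨fun h5 => (h.mem_sim_iff hg ((hL _).1 h5.2)).1 h5.1, fun h5 => ?_⟩
    have h6 := g.mem_O.2 (h.isIsom (A := (Orth.glEquiv ι F x : (ι → F) ≃ₗ[F] (ι → F))) ((mem_O _).1 h5))
    exact ⟨(h.mem_sim_iff hg h6).2 h5, (hL _).2 h6⟩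
  rw [h3, h4] at h2
  rw [← h2, ← mul_assoc] at h1
  have h5 := Nat.eq_of_mul_eq_mul_right (h4 ▸ Nat.card_pos) h1
  exact ((hr.out.dvd_mul).1 (h5 ▸ hΩ.mul_left 2)).resolve_left fun h6 =>
    not_dvd_card 2 hr2 (hr.out.dvd_of_dvd_pow h6)

end Mat

end CL.Elus
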