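import Mathlib
import Cfsg.Agent.CLAS.ElusL2

/-! Elements of `PSL_n(q)` conjugate into subfield subgroups; unipotent elements. -/

set_option autoImplicit false
set_option linter.unusedSectionVars false

namespace CL.ElusL

open Matrix Polynomial Cfsg.Geo CL.GLn CL.Elus CL.PrimeCl

/-! ### Valuations -/

theorem val_mul_of_not_dvd {r a b : ℕ} [Fact r.Prime] (hb : ¬ r ∣ b) :
    padicValNat r (a * b) = padicValNat r a := by
  rcases eq_or_ne a 0 with rfl | ha
  · simp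
  rw [padicValNat.mul ha (by rintro rfl; exact hb (dvd_zero r)),
    padicValNat.eq_zero_of_not_dvd hb, add_zero]

theorem dvd_sub_one_iff {r a : ℕ} (ha : 0 < a) : r ∣ a - 1 ↔ (a : ZMod r) = 1 := by
  rw [← ZMod.natCast_eq_zero_iff, Nat.cast_sub ha, Nat.cast_one, sub_eq_zero]

theorem val_pow_sub_one {r a k : ℕ} [Fact r.Prime] (ha : 0 < a) (h : (a : ZMod r) = 1)
    (hk : ¬ r ∣ k) : padicValNat r (a ^ k - 1) = padicValNat r (a - 1) := by
  have h1 : a ^ k - 1 = (a - 1) * ∑ i ∈ Finset.range k, a ^ i := by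
    zify [ha, Nat.one_le_pow k a ha]
    rw [mul_geom_sum]
  rw [h1, val_mul_of_not_dvd]
  rw [← ZMod.natCast_eq_zero_iff] at *
  simpa [h] using hk

theorem val_sq_sub_one {r a : ℕ} [Fact r.Prime] (h : ¬ r ∣ a - 1) :
    padicValNat r (a ^ 2 - 1) = padicValNat r (a + 1) := by
  rw [← val_mul_of_not_dvd (a := a + 1) h, ← Nat.sq_sub_sq, one_pow]

theorem vGL_eq (r q : ℕ) {n : ℕ} (hn : 1 ≤ n) :
    vGL r q n = padicValNat r (q - 1) + ∑ i ∈ Finset.Ioc 1 n, padicValNat r (q ^ i - 1) := by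
  rw [vGL, ← Finset.sum_Ioc_consecutive _ (Nat.zero_le 1) hn]; simp

variable {F : Type*} [Field F] {r n : ℕ} {ι : Type} [Fintype ι] [DecidableEq ι]
  {H : Subgroup (GL ι F)} {x y : Matrix ι ι F}

theorem val_card_SL [Fintype F] [Fact r.Prime] (hr : ¬ r ∣ Fintype.card F) (hn : 1 ≤ n) :
    padicValNat r (Nat.card (SpecialLinearGroup (Fin n) F)) =
      ∑ i ∈ Finset.Ioc 1 n, padicValNat r (Fintype.card F ^ i - 1) := by
  have := vGL_eq_card_SL hr hn
  rw [vGL_eq r _ hn] at this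
  omega

/-! ### Unipotent elements -/

theorem IntoS.smul (hH : scalars ι F ≤ H) (h : IntoS H x) {c : F} (hc : c ≠ 0) :
    IntoS H (c • x) := by
  obtain ⟨k, hk, g, h1, h⟩ := h
  let s : GL ι F := GeneralLinearGroup.scalar ι (Units.mk0 c hc)
  have hs : (s : Matrix ι ι F) = c • 1 := by simp [s, Matrix.smul_one_eq_diagonal]
  refine ⟨s * k, H.mul_mem (hH ((mem_scalars_iff _).2 ⟨Units.mk0 c hc, hs⟩)) hk, g, h1, ?_⟩
  rw [Units.val_mul, hs, Matrix.smul_mul, Matrix.one_mul, Matrix.mul_smul, h, Matrix.smul_mul]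

theorem IntoS.of_smul (hH : scalars ι F ≤ H) {c : F} (hc : c ≠ 0) (h : IntoS H (c • x)) :
    IntoS H x := by
  simpa [smul_smul, hc] using h.smul hH (inv_ne_zero hc)

/-- Adjusting determinants with the centraliser and the subgroup. -/
theorem Into.intoS' (h : Into H x) (hx : ∀ c : F, c ≠ 0 → ∃ g : GL ι F, ∃ k ∈ H,
    (g : Matrix ι ι F) * x = x * g ∧ (g : Matrix ι ι F).det * (k : Matrix ι ι F).det = c) :
    IntoS H x := by
  obtain ⟨a, ha, b, hb⟩ := h
  obtain ⟨g, k, hk, h1, h2⟩ := hx (b : Matrix ι ι F).det⁻¹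
    (inv_ne_zero (GeneralLinearGroup.det_ne_zero b))
  refine ⟨k * a * k⁻¹, H.mul_mem (H.mul_mem hk ha) (H.inv_mem hk), k * b * g, ?_, ?_⟩
  · rw [Units.val_mul, Units.val_mul, det_mul, det_mul, mul_right_comm,
      mul_comm (k : Matrix ι ι F).det, h2,
      inv_mul_cancel₀ (GeneralLinearGroup.det_ne_zero b)]
  · simp only [Units.val_mul, mul_assoc, h1, Units.inv_mul_cancel_left]
    rw [← mul_assoc (b : Matrix ι ι F), hb.eq, mul_assoc]

theorem exists_unip' [Fintype F] (p : ℕ) [Fact p.Prime] [CharP F p] [Nonempty ι] (hx : x.det ≠ 0)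
    {z : F} (h : x ^ p = z • (1 : Matrix ι ι F)) :
    ∃ b : F, b ≠ 0 ∧ ∃ μ, HasJT (toLin' (b⁻¹ • x)) 1 μ ∧ ∀ a ∈ μ, 0 < a ∧ a ≤ p := by
  obtain ⟨b, hb, h1⟩ := exists_unip p (A := toLin' x) ((LinearMap.isUnit_iff_isUnit_det _).2 (by
    rw [LinearMap.det_toLin']; exact hx.isUnit)) ((pow_eq_smul_iff x p z).1 h)
  exact ⟨b, hb, by rw [map_smul]; exact exists_hasJT_of_pow h1⟩

theorem exists_mem_of_hasJT [Nonempty ι] {μ : Multiset ℕ} {a : F} (h : HasJT (toLin' x) a μ) :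
    ∃ e, e ∈ μ := Multiset.exists_mem_of_ne_zero fun h0 => by
  have := h.sum_eq_card
  rw [h0] at this
  exact Fintype.card_ne_zero this.symm

theorem commute_det_of_hasJT {μ : Multiset ℕ} {a : F} (h : HasJT (toLin' x) a μ) {e : ℕ}
    (he : e ∈ μ) {c : F} (hc : c ≠ 0) :
    ∃ g : GL ι F, (g : Matrix ι ι F) * x = x * g ∧ (g : Matrix ι ι F).det = c ^ e :=
  exists_gl_commute_det (h.exists_commute_det_pow he hc)

theorem exists_pow_char [Finite F] (p : ℕ) [Fact p.Prime] [CharP F p] {c : F} (hc : c ≠ 0) :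
    ∃ d : F, d ≠ 0 ∧ d ^ p = c := by
  obtain ⟨d, hd⟩ := (frobeniusEquiv F p).surjective c
  refine ⟨d, ?_, hd⟩
  rintro rfl
  exact hc (by rw [← hd, map_zero])

theorem Into.intoS_of_mem [Finite F] (p : ℕ) [Fact p.Prime] [CharP F p] (h : Into H x)
    {μ : Multiset ℕ} {a : F} (hμ : HasJT (toLin' x) a μ) (he : 1 ∈ μ ∨ p ∈ μ) : IntoS H x := by
  refine h.intoS fun c hc => ?_
  rcases he with he | he
  · simpa using commute_det_of_hasJT hμ he hc
  · obtain ⟨d, hd, rfl⟩ := exists_pow_char p hc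
    exact commute_det_of_hasJT hμ he hd

/-- In characteristic two only conjugacy in `GL` matters. -/
theorem elu_two_of_unip [Fintype F] [CharP F 2] [Nonempty ι] (hS : scalars ι F ≤ H)
    (h : ∀ (u : Matrix ι ι F) (μ : Multiset ℕ), HasJT (toLin' u) 1 μ → (∀ a ∈ μ, 0 < a ∧ a ≤ 2) →
      u ≠ 1 → Into H u) : Elu H 2 := by
  rintro x x1 ⟨z, x2⟩ x3
  obtain ⟨b, hb, μ, h1, h2⟩ := exists_unip' 2 (x1 ▸ one_ne_zero) x2
  obtain ⟨e, he⟩ := exists_mem_of_hasJT h1
  refine ((h _ μ h1 h2 fun h4 => x3 b ?_).intoS_of_mem 2 h1 ?_).of_smul hS (inv_ne_zero hb)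
  · rw [← h4, smul_smul, mul_inv_cancel₀ hb, one_smul]
  · have := h2 e he
    obtain rfl | rfl : e = 1 ∨ e = 2 := by omega
    exacts [Or.inl he, Or.inr he]

theorem exists_unipotent (p : ℕ) [Fact p.Prime] [CharP F p] {μ : Multiset ℕ}
    (h1 : ∀ a ∈ μ, 0 < a ∧ a ≤ p) (h2 : μ.sum = Fintype.card ι) (h3 : ∃ a ∈ μ, a ≠ 1) :
    ∃ x : Matrix ι ι F, x.det = 1 ∧ x ^ p = (1 : F) • (1 : Matrix ι ι F) ∧
      (∀ z : F, x ≠ z • (1 : Matrix ι ι F)) ∧ HasJT (toLin' x) 1 μ := by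
  obtain ⟨x, hx⟩ := exists_matrix_hasJT (n := ι) (1 : F) (fun a ha => (h1 a ha).1) h2
  exact ⟨x, hx.det_eq_one, (pow_eq_smul_iff x p 1).2 (by
    rw [pow_eq_one_of_hasJT p hx fun a ha => (h1 a ha).2, map_one]),
    fun z hz => ne_algebraMap_of_hasJT hx h3 z ((toLin'_eq_algebraMap_iff x z).1 hz), hx⟩

theorem isConj_map {E : Type*} [Field E] (φ : E →+* F) {a b : Matrix ι ι E} (h : IsConj a b) :
    IsConj (a.map φ) (b.map φ) := φ.mapMatrix.toMonoidHom.map_isConj h

theorem hasJT_map {E : Type*} [Field E] (φ : E →+* F) {a : Matrix ι ι E} {μ : Multiset ℕ}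
    (h : HasJT (toLin' a) 1 μ) : HasJT (toLin' (a.map φ)) 1 μ := by
  obtain ⟨t, ht⟩ : ∃ t, μ.card = t := ⟨_, rfl⟩
  obtain ⟨d, rfl⟩ := exists_fun_of_card (ι := Fin t) μ (by simpa using ht)
  have hd : ∀ k, 1 ≤ d k := fun k => h.pos _ (Multiset.mem_map_of_mem _ (Finset.mem_univ_val k))
  let e : ((k : Fin _) × Fin (d k)) ≃ ι := Fintype.equivOfCardEq (by
    rw [← h.sum_eq_card]; simp [List.sum_ofFn])
  have h1 := isConj_map φ ((h.isConj_iff (hasJT_reindex_jordanTypeMatrix d hd e)).2 rfl)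
  have h2 : (reindex e e (Cfsg.jordanTypeMatrix d E)).map φ =
      reindex e e (Cfsg.jordanTypeMatrix d F) := by
    ext i j
    simp only [Matrix.map_apply, reindex_apply, submatrix_apply, Cfsg.jordanTypeMatrix,
      blockDiagonal'_apply, Cfsg.jordanBlock, of_apply]
    split_ifs <;> simp
  rw [h2] at h1
  exact (hasJT_reindex_jordanTypeMatrix d hd e).of_simil ((isConj_iff_simil _ _).1 h1).symm

theorem isSemisimple_map {E : Type*} [Field E] [Finite E] (φ : E →+* F) {a : Matrix ι ι E}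
    (h : Module.End.IsSemisimple (toLin' a)) : Module.End.IsSemisimple (toLin' (a.map φ)) := by
  have h1 := (PerfectField.separable_iff_squarefree.2 h.minpoly_squarefree).map (f := φ)
  refine Module.End.isSemisimple_of_squarefree_aeval_eq_zero h1.squarefree ?_
  rw [minpoly_toLin']
  have h2 : aeval (a.map φ) ((minpoly E a).map φ) = 0 := by
    have := map_aeval_eq_aeval_map (φ := φ) (ψ := φ.mapMatrix) (by
      ext c i j
      simp [Matrix.algebraMap_matrix_apply, apply_ite φ]) (minpoly E a) a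
    rw [minpoly.aeval, map_zero] at this
    exact this.symm
  exact (aeval_algHom_apply (toLinAlgEquiv' : Matrix ι ι F ≃ₐ[F] _) _ _).trans (by
    rw [h2, map_zero])

/-- The determinant of a matrix commuting with a unipotent element of type `(2, …, 2)`. -/
theorem isSquare_det_of_commute {m : ℕ} (h : HasJT (toLin' x) 1 (Multiset.replicate m 2))
    (hy : y * x = x * y) : IsSquare y.det := by
  set N : Module.End F (ι → F) := toLin' x - algebraMap F _ 1
  have h1 : LinearMap.range N = LinearMap.ker N := by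
    have h2 : N ^ 2 = 0 := (h.pow_eq_zero_iff 2).2 fun e he => (Multiset.eq_of_mem_replicate he).le
    refine Submodule.eq_of_le_of_finrank_eq (LinearMap.range_le_ker_iff.2 h2) ?_
    have h3 := h.finrank_ker
    have h4 := h.sum_eq
    have h5 := finrank_ker_add_range N
    simp only [Multiset.card_replicate, Multiset.sum_replicate, smul_eq_mul] at h3 h4
    change Module.finrank F (LinearMap.ker N) = m at h3
    omega
  have h2 : Commute (toLin' y) N := by
    refine Commute.sub_right ?_ (Algebra.commutes _ _).symm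
    rw [Commute, SemiconjBy, Module.End.mul_eq_comp, Module.End.mul_eq_comp, ← toLin'_mul, hy,
      toLin'_mul]
  have h3 : LinearMap.ker N ≤ (LinearMap.ker N).comap (toLin' y) := inv_ker_of_commute h2
  rw [← LinearMap.det_toLin', LinearMap.det_eq_det_mul_det _ _ h3]
  let e : ((ι → F) ⧸ LinearMap.ker N) ≃ₗ[F] LinearMap.ker N :=
    N.quotKerEquivRange.trans (LinearEquiv.ofEq _ _ h1)
  refine ⟨_, congrArg _ ?_⟩
  rw [← LinearMap.det_conj _ e]
  congr 1
  refine LinearMap.ext fun v => ?_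
  obtain ⟨v, rfl⟩ := e.surjective v
  obtain ⟨v, rfl⟩ := Submodule.Quotient.mk_surjective _ v
  refine Subtype.ext ?_
  simp only [LinearMap.comp_apply, LinearEquiv.coe_coe, LinearEquiv.symm_apply_apply,
    Submodule.mapQ_apply]
  exact (LinearMap.congr_fun h2.eq v).symm

/-! ### Subfield subgroups -/

local notation "𝕂" => AlgebraicClosure F
local notation "ι₀" => algebraMap F (AlgebraicClosure F)

variable {F₀ : Subfield F}

theorem subfieldSubgroup_one (F₀ : Subfield F) : subfieldSubgroup F₀ (1 : GL ι F) =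
    (GeneralLinearGroup.map (F₀.subtype : F₀ →+* F)).range ⊔ scalars ι F := by
  rw [subfieldSubgroup, map_one]; exact Subgroup.map_id _

theorem scalars_le_sub : scalars ι F ≤ subfieldSubgroup F₀ (1 : GL ι F) :=
  subfieldSubgroup_one (ι := ι) F₀ ▸ le_sup_right

theorem map_mem_sub (g : GL ι F₀) :
    GeneralLinearGroup.map (F₀.subtype : F₀ →+* F) g ∈ subfieldSubgroup F₀ (1 : GL ι F) :=
  subfieldSubgroup_one (ι := ι) F₀ ▸ Subgroup.mem_sup_left ⟨g, rfl⟩

theorem exists_of_mem_sub {g : GL ι F} (hg : g ∈ subfieldSubgroup F₀ (1 : GL ι F)) :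
    ∃ (c : F) (a : GL ι F₀), c ≠ 0 ∧
      (g : Matrix ι ι F) = c • (a : Matrix ι ι F₀).map F₀.subtype := by
  rw [subfieldSubgroup_one, ← SetLike.mem_coe, Subgroup.mul_normal] at hg
  obtain ⟨_, ⟨a, rfl⟩, s, hs, rfl⟩ := hg
  obtain ⟨c, hc⟩ := (mem_scalars_iff s).1 hs
  exact ⟨c, a, c.ne_zero, by
    simp only [Units.val_mul, hc, Matrix.mul_smul, Matrix.mul_one]; rfl⟩

theorem into_sub_of_isConj {a : Matrix ι ι F₀} (hx : x.det ≠ 0) (h : IsConj x (a.map F₀.subtype)) :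
    Into (subfieldSubgroup F₀ 1) x := by
  have ha : a.det ≠ 0 := fun h0 => hx (by
    rw [Matrix.det_eq_sign_charpoly_coeff, charpoly_eq_of_isConj h,
      ← Matrix.det_eq_sign_charpoly_coeff, ← RingHom.mapMatrix_apply, ← RingHom.map_det, h0,
      map_zero])
  exact ⟨_, map_mem_sub (GeneralLinearGroup.mkOfDetNeZero a ha), h⟩

theorem into_sub_of_hasJT {μ : Multiset ℕ} (h : HasJT (toLin' x) 1 μ) :
    Into (subfieldSubgroup F₀ 1) x := by
  obtain ⟨a, ha⟩ := exists_matrix_hasJT (n := ι) (1 : F₀) h.pos h.sum_eq_card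
  exact into_sub_of_isConj (h.det_eq_one ▸ one_ne_zero)
    ((h.isConj_iff (hasJT_map _ ha)).2 rfl)

variable [Fintype F] (p : ℕ) [Fact p.Prime] [CharP F p] {q₀ : ℕ}

theorem mem_sub_iff (hF₀ : Nat.card F₀ = q₀) {a : F} : a ∈ F₀ ↔ a ^ q₀ = a := by
  have := Fintype.ofFinite F₀
  rw [← hF₀, Nat.card_eq_fintype_card, ← mem_range_algebraMap_iff_pow_card]
  exact ⟨fun h => ⟨⟨a, h⟩, rfl⟩, by rintro ⟨b, rfl⟩; exact b.2⟩

include p in
theorem exists_card_sub (hF₀ : Nat.card F₀ = q₀) : ∃ e, 0 < e ∧ q₀ = p ^ e := by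
  have := Fintype.ofFinite F₀
  obtain ⟨e, -, he⟩ := FiniteField.card F₀ p
  exact ⟨e, e.pos, by rw [← hF₀, Nat.card_eq_fintype_card, he]⟩

include p in
theorem nec_sub (hF₀ : Nat.card F₀ = q₀) : Nec (subfieldSubgroup F₀ (1 : GL ι F)) q₀ := by
  intro g hg
  obtain ⟨c, a, hc, h⟩ := exists_of_mem_sub hg
  obtain ⟨e, -, he⟩ := exists_card_sub p hF₀
  have h1 := ev_map_pow p ((a : Matrix ι ι F₀).map F₀.subtype) (iterateFrobenius F p e) he
    fun a => by rw [he, iterateFrobenius_def]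
  have h2 : ((a : Matrix ι ι F₀).map F₀.subtype).map (iterateFrobenius F p e) =
      (a : Matrix ι ι F₀).map F₀.subtype := by
    ext i j
    rw [Matrix.map_apply, iterateFrobenius_def, ← he]
    exact (mem_sub_iff hF₀).1 (Subtype.prop _)
  rw [h2] at h1
  refine ⟨c / c ^ q₀, div_ne_zero hc (pow_ne_zero _ hc), ?_⟩
  rw [h, ev_smul _ hc]
  conv_rhs => rw [h1]
  rw [Multiset.map_map, Multiset.map_map]
  refine Multiset.map_congr rfl fun b _ => ?_
  have hc' : ι₀ c ≠ 0 := (_root_.map_ne_zero _).2 hc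
  simp only [Function.comp_apply, zpow_natCast, map_div₀, map_pow, mul_pow]
  field_simp

include p in
theorem into_sub_of_ev (hF₀ : Nat.card F₀ = q₀) (hx : x.det ≠ 0)
    (hs : Module.End.IsSemisimple (toLin' x)) (h : (ev x).map (· ^ q₀) = ev x) :
    Into (subfieldSubgroup F₀ 1) x := by
  obtain ⟨e, -, he⟩ := exists_card_sub p hF₀
  rw [← ev_map_pow p x (iterateFrobenius F p e) he fun a => by rw [he, iterateFrobenius_def]] at h
  have h1 := charpoly_eq_of_ev h
  rw [charpoly_map] at h1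
  have h2 : x.charpoly ∈ lifts F₀.subtype := (lifts_iff_coeff_lifts _).2 fun i =>
    ⟨⟨x.charpoly.coeff i, (mem_sub_iff hF₀).2 (by
      have := congrArg (coeff · i) h1
      simpa only [coeff_map, iterateFrobenius_def, ← he] using this)⟩, rfl⟩
  obtain ⟨f, h3, h4, h5⟩ := lifts_and_natDegree_eq_and_monic h2 x.charpoly_monic
  obtain ⟨a, h6, h7⟩ := exists_matrix_isSemisimple_charpoly (n := ι) h5
    (by rw [h4, charpoly_natDegree_eq_dim])
  exact into_sub_of_isConj hx (isConj_of_isSemisimple_of_charpoly_eq hs (isSemisimple_map _ h6)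
    (by rw [charpoly_map, h7, h3]))

include p in
theorem into_sub_of_pow [Fact r.Prime] (hr : r ≠ p) (hF₀ : Nat.card F₀ = q₀) (hx : x ^ r = 1)
    {f : 𝕂 → 𝕂} (hf : ∀ a, a ^ r = 1 → a ^ q₀ = f a) (h : (ev x).map f = ev x) :
    Into (subfieldSubgroup F₀ 1) x := by
  refine into_sub_of_ev p hF₀ (fun h0 => ?_)
    (isSemisimple_toLin'_of_pow_eq_one (cast_ne_zero p hr) hx) (Eq.trans ?_ h)
  · have := congrArg det hx
    rw [det_pow, h0, zero_pow (Fact.out : r.Prime).ne_zero, det_one] at this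
    exact zero_ne_one this
  · exact Multiset.map_congr rfl fun a ha => hf a (by
      simpa using pow_eq_of_mem_ev ha (z := 1) (by simpa using hx))

include p in
theorem not_dvd_sub [Fact r.Prime] (hr : r ≠ p) (hn : 1 ≤ n) (hF₀ : Nat.card F₀ = q₀)
    (h : ∀ i ∈ Finset.Ioc 1 n, padicValNat r (Fintype.card F ^ i - 1) ≤
      padicValNat r (q₀ ^ i - 1)) :
    ¬ r ∣ (subfieldSubgroup F₀ (1 : GL (Fin n) F)).relIndex (specialLinear (Fin n) F) := by
  have := Fintype.ofFinite F₀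
  rw [Nat.card_eq_fintype_card] at hF₀
  have h1 := Fintype.one_lt_card (α := F₀)
  refine not_dvd_relIndex_of_le (K := (GeneralLinearGroup.map (F₀.subtype : F₀ →+* F)).range)
    (subfieldSubgroup_one (ι := Fin n) F₀ ▸ le_sup_left) (m := q₀ - 1) (by omega) ?_ ?_
  · rintro _ ⟨g, rfl⟩
    change (F₀.subtype.mapMatrix (g : Matrix (Fin n) (Fin n) F₀)).det ^ _ = 1
    rw [← RingHom.map_det, ← map_pow, ← hF₀,
      FiniteField.pow_card_sub_one_eq_one _ (GeneralLinearGroup.det_ne_zero g), map_one]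
  · rw [← Nat.card_congr (MonoidHom.ofInjective (f := GeneralLinearGroup.map
      (F₀.subtype : F₀ →+* F)) fun a b hab => Units.ext (Matrix.map_injective
        F₀.subtype.injective (congrArg Units.val hab))).toEquiv,
      vGL_eq_card_GL (not_dvd_card p hr), vGL_eq r _ hn, val_card_SL (not_dvd_card p hr) hn, hF₀,
      add_comm]
    exact Nat.add_le_add_left (Finset.sum_le_sum h) _

include p in
theorem not_dvd_sub_of_eq [Fact r.Prime] (hr : r ≠ p) (hn : 1 ≤ n) (hF₀ : Nat.card F₀ = q₀) {k : ℕ}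
    (hk : Fintype.card F = q₀ ^ k) (hrk : ¬ r ∣ k)
    (h : ∃ j : ℕ, (q₀ : ZMod r) = (Fintype.card F : ℕ) ^ j) :
    ¬ r ∣ (subfieldSubgroup F₀ (1 : GL (Fin n) F)).relIndex (specialLinear (Fin n) F) := by
  refine not_dvd_sub p hr hn hF₀ fun i _ => ?_
  by_cases h1 : r ∣ Fintype.card F ^ i - 1
  · obtain ⟨j, hj⟩ := h
    have h2 : 0 < q₀ := hF₀ ▸ Nat.card_pos
    rw [dvd_sub_one_iff (pow_pos Fintype.card_pos i), Nat.cast_pow] at h1
    rw [hk, ← pow_mul, mul_comm, pow_mul, val_pow_sub_one (pow_pos h2 i) _ hrk]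
    rw [Nat.cast_pow, hj, ← pow_mul, mul_comm, pow_mul, h1, one_pow]
  · rw [padicValNat.eq_zero_of_not_dvd h1]; exact Nat.zero_le _

theorem isSquare_of_mem_sub (hF₀ : Nat.card F₀ = q₀) (hk : Fintype.card F = q₀ ^ 2) {a : F}
    (ha : a ∈ F₀) : IsSquare a := by
  rcases eq_or_ne a 0 with rfl | h0
  · exact IsSquare.zero
  rcases eq_or_ne (ringChar F) 2 with h2 | h2
  · exact FiniteField.isSquare_of_char_two h2 a
  rw [FiniteField.isSquare_iff h2 h0]
  have h3 := FiniteField.odd_card_of_char_ne_two h2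
  obtain ⟨m, rfl⟩ : Odd q₀ := by
    rw [hk, ← Nat.odd_iff, Nat.odd_pow_iff two_ne_zero] at h3; exact h3
  have h4 : a ^ (2 * m) = 1 := mul_right_cancel₀ h0 (by
    rw [← pow_succ, (mem_sub_iff hF₀).1 ha, one_mul])
  rw [hk, show (2 * m + 1) ^ 2 / 2 = 2 * m * (m + 1) by
    rw [show (2 * m + 1) ^ 2 = 1 + 2 * (2 * m * (m + 1)) by ring]; omega, pow_mul, h4, one_pow]

end CL.ElusL
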