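import Mathlib
import Cfsg.Agent.CLAS.ElusL3
import Cfsg.Agent.CLAS.FormGL
import Cfsg.Agent.KSG.SpUPoly
import Cfsg.Agent.KSG.SpUUnip

/-! Elements of `PSL_n(q)` conjugate into the similarity group of a form. -/

set_option autoImplicit false
set_option linter.unusedSectionVars false

namespace CL.ElusL

open Matrix Polynomial Cfsg.Geo CL.GLn CL.Elus CL.PrimeCl CL.Witt CL.Witt.Form CL.SpU CL.Orth Module

variable {F : Type*} [Field F] {r n : ℕ} {ι : Type} [Fintype ι] [DecidableEq ι]
  {H : Subgroup (GL ι F)} {x y : Matrix ι ι F} {V : Type*} [AddCommGroup V] [Module F V]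

local notation "𝕂" => AlgebraicClosure F
local notation "ι₀" => algebraMap F (AlgebraicClosure F)

theorem Nec.mono {K : Subgroup (GL ι F)} {u : ℤ} (h : Nec K u) (hK : H ≤ K) : Nec H u :=
  fun g hg => h g (hK hg)

theorem det_ne_zero_of_pow (hr : r ≠ 0) (h : x ^ r = 1) : x.det ≠ 0 := fun h0 => by
  have := congrArg det h
  rw [det_pow, h0, zero_pow hr, det_one] at this
  exact zero_ne_one this

theorem into_of_simil (hx : x.det ≠ 0) {A : Module.End F V} (h : Simil (toLin' x) A)
    (e : V ≃ₗ[F] (ι → F))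
    (hH : ∀ g : GL ι F, (∀ v, (g : Matrix ι ι F) *ᵥ e v = e (A v)) → g ∈ H) : Into H x := by
  obtain ⟨y, hy⟩ := (toLin' : Matrix ι ι F ≃ₗ[F] _).surjective (e.conj A)
  have h1 : IsConj x y := (isConj_iff_simil _ _).2 (hy ▸ h.trans (simil_conj A e))
  have h2 : y.det ≠ 0 := by
    rwa [Matrix.det_eq_sign_charpoly_coeff, ← charpoly_eq_of_isConj h1,
      ← Matrix.det_eq_sign_charpoly_coeff]
  refine ⟨GeneralLinearGroup.mkOfDetNeZero y h2, hH _ fun v => ?_, h1⟩
  simpa using LinearMap.congr_fun hy (e v)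

theorem finrank_ker_eq_of_isConj (h : IsConj x y) (c : F) :
    finrank F (LinearMap.ker (toLin' x - algebraMap F _ c)) =
      finrank F (LinearMap.ker (toLin' y - algebraMap F _ c)) := by
  have := ((isConj_iff_simil _ _).1 h).kd_eq (X - C c)
  rwa [kd, kd, map_sub, map_sub, aeval_X, aeval_X, aeval_C, aeval_C] at this

theorem finrank_ker_diagonal [DecidableEq F] (d : ι → F) (c : F) :
    finrank F (LinearMap.ker (toLin' (diagonal d) - algebraMap F _ c)) =
      Fintype.card {i // d i = c} := by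
  have h1 : toLin' (diagonal d) - algebraMap F _ c = toLin' (diagonal fun i => d i - c) := by
    rw [← diagonal_sub, map_sub, ← smul_one_eq_diagonal, (toLin'_eq_algebraMap_iff _ c).1 rfl]
  have h2 := finrank_ker_add_range (toLin' (diagonal fun i => d i - c))
  have h3 := rank_diagonal fun i => d i - c
  rw [Matrix.rank, Fintype.card_subtype_compl] at h3
  have h4 := Fintype.card_subtype_le fun i => d i - c = 0
  rw [h1]
  simp only [sub_eq_zero, Module.finrank_fintype_fun_eq_card] at h2 h3 h4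
  change _ + finrank F (LinearMap.range (diagonal fun i => d i - c).mulVecLin) = _ at h2
  omega

/-- A reflection. -/
theorem exists_refl [Nonempty ι] (c : F) (hc : c ≠ 1) : ∃ y : Matrix ι ι F, y.det = c ∧
    (∀ k, c ^ k = 1 → y ^ k = 1) ∧
    finrank F (LinearMap.ker (toLin' y - 1)) = Fintype.card ι - 1 := by
  classical
  obtain ⟨i⟩ := ‹Nonempty ι›
  refine ⟨diagonal (Function.update 1 i c), by simp [Finset.prod_update_of_mem], fun k hk => ?_, ?_⟩
  · rw [diagonal_pow, ← diagonal_one]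
    congr 1; funext j
    by_cases h : j = i <;> simp [h, hk]
  · rw [← map_one (algebraMap F (Module.End F (ι → F))), finrank_ker_diagonal,
      ← Fintype.card_subtype_eq i, ← Fintype.card_subtype_compl]
    refine Fintype.card_congr (Equiv.subtypeEquivRight fun j => ?_)
    by_cases h : j = i <;> simp [h, hc]

theorem smul_ne_scalar [Nontrivial ι] (h : finrank F (LinearMap.ker (toLin' y - 1)) ≠ 0)
    (h' : finrank F (LinearMap.ker (toLin' y - 1)) ≠ Fintype.card ι) {b : F} (hb : b ≠ 0) (z : F) :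
    b • y ≠ z • (1 : Matrix ι ι F) := fun hz => by
  refine ne_algebraMap_of_ker (A := toLin' y) (fun h0 => h (by rw [h0, finrank_bot]))
    (fun h0 => h' (by rw [h0, sub_self, LinearMap.ker_zero]; simp)) (b⁻¹ * z) ((toLin'_eq_algebraMap_iff _ _).1 ?_)
  rw [← smul_smul, ← hz, smul_smul, inv_mul_cancel₀ hb, one_smul]

/-! ### Similarity groups -/

section Sim

variable {T : FormType F} (f : Form T (ι → F))

/-- The similarity group of a form. -/
abbrev simG : Subgroup (GL ι F) := similarityGroup fun u v => f.B v u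

/-- The isometry group of a form. -/
noncomputable abbrev isoG : Subgroup (GL ι F) := f.O.comap (glEquiv ι F : GL ι F →* _)

theorem isoG_le_simG : isoG f ≤ simG f := fun _ hg => ⟨1, fun u v => by
  rw [Units.val_one, one_mul]; exact mem_O_B hg v u⟩

theorem scalars_le_simG : scalars ι F ≤ simG f := fun g hg => by
  obtain ⟨c, hc⟩ := (mem_scalars_iff g).1 hg
  refine ⟨Units.mk0 (T.σ c * c) (mul_ne_zero (T.σ_eq_zero.not.2 c.ne_zero) c.ne_zero),
    fun u v => ?_⟩
  simp [hc, Matrix.smul_mulVec, mul_assoc, mul_left_comm]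

theorem card_isoG : Nat.card (isoG f) = Nat.card f.O :=
  Nat.card_congr ((glEquiv ι F).toEquiv.subtypeEquiv fun _ => Iff.rfl)

theorem B_eq_gram (u v : ι → F) : f.B u v =
    (T.σ ∘ u) ⬝ᵥ (of fun i j => f.B (Pi.single i 1) (Pi.single j 1)) *ᵥ v := by
  conv_lhs => rw [pi_eq_sum_univ' u, pi_eq_sum_univ' v]
  simp only [map_sum, LinearMap.sum_apply, B_smul_left, B_smul_right, dotProduct, mulVec, of_apply,
    Function.comp_apply, Finset.mul_sum]
  rw [Finset.sum_comm]
  exact Finset.sum_congr rfl fun i _ => Finset.sum_congr rfl fun j _ => by ring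

variable {f}

theorem nec_simG (p : ℕ) [Fact p.Prime] [CharP F p] (hf : f.Nondeg) {e s : ℕ} (hs : s = p ^ e)
    (hσ : ∀ a, T.σ a = a ^ s) : Nec (simG f) (-s) := by
  rintro g ⟨c, hc⟩
  set J : Matrix ι ι F := of fun i j => f.B (Pi.single i 1) (Pi.single j 1) with hJ
  have h1 : J.det ≠ 0 := fun h => by
    obtain ⟨v, h1, h2⟩ := exists_mulVec_eq_zero_iff.2 h
    exact h1 (hf.right v fun y => by rw [B_eq_gram, h2, dotProduct_zero])
  have h2 : ((g : Matrix ι ι F).map T.σ)ᵀ * J * g = (c : F) • J := by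
    ext i j
    have := hc (Pi.single j 1) (Pi.single i 1)
    beta_reduce at this
    rw [B_eq_gram, mulVec_single_one, mulVec_single_one] at this
    rw [Matrix.mul_assoc]
    exact this
  have h3 : (((g⁻¹ : GL ι F) : Matrix ι ι F).map T.σ)ᵀ * ((g : Matrix ι ι F).map T.σ)ᵀ = 1 := by
    rw [← transpose_mul, ← Matrix.map_mul, Units.mul_inv,
      Matrix.map_one _ (map_zero _) (map_one _), transpose_one]
  have h4 : IsConj (g : Matrix ι ι F) ((c : F) • (((g⁻¹ : GL ι F) : Matrix ι ι F).map T.σ)ᵀ) :=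
    isConj_of_mul_eq (GeneralLinearGroup.mkOfDetNeZero J h1) (by
      change J * _ = _ * J
      rw [Matrix.smul_mul, ← Matrix.mul_smul, ← h2, ← Matrix.mul_assoc, ← Matrix.mul_assoc, h3,
        Matrix.one_mul])
  refine ⟨c, c.ne_zero, ?_⟩
  conv_rhs => rw [ev_eq_of_isConj h4, ev_smul _ c.ne_zero, ev_inv h3, ev_transpose,
    ev_map_pow p _ T.σ hs hσ, Multiset.map_map, Multiset.map_map]
  simp

theorem not_dvd_of_isoG [Finite F] [Fact r.Prime] (hf : f.Nondeg) (hH : isoG f ≤ H) {s : ℕ}
    (hσ : ∀ a, T.σ a = a ^ s) (h : padicValNat r (Nat.card (SpecialLinearGroup ι F)) +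
      padicValNat r (s + 1) ≤ padicValNat r (Nat.card f.O)) :
    ¬ r ∣ H.relIndex (specialLinear ι F) :=
  not_dvd_relIndex_of_le hH (Nat.succ_ne_zero s) (fun g hg => by
    have := hf.σ_det_mul_det hg
    rwa [hσ, ← pow_succ, MonoidHom.coe_coe, CL.FGL.det_glEquiv] at this) (by rwa [card_isoG])

theorem into_simG_of (hx : x.det ≠ 0) {A : Module.End F V} (h : Simil (toLin' x) A)
    {f' : Form T V} {e : V ≃ₗ[F] (ι → F)} (he : IsIsom f' f e) {c : F} (hc : c ≠ 0)
    (hA : ∀ u v, f'.B (A u) (A v) = c * f'.B u v) : Into (simG f) x :=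
  into_of_simil hx h e fun g hg => ⟨Units.mk0 c hc, fun u v => by
    obtain ⟨u, rfl⟩ := e.surjective u
    obtain ⟨v, rfl⟩ := e.surjective v
    simp only [hg, he.B_eq, hA, Units.val_mk0]⟩

/-- The multiplier of a similarity with a large fixed space. -/
theorem mult_eq_one (hf : f.Nondeg) {A : Module.End F (ι → F)} {c : F}
    (hA : ∀ u v, f.B (A u) (A v) = c * f.B u v)
    (h : Fintype.card ι < 2 * finrank F (LinearMap.ker (A - 1))) : c = 1 := by
  by_contra hc
  have h1 : LinearMap.ker (A - 1) ≤ f.perp (LinearMap.ker (A - 1)) := fun v hv w hw => by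
    have := hA w v
    rw [LinearMap.mem_ker, LinearMap.sub_apply, sub_eq_zero] at hv hw
    rw [hv, hw] at this
    exact (mul_eq_zero.1 (show (1 - c) * f.B w v = 0 by
      rw [sub_mul, one_mul]; exact sub_eq_zero.2 this)).resolve_left (sub_ne_zero.2 (Ne.symm hc))
  have h2 := Submodule.finrank_mono h1
  have h3 := hf.finrank_add_finrank_perp (LinearMap.ker (A - 1))
  rw [Module.finrank_fintype_fun_eq_card] at h3
  omega

theorem mult_pow (hf : f.Nondeg) [Nonempty ι] {g : Matrix ι ι F} {c z : F}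
    (hg : ∀ u v, f.B (g *ᵥ u) (g *ᵥ v) = c * f.B u v) (h : g ^ r = z • (1 : Matrix ι ι F)) :
    c ^ r = T.σ z * z := by
  have h1 : ∀ (k : ℕ) u v, f.B (g ^ k *ᵥ u) (g ^ k *ᵥ v) = c ^ k * f.B u v := fun k => by
    induction k with
    | zero => simp
    | succ k ih => intro u v; rw [pow_succ', ← mulVec_mulVec, ← mulVec_mulVec, hg, ih]; ring
  obtain ⟨u, hu⟩ := exists_ne (0 : ι → F)
  obtain ⟨v, hv⟩ := hf.exists_B_eq hu 1
  have := h1 r u v
  rw [h, smul_mulVec, smul_mulVec, one_mulVec, one_mulVec, B_smul_left, B_smul_right, hv] at this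
  simpa using this.symm

theorem pow_eq_of_isConj (h : IsConj x y) {z : F} (hx : x ^ r = z • (1 : Matrix ι ι F)) :
    y ^ r = z • (1 : Matrix ι ι F) := by
  obtain ⟨d, hd⟩ := h
  exact d.isUnit.mul_right_cancel (by rw [← (hd.pow_right r).eq, hx]; simp)

/-- A unipotent similarity is an isometry. -/
theorem B_eq_of_unip (p : ℕ) [Fact p.Prime] [CharP F p] (hf : f.Nondeg) [Nonempty ι]
    (h : Into (simG f) x) (hx : x ^ p = (1 : F) • (1 : Matrix ι ι F)) :
    ∃ y, IsConj x y ∧ ∀ u v, f.B (toLin' y u) (toLin' y v) = f.B u v := by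
  obtain ⟨g, ⟨c, hc⟩, h⟩ := h
  have h1 := mult_pow hf (fun u v => hc v u) (pow_eq_of_isConj h hx)
  have h2 : (c : F) = 1 := (frobenius F p).injective (by simpa [frobenius_def] using h1)
  exact ⟨g, h, fun u v => by simpa [h2] using hc v u⟩

end Sim

/-! ### Alternating forms -/

section Alt

variable {f : (ι → F) → (ι → F) → F}

/-- The form attached to a symplectic form given as a function. -/
def altOf (hf : IsSymplecticForm f) : Form (FormType.alt F) (ι → F) :=
  ofAlt (LinearMap.mk₂ F (fun u v => f v u) (fun x y v => hf.bilinear.add_right v x y)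
    (fun c x v => hf.bilinear.smul_right c v x) (fun v x y => hf.bilinear.add_left x y v)
    fun c v x => hf.bilinear.smul_left c x v) hf.alternating

theorem simG_altOf (hf : IsSymplecticForm f) : simG (altOf hf) = similarityGroup f := rfl

theorem altOf_nondeg (hf : IsSymplecticForm f) : (altOf hf).Nondeg := fun x hx => by
  by_contra h
  obtain ⟨y, hy⟩ := (hf.nondegenerate x h).1
  exact hy (hx y)

variable {g : Form (FormType.alt F) (ι → F)} (hg : g.Nondeg)
include hg

theorem into_alt_of [FiniteDimensional F V] (hx : x.det ≠ 0) {A : Module.End F V}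
    (h : Simil (toLin' x) A) {f' : Form (FormType.alt F) V} (hf' : f'.Nondeg) {c : F} (hc : c ≠ 0)
    (hA : ∀ u v, f'.B (A u) (A v) = c * f'.B u v) : Into (simG g) x := by
  obtain ⟨e, he⟩ := hf'.exists_isIsom_alt hg h.finrank_eq.symm
  exact into_simG_of hx h he hc hA

theorem into_alt_of_isReal (h : IsReal (FormType.alt F) (toLin' x)) : Into (simG g) x := by
  have hx : x.det ≠ 0 := by
    rw [← LinearMap.det_toLin']
    exact ((LinearMap.isUnit_iff_isUnit_det _).1 h.isUnit).ne_zero
  obtain ⟨f', h1, h2⟩ := h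
  exact into_alt_of hg hx (Simil.refl _) h1 one_ne_zero fun u v => by rw [h2.B_eq, one_mul]

theorem into_alt_of_sq [Finite F] (h2 : (2 : F) ≠ 0) (hx : x ^ 2 = 1) (hd : x.det = 1) :
    Into (simG g) x := by
  obtain ⟨m, hm⟩ := hg.even_finrank_alt
  rw [Module.finrank_fintype_fun_eq_card, ← two_mul] at hm
  have h1 := charpoly_inv' (A := x) ((isUnit_iff_isUnit_det x).2 (hd ▸ isUnit_one))
  rw [inv_eq_left_inv (by rw [← sq, hx]), hd, hm] at h1
  obtain ⟨A, h3, h4, h5⟩ := exists_isReal_of_palindromic m x.charpoly x.charpoly_monic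
    (by rw [charpoly_natDegree_eq_dim, hm]) (by simpa [pow_mul] using h1.symm)
  exact into_alt_of_isReal hg (h5.of_simil (simil_of_isSemisimple_of_charpoly_eq h3
    (isSemisimple_toLin'_of_pow_eq_one (by simpa using h2) hx) (by rw [h4, charpoly_toLin'])))

omit hg in
/-- The standard model of a square root of a non-square. -/
theorem simil_of_sq [Nonempty ι] {z : F} (hz : ∀ b : F, b ^ 2 ≠ z)
    (hx : x ^ 2 = z • (1 : Matrix ι ι F)) {A : Module.End F V} [FiniteDimensional F V]
    (hV : finrank F V = Fintype.card ι) (hA : A ^ 2 = algebraMap F _ z) : Simil (toLin' x) A := by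
  have hi := (X_pow_sub_C_irreducible_iff_of_prime Nat.prime_two).2 hz
  have hm := monic_X_pow_sub_C z two_ne_zero
  obtain ⟨k, hk⟩ := hasED_of_irreducible hm hi
    (aeval_X_pow_sub_C ((pow_eq_smul_iff x 2 z).1 hx))
  obtain ⟨l, hl⟩ := hasED_of_irreducible hm hi (aeval_X_pow_sub_C hA)
  have h1 := (det_of_pow_irreducible two_ne_zero hk).1
  have h2 := (det_of_pow_irreducible two_ne_zero hl).1
  rw [Module.finrank_fintype_fun_eq_card] at h1
  obtain rfl : k = l := by omega
  exact hk.simil hl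

theorem into_alt_of_nonsq [Nonempty ι] {z : F} (hz : ∀ b : F, b ^ 2 ≠ z)
    (hx : x ^ 2 = z • (1 : Matrix ι ι F)) : Into (simG g) x := by
  obtain ⟨m, hm⟩ := hg.even_finrank_alt
  rw [Module.finrank_fintype_fun_eq_card] at hm
  have hz0 : z ≠ 0 := fun h => hz 0 (by simp [h])
  have hd : x.det ≠ 0 := fun h => by
    have := congrArg det hx
    rw [det_pow, h, det_smul, det_one, mul_one, zero_pow two_ne_zero] at this
    exact pow_ne_zero _ hz0 this.symm
  let y : Matrix (Fin m ⊕ Fin m) (Fin m ⊕ Fin m) F := fromBlocks 0 (z • 1) 1 0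
  refine into_alt_of hg hd (simil_of_sq hz hx (A := toLin' y) (by simp [hm])
    ((pow_eq_smul_iff y 2 z).1 ?_)) (CL.Sp.spForm_nondeg m F) (neg_ne_zero.2 hz0) fun u v => ?_
  · rw [← fromBlocks_one, fromBlocks_smul]; simp [y, sq, fromBlocks_multiply]
  · simp only [CL.Sp.spForm_B_eq, toLin'_apply, y, fromBlocks_mulVec, Finset.mul_sum]
    refine Finset.sum_congr rfl fun i _ => ?_
    simp [smul_mulVec]
    ring

theorem det_eq_one_of_alt {A : Module.End F (ι → F)} (hA : ∀ u v, g.B (A u) (A v) = g.B u v) :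
    LinearMap.det A = 1 := by
  obtain ⟨e, h1, h2⟩ := ((g.alt_isIsom_iff g A).2 hA).exists_mem_O hg
  rw [← hg.alt_E_eq_O] at h1
  rw [← ((g.mem_SO).1 (g.E_le_SO h1)).2]
  exact congrArg _ (LinearMap.ext fun v => (h2 v).symm)

end Alt

end CL.ElusL
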