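import Mathlib
import Cfsg.Agent.CLAS.ElusL4
import Cfsg.Agent.CLAS.OrthOrder
import Cfsg.Agent.KSG.OrthSS

/-! Indices of the classical subgroups of `SL_n(q)`; orthogonal and unitary similarity groups. -/

set_option autoImplicit false
set_option linter.unusedSectionVars false

namespace CL.ElusL

open Matrix Polynomial Cfsg.Geo CL.GLn CL.Elus CL.PrimeCl CL.Witt CL.Witt.Form CL.SpU CL.Orth Module

theorem val_prod {α : Type*} {r : ℕ} [Fact r.Prime] (s : Finset α) {f : α → ℕ}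
    (h : ∀ i ∈ s, f i ≠ 0) : padicValNat r (∏ i ∈ s, f i) = ∑ i ∈ s, padicValNat r (f i) := by
  classical
  induction s using Finset.induction_on with
  | empty => simp
  | insert a s ha ih =>
    rw [Finset.prod_insert ha, Finset.sum_insert ha, padicValNat.mul (h a (by simp))
      (Finset.prod_ne_zero_iff.2 fun i hi => h i (by simp [hi])), ih fun i hi => h i (by simp [hi])]

theorem sum_Ioc_even {g : ℕ → ℕ} (h : ∀ i, Odd i → g i = 0) (m : ℕ) :
    ∑ i ∈ Finset.Ioc 1 (2 * m + 1), g i = ∑ i ∈ Finset.range m, g (2 * (i + 1)) := by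
  induction m with
  | zero => simp
  | succ m ih =>
    rw [show 2 * (m + 1) + 1 = 2 * m + 1 + 1 + 1 by ring, Finset.sum_Ioc_succ_top (by omega),
      Finset.sum_Ioc_succ_top (by omega), ih, Finset.sum_range_succ, h (2 * m + 1 + 1 + 1)
      ⟨m + 1, by ring⟩]
    rfl

theorem pow_sub_one_ne_zero {q : ℕ} (hq : 1 < q) {i : ℕ} (hi : i ≠ 0) : q ^ i - 1 ≠ 0 :=
  Nat.sub_ne_zero_of_lt (Nat.one_lt_pow hi hq)

theorem not_dvd_two {r : ℕ} [Fact r.Prime] (hr : r ≠ 2) : ¬ r ∣ 2 := fun h =>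
  hr ((Nat.prime_dvd_prime_iff_eq Fact.out Nat.prime_two).1 h)

theorem two_ne_zero_zmod {r : ℕ} [Fact r.Prime] (hr : r ≠ 2) : (2 : ZMod r) ≠ 0 := fun h =>
  not_dvd_two hr ((ZMod.natCast_eq_zero_iff 2 r).1 (by simpa using h))

theorem not_dvd_sub_one_of_neg {r a : ℕ} [Fact r.Prime] (hr : r ≠ 2) (ha : 0 < a)
    (h : (a : ZMod r) = -1) : ¬ r ∣ a - 1 := fun h2 => by
  rw [dvd_sub_one_iff ha, h, neg_eq_iff_add_eq_zero, one_add_one_eq_two] at h2
  exact two_ne_zero_zmod hr h2

theorem not_dvd_add_one {r a : ℕ} [Fact r.Prime] (hr : r ≠ 2) (h : (a : ZMod r) = 1) :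
    ¬ r ∣ a + 1 := fun h2 => by
  rw [← ZMod.natCast_eq_zero_iff, Nat.cast_add, h, Nat.cast_one, one_add_one_eq_two] at h2
  exact two_ne_zero_zmod hr h2

theorem val_sq_sub_one' {r a : ℕ} [Fact r.Prime] (h : ¬ r ∣ a + 1) :
    padicValNat r (a ^ 2 - 1) = padicValNat r (a - 1) := by
  rw [← val_mul_of_not_dvd (a := a - 1) h, mul_comm, ← Nat.sq_sub_sq, one_pow]

variable {F : Type*} [Field F] {r n : ℕ} {ι : Type} [Fintype ι] [DecidableEq ι]
  {H : Subgroup (GL ι F)} {x y : Matrix ι ι F} {V : Type*} [AddCommGroup V] [Module F V]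

local notation "𝕂" => AlgebraicClosure F
local notation "ι₀" => algebraMap F (AlgebraicClosure F)

theorem det_eq_of_isConj (h : IsConj x y) : x.det = y.det :=
  isConj_iff_eq.1 (detMonoidHom.map_isConj h)

theorem isConj_of_ev_inv {p : ℕ} [Fact p.Prime] [CharP F p] [Fact r.Prime] (hr : r ≠ p)
    (hx : x ^ r = 1) (hy : y ^ r = 1) (h : ev x = ev y) : IsConj x y :=
  isConj_of_ev (isSemisimple_toLin'_of_pow_eq_one (cast_ne_zero p hr) hx)
    (isSemisimple_toLin'_of_pow_eq_one (cast_ne_zero p hr) hy) h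

section Val

variable [Fintype F] [Fact r.Prime] (p : ℕ) [Fact p.Prime] [CharP F p]

theorem val_SL_of_even (hr : r ≠ p) (he : Even (orderOf ((Fintype.card F : ℕ) : ZMod r))) {m : ℕ}
    (hn : n = 2 * m + 1) : padicValNat r (Nat.card (SpecialLinearGroup (Fin n) F)) =
      ∑ i ∈ Finset.range m, padicValNat r (Fintype.card F ^ (2 * (i + 1)) - 1) := by
  rw [val_card_SL (not_dvd_card p hr) (by omega), hn]
  refine sum_Ioc_even (fun i hi => padicValNat.eq_zero_of_not_dvd fun h => ?_) m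
  rw [dvd_sub_one_iff (pow_pos Fintype.card_pos i), Nat.cast_pow,
    ← orderOf_dvd_iff_pow_eq_one] at h
  exact Nat.not_even_iff_odd.2 hi (he.trans_dvd h)

theorem val_SL_of_even' (hr : r ≠ p) (he : Even (orderOf ((Fintype.card F : ℕ) : ZMod r))) {m : ℕ}
    (hn : n = 2 * (m + 1)) : padicValNat r (Nat.card (SpecialLinearGroup (Fin n) F)) =
      ∑ i ∈ Finset.range (m + 1), padicValNat r (Fintype.card F ^ (2 * (i + 1)) - 1) := by
  rw [Finset.sum_range_succ, ← val_SL_of_even p hr he rfl, val_card_SL (not_dvd_card p hr) (by omega),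
    val_card_SL (not_dvd_card p hr) (by omega), hn]
  exact Finset.sum_Ioc_succ_top (b := 2 * m + 1) (by omega) _

theorem val_pow_mul (hr : r ≠ p) (k a : ℕ) :
    padicValNat r (Fintype.card F ^ k * a) = padicValNat r a := by
  rw [mul_comm, val_mul_of_not_dvd fun h =>
    not_dvd_card p hr ((Fact.out : r.Prime).dvd_of_dvd_pow h)]

theorem not_dvd_alt (hr2 : r ≠ 2) (hr : r ≠ p) (hn : 0 < n)
    {g : Form (FormType.alt F) (Fin n → F)} (hg : g.Nondeg)
    (h : ∃ j : ℕ, (-1 : ZMod r) = (Fintype.card F : ℕ) ^ j) :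
    ¬ r ∣ (simG g).relIndex (specialLinear (Fin n) F) := by
  rw [exists_neg_one_eq_pow_iff hr2 (card_ne_zero_zmod (cast_ne_zero p hr))] at h
  obtain ⟨m, hm⟩ := hg.even_finrank_alt
  rw [Module.finrank_fin_fun] at hm
  obtain ⟨m, rfl⟩ : ∃ k, m = k + 1 := ⟨m - 1, by omega⟩
  refine not_dvd_of_isoG hg (isoG_le_simG g) (s := 1) (fun a => (pow_one a).symm) ?_
  rw [Nondeg.card_O_alt (m + 1) hg (by simp; omega), Nat.card_eq_fintype_card (α := F),
    val_pow_mul p hr, val_prod _ fun i _ => pow_sub_one_ne_zero Fintype.one_lt_card (by omega),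
    val_SL_of_even' p hr h (m := m) (by omega), padicValNat.eq_zero_of_not_dvd (not_dvd_two hr2)]
  rfl

end Val

/-! ### Quadratic forms -/

section Quad

variable {Q : QuadraticForm F (ι → F)}

theorem quadSim_le_simG : quadSimilarityGroup ⇑Q ≤ simG (ofQuad Q) := by
  rintro g ⟨c, hc⟩
  exact ⟨c, fun u v => by simp only [ofQuad_B, QuadraticMap.polar, ← mulVec_add, hc]; ring⟩

theorem isoG_le_quadSim : isoG (ofQuad Q) ≤ quadSimilarityGroup ⇑Q := fun _ hg =>
  ⟨1, fun v => by rw [Units.val_one, one_mul]; exact mem_O_q hg v⟩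

theorem scalars_le_quadSim : scalars ι F ≤ quadSimilarityGroup ⇑Q := fun g hg => by
  obtain ⟨c, hc⟩ := (mem_scalars_iff g).1 hg
  exact ⟨c * c, fun v => by simp [hc, smul_mulVec, QuadraticMap.map_smul]⟩

theorem into_quad_of (hx : x.det ≠ 0) {A : Module.End F V} (h : Simil (toLin' x) A)
    {Q' : QuadraticForm F V} (e : V ≃ₗ[F] (ι → F)) {d : F} (he : ∀ v, Q (e v) = d * Q' v) {c : F}
    (hc : c ≠ 0) (hA : ∀ v, Q' (A v) = c * Q' v) : Into (quadSimilarityGroup ⇑Q) x :=
  into_of_simil hx h e fun g hg => ⟨Units.mk0 c hc, fun v => by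
    obtain ⟨v, rfl⟩ := e.surjective v
    rw [hg, he, he, hA, Units.val_mk0, mul_left_comm]⟩

variable [Fintype F] (hQ : (QuadraticMap.polarBilin Q).Nondegenerate)
include hQ

theorem into_quad_of_sq (h2 : (2 : F) ≠ 0) (hx : x ^ 2 = 1) : Into (quadSimilarityGroup ⇑Q) x := by
  classical
  obtain ⟨A, A1, -, A3⟩ := exists_ev_eq (r := 2) (IsPrimitiveRoot.neg_one (ringChar F)
    fun h => h2 (by simpa [h] using ringChar.Nat.cast_ringChar (R := F))) hx
  obtain ⟨a, rfl⟩ := exists_fun_of_card A A1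
  have := invertibleOfNonzero h2
  obtain ⟨b, hb⟩ := LinearMap.BilinForm.exists_orthogonal_basis (QuadraticForm.associated_isSymm F Q)
  let b' := b.reindex (Fintype.equivFinOfCardEq (Module.finrank_fintype_fun_eq_card F).symm).symm
  have hd : ∀ i, ((-1 : F) ^ (a i).val) ^ 2 = 1 := fun i => by
    rw [← pow_mul, mul_comm, pow_mul, neg_one_sq, one_pow]
  refine into_quad_of (det_ne_zero_of_pow two_ne_zero hx) ((isConj_iff_simil _ _).1 (isConj_of_ev
    (isSemisimple_toLin'_of_pow_eq_one (by simpa using h2) hx)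
    (isSemisimple_toLin'_of_pow_eq_one (k := 2) (A := diagonal fun i => (-1) ^ (a i).val)
      (by simpa using h2) (by rw [diagonal_pow, ← diagonal_one]; congr 1; funext i; exact hd i))
    (by rw [A3, ev_diagonal, Multiset.map_map]; simp)))
    (Q' := Q.basisRepr b') b'.equivFun.symm (d := 1) (fun v => by
      rw [one_mul]; rfl) one_ne_zero fun v => ?_
  rw [QuadraticMap.basisRepr_eq_of_iIsOrtho Q b' fun i j hij => by
    simpa [b', Function.onFun] using hb ((Equiv.injective _).ne hij)]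
  simp only [QuadraticMap.weightedSumSquares_apply, toLin'_apply, mulVec_diagonal, one_mul]
  refine Finset.sum_congr rfl fun i _ => ?_
  rw [mul_mul_mul_comm, ← sq, hd, one_mul]

theorem into_quad_of_nonsq [Nonempty ι] (h2 : (2 : F) ≠ 0) {z : F} (hz : ∀ b : F, b ^ 2 ≠ z)
    (hx : x ^ 2 = z • (1 : Matrix ι ι F)) : Into (quadSimilarityGroup ⇑Q) x := by
  have hz0 : z ≠ 0 := fun h => hz 0 (by simp [h])
  have hd : x.det ≠ 0 := fun h => by
    have := congrArg det hx
    rw [det_pow, h, det_smul, det_one, mul_one, zero_pow two_ne_zero] at this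
    exact pow_ne_zero _ hz0 this.symm
  obtain ⟨k, hk⟩ := hasED_of_irreducible (monic_X_pow_sub_C z two_ne_zero)
    ((X_pow_sub_C_irreducible_iff_of_prime Nat.prime_two).2 hz)
    (aeval_X_pow_sub_C ((pow_eq_smul_iff x 2 z).1 hx))
  have h1 := (det_of_pow_irreducible two_ne_zero hk).1
  have h3 : 0 < finrank F (ι → F) := finrank_pos
  obtain ⟨m, rfl⟩ : ∃ m, k = m + 1 := ⟨k - 1, by omega⟩
  obtain ⟨a, b, hab⟩ := FiniteField.exists_root_sum_quadratic (f := X ^ 2 - C (4 * z))
    (g := C (-z) * X ^ 2) (degree_X_pow_sub_C two_pos _) (degree_C_mul_X_pow 2 (neg_ne_zero.2 hz0))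
    (FiniteField.odd_card_of_char_ne_two fun h => h2 (by
      simpa [h] using ringChar.Nat.cast_ringChar (R := F)))
  simp only [eval_sub, eval_pow, eval_X, eval_C, eval_mul] at hab
  have h4 : ¬ IsSquare (a ^ 2 - 4 * z) := by
    rintro ⟨s, hs⟩
    rcases eq_or_ne b 0 with rfl | hb
    · exact hz (a / 2) (by field_simp; linear_combination hab)
    · exact hz (s / b) (by field_simp; linear_combination hab - hs)
  have h5 : ∀ l, (fromBlocks 0 (z • 1) 1 0 : Matrix (Fin l ⊕ Fin l) (Fin l ⊕ Fin l) F) ^ 2 =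
      z • 1 := fun l => by
    rw [← fromBlocks_one, fromBlocks_smul]; simp [sq, fromBlocks_multiply]
  rcases even_classification hQ h1 (aniso_of_not_isSquare_disc h4) with ⟨φ, hφ⟩ | ⟨φ, hφ⟩
  · refine into_quad_of hd (simil_of_sq hz hx (A := toLin' (fromBlocks 0 (z • 1) 1 0))
      (φ.finrank_eq.trans (by simp)) ((pow_eq_smul_iff _ 2 z).1 (h5 _))) φ (d := 1)
      (Q' := QPlus (m + 1) F) (fun v => by rw [hφ, one_mul]) hz0 fun v => ?_
    simp only [QPlus_apply, toLin'_apply, fromBlocks_mulVec, Finset.mul_sum]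
    refine Finset.sum_congr rfl fun i _ => ?_
    simp [smul_mulVec]
    ring
  · refine into_quad_of hd (simil_of_sq hz hx (A := toLin'
      (fromBlocks (fromBlocks 0 (z • 1) 1 0) 0 0 !![0, z; 1, 0]))
      (φ.finrank_eq.trans (by simp)) ((pow_eq_smul_iff _ 2 z).1 ?_)) φ (d := 1)
      (Q' := QMinus m F a z) (fun v => by rw [hφ, one_mul]) hz0 fun v => ?_
    · rw [← fromBlocks_one, fromBlocks_smul, fromBlocks_diagonal_pow, h5]
      simp [sq, one_fin_two]
    · simp only [QMinus_apply, toLin'_apply, fromBlocks_mulVec, Finset.mul_sum, mul_add]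
      congr 1
      · refine Finset.sum_congr rfl fun i _ => ?_
        simp [smul_mulVec]
        ring
      · simp [dotProduct]
        ring

variable [Fact r.Prime] (p : ℕ) [Fact p.Prime] [CharP F p] (hr2 : r ≠ 2) (hr : r ≠ p)
include hr2 hr

theorem into_quad_of_odd (hn : Odd (Fintype.card ι)) (hx : x ^ r = 1)
    (h : (ev x).map (·⁻¹) = ev x) : Into (quadSimilarityGroup ⇑Q) x := by
  have h0 := cast_ne_zero (F := F) p hr
  obtain ⟨m, k, hm⟩ := exists_hasM h0 (A := toLin' x) (by rw [← toLin'_pow, hx, toLin'_one]; rfl)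
  have h1 : x ^ (r - 1) * x = 1 := by
    rw [← pow_succ, Nat.sub_add_cancel (Fact.out : r.Prime).one_le, hx]
  have h2 := (hm.simil_pow_iff h0 coprime_sub_one).1 (by
    rw [← toLin'_pow]
    exact (isConj_iff_simil _ _).1 (isConj_of_ev_inv hr hx
      (by rw [← pow_mul, mul_comm, pow_mul, hx, one_pow]) (by rw [ev_inv h1, h])))
  have h3 := hm.finrank_eq h0
  obtain ⟨g, l, hg⟩ := (exists_O_hasM_iff h0 hr2 hQ m).2 ⟨⟨hm.mem, h2⟩, by omega, fun h4 => by
    have := even_ord_mul_card h0 hr2 hm.mem h2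
    rw [h4, Module.finrank_fintype_fun_eq_card] at this
    exact absurd this (Nat.not_even_iff_odd.2 hn)⟩
  exact into_quad_of (det_ne_zero_of_pow (Fact.out : r.Prime).ne_zero hx)
    (hm.simil_of_finrank h0 hg rfl) (LinearEquiv.refl F _) (d := 1) (Q' := Q) (fun v => by simp)
    one_ne_zero fun v => by rw [one_mul]; exact g.2 v

omit hQ in
theorem not_dvd_quad (h2 : (2 : F) ≠ 0) (hn : 0 < n) {Q : QuadraticForm F (Fin n → F)}
    (hQ : (QuadraticMap.polarBilin Q).Nondegenerate) (hE : Elu (quadSimilarityGroup ⇑Q) r)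
    (h : ∃ j : ℕ, (-1 : ZMod r) = (Fintype.card F : ℕ) ^ j) :
    ¬ r ∣ (quadSimilarityGroup ⇑Q).relIndex (specialLinear (Fin n) F) := by
  classical
  have h0 := cast_ne_zero (F := F) p hr
  rw [exists_neg_one_eq_pow_iff hr2 (card_ne_zero_zmod h0)] at h
  have hq := Fintype.one_lt_card (α := F)
  have hf := (ofQuad_nondeg_iff Q).2 hQ
  have : Nonempty (Fin n) := ⟨⟨0, hn⟩⟩
  refine not_dvd_of_isoG hf isoG_le_quadSim (s := 1) (fun a => (pow_one a).symm) ?_
  have hP : ∀ m, padicValNat r (∏ i ∈ Finset.range m, (Fintype.card F ^ (2 * (i + 1)) - 1)) = _ :=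
    fun m => val_prod _ fun i _ => pow_sub_one_ne_zero hq (by omega)
  have hP0 : ∀ m, ∏ i ∈ Finset.range m, (Fintype.card F ^ (2 * (i + 1)) - 1) ≠ 0 :=
    fun m => Finset.prod_ne_zero_iff.2 fun i _ => pow_sub_one_ne_zero hq (by omega)
  have h2' : ∀ a, padicValNat r (2 * a) = padicValNat r a := fun a => by
    rw [mul_comm, val_mul_of_not_dvd (not_dvd_two hr2)]
  rw [CL.OrthE.ofQuad_O, padicValNat.eq_zero_of_not_dvd (not_dvd_two hr2), add_zero]
  obtain ⟨m, rfl | rfl⟩ := Nat.even_or_odd' n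
  swap
  · obtain ⟨c, φ, hc, hφ⟩ := odd_classification hQ (m := m) (by simp)
    have h3 : O (c • QOdd m F) = O (QOdd m F) := Subgroup.ext fun g =>
      forall_congr' fun v => mul_right_inj' hc
    rw [← CL.OrthE.card_O_congr (Q := c • QOdd m F) φ hφ, h3, CL.OrthE.card_O_QOdd rfl h2,
      mul_assoc, h2', val_pow_mul p hr, hP, val_SL_of_even p hr h rfl]
  obtain ⟨m, rfl⟩ : ∃ k, m = k + 1 := ⟨m - 1, by omega⟩
  rw [val_SL_of_even' p hr h rfl, Finset.sum_range_succ, pow_mul' _ 2 (m + 1), add_comm]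
  have key : r ∣ (Fintype.card F ^ (m + 1)) ^ 2 - 1 →
      ((Fintype.card F ^ (m + 1) : ℕ) : ZMod r) = if IsPlus Q then 1 else -1 := by
    intro h3
    rw [dvd_sub_one_iff (by positivity), ← pow_mul, Nat.cast_pow,
      ← orderOf_dvd_iff_pow_eq_one] at h3
    obtain ⟨j, hj⟩ := h3
    obtain ⟨i, hi⟩ := h
    have hi0 : 0 < i := by have := ord_pos h0; unfold ord at this; omega
    have h4 : ((Fintype.card F : ℕ) : ZMod r) ^ i = -1 :=
      (mul_self_eq_one_iff.1 (by rw [← pow_add, ← hi, pow_orderOf_eq_one])).resolve_left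
        (pow_ne_one_of_lt_orderOf hi0.ne' (by omega))
    have h5 : orderOf ((Fintype.card F : ℕ) : ZMod r) ≠ 1 := by omega
    obtain ⟨P, hP⟩ := cycFactors_nonempty (F := F) p hr
    obtain ⟨x, x1, x2, x3, x4⟩ := exists_min_orbit (ι := Fin (2 * (m + 1))) p hr h5 hP
      (j := j) (k := 0) (by rintro rfl; simp at hj) (by simp; omega)
    obtain ⟨g, ⟨c, hc⟩, hg⟩ := (hE x x1 ⟨_, x2⟩ x3).into
    have h6 := mult_pow hf (c := c) (fun u v => by
      simp only [ofQuad_B, QuadraticMap.polar, ← mulVec_add, hc]; ring) (pow_eq_of_isConj hg x2)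
    have h7 : (c : F) = 1 := eq_one_of_not_dvd
      (fun h => h5 ((ord_eq_one_iff Fintype.card_pos).2 h)) (by simpa using h6)
    have h8 := isPlus_iff_even_card h0 hr2 hQ (A := toLin' (g : Matrix _ _ F))
      (fun v => by simpa [h7] using hc v) (x4.of_simil ((isConj_iff_simil _ _).1 hg))
    rw [Multiset.card_replicate] at h8
    rw [congrArg (Fintype.card F ^ ·) (show m + 1 = i * j by rw [hi] at hj; linarith),
      Nat.cast_pow, pow_mul, h4, neg_one_pow_eq_ite]
    simp only [h8]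
  by_cases h3 : r ∣ (Fintype.card F ^ (m + 1)) ^ 2 - 1
  all_goals by_cases h4 : IsPlus Q
  · obtain ⟨φ, hφ⟩ := exists_isometry_QPlus hQ (m := m + 1) (by simp) h4
    rw [← CL.OrthE.card_O_congr φ hφ, CL.OrthE.card_O_QPlus rfl, mul_assoc, mul_assoc, h2',
      val_pow_mul p hr, padicValNat.mul (pow_sub_one_ne_zero hq (by omega)) (hP0 m), hP,
      val_sq_sub_one' (not_dvd_add_one hr2 (by rw [key h3, if_pos h4]))]
  · obtain ⟨ζ, hζ⟩ := exists_irred_quadratic F
    obtain ⟨φ, hφ⟩ := exists_isometry_QMinus hQ (m := m) (by simp) h4 (aniso_of_irred hζ)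
    rw [← CL.OrthE.card_O_congr φ hφ, CL.OrthE.card_O_QMinus rfl (aniso_of_irred hζ), mul_assoc,
      mul_assoc, h2', val_pow_mul p hr, padicValNat.mul (by omega) (hP0 m), hP,
      val_sq_sub_one (not_dvd_sub_one_of_neg hr2 (by positivity) (by rw [key h3, if_neg h4]))]
  · obtain ⟨φ, hφ⟩ := exists_isometry_QPlus hQ (m := m + 1) (by simp) h4
    rw [← CL.OrthE.card_O_congr φ hφ, CL.OrthE.card_O_QPlus rfl, mul_assoc, mul_assoc, h2',
      val_pow_mul p hr, padicValNat.mul (pow_sub_one_ne_zero hq (by omega)) (hP0 m), hP,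
      padicValNat.eq_zero_of_not_dvd h3]
    omega
  · obtain ⟨ζ, hζ⟩ := exists_irred_quadratic F
    obtain ⟨φ, hφ⟩ := exists_isometry_QMinus hQ (m := m) (by simp) h4 (aniso_of_irred hζ)
    rw [← CL.OrthE.card_O_congr φ hφ, CL.OrthE.card_O_QMinus rfl (aniso_of_irred hζ), mul_assoc,
      mul_assoc, h2', val_pow_mul p hr, padicValNat.mul (by omega) (hP0 m), hP,
      padicValNat.eq_zero_of_not_dvd h3]
    omega

end Quad

/-! ### Hermitian forms -/

section Herm

open CL.Uni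

variable [Fintype F] {q : ℕ} (hF : Fintype.card F = q ^ 2)

/-- The form attached to a unitary form given as a function. -/
def hermOf {f : (ι → F) → (ι → F) → F} (hf : IsUnitaryFormPow q f) : Form (HT hF) (ι → F) :=
  Form.ofHerm (sig_ne_id hF) (sig_sig hF)
    (LinearMap.mk₂'ₛₗ (sig hF) (RingHom.id F) (fun u v => f v u)
      (fun x y v => by
        rw [hf.herm v, hf.add_left, ← sig_apply hF, map_add, sig_apply, sig_apply, ← hf.herm,
          ← hf.herm])
      (fun c x v => by rw [hf.herm v, hf.smul_left, mul_pow, ← hf.herm]; rfl)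
      (fun v x y => hf.add_left x y v) (fun c v x => hf.smul_left c x v))
    ⟨fun x y => (hf.herm x y).symm⟩

theorem simG_hermOf {f : (ι → F) → (ι → F) → F} (hf : IsUnitaryFormPow q f) :
    simG (hermOf hF hf) = similarityGroup f := rfl

theorem hermOf_nondeg {f : (ι → F) → (ι → F) → F} (hf : IsUnitaryFormPow q f) :
    (hermOf hF hf).Nondeg := fun x hx => by
  by_contra h
  obtain ⟨y, hy⟩ := (hf.nondegenerate x h).1
  exact hy (hx y)

variable (p : ℕ) [Fact p.Prime] [CharP F p]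

include hF p in
theorem exists_eq_pow_of_sq : ∃ e, q = p ^ e := by
  obtain ⟨k, -, hk⟩ := FiniteField.card F p
  obtain ⟨e, -, he⟩ := (Nat.dvd_prime_pow Fact.out).1
    ((dvd_pow_self q two_ne_zero).trans (hF.symm.trans hk).dvd)
  exact ⟨e, he⟩

include p in
theorem ev_ct (x : Matrix ι ι F) : ev (ct hF x) = (ev x).map (· ^ q) := by
  obtain ⟨e, he⟩ := exists_eq_pow_of_sq hF p
  exact (ev_transpose _).trans (ev_map_pow p x (sig hF) he fun _ => rfl)

variable {hF} {g : Form (HT hF) (Fin n → F)} (hg : g.Nondeg) {x y : Matrix (Fin n) (Fin n) F}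
include hg

theorem into_herm_of_isConj (h : IsConj x y) (hy : ct hF x * y = 1) : Into (simG g) x := by
  obtain ⟨d, hd⟩ := h
  have hx : x.det ≠ 0 := fun h0 => by
    have := congrArg det hy
    rw [det_mul, ← det_eq_of_isConj ⟨d, hd⟩, h0, mul_zero, det_one] at this
    exact zero_ne_one this
  obtain ⟨B, h1, h2⟩ := exists_unitary_of_invariant hF ((isUnit_iff_isUnit_det x).2 hx.isUnit)
    d.isUnit (by rw [mul_assoc, hd.eq, ← mul_assoc, hy, one_mul])
  obtain ⟨e, he⟩ := exists_isIsom (sig_ne_id hF) (std_nondeg hF (Fin n)) hg rfl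
  exact into_simG_of hx ((isConj_iff_simil _ _).1 h2) he one_ne_zero fun u v => by
    rw [one_mul]; exact (preserves_hermForm_iff hF B).2 h1 v u

include p in
theorem into_herm_of_pow [Fact r.Prime] (hr : r ≠ p) (hx : x ^ r = 1) {f : 𝕂 → 𝕂}
    (hf : ∀ a, a ^ r = 1 → (a ^ q)⁻¹ = f a) (h : (ev x).map f = ev x) : Into (simG g) x := by
  have h1 : ct hF x ^ r = 1 := by rw [← ct_pow, hx, ct_one]
  have h2 : ct hF x ^ (r - 1) * ct hF x = 1 := by
    rw [← pow_succ, Nat.sub_add_cancel (Fact.out : r.Prime).one_le, h1]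
  refine into_herm_of_isConj hg (isConj_of_ev_inv hr hx
    (by rw [← pow_mul, mul_comm, pow_mul, h1, one_pow]) ?_) (mul_eq_one_comm.1 h2)
  rw [ev_inv h2, ev_ct hF p, Multiset.map_map]
  exact h.symm.trans (Multiset.map_congr rfl fun a ha => (hf a (by
    simpa using pow_eq_of_mem_ev ha (z := 1) (by simpa using hx))).symm)

theorem into_herm_of_hasJT {μ : Multiset ℕ} (h : HasJT (toLin' x) 1 μ) : Into (simG g) x := by
  have h1 : ∀ k, (ct hF x - 1) ^ k = ct hF ((x - 1) ^ k) := fun k => by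
    rw [ct_pow, map_sub, ct_one]
  have h2 : IsConj x (ct hF x) := isConj_of_unipotent_of_rank h.isNilpotent_sub_one
    (h.isNilpotent_sub_one.imp fun k hk => by rw [h1, hk, map_zero])
    fun k => by rw [h1, rank_ct]
  have h3 := h.of_simil ((isConj_iff_simil _ _).1 h2)
  have h4 : (ct hF x)⁻¹ * ct hF x = 1 := nonsing_inv_mul _ (h3.det_eq_one ▸ isUnit_one)
  exact into_herm_of_isConj hg ((h.isConj_iff (hasJT_inv h3 (by
    rw [Module.End.mul_eq_comp, ← toLin'_mul, h4, toLin'_one]; rfl))).2 rfl) (mul_eq_one_comm.1 h4)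

include p in
theorem not_dvd_herm [Fact r.Prime] (hr2 : r ≠ 2) (hr : r ≠ p) (hn : 0 < n)
    (h : ∃ j : ℕ, -(q : ZMod r) = (Fintype.card F : ℕ) ^ j) :
    ¬ r ∣ (simG g).relIndex (specialLinear (Fin n) F) := by
  obtain ⟨j, hj⟩ := h
  have hq : 1 < q := CL.SqField.two_le hF
  have h1 : ¬ r ∣ q := fun h => not_dvd_card p hr (hF ▸ h.trans (dvd_pow_self q two_ne_zero))
  refine not_dvd_of_isoG hg (isoG_le_simG g) (s := q) (fun a => rfl) ?_
  obtain ⟨m, rfl⟩ : ∃ m, n = m + 1 := ⟨n - 1, by omega⟩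
  rw [card_O hg, Module.finrank_fin_fun, guOrder, mul_comm, val_mul_of_not_dvd
    (fun h => h1 ((Fact.out : r.Prime).dvd_of_dvd_pow h)), val_prod _ fun i _ => by
      split_ifs; exacts [by omega, pow_sub_one_ne_zero hq (by omega)], Finset.sum_range_succ',
    val_card_SL (not_dvd_card p hr) hn, Finset.range_eq_Ico, ← Finset.Ico_add_one_add_one_eq_Ioc,
    show Finset.Ico (1 + 1) (m + 1 + 1) = Finset.Ico (0 + 2) (m + 2) from rfl,
    ← Finset.sum_Ico_add' _ 0 m 2]
  simp only [Even.zero, if_true, zero_add, pow_one, add_le_add_iff_right]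
  refine Finset.sum_le_sum fun i _ => ?_
  by_cases h2 : r ∣ Fintype.card F ^ (i + 2) - 1
  · rw [dvd_sub_one_iff (pow_pos Fintype.card_pos _), Nat.cast_pow] at h2
    have h3 : (-(q : ZMod r)) ^ (i + 2) = 1 := by
      rw [hj, ← pow_mul, mul_comm, pow_mul, h2, one_pow]
    rw [hF, ← pow_mul, pow_mul']
    split_ifs with h4
    · rw [Odd.neg_pow (by simpa [parity_simps] using h4), neg_eq_iff_eq_neg] at h3
      rw [val_sq_sub_one (not_dvd_sub_one_of_neg hr2 (by positivity) (by simpa using h3))]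
    · rw [Even.neg_pow (by simpa [parity_simps] using h4)] at h3
      rw [val_sq_sub_one' (not_dvd_add_one hr2 (by simpa using h3))]
  · rw [padicValNat.eq_zero_of_not_dvd h2]; exact Nat.zero_le _

end Herm

end CL.ElusL
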