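import Mathlib
import Cfsg.Agent.CLAS.ElusL5
import Cfsg.Agent.CLAS.ExtFGL

/-! Elements of `PSL_n(q)` conjugate into extension-field subgroups and into the stabiliser of a
tensor decomposition. -/

set_option autoImplicit false
set_option linter.unusedSectionVars false

namespace CL.ElusL

open Matrix Polynomial Cfsg.Geo CL.GLn CL.Elus CL.PrimeCl Module

universe u

variable {F : Type u} [Field F] {r n k : ℕ} {ι : Type} [Fintype ι] [DecidableEq ι]
  {H : Subgroup (GL ι F)} {x y : Matrix ι ι F} {V : Type*} [AddCommGroup V] [Module F V]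

local notation "𝕂" => AlgebraicClosure F
local notation "ι₀" => algebraMap F (AlgebraicClosure F)

/-! ### Small cases -/

theorem isConj_of_ord [Fintype F] [Fact r.Prime] (p : ℕ) [Fact p.Prime] [CharP F p] (hr : r ≠ p)
    (hr2 : r ≠ 2) (hi : orderOf ((Fintype.card F : ℕ) : ZMod r) = r - 1) (hn : Fintype.card ι = r)
    (hx : x ^ r = 1) (hy : y ^ r = 1) (hx1 : x ≠ 1) (hy1 : y ≠ 1) : IsConj x y := by
  have h0 := cast_ne_zero (F := F) p hr
  have h2 := (Fact.out : r.Prime).two_le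
  obtain ⟨P, hP⟩ := Finset.card_eq_one.1 ((card_cyc h0).trans (by
    rw [ord, hi, Nat.div_self (by omega)]))
  have key : ∀ x : Matrix ι ι F, x ^ r = 1 → x ≠ 1 → ∃ l, HasM r (toLin' x) {P} l := by
    intro x hx hx1
    obtain ⟨m, l, hm⟩ := exists_hasM h0 (A := toLin' x) (by rw [← toLin'_pow, hx, toLin'_one]; rfl)
    have h3 := hm.finrank_eq h0
    rw [ord, hi, Module.finrank_fintype_fun_eq_card, hn] at h3
    have h4 : m.card ≠ 0 := fun h => hx1 (toLin'.injective (by
      rw [(hm.eq_one_iff h0).2 (Multiset.card_eq_zero.1 h), toLin'_one]; rfl))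
    obtain ⟨Q, rfl⟩ := Multiset.card_eq_one.1 (show m.card = 1 by
      by_contra h
      have : (r - 1) * 2 ≤ (r - 1) * m.card := Nat.mul_le_mul_left _ (by omega)
      omega)
    have h5 := hm.mem Q (by simp)
    rw [hP, Finset.mem_singleton] at h5
    exact ⟨l, h5 ▸ hm⟩
  obtain ⟨l, hl⟩ := key x hx hx1
  obtain ⟨l', hl'⟩ := key y hy hy1
  exact (isConj_iff_simil _ _).2 (hl.simil_of_finrank h0 hl' rfl)

theorem univ_two : ∀ a : Fin 2 → ZMod 2, (∃ i j, a i ≠ a j) →
    Finset.univ.val.map a = Finset.univ.val := by decide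

theorem univ_three : ∀ a : Fin 3 → ZMod 3, (∃ i j, a i ≠ a j) → ∑ i, a i = 0 →
    Finset.univ.val.map a = Finset.univ.val := by decide

theorem ev_eq_univ [Fact r.Prime] {ζ : F} (hζ : IsPrimitiveRoot ζ r) (hn : Fintype.card ι = r)
    (hx : x ^ r = 1) (hx1 : ∀ c : F, x ≠ c • 1) (h : r = 2 ∨ (r = 3 ∧ x.det = 1)) :
    ev x = (Finset.univ : Finset (ZMod r)).val.map fun t => ι₀ ζ ^ t.val := by
  obtain ⟨A, A1, A2, A3⟩ := exists_ev_eq hζ hx
  obtain ⟨a, rfl⟩ := exists_fun_of_card (ι := Fin r) A (by simp [A1, hn])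
  have h1 : ∃ i j, a i ≠ a j := by
    let i : Fin r := ⟨0, (Fact.out : r.Prime).pos⟩
    obtain ⟨b, hb, h1⟩ := exists_mem_ev_ne (isSemisimple_toLin'_of_pow_eq_one
      hζ.neZero'.out hx) (hx1 (ζ ^ (a i).val))
    rw [A3, Multiset.map_map] at hb
    obtain ⟨j, -, rfl⟩ := Multiset.mem_map.1 hb
    exact ⟨j, i, fun h => h1 (by simp [h])⟩
  rw [A3]
  rcases h with rfl | ⟨rfl, h⟩
  · exact congrArg _ (univ_two a h1)
  · exact congrArg _ (univ_three a h1 (val_pow_inj hζ (by
      rw [h] at A2; rw [ZMod.val_zero, pow_zero]; exact A2.symm)))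

theorem exists_half {A : Multiset (ZMod 2)} (h1 : Even A.card) (h2 : A.sum = 0) :
    ∃ B, A = 2 • B := by
  have h3 : A = Multiset.replicate (A.count 0) 0 + Multiset.replicate (A.count 1) 1 := by
    ext t
    rw [Multiset.count_add, Multiset.count_replicate, Multiset.count_replicate]
    rcases (by decide : ∀ t : ZMod 2, t = 0 ∨ t = 1) t with rfl | rfl <;> simp
  rw [h3] at h1 h2
  simp only [Multiset.card_add, Multiset.card_replicate, Multiset.sum_add, Multiset.sum_replicate,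
    smul_zero, zero_add, nsmul_eq_mul, mul_one, ZMod.natCast_eq_zero_iff_even] at h1 h2
  obtain ⟨b, hb⟩ := h2
  obtain ⟨a, ha⟩ := (Nat.even_add.1 h1).2 ⟨b, hb⟩
  refine ⟨Multiset.replicate a 0 + Multiset.replicate b 1, ?_⟩
  rw [h3, ha, hb, smul_add, Multiset.nsmul_replicate, Multiset.nsmul_replicate, two_mul, two_mul]

theorem ev_of_charpoly_pow {κ : Type*} [Fintype κ] [DecidableEq κ] {b : Matrix κ κ F}
    (h : x.charpoly = b.charpoly ^ k) : ev x = k • ev b := by
  rw [ev, h, aroots_pow]; rfl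

theorem charpoly_eq_pow_of_ev {κ : Type*} [Fintype κ] [DecidableEq κ] {b : Matrix κ κ F}
    (h : ev x = k • ev b) : x.charpoly = b.charpoly ^ k :=
  map_injective _ (algebraMap F 𝕂).injective (by
    rw [Polynomial.map_pow, prod_ev, prod_ev, h, Multiset.map_nsmul, Multiset.prod_nsmul])

/-- An involution of determinant one in even dimension is a double. -/
theorem exists_charpoly_sq (h2 : (2 : F) ≠ 0) {m : ℕ} (hn : 2 * m = Fintype.card ι)
    (hx : x ^ 2 = 1) (hd : x.det = 1) :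
    ∃ b : Matrix (Fin m) (Fin m) F, b ^ 2 = 1 ∧ x.charpoly = b.charpoly ^ 2 := by
  have hζ : IsPrimitiveRoot (-1 : F) 2 := IsPrimitiveRoot.neg_one (ringChar F)
    fun h => h2 (by simpa [h] using ringChar.Nat.cast_ringChar (R := F))
  obtain ⟨A, A1, A2, A3⟩ := exists_ev_eq hζ hx
  obtain ⟨B, rfl⟩ := exists_half (A := A) ⟨m, by omega⟩ (val_pow_inj hζ (by
    rw [← A2, hd]; simp))
  obtain ⟨a, rfl⟩ := exists_fun_of_card (ι := Fin m) B (by simp at A1 ⊢; omega)
  refine ⟨diagonal fun i => (-1) ^ (a i).val, ?_, charpoly_eq_pow_of_ev ?_⟩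
  · rw [diagonal_pow, ← diagonal_one]; congr 1; funext i; exact val_pow_pow hζ (a i)
  · rw [A3, ev_diagonal, Multiset.map_nsmul, Multiset.map_map]; simp

theorem simil_piMap {κ : Type*} [Fintype κ] [DecidableEq κ] {b : Matrix κ κ F}
    (hx : Module.End.IsSemisimple (toLin' x)) (hb : Module.End.IsSemisimple (toLin' b))
    (h : x.charpoly = b.charpoly ^ k) :
    Simil (W := Fin k → κ → F) (toLin' x) (LinearMap.piMap fun _ => toLin' b) := by
  refine simil_of_isSemisimple_of_charpoly_eq hx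
    (Module.End.isSemisimple_of_squarefree_aeval_eq_zero hb.minpoly_squarefree ?_) ?_
  · rw [aeval_piMap, minpoly.aeval]; ext; simp
  · rw [charpoly_piMap, charpoly_toLin', h]; simp

theorem finrank_ker_one_eq (h : IsConj x y) : finrank F (LinearMap.ker (toLin' x - 1)) =
    finrank F (LinearMap.ker (toLin' y - 1)) := by
  have := finrank_ker_eq_of_isConj h 1
  rwa [map_one] at this

/-! ### Extension fields -/

section Ext

variable [Finite F] [Nonempty ι] {A : Subalgebra F (Matrix ι ι F)} (hA : IsFieldSubalgebra k A)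
include hA

omit [Finite F] [Nonempty ι] hA in
theorem scalars_le_ext : scalars ι F ≤ subalgebraNormalizer A := fun g hg a => by
  obtain ⟨c, hc⟩ := (mem_scalars_iff g).1 hg
  have : (g : Matrix ι ι F) * a = a * g := by simp [hc]
  rw [this, Units.mul_inv_cancel_right]

theorem Into.ext_nec (h : Into (subalgebraNormalizer A) x) :
    k ∣ finrank F (LinearMap.ker (toLin' x - 1)) ∨
      2 * finrank F (LinearMap.ker (toLin' x - 1)) ≤ Fintype.card ι := by
  obtain ⟨g, hg, h⟩ := h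
  obtain ⟨K, _, _, _, _, _, _, h1, -, -, -, h2⟩ := CL.ExtF.exists_ext_model hA
  obtain ⟨σ, hσ⟩ := (h2 g).1 hg
  rw [finrank_ker_one_eq h]
  set W := LinearMap.ker (toLin' (g : Matrix ι ι F) - 1)
  have hW : ∀ v, v ∈ W ↔ CL.Tv.act g v = v := fun v => sub_eq_zero
  by_cases h3 : ∀ a, σ a = a
  · let W' : Submodule K (ι → F) :=
      { W.toAddSubmonoid with
        smul_mem' := fun a v hv => (hW _).2 (by rw [hσ, h3, (hW v).1 hv]) }
    refine Or.inl ⟨finrank K W', ?_⟩
    rw [← h1, Module.finrank_mul_finrank]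
    rfl
  · obtain ⟨a, ha⟩ := not_forall.1 h3
    have ha0 : a ≠ 0 := by rintro rfl; exact ha (map_zero σ)
    let e : (ι → F) ≃ₗ[F] (ι → F) :=
      (LinearEquiv.smulOfNeZero K (ι → F) a ha0).restrictScalars F
    have h4 : Disjoint W (W.map (e : (ι → F) →ₗ[F] (ι → F))) := by
      rw [Submodule.disjoint_def]
      rintro _ h4 ⟨v, hv, rfl⟩
      have h5 : CL.Tv.act g (a • v) = a • v := (hW _).1 h4
      rw [hσ, (hW v).1 hv, ← sub_eq_zero, ← sub_smul, smul_eq_zero, sub_eq_zero] at h5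
      rw [h5.resolve_left ha, map_zero]
    have h5 := Submodule.finrank_le (W ⊔ W.map (e : (ι → F) →ₗ[F] (ι → F)))
    rw [finrank_sup_of_disjoint h4, LinearEquiv.finrank_map_eq,
      Module.finrank_fintype_fun_eq_card] at h5
    omega

theorem exists_ext : ∃ (K : Type u) (_ : Field K) (_ : Algebra F K) (_ : Finite K) (m : ℕ),
    finrank F K = k ∧ k * m = Fintype.card ι ∧ ∀ (x : Matrix ι ι F)
      (B : Module.End F (Fin m → K)) (σ : K ≃+* K), x.det ≠ 0 →
      (∀ (a : K) v, B (a • v) = σ a • B v) → Simil (toLin' x) B →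
      Into (subalgebraNormalizer A) x := by
  obtain ⟨K, _, _, _, _, _, _, h1, h2, -, -, h3⟩ := CL.ExtF.exists_ext_model hA
  refine ⟨K, ‹_›, ‹_›, ‹_›, _, h1, h2, fun x B σ hx hB h => ?_⟩
  let e := (Module.finBasis K (ι → F)).equivFun.symm
  refine into_of_simil hx h (e.restrictScalars F) fun g hg => (h3 g).2 ⟨σ, fun a v => ?_⟩
  obtain ⟨v, rfl⟩ := e.surjective v
  have h4 : ∀ v, CL.Tv.act g (e v) = e (B v) := hg
  rw [← map_smul, h4, h4, hB, map_smul]

theorem into_ext_of_charpoly {m : ℕ} (hm : k * m = Fintype.card ι) {b : Matrix (Fin m) (Fin m) F}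
    (hd : x.det ≠ 0) (hx : Module.End.IsSemisimple (toLin' x))
    (hb : Module.End.IsSemisimple (toLin' b)) (h : x.charpoly = b.charpoly ^ k) :
    Into (subalgebraNormalizer A) x := by
  obtain ⟨K, _, _, _, m', h1, h2, h3⟩ := exists_ext hA
  obtain rfl : m' = m := Nat.eq_of_mul_eq_mul_left (h1 ▸ finrank_pos) (h2.trans hm.symm)
  let c := Module.finBasisOfFinrankEq F K h1
  let ψ : (Fin m' → K) ≃ₗ[F] (Fin k → Fin m' → F) :=
    { toFun := fun v i j => c.equivFun (v j) i
      invFun := fun w j => c.equivFun.symm fun i => w i j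
      map_add' := fun v w => by ext; simp
      map_smul' := fun a v => by ext; simp
      left_inv := fun v => by ext; simp only [LinearEquiv.symm_apply_apply]
      right_inv := fun w => by ext; simp only [LinearEquiv.apply_symm_apply] }
  refine h3 x ((toLin' (b.map (algebraMap F K))).restrictScalars F) (RingEquiv.refl K) hd
    (fun a v => by simp) ((simil_piMap hx hb h).trans (Simil.symm ⟨ψ, fun v => ?_⟩))
  ext i j
  simp [ψ, piMap_apply, mulVec, dotProduct, ← Algebra.smul_def]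

theorem into_ext_of_nonsq (hk : k = 2) {z : F} (hz : ∀ b : F, b ^ 2 ≠ z)
    (hx : x ^ 2 = z • (1 : Matrix ι ι F)) : Into (subalgebraNormalizer A) x := by
  obtain ⟨K, _, _, _, m, h1, h2, h3⟩ := exists_ext hA
  have hz0 : z ≠ 0 := fun h => hz 0 (by simp [h])
  have hd : x.det ≠ 0 := fun h => by
    have := congrArg det hx
    rw [det_pow, h, det_smul, det_one, mul_one, zero_pow two_ne_zero] at this
    exact pow_ne_zero _ hz0 this.symm
  have := Fintype.ofFinite K
  obtain ⟨s, hs⟩ := isSquare_of_mem_sub (F₀ := (algebraMap F K).fieldRange)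
    (Nat.card_congr (algebraMap F K).rangeRestrictFieldEquiv.toEquiv).symm (by
      rw [← Nat.card_eq_fintype_card, Module.natCard_eq_pow_finrank (K := F), h1, hk])
    (a := algebraMap F K z) ⟨z, rfl⟩
  refine h3 x ((LinearMap.lsmul K _ s).restrictScalars F) (RingEquiv.refl K) hd
    (fun a v => smul_comm s a v) (simil_of_sq hz hx ?_ ?_)
  · rw [← h2, ← h1, ← Module.finrank_mul_finrank F K, Module.finrank_fin_fun]
  · refine LinearMap.ext fun v => ?_
    change s • s • v = z • v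
    rw [smul_smul, ← hs, algebraMap_smul]

theorem exists_frob (hk : k = Fintype.card ι) : ∃ x : Matrix ι ι F,
    Into (subalgebraNormalizer A) x ∧ x ^ k = 1 ∧ minpoly F x = X ^ k - 1 := by
  obtain ⟨K, _, _, _, m, h1, h2, h3⟩ := exists_ext hA
  have h0 : 0 < k := h1 ▸ finrank_pos
  obtain rfl : m = 1 := Nat.eq_of_mul_eq_mul_left h0 (by rw [h2, hk, mul_one])
  have := Fintype.ofFinite F
  let φ := FiniteField.frobeniusAlgEquivOfAlgebraic F K
  obtain ⟨B, hB⟩ := CL.SpU.exists_simil_of_finrank_eq' (W := ι → F)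
    (FiniteField.frobeniusAlgHom F K).toLinearMap (by simp [h1, hk])
  obtain ⟨x, rfl⟩ := (toLin' : Matrix ι ι F ≃ₗ[F] _).surjective B
  have h4 : minpoly F x = X ^ k - 1 := by
    obtain ⟨e, he⟩ := simil_iff_conj.1 hB
    rw [← minpoly_toLin', ← he, ← h1, ← FiniteField.minpoly_frobeniusAlgHom]
    exact minpoly.algEquiv_eq (e.conjAlgEquiv F) _
  have h5 : x ^ k = 1 := by simpa [h4, sub_eq_zero] using minpoly.aeval F x
  refine ⟨x, h3 x (LinearMap.piMap fun _ => φ.toLinearMap) φ.toRingEquiv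
    (det_ne_zero_of_pow h0.ne' h5) (fun a v => ?_) (hB.symm.trans
      ⟨(LinearEquiv.funUnique (Fin 1) F K).symm, fun v => rfl⟩), h5, h4⟩
  ext i
  exact map_mul φ a (v i)

end Ext

/-! ### Tensor decompositions -/

section Tens

open scoped Kronecker

variable {a b : ℕ} {e : ι ≃ Fin a × Fin b} {P : GL ι F}

theorem mem_tens_iff {g : GL ι F} : g ∈ tensorProductSubgroup a b e P ↔
    ∃ (g₁ : GL (Fin a) F) (g₂ : GL (Fin b) F), (g : Matrix ι ι F) = P * reindex e.symm e.symm
      ((g₁ : Matrix (Fin a) (Fin a) F) ⊗ₖ (g₂ : Matrix (Fin b) (Fin b) F)) * (P⁻¹ : GL ι F) := by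
  constructor
  · rintro ⟨_, ⟨h, ⟨g₁, g₂, h1⟩, rfl⟩, rfl⟩
    exact ⟨g₁, g₂, by rw [← h1]; rfl⟩
  · rintro ⟨g₁, g₂, h⟩
    exact ⟨_, ⟨GeneralLinearGroup.kronecker g₁ g₂, ⟨g₁, g₂, rfl⟩, rfl⟩, Units.ext h.symm⟩

theorem scalars_le_tens : scalars ι F ≤ tensorProductSubgroup a b e P := fun g hg => by
  obtain ⟨c, hc⟩ := (mem_scalars_iff g).1 hg
  refine mem_tens_iff.2 ⟨GeneralLinearGroup.scalar _ c, 1, ?_⟩
  have : ((GeneralLinearGroup.scalar (Fin a) c : GL (Fin a) F) : Matrix (Fin a) (Fin a) F) =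
      (c : F) • 1 := by simp [smul_one_eq_diagonal]
  rw [this, hc]
  simp [smul_kronecker, submatrix_smul]

theorem into_tens_iff : Into (tensorProductSubgroup a b e P) x ↔
    ∃ (g₁ : GL (Fin a) F) (g₂ : GL (Fin b) F), Simil (toLin' x)
      (toLin' ((g₁ : Matrix (Fin a) (Fin a) F) ⊗ₖ (g₂ : Matrix (Fin b) (Fin b) F))) := by
  have key : ∀ y : Matrix ι ι F, IsConj y (P * y * (P⁻¹ : GL ι F)) := fun y =>
    isConj_of_mul_eq P (by simp)
  constructor
  · rintro ⟨g, hg, h⟩
    obtain ⟨g₁, g₂, h1⟩ := mem_tens_iff.1 hg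
    exact ⟨g₁, g₂, ((isConj_iff_simil _ _).1 (h.trans (h1 ▸ key _).symm)).trans
      (simil_reindex e.symm _).symm⟩
  · rintro ⟨g₁, g₂, h⟩
    exact ⟨P * glReindex e.symm (GeneralLinearGroup.kronecker g₁ g₂) * P⁻¹,
      mem_tens_iff.2 ⟨g₁, g₂, rfl⟩,
      ((isConj_iff_simil _ _).2 (h.trans (simil_reindex e.symm _))).trans (key _)⟩

theorem simil_one_kronecker (g : Matrix (Fin b) (Fin b) F) :
    Simil (W := Fin a → Fin b → F) (toLin' ((1 : Matrix (Fin a) (Fin a) F) ⊗ₖ g))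
      (LinearMap.piMap fun _ => toLin' g) := by
  refine ⟨LinearEquiv.curry F F _ _, fun v => ?_⟩
  ext i j
  simp [piMap_apply, mulVec, dotProduct, Fintype.sum_prod_type, one_apply, ite_mul]

theorem exists_eq_smul_of_kronecker [NeZero b] {g₁ : Matrix (Fin a) (Fin a) F}
    {g₂ : Matrix (Fin b) (Fin b) F} (h : g₁ ⊗ₖ g₂ = 1) : ∃ z : F, g₁ = z • 1 := by
  rcases isEmpty_or_nonempty (Fin a) with h0 | ⟨⟨i₀⟩⟩
  · exact ⟨1, Subsingleton.elim _ _⟩
  have h1 : ∀ i j, g₁ i j * g₂ 0 0 = (1 : Matrix (Fin a) (Fin a) F) i j := fun i j => by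
    simpa [one_apply] using congrFun (congrFun h (i, 0)) (j, 0)
  have h2 : g₂ 0 0 ≠ 0 := fun h0 => by simpa [h0] using h1 i₀ i₀
  refine ⟨(g₂ 0 0)⁻¹, ?_⟩
  ext i j
  rw [Matrix.smul_apply, ← h1, smul_eq_mul, mul_comm, mul_inv_cancel_right₀ h2]

theorem exists_eq_smul_of_ker {g₁ : Matrix (Fin a) (Fin a) F} {g₂ : Matrix (Fin b) (Fin b) F}
    (h : a * b < finrank F (LinearMap.ker (toLin' (g₁ ⊗ₖ g₂) - 1)) + b) :
    ∃ z : F, g₁ = z • 1 := by
  by_contra h0
  obtain ⟨u, hu⟩ : ∃ u, LinearIndependent F ![u, toLin' g₁ u] := by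
    by_contra! h1
    obtain ⟨z, hz⟩ := LinearMap.exists_eq_smul_id_of_forall_notLinearIndependent h1
    exact h0 ⟨z, toLin'.injective (by rw [hz, map_smul, toLin'_one]; rfl)⟩
  let T : (Fin b → F) →ₗ[F] (Fin a × Fin b → F) :=
    LinearMap.pi fun i => u i.1 • LinearMap.proj i.2
  have h1 : ∀ w, T w ∈ LinearMap.ker (toLin' (g₁ ⊗ₖ g₂) - 1) → w = 0 := fun w hw => by
    ext j
    refine neg_eq_zero.1 ((LinearIndependent.pair_iff.1 hu (-w j) ((g₂ *ᵥ w) j) ?_).1)
    ext i
    have := congrFun (LinearMap.mem_ker.1 hw) (i, j)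
    simp only [LinearMap.sub_apply, toLin'_apply, Module.End.one_apply, Pi.sub_apply, mulVec,
      dotProduct, Fintype.sum_prod_type, kroneckerMap_apply, T, LinearMap.pi_apply,
      LinearMap.smul_apply, LinearMap.proj_apply, smul_eq_mul, Pi.zero_apply] at this
    simp only [Pi.add_apply, Pi.smul_apply, smul_eq_mul, toLin'_apply, mulVec, dotProduct,
      Pi.zero_apply]
    rw [← this, mul_comm (∑ _, _), Finset.sum_mul_sum]
    simp only [mul_mul_mul_comm]
    ring
  have h2 : Disjoint (LinearMap.ker (toLin' (g₁ ⊗ₖ g₂) - 1)) (LinearMap.range T) := by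
    rw [Submodule.disjoint_def]
    rintro _ h2 ⟨w, rfl⟩
    rw [h1 w h2, map_zero]
  have h3 := Submodule.finrank_le (LinearMap.ker (toLin' (g₁ ⊗ₖ g₂) - 1) ⊔ LinearMap.range T)
  rw [finrank_sup_of_disjoint h2, LinearMap.finrank_range_of_inj
    ((injective_iff_map_eq_zero T).2 fun w hw => h1 w (hw ▸ zero_mem _))] at h3
  simp at h3
  omega

theorem simil_pi_of_smul {g₁ : Matrix (Fin a) (Fin a) F} {g₂ : Matrix (Fin b) (Fin b) F}
    (h : Simil (toLin' x) (toLin' (g₁ ⊗ₖ g₂))) (h1 : ∃ z : F, g₁ = z • 1) :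
    ∃ g : Matrix (Fin b) (Fin b) F,
      Simil (W := Fin a → Fin b → F) (toLin' x) (LinearMap.piMap fun _ => toLin' g) := by
  obtain ⟨z, rfl⟩ := h1
  rw [smul_kronecker, ← kronecker_smul] at h
  exact ⟨_, h.trans (simil_one_kronecker _)⟩

theorem Into.tens_nec (h : Into (tensorProductSubgroup a b e P) x)
    (h1 : a * b < finrank F (LinearMap.ker (toLin' x - 1)) + b) : ∃ g : Matrix (Fin b) (Fin b) F,
      Simil (W := Fin a → Fin b → F) (toLin' x) (LinearMap.piMap fun _ => toLin' g) := by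
  obtain ⟨g₁, g₂, h⟩ := into_tens_iff.1 h
  refine simil_pi_of_smul h (exists_eq_smul_of_ker (g₂ := (g₂ : Matrix (Fin b) (Fin b) F)) ?_)
  have := h.kd_eq (X - 1)
  rw [kd, kd, map_sub, map_sub, aeval_X, aeval_X, map_one, map_one] at this
  rwa [← this]

theorem Into.tens_dvd (h : Into (tensorProductSubgroup a b e P) x)
    (h1 : a * b < finrank F (LinearMap.ker (toLin' x - 1)) + b) (c : F) :
    a ∣ finrank F (LinearMap.ker (toLin' x - algebraMap F _ c)) := by
  obtain ⟨g, hg⟩ := h.tens_nec h1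
  have := hg.kd_eq (X - C c)
  rw [kd_piMap, kd, map_sub, aeval_X, aeval_C] at this
  simp [this]

theorem into_tens_of_charpoly {g : Matrix (Fin b) (Fin b) F} (hg : g.det ≠ 0)
    (hx : Module.End.IsSemisimple (toLin' x)) (hb : Module.End.IsSemisimple (toLin' g))
    (h : x.charpoly = g.charpoly ^ a) : Into (tensorProductSubgroup a b e P) x :=
  into_tens_iff.2 ⟨1, GeneralLinearGroup.mkOfDetNeZero g hg,
    (simil_piMap hx hb h).trans (simil_one_kronecker g).symm⟩

end Tens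

end CL.ElusL
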