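/-
Overgroups of the orthogonal group in the special linear group, odd characteristic.
-/
import Cfsg.Agent.CLAS.RootGeo
import Cfsg.Agent.CLAS.Eichler4

set_option autoImplicit false

namespace CL.Root

open Module CL.Witt CL.Witt.Form CL.Tv Cfsg Cfsg.Geo

section Scalar

variable {F : Type*} [Field F] {T : FormType F} {V : Type*} [AddCommGroup V] [Module F V]
  [FiniteDimensional F V] {f : Form T V}

theorem eq_add_singular (hf : f.Nondeg) (h3 : Sing3 f) (hn : 7 ≤ finrank F V) (y : V) :
    ∃ u u', y = u + u' ∧ f.q u = 0 ∧ f.q u' = 0 := by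
  obtain ⟨u, u', h, hu, hu', -⟩ := exists_add_singular hf h3 (X := ⊥) (H := F ∙ y) bot_le
    (by have := finrank_span_single_le (F := F) y; omega) (Submodule.mem_span_singleton_self y)
    (by simp [perp_bot]) (by rintro rfl; exact f.q_zero)
  exact ⟨u, u', h, hu, hu'⟩

/-- Two additive maps which are proportional on every singular vector are proportional. -/
theorem exists_scalar_of_singular (hf : f.Nondeg) (h3 : Sing3 f) (hn : 7 ≤ finrank F V)
    {R W : Type*} [Ring R] [AddCommGroup W] [Module R W] (A C : V →+ W)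
    (hC : ∀ y z, y ≠ 0 → z ∉ F ∙ y → ∀ a b : R, a • C z + b • C y = 0 → a = 0 ∧ b = 0)
    (H : ∀ u, f.q u = 0 → ∃ c : R, A u = c • C u) : ∃ c : R, ∀ u, A u = c • C u := by
  have key2 : ∀ y z (a b : R), f.q y = 0 → f.q z = 0 → f.B y z = 0 → y ≠ 0 → z ∉ F ∙ y →
      A y = a • C y → A z = b • C z → a = b := by
    intro y z a b hy hz hyz hy0 hzy ha hb
    obtain ⟨d, hd⟩ := H (y + z) (by rw [f.q_add_of_B_eq_zero hyz, hy, hz, add_zero])
    rw [map_add, map_add, ha, hb] at hd
    obtain ⟨e1, e2⟩ := hC y z hy0 hzy (b - d) (a - d) (by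
      rw [sub_smul, sub_smul]; rw [smul_add] at hd
      rw [← sub_eq_zero] at hd
      rw [← hd]; abel)
    rw [sub_eq_zero] at e1 e2
    rw [e1, e2]
  obtain ⟨y₀, -, hy₀, hy₀0⟩ := exists_sol_zero hf h3 ⊥ (by simp; omega)
  rw [Submodule.mem_bot] at hy₀0
  obtain ⟨a, ha⟩ := H y₀ hy₀
  have key3 : ∀ y, f.q y = 0 → A y = a • C y := by
    intro y hy
    by_cases hy0 : y = 0
    · simp [hy0]
    obtain ⟨b, hb⟩ := H y hy
    obtain ⟨z, hz, hz0, hz'⟩ := exists_sol_zero hf h3 (Submodule.span F {y, y₀})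
      (by have := finrank_span_pair_le (F := F) y y₀; omega)
    obtain ⟨d, hd⟩ := H z hz0
    have e1 : b = d := key2 y z b d hy hz0 (hz y (Submodule.subset_span (by simp)))
      hy0 (fun h => hz' (Submodule.span_mono (by simp) h)) hb hd
    have e2 : a = d := key2 y₀ z a d hy₀ hz0 (hz y₀ (Submodule.subset_span (by simp)))
      hy₀0 (fun h => hz' (Submodule.span_mono (by simp) h)) ha hd
    rw [e2, ← e1]; exact hb
  refine ⟨a, fun y => ?_⟩
  obtain ⟨u, u', rfl, hu, hu'⟩ := eq_add_singular hf h3 hn y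
  rw [map_add, map_add, key3 u hu, key3 u' hu', smul_add]

/-- A map preserving orthogonality of singular vectors is a similarity. -/
theorem exists_sim_of_singular (hf : f.Nondeg) (h3 : Sing3 f) (hn : 9 ≤ finrank F V)
    {g : V →ₗ[F] V} (H : ∀ u v, f.q u = 0 → f.q v = 0 → f.B u v = 0 → f.B (g u) (g v) = 0) :
    ∃ c : F, ∀ u v, f.B (g u) (g v) = c * f.B u v := by
  obtain ⟨c, hc⟩ := exists_scalar_of_singular hf h3 (by omega) (R := F) (W := Dual F V)
    (f.comap g).B.toAddMonoidHom f.B.toAddMonoidHom (fun y z hy hz a b hab => by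
      have h0 : T.σ a • z + T.σ b • y = 0 := hf _ fun v => by
        have := congrArg (fun φ : Dual F V => φ v) hab
        simpa [T.σσ] using this
      obtain ⟨e1, e2⟩ := LinearIndependent.pair_iff.1 (li2 hy hz) _ _ h0
      exact ⟨T.σ_eq_zero.1 e1, T.σ_eq_zero.1 e2⟩) (fun u hu => by
      apply exists_eq_smul_of_ker_le
      intro v hv
      obtain ⟨w, w', rfl, hw, hw', hw1, hw2, -⟩ := exists_add_singular hf h3 (X := F ∙ u)
        (H := Submodule.span F {u, v}) (Submodule.span_mono (by simp))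
        (by have := finrank_span_pair_le (F := F) u v; omega) (Submodule.subset_span (by simp))
        (f.mem_perp_span_singleton.2 hv) (by
          intro h
          obtain ⟨c, rfl⟩ := Submodule.mem_span_singleton.1 h
          exact f.q_smul_eq_zero hu c)
      change f.B (g u) (g (w + w')) = 0
      rw [map_add, f.B_add_right, H u w hu hw (f.mem_perp_span_singleton.1 hw1),
        H u w' hu hw' (f.mem_perp_span_singleton.1 hw2), add_zero])
  exact ⟨c, fun u v => congrArg (fun φ : Dual F V => φ v) (hc u)⟩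

end Scalar

variable {ι : Type} [Fintype ι] [DecidableEq ι] {F : Type*} [Field F] [Finite F]
  {f : Form (FormType.quad F) (ι → F)} {K : Subgroup (GL ι F)}

/-- A group containing `E` and a transvection with singular centre contains `SL`. -/
theorem SL_le_of_quad_tv (hf : f.Nondeg) (hn : 5 ≤ Fintype.card ι)
    (hK : ∀ e ∈ f.E, ofLin e ∈ K) {u w : ι → F} (hu : f.q u = 0) (hu0 : u ≠ 0)
    (hw : w ∉ F ∙ u) (hwu : f.B w u = 0) (h : HasTv K u (f.B w)) : specialLinear ι F ≤ K := by
  have hdim : finrank F (ι → F) = Fintype.card ι := Module.finrank_fintype_fun_eq_card F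
  let S : AddSubgroup (ι → F) :=
    { carrier := {z | f.B z u = 0 ∧ HasTv K u (f.B z)}
      add_mem' := fun {a b} ha hb => ⟨by rw [f.B_add_left, ha.1, hb.1, add_zero], by
        rw [map_add]; exact ha.2.add_right hb.2 ha.1⟩
      zero_mem' := ⟨by simp, by rw [map_zero]; exact HasTv.zero_right u⟩
      neg_mem' := fun {a} ha => ⟨by rw [f.B_neg_left, ha.1, neg_zero], by
        rw [map_neg]; exact ha.2.neg_right ha.1⟩ }
  have hS : ∀ e ∈ f.E, e u = u → ∀ z ∈ S, e z ∈ S := by
    intro e he heu z hz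
    refine ⟨by rw [← hz.1, ← mem_O_B (E_le_O he) z u, heu], hz.2.conj' (hK e he) ?_ fun v => ?_⟩
    · rw [act_ofLin, heu]
    · rw [act_ofLin, mem_O_B (E_le_O he)]
  have hwS : w ∈ S := ⟨hwu, h⟩
  have h1 : ∀ c : F, c • u ∈ S := by
    intro c
    obtain ⟨v, hv, hv'⟩ := hf.exists_perp_eq hw c
    have huv := f.B_eq_zero_symm (hv u (Submodule.mem_span_singleton_self u))
    obtain ⟨a, ok⟩ := exists_eichOK hu huv
    have := S.sub_mem hwS (hS _ (ei_mem_E u v a) ok.ei_apply_u w hwS)
    rw [ok.ei_apply_of_perp (f.B_eq_zero_symm hwu), hv', FormType.quad_ε] at this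
    simpa using this
  obtain ⟨u', hu', huu'⟩ := hf.exists_partner' hu hu0
  set W := f.perp (Submodule.span F {u, u'}) with hW
  have hWn : (f.restrict W).Nondeg := hf.restrict_perp (f.restrict_nondeg_pair hu hu' huu')
  have hWr : finrank F W + 2 = finrank F (ι → F) := by
    have := hf.finrank_add_finrank_perp (Submodule.span F {u, u'})
    rw [f.finrank_span_pair hu hu' huu'] at this
    rw [hW]; omega
  have hproj : ∀ z, f.B u z = 0 → z - (f.B u' z) • u ∈ W := by
    intro z hz
    have := hyp_proj hu hu' huu' z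
    rw [hz, zero_smul, sub_zero, FormType.quad_ε, one_mul] at this
    exact f.mem_perp_span_pair.2 this
  obtain ⟨x, hxW, hx0, hx⟩ := sing3_quad f W (by omega)
  have h2 : ∀ z ∈ W, z ∈ S := by
    refine mem_of_ei_invariant hWn (by omega) hxW hx hx0 (D := S)
      (fun a b c ok ha hb d hd _ => hS _ (ei_mem_E a b c) ?_ d hd)
      (S.sub_mem hwS (h1 (f.B u' w))) (hproj w (f.B_eq_zero_symm hwu)) fun h0 => hw ?_
    · exact ok.ei_apply_fix (f.B_eq_zero_symm (f.mem_perp_span_pair.1 ha).1)
        (f.B_eq_zero_symm (f.mem_perp_span_pair.1 hb).1)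
    · exact Submodule.mem_span_singleton.2 ⟨_, (sub_eq_zero.1 h0).symm⟩
  have hfull : u ∈ full K := by
    intro φ hφ
    obtain ⟨z, hz⟩ := hf.exists_rep φ
    have e : φ = f.B z := (LinearMap.ext hz).symm
    subst e
    have := S.add_mem (h2 _ (hproj z (f.B_eq_zero_symm hφ))) (h1 (f.B u' z))
    rw [sub_add_cancel] at this
    exact this.2
  apply SL_le_of_full
  refine hf.submodule_eq_top (Or.inr (by omega)) hu hu0 (fun a b c _ d hd => ?_) fun h0 => hu0 ?_
  · have := act_mem_full hd (hK _ (ei_mem_E a b c))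
    rwa [act_ofLin] at this
  · rwa [h0, Submodule.mem_bot] at hfull

/-- The commutator of a conjugate of a long root element with a suitable Eichler element. -/
theorem SL_le_or_perp (hf : f.Nondeg) (hn : 11 ≤ Fintype.card ι)
    (hK : ∀ e ∈ f.E, ofLin e ∈ K) {y : GL ι F} (hy : y ∈ K) {a b p r : ι → F}
    (hyx : ∀ x, act y x = x + f.B p x • b - f.B r x • a) (hpa : f.B p a = 0) (hpb : f.B p b = 0)
    (hra : f.B r a = 0) (hrb : f.B r b = 0) (hpr : LinearIndependent F ![p, r]) :
    specialLinear ι F ≤ K ∨ (a ∈ Submodule.span F {p, r} ∧ b ∈ Submodule.span F {p, r}) := by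
  have hdim : finrank F (ι → F) = Fintype.card ι := Module.finrank_fintype_fun_eq_card F
  obtain ⟨u, hu, hu0, huH⟩ := exists_sol_zero hf (sing3_quad f) (Submodule.span F {a, b, p, r})
    (by have := finrank_span_four_le (F := F) a b p r; omega)
  have hau : f.B a u = 0 := hu a (Submodule.subset_span (by simp))
  have hbu : f.B b u = 0 := hu b (Submodule.subset_span (by simp))
  have hpu : f.B p u = 0 := hu p (Submodule.subset_span (by simp))
  have hru : f.B r u = 0 := hu r (Submodule.subset_span (by simp))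
  have hu00 : u ≠ 0 := by rintro rfl; exact huH (Submodule.zero_mem _)
  have hyinv : ∀ x, act y⁻¹ x = x - f.B p x • b + f.B r x • a := by
    intro x
    apply (act y).injective
    rw [act_act_inv, hyx]
    simp [hpa, hpb, hra, hrb]
    abel
  by_cases H : ∀ v, f.B u v = 0 → f.B p v = 0 → f.B r v = 0 → f.B v a = 0 ∧ f.B v b = 0
  · right
    have key : ∀ z, z ∈ Submodule.span F {a, b, p, r} →
        (∀ v, f.B u v = 0 → f.B p v = 0 → f.B r v = 0 → f.B v z = 0) →
        z ∈ Submodule.span F {p, r} := by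
      intro z hz h
      have : z ∈ Submodule.span F {u, p, r} := by
        rw [← hf.perp_perp (Submodule.span F {u, p, r})]
        intro v hv
        rw [mem_perp_span] at hv
        exact h v (hv u (by simp)) (hv p (by simp)) (hv r (by simp))
      obtain ⟨c, z', hz', rfl⟩ := Submodule.mem_span_insert.1 this
      by_cases hc : c = 0
      · simpa [hc] using hz'
      · exfalso
        apply huH
        have h2 := Submodule.sub_mem _ hz (Submodule.span_mono (by intro x hx; simp at hx ⊢; tauto) hz')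
        rw [add_sub_cancel_right] at h2
        exact (Submodule.smul_mem_iff _ hc).1 h2
    exact ⟨key a (Submodule.subset_span (by simp)) fun v h1 h2 h3 => (H v h1 h2 h3).1,
      key b (Submodule.subset_span (by simp)) fun v h1 h2 h3 => (H v h1 h2 h3).2⟩
  left
  push Not at H
  obtain ⟨v, huv, hpv, hrv, hv⟩ := H
  obtain ⟨c, ok⟩ := exists_eichOK hu0 huv
  refine SL_le_of_quad_tv hf (by omega) hK hu0 hu00 (w := f.B v b • p - f.B v a • r) ?_ ?_ ?_
  · intro h
    obtain ⟨d, hd⟩ := Submodule.mem_span_singleton.1 h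
    by_cases hd0 : d = 0
    · rw [hd0, zero_smul, eq_comm, sub_eq_add_neg, ← neg_smul] at hd
      obtain ⟨e1, e2⟩ := LinearIndependent.pair_iff.1 hpr _ _ hd
      exact hv (neg_eq_zero.1 e2) e1
    · apply huH
      rw [← Submodule.smul_mem_iff _ hd0, hd]
      exact Submodule.sub_mem _ (Submodule.smul_mem _ _ (Submodule.subset_span (by simp)))
        (Submodule.smul_mem _ _ (Submodule.subset_span (by simp)))
  · simp [hpu, hru]
  · refine ⟨y * ofLin (f.ei u v c) * y⁻¹ * (ofLin (f.ei u v c))⁻¹,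
      K.mul_mem (K.mul_mem (K.mul_mem hy (hK _ (ei_mem_E _ _ _))) (K.inv_mem hy))
        (K.inv_mem (hK _ (ei_mem_E _ _ _))), fun x => ?_⟩
    obtain ⟨x, rfl⟩ := (f.ei u v c).surjective x
    rw [act_mul, act_mul, act_mul, act_inv (ofLin _), act_ofLin, LinearEquiv.symm_apply_apply,
      hyinv, ok.ei_apply, hyx, ok.ei_apply]
    have hua := f.B_eq_zero_symm hau
    have hub := f.B_eq_zero_symm hbu
    simp only [f.B_add_right, f.B_sub_right, f.B_smul_right, f.B_sub_left, f.B_smul_left,
      FormType.quad_σ, FormType.quad_ε, hpa, hpb, hra, hrb, hua, hub, hpu, hru, hpv, hrv]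
    module

/-- A group containing `E` and a non-similarity contains `SL`. -/
theorem SL_le_of_quad_lt (hf : f.Nondeg) (h2 : (2 : F) ≠ 0) (hn : 11 ≤ Fintype.card ι)
    (hK : ∀ e ∈ f.E, ofLin e ∈ K) {g : GL ι F} (hg : g ∈ K) (hg' : g ∉ quadSimilarityGroup f.q) :
    specialLinear ι F ≤ K := by
  have hdim : finrank F (ι → F) = Fintype.card ι := Module.finrank_fintype_fun_eq_card F
  by_contra hcon
  apply hg'
  have key : ∀ u v, f.q u = 0 → f.q v = 0 → f.B u v = 0 → u ≠ 0 → v ∉ F ∙ u →
      f.B (act g u) (act g u) = 0 ∧ f.B (act g u) (act g v) = 0 := by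
    intro u v hu hv huv hu0 hvu
    have ok : f.EichOK u v 0 := ⟨hu, huv, by rw [map_zero, hv]⟩
    obtain ⟨p, hp⟩ := hf.exists_rep (f.B u ∘ₗ (act g⁻¹ : (ι → F) →ₗ[F] (ι → F)))
    obtain ⟨r, hr⟩ := hf.exists_rep (f.B v ∘ₗ (act g⁻¹ : (ι → F) →ₗ[F] (ι → F)))
    have hp' : ∀ x, f.B p (act g x) = f.B u x := fun x => by rw [hp]; simp [act_inv_act]
    have hr' : ∀ x, f.B r (act g x) = f.B v x := fun x => by rw [hr]; simp [act_inv_act]
    have hpa : f.B p (act g u) = 0 := by rw [hp', ok.huu]
    have hpb : f.B p (act g v) = 0 := by rw [hp', huv]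
    have hra : f.B r (act g u) = 0 := by rw [hr', ok.hvu]
    have hrb : f.B r (act g v) = 0 := by rw [hr', f.B_self_eq_zero hv]
    have := SL_le_or_perp hf hn hK (y := g * ofLin (f.ei u v 0) * g⁻¹)
      (K.mul_mem (K.mul_mem hg (hK _ (ei_mem_E _ _ _))) (K.inv_mem hg)) (a := act g u)
      (b := act g v) (p := p) (r := r) (fun x => by
        obtain ⟨x, rfl⟩ := (act g).surjective x
        rw [act_mul, act_mul, act_inv_act, act_ofLin, ok.ei_apply, hp', hr', FormType.quad_ε]
        simp) hpa hpb hra hrb (by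
        rw [LinearIndependent.pair_iff]
        intro s t hst
        have h0 : t • v + s • u = 0 := hf _ fun x => by
          have := congrArg (fun z => f.B z (act g x)) hst
          simp only [f.B_add_left, f.B_smul_left, hp', hr', f.B_zero_left] at this
          rw [f.B_add_left, f.B_smul_left, f.B_smul_left, add_comm, this]
        exact (LinearIndependent.pair_iff.1 (li2 hu0 hvu) _ _ h0).symm)
    obtain ⟨h1, -⟩ := this.resolve_left hcon
    obtain ⟨s, t, hst⟩ := Submodule.mem_span_pair.1 h1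
    constructor
    · nth_rewrite 1 [← hst]
      simp [hpa, hra]
    · rw [← hst]
      simp [hpb, hrb]
  obtain ⟨c, hc⟩ := exists_sim_of_singular hf (sing3_quad f) (by omega)
    (g := (act g : (ι → F) →ₗ[F] (ι → F))) (fun u v hu hv huv => by
      by_cases hu0 : u = 0
      · simp [hu0]
      by_cases hvu : v ∈ F ∙ u
      · obtain ⟨d, rfl⟩ := Submodule.mem_span_singleton.1 hvu
        obtain ⟨z, hz, hz0, hz'⟩ := exists_sol_zero hf (sing3_quad f) (F ∙ u)
          (by have := finrank_span_single_le (F := F) u; omega)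
        have := (key u z hu hz0 (hz u (Submodule.mem_span_singleton_self u)) hu0 hz').1
        simp [this]
      · exact (key u v hu hv huv hu0 hvu).2)
  have hc0 : c ≠ 0 := by
    rintro rfl
    obtain ⟨e, e', -, -, -, -, h⟩ := exists_hyp_perp hf (sing3_quad f) ⊥ (by simp; omega)
    have := hc (act g⁻¹ e) (act g⁻¹ e')
    simp [act_act_inv, h] at this
  refine ⟨Units.mk0 c hc0, fun v => ?_⟩
  have := hc v v
  rw [f.quad_B_self, f.quad_B_self] at this
  apply mul_left_cancel₀ h2
  change 2 * f.q (act g v) = _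
  rw [Units.val_mk0]
  linear_combination this

theorem not_SL_le_quad (hf : f.Nondeg) (hn : 5 ≤ Fintype.card ι) :
    ¬ specialLinear ι F ≤ quadSimilarityGroup f.q := by
  intro H
  have hdim : finrank F (ι → F) = Fintype.card ι := Module.finrank_fintype_fun_eq_card F
  obtain ⟨x, -, hx, -⟩ := exists_sol hf (sing3_quad f) ⊥ (by simp; omega) 0 1
  rw [FormType.quad_π] at hx
  obtain ⟨u, hu, hu0, hux⟩ := exists_sol_zero hf (sing3_quad f) (F ∙ x)
    (by have := finrank_span_single_le (F := F) x; omega)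
  have hxu : f.B x u = 0 := hu x (Submodule.mem_span_singleton_self x)
  obtain ⟨φ, hφ1, hφ0⟩ := exists_dual_one_zero hux
  obtain ⟨c, hc⟩ := H (tv_mem_SL x φ hφ0)
  have := hc u
  change f.q (act _ u) = c * f.q u at this
  rw [act_tv, hφ1, one_smul, f.q_add_of_B_eq_zero (f.B_eq_zero_symm hxu), hu0, hx] at this
  simp at this

end CL.Root
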