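/-
Rational structures on formed spaces and overgroups of subfield subgroups: the common part.
-/
import Cfsg.Agent.CLAS.MaxSLO

set_option autoImplicit false

namespace CL.Root

open Module CL.Witt CL.Witt.Form CL.Tv

/-- `f` is obtained from `f₀` by extension of scalars, up to the scalar `η`. -/
structure RatExt {F₀ F : Type*} [Field F₀] [Field F] [Algebra F₀ F] {T₀ : FormType F₀}
    {T : FormType F} {V₀ V : Type*} [AddCommGroup V₀] [Module F₀ V₀] [AddCommGroup V] [Module F V]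
    (f₀ : Form T₀ V₀) (f : Form T V) where
  j : V₀ →+ V
  η : F
  η_ne : η ≠ 0
  j_smul : ∀ (c : F₀) v, j (c • v) = algebraMap F₀ F c • j v
  span : Submodule.span F (Set.range j) = ⊤
  hB : ∀ u v, algebraMap F₀ F (f₀.B u v) = η * f.B (j u) (j v)
  hσ : ∀ c, T.σ (algebraMap F₀ F c) = algebraMap F₀ F (T₀.σ c)
  hε : T.ε * T.σ η = algebraMap F₀ F T₀.ε * η
  hq : ∀ v a, T₀.π a = f₀.q v → T.π (T.σ η * algebraMap F₀ F a) = T.σ η * η * f.q (j v)

namespace RatExt

variable {F₀ F : Type*} [Field F₀] [Field F] [Algebra F₀ F] {T₀ : FormType F₀}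
  {T : FormType F} {V₀ V : Type*} [AddCommGroup V₀] [Module F₀ V₀] [AddCommGroup V] [Module F V]
  {f₀ : Form T₀ V₀} {f : Form T V} (R : RatExt f₀ f)

local notation "ι₀" => algebraMap F₀ F

theorem ση_ne : T.σ R.η ≠ 0 := fun h => R.η_ne (T.σ_eq_zero.1 h)

theorem q_j {u : V₀} (hu : f₀.q u = 0) : f.q (R.j u) = 0 := by
  have := R.hq u 0 (by rw [map_zero, hu])
  rw [map_zero, mul_zero, map_zero] at this
  exact (mul_eq_zero.1 this.symm).resolve_left (mul_ne_zero R.ση_ne R.η_ne)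

theorem B_j_eq_zero_iff {u v : V₀} : f.B (R.j u) (R.j v) = 0 ↔ f₀.B u v = 0 := by
  rw [← (map_eq_zero (algebraMap F₀ F)), R.hB, mul_eq_zero, or_iff_right R.η_ne]

theorem B_j_η (u v : V₀) : f.B (R.j u) (R.η • R.j v) = ι₀ (f₀.B u v) := by
  rw [f.B_smul_right, R.hB]

theorem ok {u v : V₀} {a : F₀} (h : f₀.EichOK u v a) :
    f.EichOK (R.j u) (R.η • R.j v) (T.σ R.η * ι₀ a) :=
  ⟨R.q_j h.hu, by rw [R.B_j_η, h.huv, map_zero], by rw [R.hq v a h.ha, f.q_smul]⟩

/-- The rational Eichler element. -/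
noncomputable def ei (u v : V₀) (a : F₀) : V ≃ₗ[F] V :=
  f.ei (R.j u) (R.η • R.j v) (T.σ R.η * ι₀ a)

theorem ei_mem_O (u v : V₀) (a : F₀) : R.ei u v a ∈ f.O := Form.ei_mem_O _ _ _

theorem ei_mem_E (u v : V₀) (a : F₀) : R.ei u v a ∈ f.E := Form.ei_mem_E _ _ _

theorem ei_apply {u v : V₀} {a : F₀} (h : f₀.EichOK u v a) (x : V) :
    R.ei u v a x = x + (R.η * f.B (R.j u) x) • R.j v -
      (ι₀ T₀.ε * R.η * (f.B (R.j v) x + ι₀ a * f.B (R.j u) x)) • R.j u := by
  rw [ei, (R.ok h).ei_apply, f.B_smul_left, smul_smul, ← R.hε]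
  congr 2
  · rw [mul_comm]
  · ring

theorem ei_j {u v : V₀} {a : F₀} (h : f₀.EichOK u v a) (x : V₀) :
    R.ei u v a (R.j x) = R.j (f₀.ei u v a x) := by
  rw [R.ei_apply h, h.ei_apply, map_sub, map_add, R.j_smul, R.j_smul, ← R.hB]
  congr 2
  rw [map_mul, map_add, map_mul, R.hB, R.hB]; ring

theorem ei_fix {u v : V₀} {a : F₀} (h : f₀.EichOK u v a) {x : V₀} (hu : f₀.B u x = 0)
    (hv : f₀.B v x = 0) : R.ei u v a (R.j x) = R.j x := by
  rw [R.ei_j h, h.ei_apply_fix hu hv]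

theorem ext_j {W : Type*} [AddCommGroup W] [Module F W] {g h : V →ₗ[F] W}
    (H : ∀ v, g (R.j v) = h (R.j v)) : g = h :=
  LinearMap.ext_on_range R.span H

theorem eq_zero_of_B (hf : f.Nondeg) {x : V} (h : ∀ u, f.B x (R.j u) = 0) : x = 0 :=
  hf x fun y => by
    have : f.B x = 0 := R.ext_j (by simpa using h)
    rw [this]; rfl

theorem eq_zero_of_B' (hf : f.Nondeg) {x : V} (h : ∀ u, f.B (R.j u) x = 0) : x = 0 :=
  R.eq_zero_of_B hf fun u => f.B_eq_zero_symm (h u)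

theorem j_injective (hf₀ : f₀.Nondeg) : Function.Injective R.j := by
  rw [injective_iff_map_eq_zero]
  intro v hv
  exact hf₀ v fun y => R.B_j_eq_zero_iff.1 (by rw [hv, f.B_zero_left])

theorem j_ne_zero (hf₀ : f₀.Nondeg) {v : V₀} (hv : v ≠ 0) : R.j v ≠ 0 := fun h =>
  hv (R.j_injective hf₀ (by rw [h, map_zero]))

/-- The values of the form between a vector and the rational vectors. -/
def φ (x : V) : V₀ →+ F := (AddMonoidHom.mulLeft R.η).comp ((f.B.flip x).toAddMonoidHom.comp R.j)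

theorem φ_apply (x : V) (u : V₀) : R.φ x u = R.η * f.B (R.j u) x := rfl

theorem φ_smul (x : V) (c : F₀) (u : V₀) : R.φ x (c • u) = ι₀ (T₀.σ c) * R.φ x u := by
  rw [φ_apply, φ_apply, R.j_smul, f.B_smul_left, R.hσ]; ring

theorem φ_j (v u : V₀) : R.φ (R.j v) u = ι₀ (f₀.B u v) := (R.hB u v).symm

theorem φ_eq_zero_iff {x : V} {u : V₀} : R.φ x u = 0 ↔ f.B (R.j u) x = 0 := by
  rw [φ_apply, mul_eq_zero, or_iff_right R.η_ne]

variable [FiniteDimensional F₀ V₀]

/-- A vector whose products with the rational vectors are rational is rational. -/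
theorem exists_eq_j (hf₀ : f₀.Nondeg) (hf : f.Nondeg) {x : V}
    (h : ∀ u, R.φ x u ∈ Set.range (algebraMap F₀ F)) : ∃ v, x = R.j v := by
  choose l hl using h
  have hinj := (algebraMap F₀ F).injective
  let L : V₀ →ₗ[F₀] F₀ :=
    { toFun := fun u => T₀.σ (l u)
      map_add' := fun u u' => by
        rw [← map_add]; congr 1; apply hinj; rw [map_add, hl, hl, hl, map_add]
      map_smul' := fun c u => by
        have : l (c • u) = T₀.σ c * l u := by
          apply hinj; rw [map_mul, hl, hl, R.φ_smul]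
        rw [this, map_mul, T₀.σσ]; rfl }
  obtain ⟨t, ht⟩ := hf₀.exists_rep L
  refine ⟨T₀.ε • t, sub_eq_zero.1 (R.eq_zero_of_B' hf fun u => ?_)⟩
  rw [← R.φ_eq_zero_iff, φ_apply, f.B_sub_right, mul_sub, ← φ_apply, ← R.hB, ← hl, ← map_sub,
    f₀.B_smul_right, f₀.symm t u, ht, T₀.ε_mul_ε_mul]
  change ι₀ (l u - T₀.σ (T₀.σ (l u))) = 0
  rw [T₀.σσ, sub_self, map_zero]

theorem mem_range_of_smul (hf₀ : f₀.Nondeg) {c : F} {v v' : V₀} (hv : v ≠ 0)
    (h : c • R.j v = R.j v') : c ∈ Set.range (algebraMap F₀ F) := by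
  obtain ⟨t, ht⟩ := hf₀.exists_B_eq hv (T₀.ε)
  have h1 : f₀.B t v = 1 := by rw [f₀.symm, ht, T₀.σε, T₀.εε]
  refine ⟨f₀.B t v', ?_⟩
  rw [R.hB, ← h, f.B_smul_right, mul_left_comm, ← R.hB, h1, map_one, mul_one]

omit [FiniteDimensional F₀ V₀] in
/-- The stabiliser of the rational structure up to scalars. -/
def stab : Subgroup (V ≃ₗ[F] V) where
  carrier := {g | ∃ μ : F, μ ≠ 0 ∧ ∀ w, w ∈ Set.range R.j ↔ μ • g w ∈ Set.range R.j}
  mul_mem' := by
    rintro g h ⟨μ, hμ, hg⟩ ⟨ν, hν, hh⟩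
    refine ⟨μ * ν, mul_ne_zero hμ hν, fun w => ?_⟩
    rw [hh, hg, map_smul, smul_smul, LinearEquiv.mul_apply]
  one_mem' := ⟨1, one_ne_zero, fun w => by simp⟩
  inv_mem' := by
    rintro g ⟨μ, hμ, hg⟩
    refine ⟨μ⁻¹, inv_ne_zero hμ, fun w => ?_⟩
    rw [hg (μ⁻¹ • g⁻¹ w), map_smul, smul_smul, mul_inv_cancel₀ hμ, one_smul,
      ← LinearEquiv.mul_apply, mul_inv_cancel, LinearEquiv.coe_one, id]

omit [FiniteDimensional F₀ V₀] in
theorem mem_stab {g : V ≃ₗ[F] V} :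
    g ∈ R.stab ↔ ∃ μ : F, μ ≠ 0 ∧ ∀ w, w ∈ Set.range R.j ↔ μ • g w ∈ Set.range R.j := Iff.rfl

omit [FiniteDimensional F₀ V₀] in
theorem mem_stab_of_le [Finite V₀] (hf₀ : f₀.Nondeg) {g : V ≃ₗ[F] V} {μ : F} (hμ : μ ≠ 0)
    (h : ∀ v, μ • g (R.j v) ∈ Set.range R.j) : g ∈ R.stab := by
  choose l hl using h
  have hinj : Function.Injective l := fun v v' e => by
    have := hl v
    rw [e, hl v'] at this
    exact (R.j_injective hf₀ (g.injective (smul_right_injective V hμ this))).symm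
  refine ⟨μ, hμ, fun w => ⟨?_, ?_⟩⟩
  · rintro ⟨v, rfl⟩; exact ⟨l v, hl v⟩
  · rintro ⟨v, hv⟩
    obtain ⟨v', rfl⟩ := Finite.injective_iff_surjective.1 hinj v
    rw [hl] at hv
    exact ⟨v', g.injective (smul_right_injective V hμ hv)⟩

omit [FiniteDimensional F₀ V₀] in
theorem ei_mem_stab [Finite V₀] (hf₀ : f₀.Nondeg) {u v : V₀} {a : F₀} (h : f₀.EichOK u v a) :
    R.ei u v a ∈ R.stab :=
  R.mem_stab_of_le hf₀ one_ne_zero fun x => ⟨_, by rw [one_smul, R.ei_j h]⟩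

/-- `K` contains the rational Eichler elements. -/
def Over (K : Subgroup (V ≃ₗ[F] V)) : Prop := ∀ u v a, f₀.EichOK u v a → R.ei u v a ∈ K

variable {R} {K : Subgroup (V ≃ₗ[F] V)}

omit [FiniteDimensional F₀ V₀] in
theorem exists_lift_of {S : Subgroup (V ≃ₗ[F] V)} (hS : ∀ u v a, f₀.EichOK u v a → R.ei u v a ∈ S)
    {e₀ : V₀ ≃ₗ[F₀] V₀} (he : e₀ ∈ f₀.E) : ∃ e ∈ S, ∀ v, e (R.j v) = R.j (e₀ v) := by
  let S₀ : Subgroup (V₀ ≃ₗ[F₀] V₀) :=
    { carrier := {e₀ | ∃ e ∈ S, ∀ v, e (R.j v) = R.j (e₀ v)}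
      mul_mem' := by
        rintro a b ⟨e, he, h⟩ ⟨e', he', h'⟩
        exact ⟨e * e', S.mul_mem he he', fun v => by
          rw [LinearEquiv.mul_apply, h', h, LinearEquiv.mul_apply]⟩
      one_mem' := ⟨1, S.one_mem, fun v => rfl⟩
      inv_mem' := by
        rintro a ⟨e, he, h⟩
        refine ⟨e⁻¹, S.inv_mem he, fun v => e.injective ?_⟩
        rw [h, ← LinearEquiv.mul_apply, ← LinearEquiv.mul_apply, mul_inv_cancel, mul_inv_cancel]
        rfl }
  exact (E_le_iff' (M := S₀)).2 (fun u v a h => ⟨_, hS u v a h, R.ei_j h⟩) he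

omit [FiniteDimensional F₀ V₀] in
theorem Over.exists_lift (hK : R.Over K) {e₀ : V₀ ≃ₗ[F₀] V₀} (he : e₀ ∈ f₀.E) :
    ∃ e ∈ K, e ∈ f.O ∧ ∀ v, e (R.j v) = R.j (e₀ v) := by
  obtain ⟨e, he, h⟩ := exists_lift_of (R := R) (S := K ⊓ f.O)
    (fun u v a h => ⟨hK u v a h, R.ei_mem_O u v a⟩) he
  exact ⟨e, he.1, he.2, h⟩

omit [FiniteDimensional F₀ V₀] in
theorem Over.rad (hK : R.Over K) {u v : V₀} (hu : f₀.q u = 0) (huv : f₀.B u v = 0) :
    Rad f K (R.j u) (R.η • R.j v) := by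
  obtain ⟨a, h⟩ := exists_eichOK hu huv
  exact ⟨_, R.ok h, hK u v a h⟩

omit [FiniteDimensional F₀ V₀] in
theorem Over.rad_sub (hK : R.Over K) {u a b : V₀} (ha : f₀.q a = 0) (hb : f₀.q b = 0)
    (hab : f₀.B a b = 0) (hau : f₀.B a u = 0) (hbu : f₀.B b u = 0) {w : V}
    (hw : Rad f K (R.j u) w) :
    Rad f K (R.j u) (R.φ w a • R.j b - (ι₀ T₀.ε * R.φ w b) • R.j a) := by
  have ok : f₀.EichOK a b 0 := ⟨ha, hab, by rw [map_zero, hb]⟩
  have := hw.sub_fix (hK _ _ _ ok) (R.ei_mem_O _ _ _) (R.ei_fix ok hau hbu)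
  rw [R.ei_apply ok, map_zero, zero_mul, add_zero] at this
  convert this using 1
  rw [φ_apply, φ_apply, mul_assoc]; abel

/-- An irrational multiple of one rational vector in the radical spreads to all of them. -/
theorem Over.spread (hK : R.Over K) (hf₀ : f₀.Nondeg) (h3 : Sing3 f₀) (hn : 5 ≤ finrank F₀ V₀)
    {u b : V₀} (hu : f₀.q u = 0) (hu0 : u ≠ 0) (hb : b ∉ F₀ ∙ u) {c : F}
    (h : Rad f K (R.j u) (c • R.j b)) (hub : f₀.B u b = 0) :
    ∀ u', f₀.q u' = 0 → u' ≠ 0 → ∀ v, f₀.B u' v = 0 → Rad f K (R.j u') (c • R.j v) := by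
  have key : ∀ v, f₀.B u v = 0 → Rad f K (R.j u) (c • R.j v) := by
    obtain ⟨u', hu', huu'⟩ := hf₀.exists_partner' hu hu0
    set W := f₀.perp (Submodule.span F₀ {u, u'}) with hW
    have hWn : (f₀.restrict W).Nondeg := hf₀.restrict_perp (f₀.restrict_nondeg_pair hu hu' huu')
    have hWr : finrank F₀ W + 2 = finrank F₀ V₀ := by
      have := hf₀.finrank_add_finrank_perp (Submodule.span F₀ {u, u'})
      rw [f₀.finrank_span_pair hu hu' huu'] at this
      rw [hW]; omega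
    have hproj : ∀ z, f₀.B u z = 0 → z - (T₀.ε * f₀.B u' z) • u ∈ W := by
      intro z hz
      have := hyp_proj hu hu' huu' z
      rw [hz, zero_smul, sub_zero] at this
      exact f₀.mem_perp_span_pair.2 this
    obtain ⟨x, hxW, hx0, hx⟩ := h3 W (by omega)
    let D : AddSubgroup V₀ := (radGrp f K (R.q_j hu)).comap
      (((LinearMap.lsmul F V c).toAddMonoidHom).comp R.j)
    have hD : ∀ v, v ∈ D ↔ Rad f K (R.j u) (c • R.j v) := fun v => Iff.rfl
    have hDu : ∀ t : F₀, t • u ∈ D := fun t => by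
      rw [hD, R.j_smul, smul_smul]; exact Rad.smul_self (R.q_j hu) _
    have h2 : ∀ z ∈ W, z ∈ D := by
      refine mem_of_ei_invariant hWn (by omega) hxW hx hx0 (D := D)
        (fun a b t ok ha hb d hd _ => ?_)
        (D.sub_mem ((hD b).2 h) (hDu _)) (hproj b hub) fun h0 => hb ?_
      · rw [hD, ← R.ei_j ok, ← map_smul]
        exact ((hD d).1 hd).conj_fix (hK _ _ _ ok) (R.ei_mem_O _ _ _)
          (R.ei_fix ok (f₀.B_eq_zero_symm (f₀.mem_perp_span_pair.1 ha).1)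
            (f₀.B_eq_zero_symm (f₀.mem_perp_span_pair.1 hb).1))
      · exact Submodule.mem_span_singleton.2 ⟨_, (sub_eq_zero.1 h0).symm⟩
    intro v hv
    have := D.add_mem (h2 _ (hproj v hv)) (hDu (T₀.ε * f₀.B u' v))
    rwa [sub_add_cancel] at this
  intro u' hu' hu0' v hv
  obtain ⟨e₀, he₀, rfl⟩ := (Iso3.idx2 h3 hf₀ hn).exists_E_apply_eq hf₀ hu0 hu0' (by rw [hu, hu'])
  obtain ⟨e, heK, heO, he⟩ := hK.exists_lift he₀
  have := (key (e₀⁻¹ v) (by rw [← B_apply_left (E_le_O he₀), hv])).conj heK heO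
  rwa [map_smul, he, he, ← LinearEquiv.mul_apply, mul_inv_cancel] at this

/-- Two steps of commutators with rational root elements isolate one coordinate. -/
theorem Over.extract (hK : R.Over K) (hf₀ : f₀.Nondeg) (h3 : Sing3 f₀) (hn : 11 ≤ finrank F₀ V₀)
    {u a : V₀} (hu : f₀.q u = 0) (hu0 : u ≠ 0) (ha : f₀.q a = 0) (hau : f₀.B a u = 0) {w : V}
    (hw : Rad f K (R.j u) w) :
    ∀ u', f₀.q u' = 0 → u' ≠ 0 → ∀ v, f₀.B u' v = 0 → Rad f K (R.j u') (R.φ w a • R.j v) := by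
  obtain ⟨b, hb, hb0, hbH⟩ := exists_sol_zero hf₀ h3 (Submodule.span F₀ {u, a})
    (by have := finrank_span_pair_le (F := F₀) u a; omega)
  have hub : f₀.B u b = 0 := hb u (Submodule.subset_span (by simp))
  have hab : f₀.B a b = 0 := hb a (Submodule.subset_span (by simp))
  have h1 := hK.rad_sub ha hb0 hab hau (f₀.B_eq_zero_symm hub) hw
  obtain ⟨a', ha', hba', ha'0, -⟩ := exists_sol_one hf₀ h3 (Submodule.span F₀ {u, a})
    (by have := finrank_span_pair_le (F := F₀) u a; omega) hbH T₀.ε 0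
  rw [map_zero] at ha'0
  have hua' : f₀.B u a' = 0 := ha' u (Submodule.subset_span (by simp))
  have haa' : f₀.B a a' = 0 := ha' a (Submodule.subset_span (by simp))
  have ha'b : f₀.B a' b = 1 := by rw [f₀.symm, hba', T₀.σε, T₀.εε]
  obtain ⟨b', hb', hb'0, hb'H⟩ := exists_sol_zero hf₀ h3 (Submodule.span F₀ {u, a, b, a'})
    (by have := finrank_span_four_le (F := F₀) u a b a'; omega)
  have hub' : f₀.B u b' = 0 := hb' u (Submodule.subset_span (by simp))
  have hab' : f₀.B a b' = 0 := hb' a (Submodule.subset_span (by simp))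
  have hbb' : f₀.B b b' = 0 := hb' b (Submodule.subset_span (by simp))
  have ha'b' : f₀.B a' b' = 0 := hb' a' (Submodule.subset_span (by simp))
  have h2 := hK.rad_sub ha'0 hb'0 ha'b' (f₀.B_eq_zero_symm hua') (f₀.B_eq_zero_symm hub') h1
  have e1 : R.φ (R.φ w a • R.j b - (ι₀ T₀.ε * R.φ w b) • R.j a) a' = R.φ w a := by
    rw [φ_apply R _ a', f.B_sub_right, f.B_smul_right, f.B_smul_right,
      R.B_j_eq_zero_iff.2 (f₀.B_eq_zero_symm haa'), mul_zero, sub_zero, mul_left_comm, ← R.hB, ha'b,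
      map_one, mul_one]
  have e2 : R.φ (R.φ w a • R.j b - (ι₀ T₀.ε * R.φ w b) • R.j a) b' = 0 := by
    rw [φ_apply R _ b', f.B_sub_right, f.B_smul_right, f.B_smul_right,
      R.B_j_eq_zero_iff.2 (f₀.B_eq_zero_symm hab'), R.B_j_eq_zero_iff.2 (f₀.B_eq_zero_symm hbb')]
    simp
  rw [e1, e2, mul_zero, zero_smul, sub_zero] at h2
  exact hK.spread hf₀ h3 (by omega) hu hu0
    (fun h => hb'H (Submodule.span_mono (by simp) h)) h2 hub'

/-- The ring of parameters of the root elements contained in `K`. -/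
def Over.par (hK : R.Over K) (hKO : K ≤ f.O) (hf₀ : f₀.Nondeg) (h3 : Sing3 f₀)
    (hn : 11 ≤ finrank F₀ V₀) : Subalgebra F₀ F where
  carrier := {c | ∀ u, f₀.q u = 0 → u ≠ 0 → ∀ v, f₀.B u v = 0 →
    Rad f K (R.j u) ((c * R.η) • R.j v)}
  add_mem' {c d} hc hd u hu hu0 v hv := by
    rw [add_mul, add_smul]; exact (hc u hu hu0 v hv).add (hd u hu hu0 v hv)
  algebraMap_mem' c u hu hu0 v hv := by
    rw [mul_comm, mul_smul, ← R.j_smul]
    exact hK.rad hu (by rw [f₀.B_smul_right, hv, mul_zero])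
  mul_mem' {c d} hc hd := by
    obtain ⟨u, hu0, hu⟩ := Iso3.exists_singular h3 (by omega)
    obtain ⟨p, p', hp, hp', hp0, hp'0, hpp'⟩ := exists_hyp_perp hf₀ h3 (F₀ ∙ u)
      (by have := finrank_span_single_le (F := F₀) u; omega)
    rw [mem_perp_span_singleton] at hp hp'
    obtain ⟨s, s', hs, hs', hs0, hs'0, hss'⟩ := exists_hyp_perp hf₀ h3
      (Submodule.span F₀ {u, p, p'}) (by have := finrank_span_triple_le (F := F₀) u p p'; omega)
    rw [mem_perp_span] at hs hs'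
    have hp00 : p ≠ 0 := by rintro rfl; simp at hpp'
    obtain ⟨a, ok, hy⟩ := hd p hp0 hp00 s' (hs' p (by simp))
    have hyu : f.ei (R.j p) ((d * R.η) • R.j s') a (R.j u) = R.j u :=
      ok.ei_apply_fix (R.B_j_eq_zero_iff.2 (f₀.B_eq_zero_symm hp)) (by
        rw [f.B_smul_left, R.B_j_eq_zero_iff.2 (f₀.B_eq_zero_symm (hs' u (by simp))), mul_zero])
    have h1 := (hc u hu hu0 p' hp').conj_fix hy (hKO hy) hyu
    have h2 := hK.extract hf₀ h3 hn hu hu0 hs0 (f₀.B_eq_zero_symm (hs u (by simp))) h1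
    have e : R.φ (f.ei (R.j p) ((d * R.η) • R.j s') a ((c * R.η) • R.j p')) s =
        c * d * R.η := by
      have e1 : R.η * f.B (R.j p) (R.j p') = 1 := by rw [← R.hB, hpp', map_one]
      have e2 : R.η * f.B (R.j s) (R.j s') = 1 := by rw [← R.hB, hss', map_one]
      rw [φ_apply, map_smul, ok.ei_apply, f.B_smul_right, f.B_sub_right, f.B_add_right,
        f.B_smul_right, f.B_smul_right, f.B_smul_right,
        R.B_j_eq_zero_iff.2 (f₀.B_eq_zero_symm (hs p' (by simp))),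
        R.B_j_eq_zero_iff.2 (f₀.B_eq_zero_symm (hs p (by simp)))]
      linear_combination (c * d * R.η * (R.η * f.B (R.j s) (R.j s'))) * e1 + c * d * R.η * e2
    rwa [e] at h2

theorem Over.mem_par (hK : R.Over K) (hKO : K ≤ f.O) (hf₀ : f₀.Nondeg) (h3 : Sing3 f₀)
    (hn : 11 ≤ finrank F₀ V₀) {c : F} : c ∈ hK.par hKO hf₀ h3 hn ↔
      ∀ u, f₀.q u = 0 → u ≠ 0 → ∀ v, f₀.B u v = 0 → Rad f K (R.j u) ((c * R.η) • R.j v) := Iff.rfl

variable (R K) in
/-- The radicals contained in `K` are the rational ones. -/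
def Small : Prop := ∀ u, f₀.q u = 0 → u ≠ 0 → ∀ w, Rad f K (R.j u) w →
  ∃ (v : V₀) (c : F), w = R.η • R.j v + c • R.j u

theorem Over.small_of_par (hK : R.Over K) (hKO : K ≤ f.O) (hf₀ : f₀.Nondeg) (hf : f.Nondeg)
    (h3 : Sing3 f₀) (hn : 11 ≤ finrank F₀ V₀) (h : hK.par hKO hf₀ h3 hn = ⊥) : R.Small K := by
  intro u hu hu0 w hw
  have h1 : ∀ a, f₀.q a = 0 → f₀.B a u = 0 → R.φ (R.η⁻¹ • w) a ∈ (algebraMap F₀ F).range := by
    intro a ha hau
    have : R.φ (R.η⁻¹ • w) a ∈ hK.par hKO hf₀ h3 hn := by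
      rw [Over.mem_par]
      have e : R.φ (R.η⁻¹ • w) a * R.η = R.φ w a := by
        rw [φ_apply, φ_apply, f.B_smul_right]; field_simp [R.η_ne]
      rw [e]
      exact hK.extract hf₀ h3 hn hu hu0 ha hau hw
    rwa [h, Algebra.mem_bot] at this
  obtain ⟨p, p', hp, hp', hp0, hp'0, hpp'⟩ := exists_hyp_perp hf₀ h3 (F₀ ∙ u)
    (by have := finrank_span_single_le (F := F₀) u; omega)
  have h2 : ∀ a ∈ f₀.perp (F₀ ∙ u), R.φ (R.η⁻¹ • w) a ∈ (algebraMap F₀ F).range :=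
    induction_singular hp0 hp'0 (by rw [hpp']; exact one_ne_zero) hp hp'
      (((algebraMap F₀ F).range.toAddSubgroup).comap (R.φ (R.η⁻¹ • w)))
      fun a ha ha0 => h1 a ha0 (f₀.B_eq_zero_symm (f₀.mem_perp_span_singleton.1 ha))
  obtain ⟨u', hu', huu'⟩ := hf₀.exists_partner' hu hu0
  have hu'u : f₀.B u' u = T₀.ε := hyp_B_swap huu'
  set c := ι₀ T₀.ε * R.φ (R.η⁻¹ • w) u' with hc
  obtain ⟨v, hv⟩ := R.exists_eq_j hf₀ hf (x := R.η⁻¹ • w - c • R.j u) fun a => by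
    have e : ∀ z, R.φ (R.η⁻¹ • w - c • R.j u) z = R.φ (R.η⁻¹ • w) z - c * ι₀ (f₀.B z u) := by
      intro z
      rw [φ_apply, φ_apply, f.B_sub_right, f.B_smul_right (c := c), R.hB]; ring
    have ha : a = (a - f₀.B u a • u') + f₀.B u a • u' := by abel
    have hau : f₀.B u (a - f₀.B u a • u') = 0 := by
      rw [f₀.B_sub_right, f₀.B_smul_right, huu', mul_one, sub_self]
    have e' : c * ι₀ T₀.ε = R.φ (R.η⁻¹ • w) u' := by
      rw [hc, mul_right_comm, ← map_mul, T₀.εε, map_one, one_mul]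
    rw [ha, map_add, R.φ_smul, e u', e, f₀.B_eq_zero_symm hau, hu'u, e']
    simpa using h2 _ (f₀.mem_perp_span_singleton.2 hau)
  refine ⟨v, R.η * c, ?_⟩
  rw [← hv, smul_sub, smul_smul, smul_smul, mul_inv_cancel₀ R.η_ne, one_smul, sub_add_cancel]

theorem Over.rad_of_par (hK : R.Over K) (hKO : K ≤ f.O) (hf₀ : f₀.Nondeg)
    (h3 : Sing3 f₀) (hn : 11 ≤ finrank F₀ V₀) (h : hK.par hKO hf₀ h3 hn = ⊤) {u : V₀}
    (hu : f₀.q u = 0) (hu0 : u ≠ 0) {w : V} (hw : f.B (R.j u) w = 0) : Rad f K (R.j u) w := by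
  obtain ⟨u', hu', huu'⟩ := hf₀.exists_partner' hu hu0
  let S : Submodule F V :=
    { carrier := {w | ∀ c : F, Rad f K (R.j u) (c • (w - R.φ w u • R.j u'))}
      add_mem' := fun {a b} ha hb c => by
        have := (ha c).add (hb c)
        convert this using 1
        rw [φ_apply, φ_apply, φ_apply, f.B_add_right]; module
      zero_mem' := fun c => by
        rw [φ_apply, f.B_zero_right]; simpa using Rad.zero (R.q_j hu)
      smul_mem' := fun t a ha c => by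
        have := ha (c * t)
        convert this using 1
        rw [φ_apply, φ_apply, f.B_smul_right]; module }
  have hS : S = ⊤ := by
    rw [eq_top_iff, ← R.span, Submodule.span_le]
    rintro _ ⟨v, rfl⟩ c
    have hc : c * R.η⁻¹ ∈ hK.par hKO hf₀ h3 hn := by rw [h]; trivial
    have := hc u hu hu0 (v - f₀.B u v • u')
      (by rw [f₀.B_sub_right, f₀.B_smul_right, huu', mul_one, sub_self])
    rwa [inv_mul_cancel_right₀ R.η_ne, map_sub, R.j_smul, ← R.φ_j] at this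
  have : w ∈ S := by rw [hS]; trivial
  have := this 1
  rwa [φ_apply, hw, mul_zero, zero_smul, sub_zero, one_smul] at this

variable (R) in
/-- The centre of the unipotent radical follows from the rest. -/
def CenOK : Prop := ∀ K : Subgroup (V ≃ₗ[F] V), R.Over K → K ≤ f.O → ∀ u, f₀.q u = 0 → u ≠ 0 →
  (∀ w, f.B (R.j u) w = 0 → Rad f K (R.j u) w) → Cen f K (R.j u)

theorem cenOK_of_π (hf₀ : f₀.Nondeg) (h3 : Sing3 f₀) (hn : 5 ≤ finrank F₀ V₀)
    (hπ : ∀ a, T.π a = 0 → ∃ c, a = c - T.ε * T.σ c) : R.CenOK := by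
  intro K _ _ u _ _ h a ha
  obtain ⟨c, rfl⟩ := hπ a ha
  obtain ⟨p, p', hp, hp', -, -, hpp'⟩ := exists_hyp_perp hf₀ h3 (F₀ ∙ u)
    (by have := finrank_span_single_le (F := F₀) u; omega)
  rw [mem_perp_span_singleton] at hp hp'
  have := (h (R.j p) (R.B_j_eq_zero_iff.2 hp)).comm (h ((c * R.η) • R.j p')
    (by rw [f.B_smul_right, R.B_j_eq_zero_iff.2 hp', mul_zero]))
  have e : f.B (R.j p) ((c * R.η) • R.j p') = c := by
    rw [f.B_smul_right, mul_assoc, ← R.hB, hpp', map_one, mul_one]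
  rwa [f.symm (R.j p), e] at this

variable [FiniteDimensional F V]

theorem Over.E_le_or_small (hK : R.Over K) (hKO : K ≤ f.O) (hf₀ : f₀.Nondeg) (hf : f.Nondeg)
    (h3 : Sing3 f₀) (hn : 11 ≤ finrank F₀ V₀) (hr : (finrank F₀ F).Prime) (hc : R.CenOK) :
    f.E ≤ K ∨ R.Small K := by
  have := Subalgebra.isSimpleOrder_of_finrank_prime F₀ F hr
  rcases eq_bot_or_eq_top (hK.par hKO hf₀ h3 hn) with h | h
  · exact Or.inr (hK.small_of_par hKO hf₀ hf h3 hn h)
  · left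
    have key : ∀ u, f₀.q u = 0 → u ≠ 0 → f.U (R.j u) ≤ K := fun u hu hu0 =>
      U_le_of_rad (hc K hK hKO u hu hu0 fun w hw => hK.rad_of_par hKO hf₀ h3 hn h hu hu0 hw)
        fun w hw => hK.rad_of_par hKO hf₀ h3 hn h hu hu0 hw
    obtain ⟨u, hu0, hu⟩ := Iso3.exists_singular h3 (by omega)
    obtain ⟨u', hu', huu'⟩ := hf₀.exists_partner' hu hu0
    exact hf.E_le_of_B_ne (R.q_j hu) (R.q_j hu')
      (fun h => by rw [R.B_j_eq_zero_iff, huu'] at h; exact one_ne_zero h) (key u hu hu0)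
      (key u' hu' (by rintro rfl; simp at huu'))

omit [FiniteDimensional F V] in
/-- An element of `K` fixing a rational subspace of codimension at most four is rational. -/
theorem Small.rat_of_fix (hs : R.Small K) (hK : R.Over K) (hKO : K ≤ f.O) (hf₀ : f₀.Nondeg)
    (h3 : Sing3 f₀) (hn : 13 ≤ finrank F₀ V₀) {y : V ≃ₗ[F] V} (hy : y ∈ K)
    {H : Submodule F₀ V₀} (hH : finrank F₀ H ≤ 4) (hfix : ∀ u ∈ f₀.perp H, y (R.j u) = R.j u)
    (v : V₀) : y (R.j v) ∈ Set.range R.j := by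
  obtain ⟨u, hu, hu0, huH⟩ := exists_sol_zero hf₀ h3 (H ⊔ F₀ ∙ v)
    (by have := finrank_sup_span_le H v; omega)
  have huH' : u ∉ H := fun h => huH (Submodule.mem_sup_left h)
  have hu00 : u ≠ 0 := by rintro rfl; exact huH' H.zero_mem
  have hvu : f₀.B v u = 0 := hu v (Submodule.mem_sup_right (Submodule.mem_span_singleton_self v))
  obtain ⟨v', c, h⟩ := hs u hu0 hu00 _ ((hK.rad hu0 (f₀.B_eq_zero_symm hvu)).conj_fix hy (hKO hy)
    (hfix u fun w hw => hu w (Submodule.mem_sup_left hw)))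
  obtain ⟨t, ht, htu⟩ := hf₀.exists_perp_eq huH' 1
  have h1 := mem_O_B (hKO hy) (R.j t) (R.η • R.j v)
  rw [hfix t (f₀.mem_perp'.2 ht), h, f.B_add_right, R.B_j_η, R.B_j_η, f.B_smul_right] at h1
  have h2 : R.η * f.B (R.j t) (R.j u) = 1 := by rw [← R.hB, htu, map_one]
  have h3 : c = ι₀ (f₀.B t v - f₀.B t v') * R.η := by
    rw [map_sub]; linear_combination R.η * h1 - c * h2
  refine ⟨v' + (f₀.B t v - f₀.B t v') • u, smul_right_injective V R.η_ne ?_⟩
  dsimp only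
  rw [← map_smul y, h, h3, map_add, R.j_smul, smul_add, smul_smul, mul_comm]

omit [FiniteDimensional F V] in
/-- An additive subgroup invariant under the rational Eichler elements contains a multiple of the
rational structure. -/
theorem exists_smul_mem (hf₀ : f₀.Nondeg) (hf : f.Nondeg) (h3 : Sing3 f₀)
    (hn : 11 ≤ finrank F₀ V₀) {D : AddSubgroup V}
    (hD : ∀ u v a, f₀.EichOK u v a → ∀ w ∈ D, R.ei u v a w ∈ D) {w : V} (hw : w ∈ D) (hw0 : w ≠ 0) :
    ∃ μ : F, μ ≠ 0 ∧ ∀ v, μ • R.j v ∈ D := by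
  have step : ∀ {a b : V₀}, f₀.q a = 0 → f₀.q b = 0 → f₀.B a b = 0 → ∀ {w : V}, w ∈ D →
      R.φ w a • R.j b - (ι₀ T₀.ε * R.φ w b) • R.j a ∈ D := by
    intro a b ha hb hab w hw
    have ok : f₀.EichOK a b 0 := ⟨ha, hab, by rw [map_zero, hb]⟩
    have := D.sub_mem (hD _ _ _ ok w hw) hw
    rw [R.ei_apply ok, map_zero, zero_mul, add_zero] at this
    convert this using 1
    rw [φ_apply, φ_apply, mul_assoc]; abel
  obtain ⟨a, ha, haw⟩ : ∃ a, f₀.q a = 0 ∧ R.φ w a ≠ 0 := by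
    by_contra! H
    refine hw0 (R.eq_zero_of_B' hf fun v => R.φ_eq_zero_iff.1 ?_)
    obtain ⟨a, a', rfl, ha, ha'⟩ := eq_add_singular hf₀ h3 (by omega) v
    rw [map_add, H a ha, H a' ha', add_zero]
  obtain ⟨b, hb, hb0, hbH⟩ := exists_sol_zero hf₀ h3 (F₀ ∙ a)
    (by have := finrank_span_single_le (F := F₀) a; omega)
  have hab : f₀.B a b = 0 := hb a (Submodule.mem_span_singleton_self a)
  have h1 := step ha hb0 hab hw
  obtain ⟨a', ha', hba', ha'0, -⟩ := exists_sol_one hf₀ h3 (F₀ ∙ a)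
    (by have := finrank_span_single_le (F := F₀) a; omega) hbH T₀.ε 0
  rw [map_zero] at ha'0
  have haa' : f₀.B a a' = 0 := ha' a (Submodule.mem_span_singleton_self a)
  have ha'b : f₀.B a' b = 1 := by rw [f₀.symm, hba', T₀.σε, T₀.εε]
  obtain ⟨b', hb', hb'0, hb'H⟩ := exists_sol_zero hf₀ h3 (Submodule.span F₀ {a, b, a'})
    (by have := finrank_span_triple_le (F := F₀) a b a'; omega)
  have hab' : f₀.B a b' = 0 := hb' a (Submodule.subset_span (by simp))
  have hbb' : f₀.B b b' = 0 := hb' b (Submodule.subset_span (by simp))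
  have ha'b' : f₀.B a' b' = 0 := hb' a' (Submodule.subset_span (by simp))
  have h2 := step ha'0 hb'0 ha'b' h1
  have e1 : R.φ (R.φ w a • R.j b - (ι₀ T₀.ε * R.φ w b) • R.j a) a' = R.φ w a := by
    rw [φ_apply R _ a', f.B_sub_right, f.B_smul_right, f.B_smul_right,
      R.B_j_eq_zero_iff.2 (f₀.B_eq_zero_symm haa'), mul_zero, sub_zero, mul_left_comm, ← R.hB, ha'b,
      map_one, mul_one]
  have e2 : R.φ (R.φ w a • R.j b - (ι₀ T₀.ε * R.φ w b) • R.j a) b' = 0 := by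
    rw [φ_apply R _ b', f.B_sub_right, f.B_smul_right, f.B_smul_right,
      R.B_j_eq_zero_iff.2 (f₀.B_eq_zero_symm hab'), R.B_j_eq_zero_iff.2 (f₀.B_eq_zero_symm hbb')]
    simp
  rw [e1, e2, mul_zero, zero_smul, sub_zero] at h2
  have hb'00 : b' ≠ 0 := by rintro rfl; exact hb'H (Submodule.zero_mem _)
  let D₀ : AddSubgroup V₀ := D.comap (((LinearMap.lsmul F V (R.φ w a)).toAddMonoidHom).comp R.j)
  have hD₀ : ∀ v, v ∈ D₀ ↔ R.φ w a • R.j v ∈ D := fun v => Iff.rfl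
  have : D₀ = ⊤ := hf₀.addSubgroup_eq_top (by omega) hb'0 hb'00
    (fun u v t ok d hd => by
      rw [hD₀, ← R.ei_j ok, ← map_smul]; exact hD _ _ _ ok _ ((hD₀ d).1 hd))
    (fun h => hb'00 (by rw [← AddSubgroup.mem_bot, ← h]; exact (hD₀ b').2 h2))
  exact ⟨_, haw, fun v => (hD₀ v).1 (by rw [this]; trivial)⟩

omit [FiniteDimensional F V] in
/-- If the conjugates by `g` of the rational Eichler elements are rational, so is `g`. -/
theorem mem_stab_of_conj [Finite V₀] (hf₀ : f₀.Nondeg) (hf : f.Nondeg) (h3 : Sing3 f₀)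
    (hn : 11 ≤ finrank F₀ V₀) {g : V ≃ₗ[F] V}
    (h : ∀ u v a, f₀.EichOK u v a → ∀ x, (g * R.ei u v a * g⁻¹) (R.j x) ∈ Set.range R.j) :
    g ∈ R.stab := by
  obtain ⟨u, hu0, -⟩ := Iso3.exists_singular h3 (by omega)
  obtain ⟨μ, hμ, h⟩ := exists_smul_mem (R := R) hf₀ hf h3 hn
    (D := R.j.range.comap (g : V →ₗ[F] V).toAddMonoidHom) (w := g⁻¹ (R.j u))
    (fun u v a ok w hw => by
      obtain ⟨x, hx⟩ := hw
      have hx' : R.j x = g w := hx
      have := h u v a ok x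
      rw [hx', LinearEquiv.mul_apply, LinearEquiv.mul_apply, ← LinearEquiv.mul_apply g⁻¹,
        inv_mul_cancel] at this
      exact this)
    ⟨u, by
      change R.j u = g (g⁻¹ (R.j u))
      rw [← LinearEquiv.mul_apply, mul_inv_cancel]; rfl⟩
    (fun h => R.j_ne_zero hf₀ hu0 ((g⁻¹).map_eq_zero_iff.1 h))
  exact R.mem_stab_of_le hf₀ hμ fun v => by rw [← map_smul]; exact h v

omit [FiniteDimensional F V] in
/-- It suffices to test generators of the rational group. -/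
theorem mem_stab_of_conj' [Finite V₀] (hf₀ : f₀.Nondeg) (hf : f.Nondeg) (h3 : Sing3 f₀)
    (hn : 11 ≤ finrank F₀ V₀) {g : V ≃ₗ[F] V} (P : V₀ → V₀ → F₀ → Prop)
    (hP : ∀ M : Subgroup (V₀ ≃ₗ[F₀] V₀),
      (∀ u v a, f₀.EichOK u v a → P u v a → f₀.ei u v a ∈ M) → f₀.E ≤ M)
    (h : ∀ u v a, f₀.EichOK u v a → P u v a →
      ∀ x, (g * R.ei u v a * g⁻¹) (R.j x) ∈ Set.range R.j) :
    g ∈ R.stab := by
  refine mem_stab_of_conj hf₀ hf h3 hn fun u v a ok => ?_
  let M : Subgroup (V₀ ≃ₗ[F₀] V₀) :=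
    { carrier := {e₀ | ∃ e : V ≃ₗ[F] V, (∀ v, e (R.j v) = R.j (e₀ v)) ∧
        ∀ w, w ∈ Set.range R.j ↔ (g * e * g⁻¹) w ∈ Set.range R.j}
      mul_mem' := by
        rintro a b ⟨e, he, h⟩ ⟨e', he', h'⟩
        refine ⟨e * e', fun v => by rw [LinearEquiv.mul_apply, he', he, LinearEquiv.mul_apply],
          fun w => ?_⟩
        rw [h', h, ← LinearEquiv.mul_apply]
        group
      one_mem' := ⟨1, fun v => rfl, fun w => by simp⟩
      inv_mem' := by
        rintro a ⟨e, he, h⟩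
        refine ⟨e⁻¹, fun v => e.injective ?_, fun w => ?_⟩
        · rw [he, ← LinearEquiv.mul_apply, ← LinearEquiv.mul_apply, mul_inv_cancel, mul_inv_cancel]
          rfl
        · rw [h ((g * e⁻¹ * g⁻¹) w), ← LinearEquiv.mul_apply]
          have : g * e * g⁻¹ * (g * e⁻¹ * g⁻¹) = 1 := by group
          rw [this]; rfl }
  obtain ⟨e, he, h'⟩ : f₀.ei u v a ∈ M := by
    refine hP M (fun u v a ok hp => ⟨R.ei u v a, R.ei_j ok, fun w => ?_⟩) (Form.ei_mem_E u v a)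
    choose l hl using h u v a ok hp
    have hinj : Function.Injective l := fun v v' e => by
      have := hl v
      rw [e, hl v'] at this
      exact (R.j_injective hf₀ (LinearEquiv.injective _ this)).symm
    refine ⟨?_, ?_⟩
    · rintro ⟨v, rfl⟩; exact ⟨l v, hl v⟩
    · rintro ⟨v, hv⟩
      obtain ⟨v', rfl⟩ := Finite.injective_iff_surjective.1 hinj v
      rw [hl] at hv
      exact ⟨v', LinearEquiv.injective _ hv⟩
  have : e = R.ei u v a := LinearEquiv.toLinearMap_injective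
    (R.ext_j fun x => (he x).trans (R.ei_j ok x).symm)
  intro x
  rw [← this]
  exact (h' _).1 ⟨x, rfl⟩

omit [FiniteDimensional F₀ V₀] [FiniteDimensional F V] in
variable (R) in
/-- The products of a vector with the rational vectors, as a linear map over the small field. -/
def ψ (x : V) : V₀ →ₗ[F₀] F where
  toFun u := f.B x (R.j u)
  map_add' u v := by rw [map_add, map_add]
  map_smul' c u := by rw [R.j_smul, f.B_smul_right, RingHom.id_apply, Algebra.smul_def]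

omit [FiniteDimensional F₀ V₀] [FiniteDimensional F V] in
theorem ψ_apply (x : V) (u : V₀) : R.ψ x u = f.B x (R.j u) := rfl

omit [FiniteDimensional F V] in
theorem Small.rat_of_fix' (hs : R.Small K) (hK : R.Over K) (hKO : K ≤ f.O) (hf₀ : f₀.Nondeg)
    (h3 : Sing3 f₀) (hn : 13 ≤ finrank F₀ V₀) {y : V ≃ₗ[F] V} (hy : y ∈ K)
    {Z : Submodule F₀ V₀} (hZ : finrank F₀ V₀ ≤ finrank F₀ Z + 4)
    (hfix : ∀ u ∈ Z, y (R.j u) = R.j u) (v : V₀) : y (R.j v) ∈ Set.range R.j :=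
  hs.rat_of_fix hK hKO hf₀ h3 hn hy (H := f₀.perp Z)
    (by have := hf₀.finrank_add_finrank_perp Z; omega) (by rwa [hf₀.perp_perp]) v

omit [FiniteDimensional F V] in
theorem Small.rat_ei (hs : R.Small K) (hK : R.Over K) (hKO : K ≤ f.O) (hf₀ : f₀.Nondeg)
    (h3 : Sing3 f₀) (hn : 13 ≤ finrank F₀ V₀) {x x' : V} {a : F} (ok : f.EichOK x x' a)
    (hy : f.ei x x' a ∈ K)
    (hZ : finrank F₀ (LinearMap.range ((R.ψ x).prod (R.ψ x'))) ≤ 4) (v : V₀) :
    f.ei x x' a (R.j v) ∈ Set.range R.j := by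
  refine hs.rat_of_fix' hK hKO hf₀ h3 hn hy (Z := LinearMap.ker ((R.ψ x).prod (R.ψ x')))
    (by have := LinearMap.finrank_range_add_finrank_ker ((R.ψ x).prod (R.ψ x')); omega)
    (fun u hu => ?_) v
  rw [LinearMap.mem_ker, Prod.ext_iff] at hu
  exact ok.ei_apply_fix hu.1 hu.2

/-- Quadratic extensions: every conjugate of a rational Eichler element has small support. -/
theorem Over.E_le_or_mem_two [Finite V₀] (hK : R.Over K) (hKO : K ≤ f.O) (hf₀ : f₀.Nondeg)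
    (hf : f.Nondeg) (h3 : Sing3 f₀) (hn : 13 ≤ finrank F₀ V₀) (hr : finrank F₀ F = 2)
    (hc : R.CenOK) {g : V ≃ₗ[F] V} (hg : g ∈ K) : f.E ≤ K ∨ g ∈ R.stab := by
  refine (hK.E_le_or_small hKO hf₀ hf h3 (by omega) (by rw [hr]; exact Nat.prime_two) hc).imp_right
    fun hs => mem_stab_of_conj hf₀ hf h3 (by omega) fun u v a ok x => ?_
  have : FiniteDimensional F₀ F := Module.finite_of_finrank_pos (by omega)
  have e : g * R.ei u v a * g⁻¹ = _ := (R.ok ok).conj_ei (hKO hg)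
  rw [e]
  refine hs.rat_ei hK hKO hf₀ h3 hn ((R.ok ok).map (hKO hg))
    (e ▸ K.mul_mem (K.mul_mem hg (hK u v a ok)) (K.inv_mem hg)) ?_ x
  refine (Submodule.finrank_le _).trans ?_
  rw [Module.finrank_prod, hr]

omit [FiniteDimensional F V] in
theorem not_E_le_stab (hf₀ : f₀.Nondeg) (h3 : Sing3 f₀) (hn : 7 ≤ finrank F₀ V₀)
    (hr : (finrank F₀ F).Prime) : ¬ f.E ≤ R.stab := by
  intro h
  obtain ⟨c, hc⟩ : ∃ c : F, c ∉ Set.range (algebraMap F₀ F) := by
    by_contra! H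
    have : (⊥ : Subalgebra F₀ F) = ⊤ := eq_top_iff.2 fun c _ => Algebra.mem_bot.2 (H c)
    rw [Subalgebra.bot_eq_top_iff_finrank_eq_one] at this
    rw [this] at hr
    exact Nat.not_prime_one hr
  obtain ⟨u, u', -, -, hu, hu', huu'⟩ := exists_hyp_perp hf₀ h3 ⊥ (by simp; omega)
  obtain ⟨b, hb, hb0, hbH⟩ := exists_sol_zero hf₀ h3 (Submodule.span F₀ {u, u'})
    (by have := finrank_span_pair_le (F := F₀) u u'; omega)
  have hub : f₀.B u b = 0 := hb u (Submodule.subset_span (by simp))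
  have hu'b : f₀.B u' b = 0 := hb u' (Submodule.subset_span (by simp))
  have hb00 : b ≠ 0 := by rintro rfl; exact hbH (Submodule.zero_mem _)
  have ok : f.EichOK (R.j u) ((c * R.η) • R.j b) 0 :=
    ⟨R.q_j hu, by rw [f.B_smul_right, R.B_j_eq_zero_iff.2 hub, mul_zero], by
      rw [map_zero, f.q_smul_eq_zero (R.q_j hb0)]⟩
  obtain ⟨μ, hμ, hμ'⟩ := h (Form.ei_mem_E (R.j u) ((c * R.η) • R.j b) 0)
  obtain ⟨v, hv⟩ := (hμ' (R.j u)).1 ⟨u, rfl⟩
  rw [ok.ei_apply_u] at hv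
  obtain ⟨m, rfl⟩ := R.mem_range_of_smul hf₀ (by rintro rfl; simp at huu') hv.symm
  obtain ⟨w, hw⟩ := (hμ' (R.j u')).1 ⟨u', rfl⟩
  have e1 : f.B (R.j u) (R.j u') * (c * R.η) = c := by
    rw [mul_comm, mul_assoc, ← R.hB, huu', map_one, mul_one]
  rw [ok.ei_apply, f.B_smul_left, R.B_j_eq_zero_iff.2 (f₀.B_eq_zero_symm hu'b), smul_smul, e1]
    at hw
  simp only [mul_zero, zero_mul, add_zero, zero_smul, sub_zero, smul_add, smul_smul] at hw
  obtain ⟨d, hd⟩ := R.mem_range_of_smul hf₀ (c := ι₀ m * c) (v' := w - m • u') hb00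
    (by rw [map_sub, hw, R.j_smul]; abel)
  exact hc ⟨m⁻¹ * d, by rw [map_mul, hd, map_inv₀, inv_mul_cancel_left₀ hμ]⟩

end RatExt

section Mat

open Cfsg Cfsg.Geo Matrix

variable {ι : Type} [Fintype ι] [DecidableEq ι] {F : Type*} [Field F]

/-- The rational structure spanned by the columns of `P`. -/
def ratMap (F₀ : Subfield F) (P : GL ι F) : (ι → F₀) →+ (ι → F) where
  toFun u := (P : Matrix ι ι F) *ᵥ fun i => (u i : F)
  map_zero' := by
    have : (fun i => ((0 : ι → F₀) i : F)) = 0 := rfl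
    rw [this, mulVec_zero]
  map_add' u v := by rw [← mulVec_add]; rfl

theorem ratMap_apply (F₀ : Subfield F) (P : GL ι F) (u : ι → F₀) :
    ratMap F₀ P u = act P fun i => (u i : F) := rfl

theorem ratMap_smul (F₀ : Subfield F) (P : GL ι F) (c : F₀) (u : ι → F₀) :
    ratMap F₀ P (c • u) = algebraMap F₀ F c • ratMap F₀ P u := by
  rw [ratMap_apply, ratMap_apply, ← map_smul]; rfl

theorem ratMap_single (F₀ : Subfield F) (P : GL ι F) (i : ι) :
    ratMap F₀ P (Pi.single i 1) = act P (Pi.single i 1) := by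
  rw [ratMap_apply]; congr 1; ext k
  by_cases h : k = i
  · subst h; simp
  · simp [h]

theorem ratMap_span (F₀ : Subfield F) (P : GL ι F) :
    Submodule.span F (Set.range (ratMap F₀ P)) = ⊤ := by
  rw [eq_top_iff]
  intro x _
  have : x = ∑ i, ((act P).symm x i) • act P (Pi.single i 1) := by
    simp_rw [← map_smul]
    rw [← map_sum, ← pi_eq_sum_univ', LinearEquiv.apply_symm_apply]
  rw [this]
  exact Submodule.sum_mem _ fun i _ => Submodule.smul_mem _ _
    (Submodule.subset_span ⟨_, ratMap_single F₀ P i⟩)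

theorem mem_range_ratMap (F₀ : Subfield F) (P : GL ι F) (x : ι → F) :
    x ∈ Set.range (ratMap F₀ P) ↔ ∀ i, act P⁻¹ x i ∈ F₀ := by
  constructor
  · rintro ⟨u, rfl⟩ i
    rw [ratMap_apply, act_inv_act]; exact (u i).2
  · intro h
    exact ⟨fun i => ⟨_, h i⟩, by rw [ratMap_apply]; exact act_act_inv P x⟩

theorem mem_subfieldSubgroup_iff (F₀ : Subfield F) (P g : GL ι F) :
    g ∈ subfieldSubgroup F₀ P ↔ ∃ μ : F, μ ≠ 0 ∧
      ∀ w, w ∈ Set.range (ratMap F₀ P) ↔ μ • act g w ∈ Set.range (ratMap F₀ P) := by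
  let S : Subgroup (GL ι F) :=
    { carrier := {g | ∃ μ : F, μ ≠ 0 ∧
        ∀ w, w ∈ Set.range (ratMap F₀ P) ↔ μ • act g w ∈ Set.range (ratMap F₀ P)}
      mul_mem' := by
        rintro g h ⟨μ, hμ, hg⟩ ⟨ν, hν, hh⟩
        refine ⟨μ * ν, mul_ne_zero hμ hν, fun w => ?_⟩
        rw [hh, hg, map_smul, smul_smul, act_mul]
      one_mem' := ⟨1, one_ne_zero, fun w => by simp [act]⟩
      inv_mem' := by
        rintro g ⟨μ, hμ, hg⟩
        refine ⟨μ⁻¹, inv_ne_zero hμ, fun w => ?_⟩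
        rw [hg (μ⁻¹ • act g⁻¹ w), map_smul, smul_smul, mul_inv_cancel₀ hμ, one_smul,
          act_act_inv] }
  have hrat : ∀ (A : GL ι F₀) (x : ι → F), (∀ i, x i ∈ F₀) →
      ∀ i, act (GeneralLinearGroup.map F₀.subtype A) x i ∈ F₀ := by
    intro A x hx i
    change (∑ k, ((A : Matrix ι ι F₀) i k : F) * x k) ∈ F₀
    exact F₀.sum_mem fun k _ => F₀.mul_mem (Subtype.prop _) (hx k)
  constructor
  · intro hg
    refine (show subfieldSubgroup F₀ P ≤ S from ?_) hg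
    rw [subfieldSubgroup, Subgroup.map_le_iff_le_comap]
    refine sup_le ?_ ?_
    · rintro _ ⟨A, rfl⟩
      refine ⟨1, one_ne_zero, fun w => ?_⟩
      rw [one_smul, mem_range_ratMap, mem_range_ratMap]
      change _ ↔ ∀ i, act P⁻¹ (act (P * GeneralLinearGroup.map F₀.subtype A * P⁻¹) w) i ∈ F₀
      rw [act_mul, act_mul, act_inv_act]
      refine ⟨hrat A _, fun h => ?_⟩
      have := hrat A⁻¹ _ h
      rwa [map_inv, act_inv_act] at this
    · intro z hz
      obtain ⟨c, hc⟩ := (mem_scalars_iff z).1 hz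
      refine ⟨(c : F)⁻¹, inv_ne_zero c.ne_zero, fun w => ?_⟩
      change _ ↔ (c : F)⁻¹ • act (P * z * P⁻¹) w ∈ _
      have : ∀ y, act z y = (c : F) • y := fun y => by
        change (z : Matrix ι ι F) *ᵥ y = _
        rw [hc, smul_mulVec, one_mulVec]
      rw [act_mul, act_mul, this, map_smul, act_act_inv, smul_smul, inv_mul_cancel₀ c.ne_zero,
        one_smul]
  · rintro ⟨μ, hμ, h⟩
    let z : GL ι F := Units.map (Matrix.scalar ι : F →+* Matrix ι ι F).toMonoidHom (Units.mk0 μ hμ)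
    have hz : z ∈ scalars ι F := ⟨_, rfl⟩
    have hzact : ∀ y, act z y = μ • y := fun y => by
      change (Matrix.scalar ι μ) *ᵥ y = _
      ext i; simp [mulVec_diagonal]
    let A : GL ι F := P⁻¹ * (z * g) * P
    have key : ∀ (C : GL ι F), (∀ x, (∀ i, x i ∈ F₀) → ∀ i, act C x i ∈ F₀) →
        ∀ i k, (C : Matrix ι ι F) i k ∈ F₀ := by
      intro C hC i k
      have := hC (Pi.single k 1) (fun l => by
        by_cases h : l = k
        · subst h; simp
        · simp [h]) i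
      change ((C : Matrix ι ι F) *ᵥ Pi.single k 1) i ∈ F₀ at this
      simpa using this
    have hiff : ∀ x : ι → F, (∀ i, x i ∈ F₀) ↔ ∀ i, act A x i ∈ F₀ := by
      intro x
      have := h (act P x)
      rw [mem_range_ratMap, mem_range_ratMap, act_inv_act, ← hzact] at this
      rw [this]
      simp only [A, act_mul]
    have h1 := key A fun x hx => (hiff x).1 hx
    have h2 := key A⁻¹ fun x hx => (hiff _).2 (by rwa [act_act_inv])
    let A₀ : GL ι F₀ :=
      { val := Matrix.of fun i k => ⟨_, h1 i k⟩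
        inv := Matrix.of fun i k => ⟨_, h2 i k⟩
        val_inv := by
          apply Matrix.map_injective F₀.subtype.injective
          dsimp only
          rw [Matrix.map_mul, Matrix.map_one _ (map_zero _) (map_one _)]
          exact A.val_inv
        inv_val := by
          apply Matrix.map_injective F₀.subtype.injective
          dsimp only
          rw [Matrix.map_mul, Matrix.map_one _ (map_zero _) (map_one _)]
          exact A.inv_val }
    have hA : GeneralLinearGroup.map F₀.subtype A₀ = A := Units.ext rfl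
    refine ⟨(P⁻¹ * z⁻¹ * P) * A, Subgroup.mul_mem _ (Subgroup.mem_sup_right ?_)
      (Subgroup.mem_sup_left ⟨A₀, hA⟩), ?_⟩
    · have := (scalars_normal (ι := ι) (F := F)).conj_mem _ ((scalars ι F).inv_mem hz) P⁻¹
      rwa [inv_inv] at this
    · change P * (P⁻¹ * z⁻¹ * P * (P⁻¹ * (z * g) * P)) * P⁻¹ = g
      group

theorem isMaximalIn_subfield {F₀ : Subfield F} {T₀ : FormType F₀} {T : FormType F} [Finite F]
    {f₀ : Form T₀ (ι → F₀)} {f : Form T (ι → F)} (R : RatExt f₀ f) {P : GL ι F}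
    (hR : R.j = ratMap F₀ P) (hf₀ : f₀.Nondeg) (h3 : Sing3 f₀) (hn : 7 ≤ Fintype.card ι)
    (hr : (finrank F₀ F).Prime) {L : Subgroup (GL ι F)} (hL : ∀ g, g ∈ L ↔ act g ∈ f.E)
    (h : ∀ K, R.Over K → K ≤ f.O → ∀ g ∈ K, f.E ≤ K ∨ g ∈ R.stab) :
    IsMaximalIn L (subfieldSubgroup F₀ P ⊓ L) := by
  refine isMaximalIn_of_act (H' := R.stab) hL
    (fun g => by rw [mem_subfieldSubgroup_iff, R.mem_stab, hR])
    (RatExt.not_E_le_stab hf₀ h3 (by simpa using hn) hr) ?_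
  rintro K h1 h2 ⟨g, hg, hg'⟩
  exact (h K (fun u v a ok => h1 ⟨R.ei_mem_stab hf₀ ok, R.ei_mem_E u v a⟩) (h2.trans E_le_O)
    g hg).resolve_right hg'

theorem finrank_eq_of_card [Fintype F] (F₀ : Subfield F) {r : ℕ}
    (h : Fintype.card F = Nat.card F₀ ^ r) : finrank F₀ F = r := by
  have h1 := Module.natCard_eq_pow_finrank (K := F₀) (V := F)
  rw [Nat.card_eq_fintype_card, h] at h1
  exact (Nat.pow_right_injective (Finite.one_lt_card (α := F₀)) h1).symm

end Mat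

end CL.Root
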