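/-
Construction of the rational structures for the standard pairs of form types.
-/
import Cfsg.Agent.CLAS.RatForm

set_option autoImplicit false

namespace CL.Root

open Module CL.Witt CL.Witt.Form CL.Tv

variable {F : Type*} [Field F] {F₀ : Subfield F} {T₀ : FormType F₀} {T : FormType F}
  {V₀ V : Type*} [AddCommGroup V₀] [Module F₀ V₀] [AddCommGroup V] [Module F V]

theorem RatExt.nondeg {f₀ : Form T₀ V₀} {f : Form T V} (R : RatExt f₀ f) (hf : f.Nondeg)
    (hinj : Function.Injective R.j) : f₀.Nondeg := fun x hx =>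
  hinj (by rw [map_zero]; exact R.eq_zero_of_B hf fun u => R.B_j_eq_zero_iff.2 (hx u))

/-- The descended sesquilinear form. -/
def descB (σ₀ : F₀ →+* F₀) (f : Form T V) (j : V₀ →+ V) (η : F)
    (j_smul : ∀ (c : F₀) v, j (c • v) = algebraMap F₀ F c • j v)
    (hσ : ∀ c, T.σ (algebraMap F₀ F c) = algebraMap F₀ F (σ₀ c))
    (hB : ∀ u v, η * f.B (j u) (j v) ∈ F₀) : V₀ →ₛₗ[σ₀] V₀ →ₗ[F₀] F₀ :=
  LinearMap.mk₂'ₛₗ σ₀ (RingHom.id F₀) (fun u v => ⟨_, hB u v⟩)
    (fun u u' v => Subtype.ext (by simp [mul_add]))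
    (fun c u v => Subtype.ext (by
      change η * f.B (j (c • u)) (j v) = algebraMap F₀ F (σ₀ c) * (η * f.B (j u) (j v))
      rw [j_smul, f.B_smul_left, hσ]; ring))
    (fun u v v' => Subtype.ext (by simp [mul_add]))
    (fun c u v => Subtype.ext (by
      change η * f.B (j u) (j (c • v)) = algebraMap F₀ F c * (η * f.B (j u) (j v))
      rw [j_smul, f.B_smul_right]; ring))

theorem descB_coe (σ₀ : F₀ →+* F₀) (f : Form T V) (j : V₀ →+ V) (η : F) (j_smul hσ hB)
    (u v : V₀) : ((descB σ₀ f j η j_smul hσ hB u v : F₀) : F) = η * f.B (j u) (j v) := rfl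

section
variable {j : V₀ →+ V} (j_smul : ∀ (c : F₀) v, j (c • v) = algebraMap F₀ F c • j v)
  (span : Submodule.span F (Set.range j) = ⊤)
include j_smul span

theorem exists_ratExt_alt (f : Form T V) {η : F} (hη : η ≠ 0)
    (hσ : ∀ c : F₀, T.σ c = c) (hε : T.ε * T.σ η = -η) (hπ : ∀ c : F₀, T.π (T.σ η * c) = 0)
    (hB : ∀ u v, η * f.B (j u) (j v) ∈ F₀) (hq : ∀ u, f.q (j u) = 0) :
    ∃ (f₀ : Form (FormType.alt F₀) V₀) (R : RatExt f₀ f), R.j = j ∧ R.η = η :=
  ⟨ofAlt (descB (RingHom.id F₀) f j η j_smul hσ hB) fun u => Subtype.ext (by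
      change η * f.B (j u) (j u) = 0
      rw [f.B_self_eq_zero (hq u), mul_zero]),
    { j := j, η := η, η_ne := hη, j_smul := j_smul, span := span, hB := fun _ _ => rfl, hσ := hσ
      hε := by rw [hε, FormType.alt_ε]; simp
      hq := fun v a _ => by rw [hq, mul_zero]; exact hπ a }, rfl, rfl⟩

theorem exists_ratExt_quad (f : Form T V) {η : F} (hη : η ≠ 0)
    (hσ : ∀ c : F₀, T.σ c = c) (hε : T.ε * T.σ η = η)
    (hB : ∀ u v, η * f.B (j u) (j v) ∈ F₀) (q₀ : V₀ → F₀)
    (h1 : ∀ u v, (q₀ (u + v) : F) = q₀ u + q₀ v + η * f.B (j u) (j v))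
    (h2 : ∀ (c : F₀) u, q₀ (c • u) = c * c * q₀ u)
    (hq : ∀ v, T.π (T.σ η * q₀ v) = T.σ η * η * f.q (j v)) :
    ∃ (f₀ : Form (FormType.quad F₀) V₀) (R : RatExt f₀ f), R.j = j ∧ R.η = η := by
  have h3 : ∀ u v, q₀ (u + v) = q₀ u + q₀ v + descB (RingHom.id F₀) f j η j_smul hσ hB u v :=
    fun u v => Subtype.ext (h1 u v)
  refine ⟨{ B := descB (RingHom.id F₀) f j η j_smul hσ hB
            q := q₀
            symm := fun x y => ?_
            q_add := h3
            q_smul := h2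
            lift := fun x => ⟨q₀ x, rfl, ?_⟩ },
    { j := j, η := η, η_ne := hη, j_smul := j_smul, span := span, hB := fun _ _ => rfl, hσ := hσ
      hε := by rw [hε, FormType.quad_ε]; simp
      hq := fun v a ha => ?_ }, rfl, rfl⟩
  · have e1 := h3 x y
    have e2 := h3 y x
    rw [add_comm y x, e1] at e2
    change _ = 1 * descB (RingHom.id F₀) f j η j_smul hσ hB x y
    linear_combination -e2
  · have e1 := h3 x x
    have e2 := h2 2 x
    rw [two_smul, e1] at e2
    change _ = q₀ x + 1 * q₀ x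
    linear_combination e2
  · have : a = q₀ v := ha
    rw [this]; exact hq v

theorem exists_ratExt_herm {σ : F →+* F} {hσ2 : ∀ a, σ (σ a) = a}
    (f : Form (FormType.herm σ hσ2) V) {σ₀ : F₀ →+* F₀} (hσ₀ : σ₀ ≠ RingHom.id F₀)
    (hσ₀2 : ∀ a, σ₀ (σ₀ a) = a) (hσ : ∀ c : F₀, σ c = σ₀ c)
    (hB : ∀ u v, 1 * f.B (j u) (j v) ∈ F₀) :
    ∃ (f₀ : Form (FormType.herm σ₀ hσ₀2) V₀) (R : RatExt f₀ f), R.j = j ∧ R.η = 1 :=
  ⟨ofHerm hσ₀ hσ₀2 (descB σ₀ f j 1 j_smul hσ hB) ⟨fun u v => Subtype.ext (by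
      rw [← hσ]
      change σ (1 * f.B (j u) (j v)) = 1 * f.B (j v) (j u)
      rw [one_mul, one_mul, f.herm_symm (j u)])⟩,
    { j := j, η := 1, η_ne := one_ne_zero, j_smul := j_smul, span := span, hB := fun _ _ => rfl
      hσ := hσ
      hε := by simp [FormType.herm_ε]
      hq := fun v a ha => by
        have e : ((a + σ₀ a : F₀) : F) = 1 * f.B (j v) (j v) := congrArg Subtype.val ha
        rw [map_one, one_mul, one_mul, one_mul, f.herm_q, FormType.herm_π]
        rw [one_mul, Subfield.coe_add, ← hσ] at e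
        exact e }, rfl, rfl⟩

end

theorem hπ_herm {σ : F →+* F} {hσ2 : ∀ a, σ (σ a) = a} (hσ : σ ≠ RingHom.id F) (a : F)
    (ha : (FormType.herm σ hσ2).π a = 0) :
    ∃ c, a = c - (FormType.herm σ hσ2).ε * (FormType.herm σ hσ2).σ c := by
  obtain ⟨τ, hτ⟩ := FormType.exists_add_σ_eq_one hσ hσ2
  rw [FormType.herm_π] at ha
  refine ⟨a * τ, ?_⟩
  rw [FormType.herm_ε, FormType.herm_σ, map_mul]
  linear_combination (-a) * hτ + σ τ * ha

theorem hπ_quad (a : F) (ha : (FormType.quad F).π a = 0) :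
    ∃ c, a = c - (FormType.quad F).ε * (FormType.quad F).σ c :=
  ⟨0, by simpa [FormType.quad_π] using ha⟩

theorem ratMap_injective {ι : Type} [Fintype ι] [DecidableEq ι] (F₀ : Subfield F) (P : GL ι F) :
    Function.Injective (ratMap F₀ P) := fun u v h => by
  rw [ratMap_apply, ratMap_apply] at h
  ext i
  exact congrFun ((act P).injective h) i

theorem pow_eq_of_card [Fintype F] {q : ℕ} (hF : Fintype.card F = q ^ 2)
    (hcard : Fintype.card F = Nat.card F₀ ^ 2) (c : F₀) : (c : F) ^ q = c := by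
  have : Fintype F₀ := Fintype.ofFinite F₀
  have h : Nat.card F₀ = q := Nat.pow_left_injective two_ne_zero (hcard.symm.trans hF)
  have := FiniteField.pow_card c
  rw [← Nat.card_eq_fintype_card, h] at this
  exact congrArg Subtype.val this

end CL.Root
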