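/-
Overgroups of the unitary group over a quadratic extension field in symplectic and orthogonal
groups.
-/
import Cfsg.Agent.CLAS.RatStd

set_option autoImplicit false

namespace CL.Root

open Module CL.Witt CL.Witt.Form CL.Tv

section General

variable {F : Type*} [Field F] {T : FormType F} {V : Type*} [AddCommGroup V] [Module F V]
  [FiniteDimensional F V] {f : Form T V}

theorem exists_scalar_of_singular' (hf : f.Nondeg) (h3 : Sing3 f) (hn : 7 ≤ finrank F V)
    {R W : Type*} [Ring R] [AddCommGroup W] [Module R W] (A C : V →+ W)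
    (hC : ∀ y z, f.q y = 0 → y ≠ 0 → z ∉ F ∙ y → ∀ a b : R, a • C z + b • C y = 0 → a = 0 ∧ b = 0)
    (H : ∀ u, f.q u = 0 → ∃ c : R, A u = c • C u) : ∃ c : R, ∀ u, A u = c • C u := by
  have key2 : ∀ y z (a b : R), f.q y = 0 → f.q z = 0 → f.B y z = 0 → y ≠ 0 → z ∉ F ∙ y →
      A y = a • C y → A z = b • C z → a = b := by
    intro y z a b hy hz hyz hy0 hzy ha hb
    obtain ⟨d, hd⟩ := H (y + z) (by rw [f.q_add_of_B_eq_zero hyz, hy, hz, add_zero])
    rw [map_add, map_add, ha, hb] at hd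
    obtain ⟨e1, e2⟩ := hC y z hy hy0 hzy (b - d) (a - d) (by
      rw [sub_smul, sub_smul]; rw [smul_add] at hd
      rw [← sub_eq_zero] at hd
      rw [← hd]; abel)
    rw [sub_eq_zero] at e1 e2
    rw [e1, e2]
  obtain ⟨y₀, -, hy₀, hy₀0⟩ := exists_sol_zero hf h3 ⊥ (by simp; omega)
  rw [Submodule.mem_bot] at hy₀0
  obtain ⟨a, ha⟩ := H y₀ hy₀
  have key3 : ∀ y, f.q y = 0 → A y = a • C y := by
    intro y hy
    by_cases hy0 : y = 0
    · simp [hy0]
    obtain ⟨b, hb⟩ := H y hy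
    obtain ⟨z, hz, hz0, hz'⟩ := exists_sol_zero hf h3 (Submodule.span F {y, y₀})
      (by have := finrank_span_pair_le (F := F) y y₀; omega)
    obtain ⟨d, hd⟩ := H z hz0
    have e1 : b = d := key2 y z b d hy hz0 (hz y (Submodule.subset_span (by simp)))
      hy0 (fun h => hz' (Submodule.span_mono (by simp) h)) hb hd
    have e2 : a = d := key2 y₀ z a d hy₀ hz0 (hz y₀ (Submodule.subset_span (by simp)))
      hy₀0 (fun h => hz' (Submodule.span_mono (by simp) h)) ha hd
    rw [e2, ← e1]; exact hb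
  refine ⟨a, fun y => ?_⟩
  obtain ⟨u, u', rfl, hu, hu'⟩ := eq_add_singular hf h3 hn y
  rw [map_add, map_add, key3 u hu, key3 u' hu', smul_add]

/-- An isometry with totally singular image `⟨a, b⟩` of rank two, commuted with an isometry moving
`a` by a singular vector `w`, gives an element of the unipotent radical of `w`. -/
theorem rad_of_rank_two (hf : f.Nondeg) (hσ : ∀ c, T.σ c = c) {K : Subgroup (V ≃ₗ[F] V)}
    (hKO : K ≤ f.O) {y e : V ≃ₗ[F] V} (hy : y ∈ K) (he : e ∈ K) {a b w : V} (ha : f.q a = 0)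
    (hb : f.q b = 0) (hw : f.q w = 0) (hab : f.B a b = 0) (haw : f.B a w = 0) (hbw : f.B b w = 0)
    (hb0 : b ≠ 0) (hab' : a ∉ F ∙ b) (hfix : ∀ v, y v = v ↔ f.B a v = 0 ∧ f.B b v = 0)
    (hea : e a = a + w) (heb : e b = b) :
    ∃ p ∈ Submodule.span F {a, b}, p ≠ 0 ∧ Rad f K w p := by
  have hyO := hKO hy
  have heO := hKO he
  obtain ⟨a', ha'⟩ := hf.exists_B_eq_family' (li2 hb0 hab') ![1, 0]
  obtain ⟨b', hb'⟩ := hf.exists_B_eq_family' (li2 hb0 hab') ![0, 1]
  have a1 : f.B a a' = 1 := ha' 0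
  have a2 : f.B b a' = 0 := ha' 1
  have b1 : f.B a b' = 0 := hb' 0
  have b2 : f.B b b' = 1 := hb' 1
  have hmem : ∀ v, y v - v ∈ Submodule.span F {a, b} := fun v => by
    rw [← hf.perp_perp (Submodule.span F {a, b})]
    intro u hu
    have := mem_O_B hyO u v
    rw [(hfix u).2 (f.mem_perp_span_pair.1 hu)] at this
    rw [f.B_sub_right, this, sub_self]
  obtain ⟨α, β, hp⟩ := Submodule.mem_span_pair.1 (hmem a')
  obtain ⟨β', γ, hr⟩ := Submodule.mem_span_pair.1 (hmem b')
  have hy' : ∀ v, y v = v + f.B a v • (α • a + β • b) + f.B b v • (β' • a + γ • b) := fun v => by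
    have := (hfix (v - f.B a v • a' - f.B b v • b')).2 (by simp [a1, a2, b1, b2])
    rw [map_sub, map_sub, map_smul, map_smul] at this
    rw [hp, hr]
    linear_combination (norm := module) this
  have haa := f.B_self_eq_zero ha
  have hbb := f.B_self_eq_zero hb
  have hww := f.B_self_eq_zero hw
  have hba := f.B_eq_zero_symm hab
  have hwa := f.B_eq_zero_symm haw
  have hwb := f.B_eq_zero_symm hbw
  have a1' : f.B a' a = T.ε := hyp_B_swap a1
  have a2' : f.B a' b = 0 := f.B_eq_zero_symm a2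
  have e1 : α * T.ε + α = 0 := by
    have := mem_O_B hyO a' a'
    rw [eq_add_of_sub_eq' hp.symm] at this
    simp only [B_add_left, B_add_right, B_smul_left, B_smul_right, hσ, haa, hbb, hab, hba, a1, a2,
      a1', a2'] at this
    linear_combination this
  have e2 : β' * T.ε + β = 0 := by
    have := mem_O_B hyO a' b'
    rw [eq_add_of_sub_eq' hp.symm, eq_add_of_sub_eq' hr.symm] at this
    simp only [B_add_left, B_add_right, B_smul_left, B_smul_right, hσ, haa, hbb, hab, hba, b1, b2,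
      a1', a2'] at this
    linear_combination this
  have hq : f.q (α • a + β • b) = 0 := by
    rw [f.q_add_of_B_eq_zero (by simp [hab]), f.q_smul_eq_zero ha, f.q_smul_eq_zero hb, add_zero]
  have e3 : T.π (-(T.ε * α)) = 0 := by
    have := mem_O_q hyO a'
    rw [eq_add_of_sub_eq' hp.symm, f.q_add, hq] at this
    simp only [B_add_right, B_smul_right, a1', a2', mul_zero, add_zero, add_eq_left] at this
    rw [map_neg, mul_comm, this, neg_zero]
  have ok : f.EichOK w (α • a + β • b) (-(T.ε * α)) := ⟨hw, by simp [hwa, hwb], by rw [e3, hq]⟩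
  refine ⟨α • a + β • b, Submodule.mem_span_pair.2 ⟨α, β, rfl⟩, fun h0 => ?_, _, ok, ?_⟩
  · have := ((hfix a').1 (by rw [← sub_eq_zero, ← hp, h0])).1
    rw [a1] at this; exact one_ne_zero this
  · have key : e * y * e⁻¹ = f.ei w (α • a + β • b) (-(T.ε * α)) * y := by
      ext v
      have h1 : f.B a (e⁻¹ v) = f.B a v + f.B w v := by
        rw [← B_apply_left heO, hea, f.B_add_left]
      have h2 : f.B b (e⁻¹ v) = f.B b v := by rw [← B_apply_left heO, heb]
      have h3 : e (e⁻¹ v) = v := by rw [← LinearEquiv.mul_apply, mul_inv_cancel]; rfl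
      rw [LinearEquiv.mul_apply, LinearEquiv.mul_apply, LinearEquiv.mul_apply, hy' (e⁻¹ v), h1, h2,
        ok.ei_apply, hy' v]
      simp only [map_add, map_smul, hea, heb, h3, B_smul_left, hσ, haa, hbb,
        hab, hba, hwa, hwb, LinearMap.add_apply, smul_eq_mul, mul_zero, add_zero]
      linear_combination (norm := module) (f.B a v * e1 + T.ε * f.B b v * e2 -
        (α * f.B w v + β' * f.B b v) * T.εε) • w
    have : f.ei w (α • a + β • b) (-(T.ε * α)) = e * y * e⁻¹ * y⁻¹ := by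
      rw [key, mul_inv_cancel_right]
    rw [this]
    exact K.mul_mem (K.mul_mem (K.mul_mem he hy) (K.inv_mem he)) (K.inv_mem hy)

end General

/-- The form `f` over `F` is the trace of a multiple of the hermitian form `h` over `E`. -/
structure UExt {F E : Type*} [Field F] [Field E] [Algebra F E] {T : FormType F} {τ : E →+* E}
    {hτ : ∀ a, τ (τ a) = a} {V : Type*} [AddCommGroup V] [Module F V] [Module E V]
    (f : Form T V) (h : Form (FormType.herm τ hτ) V) where
  η : E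
  η_ne : η ≠ 0
  hσ : ∀ c, T.σ c = c
  τ_ne : τ ≠ RingHom.id E
  τ_alg : ∀ c : F, τ (algebraMap F E c) = algebraMap F E c
  fix : ∀ k, τ k = k → k ∈ Set.range (algebraMap F E)
  hε : τ η = algebraMap F E T.ε * η
  hB : ∀ u v, algebraMap F E (f.B u v) = η * h.B u v + τ (η * h.B u v)
  hq : ∀ v a, h.q v = algebraMap F E a → T.π a = f.q v

namespace UExt

variable {F E : Type*} [Field F] [Field E] [Algebra F E] {T : FormType F} {τ : E →+* E}
  {hτ : ∀ a, τ (τ a) = a} {V : Type*} [AddCommGroup V] [Module F V] [Module E V]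
  [IsScalarTower F E V] {f : Form T V} {h : Form (FormType.herm τ hτ) V} (U : UExt f h)
include U

local notation "ι₀" => algebraMap F E

omit [IsScalarTower F E V] in
theorem q_eq_zero {v : V} (hv : h.q v = 0) : f.q v = 0 := by
  rw [← U.hq v 0 (by rw [hv, map_zero]), map_zero]

omit [IsScalarTower F E V] in
theorem B_eq_zero {u v : V} (huv : h.B u v = 0) : f.B u v = 0 := by
  rw [← map_eq_zero ι₀, U.hB, huv]; simp

omit [IsScalarTower F E V] in
theorem B_eq_zero_iff {u v : V} : f.B u v = 0 ↔ U.η * h.B u v + τ (U.η * h.B u v) = 0 := by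
  rw [← U.hB, map_eq_zero ι₀]

omit [IsScalarTower F E V] in
theorem hB_eq_zero {u v : V} {ω : E} (hω : τ ω ≠ ω) (h1 : f.B u v = 0) (h2 : f.B (ω • u) v = 0) :
    h.B u v = 0 := by
  rw [U.B_eq_zero_iff] at h1 h2
  rw [h.B_smul_left, FormType.herm_σ, mul_left_comm, map_mul, hτ] at h2
  have : (τ ω - ω) * (U.η * h.B u v) = 0 := by linear_combination h2 - ω * h1
  simpa [sub_ne_zero.2 hω, U.η_ne] using this

omit [IsScalarTower F E V] in
theorem exists_τ_ne : ∃ ω, τ ω ≠ ω := by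
  by_contra! H; exact U.τ_ne (RingHom.ext H)

omit [IsScalarTower F E V] in
theorem exists_eq_add {ω : E} (hω : τ ω ≠ ω) (k : E) : ∃ x y : F, k = ι₀ x + ι₀ y * ω := by
  have h0 : ω - τ ω ≠ 0 := sub_ne_zero.2 hω.symm
  have h0' : τ ω - ω ≠ 0 := sub_ne_zero.2 hω
  obtain ⟨y, hy⟩ := U.fix ((k - τ k) / (ω - τ ω)) (by
    rw [map_div₀, map_sub, map_sub, hτ, hτ]; field_simp; ring)
  obtain ⟨x, hx⟩ := U.fix (k - ι₀ y * ω) (by
    rw [map_sub, map_mul, U.τ_alg, hy]; field_simp; ring)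
  exact ⟨x, y, by rw [hx]; ring⟩

omit [IsScalarTower F E V] in
theorem nondeg (hf : f.Nondeg) : h.Nondeg := fun x hx => hf x fun y => U.B_eq_zero (hx y)

omit U in
variable (F E V) in
/-- Restriction of scalars as a group homomorphism. -/
def res : (V ≃ₗ[E] V) →* (V ≃ₗ[F] V) where
  toFun g := g.restrictScalars F
  map_one' := rfl
  map_mul' _ _ := rfl

omit U in
theorem res_apply (g : V ≃ₗ[E] V) (v : V) : res F E V g v = g v := rfl

theorem res_mem_O {g : V ≃ₗ[E] V} (hg : g ∈ h.O) : res F E V g ∈ f.O := by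
  refine ⟨fun x y => ?_, fun x => ?_⟩
  · apply (algebraMap F E).injective
    rw [U.hB, U.hB, res_apply, res_apply, mem_O_B hg]
  · obtain ⟨a, ha⟩ := U.fix (h.q x) (by rw [herm_q, ← h.herm_symm])
    rw [← U.hq x a ha.symm, ← U.hq _ a (by rw [res_apply, mem_O_q hg, ha])]

omit U in
variable (F E V) in
/-- The normaliser of the extension field. -/
def normE : Subgroup (V ≃ₗ[F] V) where
  carrier := {g | (∀ k : E, ∃ k' : E, ∀ v, g (k • v) = k' • g v) ∧
    ∀ k' : E, ∃ k : E, ∀ v, g (k • v) = k' • g v}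
  mul_mem' := by
    rintro g g' ⟨h1, h2⟩ ⟨h1', h2'⟩
    refine ⟨fun k => ?_, fun k => ?_⟩
    · obtain ⟨k', hk'⟩ := h1' k
      obtain ⟨k'', hk''⟩ := h1 k'
      exact ⟨k'', fun v => by rw [LinearEquiv.mul_apply, hk', hk'', LinearEquiv.mul_apply]⟩
    · obtain ⟨k', hk'⟩ := h2 k
      obtain ⟨k'', hk''⟩ := h2' k'
      exact ⟨k'', fun v => by rw [LinearEquiv.mul_apply, hk'', hk', LinearEquiv.mul_apply]⟩
  one_mem' := ⟨fun k => ⟨k, fun _ => rfl⟩, fun k => ⟨k, fun _ => rfl⟩⟩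
  inv_mem' := by
    rintro g ⟨h1, h2⟩
    have e : ∀ v, g (g⁻¹ v) = v := fun v => by rw [← LinearEquiv.mul_apply, mul_inv_cancel]; rfl
    refine ⟨fun k => ?_, fun k => ?_⟩
    · obtain ⟨k', hk'⟩ := h2 k
      exact ⟨k', fun v => g.injective (by rw [hk', e, e])⟩
    · obtain ⟨k', hk'⟩ := h1 k
      exact ⟨k', fun v => g.injective (by rw [hk', e, e])⟩

omit U in
theorem res_mem_normE (g : V ≃ₗ[E] V) : res F E V g ∈ normE F E V :=
  ⟨fun k => ⟨k, fun v => g.map_smul k v⟩, fun k => ⟨k, fun v => g.map_smul k v⟩⟩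

omit U [Algebra F E] [IsScalarTower F E V] in
theorem mem_normE_of [Finite E] [Nontrivial V] {g : V ≃ₗ[F] V}
    (hg : ∀ k : E, ∃ k' : E, ∀ v, g (k • v) = k' • g v) : g ∈ normE F E V := by
  refine ⟨hg, fun k' => ?_⟩
  choose l hl using hg
  obtain ⟨v, hv⟩ := exists_ne (0 : V)
  have hinj : Function.Injective l := fun k k' e => by
    have := hl k v
    rw [e, ← hl k' v] at this
    exact smul_left_injective E hv (g.injective this)
  obtain ⟨k, rfl⟩ := Finite.injective_iff_surjective.1 hinj k'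
  exact ⟨k, hl k⟩

omit U in
variable (F h) in
/-- `K` contains the unitary Eichler elements. -/
def Over (K : Subgroup (V ≃ₗ[F] V)) : Prop := ∀ u v a, res F E V (h.ei u v a) ∈ K

variable {K : Subgroup (V ≃ₗ[F] V)} [FiniteDimensional E V] [Finite E]

omit U [FiniteDimensional E V] [Finite E] in
theorem Over.res_mem (hK : Over F h K) {e : V ≃ₗ[E] V} (he : e ∈ h.E) : res F E V e ∈ K :=
  (E_le_iff' (M := K.comap (res F E V))).2 (fun u v a _ => hK u v a) he

theorem spread (hK : Over F h K) (hh : h.Nondeg) (hn : 5 ≤ finrank E V) {w p : V}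
    (hw : h.q w = 0) (hw0 : w ≠ 0) (hwp : h.B w p = 0) (hp : p ∉ E ∙ w) (hr : Rad f K w p) :
    ∀ u, h.q u = 0 → u ≠ 0 → ∀ v, h.B u v = 0 → Rad f K u v := by
  have h3 := sing3_herm U.τ_ne h
  have key : ∀ v, h.B w v = 0 → Rad f K w v := by
    obtain ⟨w', hw', hww'⟩ := hh.exists_partner' hw hw0
    set W := h.perp (Submodule.span E {w, w'}) with hW
    have hWn : (h.restrict W).Nondeg := hh.restrict_perp (h.restrict_nondeg_pair hw hw' hww')
    have hWr : finrank E W + 2 = finrank E V := by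
      have := hh.finrank_add_finrank_perp (Submodule.span E {w, w'})
      rw [h.finrank_span_pair hw hw' hww'] at this
      rw [hW]; omega
    have hproj : ∀ z, h.B w z = 0 → z - ((FormType.herm τ hτ).ε * h.B w' z) • w ∈ W := by
      intro z hz
      have := hyp_proj hw hw' hww' z
      rw [hz, zero_smul, sub_zero] at this
      exact h.mem_perp_span_pair.2 this
    obtain ⟨x, hxW, hx0, hx⟩ := h3 W (by omega)
    let D := radGrp f K (U.q_eq_zero hw)
    have hDu : ∀ t : E, t • w ∈ D := fun t => by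
      obtain ⟨v, hv, hvp⟩ := hh.exists_perp_eq hp (-t)
      have hwv := h.B_eq_zero_symm (hv w (Submodule.mem_span_singleton_self w))
      obtain ⟨a, ok⟩ := exists_eichOK hw hwv
      have := hr.sub_fix (hK w v a) (U.res_mem_O (ei_mem_O w v a)) ok.ei_apply_u
      rw [res_apply, ok.ei_apply_of_perp hwp, hvp, FormType.herm_ε] at this
      show Rad f K w (t • w)
      simpa using this
    have h2 : ∀ z ∈ W, z ∈ D := by
      refine mem_of_ei_invariant hWn (by omega) hxW hx hx0 (D := D)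
        (fun a b t ok ha hb d hd _ => ?_)
        (D.sub_mem hr (hDu _)) (hproj p hwp) fun h0 => hp ?_
      · exact Rad.conj_fix hd (hK a b t) (U.res_mem_O (ei_mem_O a b t))
          (ok.ei_apply_fix (h.B_eq_zero_symm (h.mem_perp_span_pair.1 ha).1)
            (h.B_eq_zero_symm (h.mem_perp_span_pair.1 hb).1))
      · exact Submodule.mem_span_singleton.2 ⟨_, (sub_eq_zero.1 h0).symm⟩
    intro v hv
    have := D.add_mem (h2 _ (hproj v hv)) (hDu ((FormType.herm τ hτ).ε * h.B w' v))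
    rwa [sub_add_cancel] at this
  intro u hu hu0 v hv
  obtain ⟨e, he, rfl⟩ := (Iso3.idx2 h3 hh hn).exists_E_apply_eq hh hw0 hu0 (by rw [hu, hw])
  have := (key (e⁻¹ v) (by rw [← B_apply_left (E_le_O he), hv])).conj (hK.res_mem he)
    (U.res_mem_O (E_le_O he))
  rwa [res_apply, res_apply, ← LinearEquiv.mul_apply, mul_inv_cancel] at this

/-- An Eichler element of `f` fixing `w` and moving a multiple of `w` out of its hermitian
orthogonal complement. -/
theorem exists_move (hh : h.Nondeg) (hn : 7 ≤ finrank E V) {w : V} (hw : h.q w = 0) (hw0 : w ≠ 0) :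
    ∃ w₁, ∃ k : E, h.q w₁ = 0 ∧ h.B w w₁ ≠ 0 ∧ f.B w w₁ = 0 ∧ ∀ a : F, ∃ x, h.B w₁ x = 0 ∧ h.B w x = 0 ∧
      f.EichOK w₁ x (-a) ∧ f.ei w₁ x (-a) w = w ∧
      h.B w (f.ei w₁ x (-a) (k • w)) = ι₀ a * h.B w w₁ := by
  have h3 := sing3_herm U.τ_ne h
  obtain ⟨w', hw', hww'⟩ := hh.exists_partner' hw hw0
  obtain ⟨ζ, hζ0, hζ⟩ := FormType.exists_add_σ_eq_zero U.τ_ne hτ
  obtain ⟨s, hs⟩ := FormType.exists_add_σ_eq_one U.τ_ne hτ
  set w₁ := (ζ / U.η) • w' with hw₁
  have hw₁0 : h.q w₁ = 0 := h.q_smul_eq_zero hw' _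
  have e1 : h.B w w₁ = ζ / U.η := by rw [hw₁, h.B_smul_right, hww', mul_one]
  have e2 : f.B w w₁ = 0 := by rw [U.B_eq_zero_iff, e1, mul_div_cancel₀ _ U.η_ne, hζ]
  refine ⟨w₁, τ (s / ζ), hw₁0, by rw [e1]; exact div_ne_zero hζ0 U.η_ne, e2, fun a => ?_⟩
  obtain ⟨p, p', hp, hp', hp0, hp'0, hpp'⟩ := exists_hyp_perp hh h3 (Submodule.span E {w, w₁})
    (by have := finrank_span_pair_le (F := E) w w₁; omega)
  rw [mem_perp_span_pair] at hp hp'
  have x1 : h.B w₁ (p + (s * ι₀ (-a)) • p') = 0 := by simp [hp.2, hp'.2]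
  have x2 : h.B w (p + (s * ι₀ (-a)) • p') = 0 := by simp [hp.1, hp'.1]
  have ok : f.EichOK w₁ (p + (s * ι₀ (-a)) • p') (-a) := ⟨U.q_eq_zero hw₁0, U.B_eq_zero x1,
    U.hq _ _ (by
      rw [h.q_add_smul, hp0, hp'0, hpp', FormType.herm_π, mul_one, map_mul τ, U.τ_alg]
      linear_combination ι₀ (-a) * hs)⟩
  refine ⟨_, x1, x2, ok, ok.ei_apply_fix (f.B_eq_zero_symm e2)
    (U.B_eq_zero (h.B_eq_zero_symm x2)), ?_⟩
  have e3 : f.B (τ (s / ζ) • w) w₁ = 1 := by
    apply (algebraMap F E).injective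
    rw [U.hB, h.B_smul_left, FormType.herm_σ, hτ, e1, map_one, ← hs]
    congr 2 <;> field_simp [U.η_ne]
  have e4 : f.B (p + (s * ι₀ (-a)) • p') (τ (s / ζ) • w) = 0 :=
    U.B_eq_zero (by rw [h.B_smul_right, h.B_eq_zero_symm x2, mul_zero])
  rw [ok.ei_apply, e4, hyp_B_swap e3, ← algebraMap_smul E T.ε, ← algebraMap_smul E (T.ε * _),
    h.B_sub_right, h.B_add_right, h.B_smul_right, h.B_smul_right, h.B_smul_right, x2,
    h.B_self_eq_zero hw]
  have : T.ε * (0 + -a * T.ε) = -a := by linear_combination (-a) * T.εε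
  rw [this, map_neg]; ring

variable [FiniteDimensional F V]

theorem E_le_of_rad (hK : Over F h K) (hKO : K ≤ f.O) (hf : f.Nondeg) (hn : 7 ≤ finrank E V)
    (hπ : ∀ a, T.π a = 0 → ∃ c, a = c - T.ε * T.σ c) {w p : V}
    (hw : h.q w = 0) (hw0 : w ≠ 0) (hwp : h.B w p = 0) (hp : p ∉ E ∙ w) (hr : Rad f K w p) :
    f.E ≤ K := by
  have hh := U.nondeg hf
  have h3 := sing3_herm U.τ_ne h
  have H := U.spread hK hh (by omega) hw hw0 hwp hp hr
  obtain ⟨s, hs⟩ := FormType.exists_add_σ_eq_one U.τ_ne hτ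
  have cen : ∀ u, h.q u = 0 → u ≠ 0 → Cen f K u := by
    intro u hu hu0 a ha
    obtain ⟨c, rfl⟩ := hπ a ha
    obtain ⟨p, p', hp, hp', -, -, hpp'⟩ := exists_hyp_perp hh h3 (E ∙ u)
      (by have := finrank_span_single_le (F := E) u; omega)
    rw [mem_perp_span_singleton] at hp hp'
    have := (H u hu hu0 p hp).comm (H u hu hu0 ((s * ι₀ c / U.η) • p') (by simp [hp']))
    have e : f.B p ((s * ι₀ c / U.η) • p') = c := by
      apply (algebraMap F E).injective
      rw [U.hB, h.B_smul_right, hpp', mul_one, mul_div_cancel₀ _ U.η_ne, map_mul, U.τ_alg]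
      linear_combination ι₀ c * hs
    rwa [f.symm p, e] at this
  have key : ∀ u, h.q u = 0 → u ≠ 0 → f.U u ≤ K := by
    intro u hu hu0
    refine U_le_of_rad (cen u hu hu0) fun x hx => ?_
    obtain ⟨w₁, k, hw₁, h1, h2, h4⟩ := U.exists_move hh hn hu hu0
    have hw₁0 : w₁ ≠ 0 := by rintro rfl; simp at h1
    rw [U.B_eq_zero_iff] at hx h2
    obtain ⟨a, ha⟩ := U.fix (h.B u x / h.B u w₁) (by
      have n1 : τ (h.B u w₁) ≠ 0 := (map_ne_zero τ).2 h1
      have n2 : τ U.η ≠ 0 := (map_ne_zero τ).2 U.η_ne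
      rw [map_mul] at hx h2
      rw [map_div₀, div_eq_div_iff n1 h1]
      apply mul_left_cancel₀ n2
      linear_combination h.B u w₁ * hx - h.B u x * h2)
    obtain ⟨z, z1, -, ok, z2, z3⟩ := h4 a
    have hy := (H w₁ hw₁ hw₁0 z z1).ei_mem (cen w₁ hw₁ hw₁0) ok
    have r1 := (H u hu hu0 (k • u) (by simp [h.B_self_eq_zero hu])).conj_fix hy (hKO hy) z2
    have r2 := H u hu hu0 (x - f.ei w₁ z (-a) (k • u)) (by
      rw [h.B_sub_right, z3, ha, div_mul_cancel₀ _ h1, sub_self])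
    simpa using r2.add r1
  obtain ⟨w', hw', hww'⟩ := hh.exists_partner' hw hw0
  have e : f.B w ((s / U.η) • w') = 1 := by
    apply (algebraMap F E).injective
    rw [U.hB, h.B_smul_right, hww', mul_one, mul_div_cancel₀ _ U.η_ne, hs, map_one]
  have hq := h.q_smul_eq_zero hw' (s / U.η)
  exact hf.E_le_of_B_ne (U.q_eq_zero hw) (U.q_eq_zero hq) (by rw [e]; exact one_ne_zero)
    (key w hw hw0) (key _ hq (by rintro h0; simp [h0] at e))

theorem E_le_or_line (hK : Over F h K) (hKO : K ≤ f.O) (hf : f.Nondeg) (hn : 7 ≤ finrank E V)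
    (hπ : ∀ a, T.π a = 0 → ∃ c, a = c - T.ε * T.σ c) {g : V ≃ₗ[F] V} (hg : g ∈ K) {ω : E}
    (hω : τ ω ≠ ω) {u : V} (hu : h.q u = 0) : f.E ≤ K ∨ g (ω • u) ∈ E ∙ g u := by
  have hh := U.nondeg hf
  have h3 := sing3_herm U.τ_ne h
  have hgO := hKO hg
  by_cases hu0 : u = 0
  · right; simp [hu0]
  refine or_iff_not_imp_right.2 fun hab => ?_
  obtain ⟨c, hc0, hc⟩ := FormType.exists_add_σ_eq_zero U.τ_ne hτ
  set a := g (ω • u) with ha
  set b := g u with hb
  obtain ⟨w, hw, hw0, hwH⟩ := exists_sol_zero hh h3 (Submodule.span E {a, b})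
    (by have := finrank_span_pair_le (F := E) a b; omega)
  have haw : h.B a w = 0 := hw a (Submodule.subset_span (by simp))
  have hbw : h.B b w = 0 := hw b (Submodule.subset_span (by simp))
  have ha' : a ∉ Submodule.span E {w, b} := fun H => by
    obtain ⟨s, t, e⟩ := Submodule.mem_span_pair.1 H
    by_cases hs : s = 0
    · exact hab (Submodule.mem_span_singleton.2 ⟨t, by rw [← e, hs, zero_smul, zero_add]⟩)
    · refine hwH (Submodule.mem_span_pair.2 ⟨s⁻¹, -(s⁻¹ * t), ?_⟩)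
      rw [← e, smul_add, smul_smul, inv_mul_cancel₀ hs, smul_smul]; module
  obtain ⟨v, hv, hva⟩ := hh.exists_perp_eq ha' (-1)
  have hvw : h.B v w = 0 := hv w (Submodule.subset_span (by simp))
  have hvb : h.B v b = 0 := hv b (Submodule.subset_span (by simp))
  obtain ⟨t, ok⟩ := exists_eichOK hw0 (h.B_eq_zero_symm hvw)
  have hc' : (FormType.herm τ hτ).π c = 0 := hc
  obtain ⟨p, hpm, hp0, hp⟩ := rad_of_rank_two hf U.hσ hKO
    (y := g * res F E V (h.ei u 0 c) * g⁻¹)
    (K.mul_mem (K.mul_mem hg (hK u 0 c)) (K.inv_mem hg)) (hK w v t) (a := a) (b := b) (w := w)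
    (by rw [ha, mem_O_q hgO]; exact U.q_eq_zero (h.q_smul_eq_zero hu ω))
    (by rw [hb, mem_O_q hgO]; exact U.q_eq_zero hu) (U.q_eq_zero hw0)
    (by rw [ha, hb, mem_O_B hgO]; exact U.B_eq_zero (by simp [h.B_self_eq_zero hu]))
    (U.B_eq_zero haw) (U.B_eq_zero hbw) (by simpa [hb] using hu0)
    (fun H => hab (by
      obtain ⟨s, hs⟩ := Submodule.mem_span_singleton.1 H
      exact Submodule.mem_span_singleton.2 ⟨ι₀ s, by rw [algebraMap_smul, hs]⟩))
    (fun x => by
      rw [ha, hb, B_apply_left hgO, B_apply_left hgO, LinearEquiv.mul_apply, LinearEquiv.mul_apply,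
        res_apply, ← g.eq_symm_apply, ei_zero_apply hu hc']
      change _ = g⁻¹ x ↔ _
      rw [sub_eq_self, FormType.herm_ε]
      constructor
      · intro H
        have : h.B u (g⁻¹ x) = 0 := by simpa [hc0, hu0] using H
        exact ⟨U.B_eq_zero (by rw [h.B_smul_left, this, mul_zero]), U.B_eq_zero this⟩
      · rintro ⟨h1, h2⟩
        rw [U.hB_eq_zero hω h2 h1]; simp)
    (by rw [res_apply, ok.ei_apply_of_perp (h.B_eq_zero_symm haw), hva, FormType.herm_ε]; simp)
    (ok.ei_apply_fix (h.B_eq_zero_symm hbw) hvb)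
  obtain ⟨s, s', rfl⟩ := Submodule.mem_span_pair.1 hpm
  refine U.E_le_of_rad hK hKO hf hn hπ hw0 (by rintro rfl; exact hwH (Submodule.zero_mem _))
    ?_ (fun H => ?_) hp
  · rw [← algebraMap_smul E s, ← algebraMap_smul E s']
    simp [h.B_eq_zero_symm haw, h.B_eq_zero_symm hbw]
  · obtain ⟨k, hk⟩ := Submodule.mem_span_singleton.1 H
    have hk0 : k ≠ 0 := by rintro rfl; exact hp0 (by rw [← hk, zero_smul])
    refine hwH (Submodule.mem_span_pair.2 ⟨k⁻¹ * ι₀ s, k⁻¹ * ι₀ s', ?_⟩)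
    rw [mul_smul, mul_smul, algebraMap_smul, algebraMap_smul, ← smul_add, ← hk, smul_smul,
      inv_mul_cancel₀ hk0, one_smul]

theorem E_le_or_mem (hK : Over F h K) (hKO : K ≤ f.O) (hf : f.Nondeg) (hn : 7 ≤ finrank E V)
    (hπ : ∀ a, T.π a = 0 → ∃ c, a = c - T.ε * T.σ c) {g : V ≃ₗ[F] V} (hg : g ∈ K) :
    f.E ≤ K ∨ g ∈ normE F E V := by
  have hh := U.nondeg hf
  obtain ⟨ω, hω⟩ := U.exists_τ_ne
  refine or_iff_not_imp_left.2 fun hE => ?_
  have H : ∀ u, h.q u = 0 → ∃ c : E, g (ω • u) = c • g u := fun u hu => by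
    obtain ⟨c, hc⟩ := Submodule.mem_span_singleton.1
      ((U.E_le_or_line hK hKO hf hn hπ hg hω hu).resolve_left hE)
    exact ⟨c, hc.symm⟩
  have hlin : ∀ (u : V) (x y : F),
      g ((ι₀ x + ι₀ y * ω) • u) = ι₀ x • g u + ι₀ y • g (ω • u) := fun u x y => by
    simp only [add_smul, mul_smul, algebraMap_smul, map_add, map_smul]
  obtain ⟨c, hc⟩ := exists_scalar_of_singular' hh (sing3_herm U.τ_ne h) hn (R := E)
    ((g : V →ₗ[F] V).toAddMonoidHom.comp (LinearMap.lsmul E V ω).toAddMonoidHom)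
    (g : V →ₗ[F] V).toAddMonoidHom (fun y z hy hy0 hz a b hab => by
      change a • g z + b • g y = 0 at hab
      have hgy : g y ≠ 0 := by simpa using hy0
      by_cases ha : a = 0
      · exact ⟨ha, by simpa [ha, hgy] using hab⟩
      exfalso
      obtain ⟨c, hc⟩ := H y hy
      have hτc : τ c ≠ c := fun e => by
        obtain ⟨x, rfl⟩ := U.fix c e
        rw [algebraMap_smul, ← map_smul, ← algebraMap_smul E x] at hc
        have e' : ω = ι₀ x := smul_left_injective E hy0 (g.injective hc)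
        rw [e', U.τ_alg] at hω
        exact hω rfl
      obtain ⟨x, x', e⟩ := U.exists_eq_add hτc (-(a⁻¹ * b))
      refine hz (Submodule.mem_span_singleton.2 ⟨ι₀ x + ι₀ x' * ω, g.injective ?_⟩)
      rw [hlin, hc, smul_smul, ← add_smul, ← e]
      apply smul_right_injective V ha
      dsimp only
      rw [smul_smul, mul_neg, mul_inv_cancel_left₀ ha, neg_smul]
      exact neg_eq_of_add_eq_zero_left hab) H
  have : Nontrivial V := Module.nontrivial_of_finrank_pos (R := E) (by omega)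
  refine mem_normE_of fun k => ?_
  obtain ⟨x, y, rfl⟩ := U.exists_eq_add hω k
  refine ⟨ι₀ x + ι₀ y * c, fun v => ?_⟩
  have : g (ω • v) = c • g v := hc v
  rw [hlin, this, add_smul, mul_smul]

omit [FiniteDimensional F V] in
theorem not_E_le_normE (hf : f.Nondeg) (hn : 7 ≤ finrank E V) : ¬ f.E ≤ normE F E V := by
  intro H
  have hh := U.nondeg hf
  obtain ⟨w, hw0, hw⟩ := Iso3.exists_singular (sing3_herm U.τ_ne h) (by omega)
  obtain ⟨w₁, k, -, h1, -, h4⟩ := U.exists_move hh hn hw hw0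
  obtain ⟨x, -, -, -, z2, z3⟩ := h4 1
  obtain ⟨k', hk'⟩ := (H (ei_mem_E w₁ x (-1))).1 k
  rw [hk', z2, h.B_smul_right, h.B_self_eq_zero hw, mul_zero, map_one, one_mul] at z3
  exact h1 z3.symm

end UExt

end CL.Root
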