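/-
The normaliser of a quadratic extension field with non-trivial adjoint map is maximal in the
symplectic and orthogonal groups.
-/
import Cfsg.Agent.CLAS.UniOver

set_option autoImplicit false

namespace CL.Root

open Module CL.Witt CL.Witt.Form CL.Tv Matrix Cfsg Cfsg.Geo

section Abstract

variable {F E : Type*} [Field F] [Field E] [Algebra F E] {T : FormType F} {V : Type*}
  [AddCommGroup V] [Module F V] [Module E V] [IsScalarTower F E V] {f : Form T V}

local notation "ι₀" => algebraMap F E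

theorem exists_adjoint_hom [Nontrivial V] (hf : f.Nondeg) (hσ : ∀ c, T.σ c = c)
    (h2 : finrank F E = 2) (hac : ∀ k : E, ∃ k' : E, ∀ u v, f.B (k • u) v = f.B u (k' • v))
    (hnsa : ¬ ∀ (k : E) u v, f.B (k • u) v = f.B u (k • v)) :
    ∃ τ : E →+* E, (∀ a, τ (τ a) = a) ∧ τ ≠ RingHom.id E ∧ (∀ c, τ (ι₀ c) = ι₀ c) ∧
      (∀ k, τ k = k → k ∈ Set.range ι₀) ∧ ∀ (k : E) u v, f.B (k • u) v = f.B u (τ k • v) := by
  choose t ht using hac
  obtain ⟨v₀, hv₀⟩ := exists_ne (0 : V)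
  have uniq : ∀ k k' : E, (∀ u, f.B u (k • v₀) = f.B u (k' • v₀)) → k = k' := fun k k' H =>
    smul_left_injective E hv₀ (hf.ext_right H)
  let τ : E →+* E :=
    { toFun := t
      map_one' := uniq _ _ fun u => by rw [← ht, one_smul, one_smul]
      map_mul' := fun a b => uniq _ _ fun u => by
        rw [← ht, mul_smul, ht, ht, smul_smul, mul_comm]
      map_zero' := uniq _ _ fun u => by rw [← ht, zero_smul, zero_smul]; simp
      map_add' := fun a b => uniq _ _ fun u => by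
        rw [← ht, add_smul, add_smul, f.B_add_left, f.B_add_right, ht, ht] }
  have hτ : ∀ (k : E) u v, f.B (k • u) v = f.B u (τ k • v) := ht
  have halg : ∀ c, τ (ι₀ c) = ι₀ c := fun c => uniq _ _ fun u => by
    rw [← hτ, algebraMap_smul, algebraMap_smul, f.B_smul_left, f.B_smul_right, hσ]
  have hne : τ ≠ RingHom.id E := fun e => hnsa fun k u v => by rw [hτ, e]; rfl
  refine ⟨τ, fun a => uniq _ _ fun u => ?_, hne, halg, fun k hk => ?_, hτ⟩
  · rw [← hτ, f.symm v₀, ← hτ, f.symm (a • v₀)]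
  · obtain ⟨ω, hω⟩ : ∃ ω, τ ω ≠ ω := by by_contra! H; exact hne (RingHom.ext H)
    have : FiniteDimensional F E := Module.finite_of_finrank_pos (by omega)
    have hω' : ω ∉ F ∙ (1 : E) := fun H => by
      obtain ⟨c, rfl⟩ := Submodule.mem_span_singleton.1 H
      exact hω (by rw [← Algebra.algebraMap_eq_smul_one, halg])
    have hsp : Submodule.span F {ω, (1 : E)} = ⊤ := by
      have := (li2 one_ne_zero hω').span_eq_top_of_card_eq_finrank (by simp [h2])
      simpa [Matrix.range_cons, Matrix.range_empty, Set.pair_comm] using this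
    obtain ⟨x, y, rfl⟩ := Submodule.mem_span_pair.1 (hsp ▸ Submodule.mem_top : k ∈ _)
    rw [Algebra.smul_def, Algebra.smul_def, mul_one] at hk ⊢
    rw [map_add, map_mul, halg, halg] at hk
    have : ι₀ x * (τ ω - ω) = 0 := by linear_combination hk
    rw [mul_eq_zero, sub_eq_zero, or_iff_left hω] at this
    exact ⟨y, by rw [this, zero_mul, zero_add]⟩

theorem exists_herm_trace (hσ : ∀ c, T.σ c = c) {τ : E →+* E} (hτ : ∀ a, τ (τ a) = a)
    (hne : τ ≠ RingHom.id E) (halg : ∀ c, τ (ι₀ c) = ι₀ c)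
    (hfix : ∀ k, τ k = k → k ∈ Set.range ι₀)
    (hadj : ∀ (k : E) u v, f.B (k • u) v = f.B u (τ k • v)) {η : E} (hη : η ≠ 0)
    (hε : τ η = ι₀ T.ε * η) :
    ∃ h : Form (FormType.herm τ hτ) V, ∀ u v, ι₀ (f.B u v) = η * h.B u v + τ (η * h.B u v) := by
  obtain ⟨ω, hω⟩ : ∃ ω, τ ω ≠ ω := by by_contra! H; exact hne (RingHom.ext H)
  have h0 : ω - τ ω ≠ 0 := sub_ne_zero.2 hω.symm
  have h0' : τ ω - ω ≠ 0 := sub_ne_zero.2 hω
  have uniq : ∀ z z' : E, (∀ k, η * (k * z) + τ (η * (k * z)) = η * (k * z') + τ (η * (k * z'))) →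
      z = z' := fun z z' H => by
    have h1 := H 1
    have h2 := H ω
    simp only [map_mul, one_mul] at h1 h2
    have : (ω - τ ω) * η * (z - z') = 0 := by linear_combination h2 - τ ω * h1
    simpa [h0, hη, sub_eq_zero] using this
  have ex : ∀ u v, ∃ z : E, ∀ k : E, ι₀ (f.B u (k • v)) = η * (k * z) + τ (η * (k * z)) := by
    intro u v
    refine ⟨η⁻¹ * ((ι₀ (f.B u (ω • v)) - τ ω * ι₀ (f.B u v)) / (ω - τ ω)), fun k => ?_⟩
    obtain ⟨y, hy⟩ := hfix ((k - τ k) / (ω - τ ω)) (by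
      rw [map_div₀, map_sub, map_sub, hτ, hτ]; field_simp; ring)
    obtain ⟨x, hx⟩ := hfix (k - ι₀ y * ω) (by
      rw [map_sub, map_mul, halg, hy]; field_simp; ring)
    have hk : k = ι₀ x + ι₀ y * ω := by rw [hx]; ring
    obtain ⟨s, hs⟩ := hfix (ω + τ ω) (by rw [map_add, hτ, add_comm])
    rw [mul_left_comm η, mul_inv_cancel_left₀ hη, hk, add_smul, mul_smul, algebraMap_smul,
      algebraMap_smul, f.B_add_right, f.B_smul_right, f.B_smul_right]
    simp only [map_add, map_mul, map_div₀, map_sub, halg, hτ]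
    field_simp
    ring
  choose H hH using ex
  have hεε : ι₀ T.ε * ι₀ T.ε = 1 := by rw [← map_mul, T.εε, map_one]
  let B : V →ₛₗ[τ] V →ₗ[E] E := LinearMap.mk₂'ₛₗ τ (RingHom.id E) H
    (fun u u' v => uniq _ _ fun k => by
      rw [← hH, f.B_add_left, map_add, hH, hH]; simp only [map_mul, map_add]; ring)
    (fun c u v => uniq _ _ fun k => by
      rw [← hH, hadj, smul_smul, hH, smul_eq_mul]; simp only [map_mul]; ring)
    (fun u v v' => uniq _ _ fun k => by
      rw [← hH, smul_add, f.B_add_right, map_add, hH, hH]; simp only [map_mul, map_add]; ring)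
    (fun c u v => uniq _ _ fun k => by
      rw [← hH, smul_smul, hH, smul_eq_mul]; simp only [map_mul, RingHom.id_apply]; ring)
  refine ⟨Form.ofHerm hne hτ B ⟨fun u v => uniq _ _ fun k => ?_⟩, fun u v => ?_⟩
  · change _ = η * (k * H v u) + τ (η * (k * H v u))
    change η * (k * τ (H u v)) + τ (η * (k * τ (H u v))) = _
    rw [← hH, f.symm, hσ, hadj, map_mul ι₀, hH]
    simp only [map_mul, hτ, hε]
    linear_combination (-(η * k * τ (H u v))) * hεε
  · have := hH u v 1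
    rw [one_smul, one_mul] at this
    exact this

theorem exists_uExt_alt [Nontrivial V] {f : Form (FormType.alt F) V} (hf : f.Nondeg)
    (h2 : finrank F E = 2) (hac : ∀ k : E, ∃ k' : E, ∀ u v, f.B (k • u) v = f.B u (k' • v))
    (hnsa : ¬ ∀ (k : E) u v, f.B (k • u) v = f.B u (k • v)) :
    ∃ (τ : E →+* E) (hτ : ∀ a, τ (τ a) = a) (h : Form (FormType.herm τ hτ) V),
      Nonempty (UExt f h) := by
  obtain ⟨τ, hτ, hne, halg, hfix, hadj⟩ := exists_adjoint_hom hf (fun _ => rfl) h2 hac hnsa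
  obtain ⟨η, hη, hη'⟩ := FormType.exists_add_σ_eq_zero hne hτ
  have hε : τ η = ι₀ (FormType.alt F).ε * η := by
    rw [FormType.alt_ε, map_neg, map_one]; linear_combination hη'
  obtain ⟨h, hh⟩ := exists_herm_trace (f := f) (fun _ => rfl) hτ hne halg hfix hadj hη hε
  exact ⟨τ, hτ, h, ⟨η, hη, fun _ => rfl, hne, halg, hfix, hε, hh,
    fun v _ _ => (f.alt_q v).symm⟩⟩

theorem exists_uExt_quad [Nontrivial V] {f : Form (FormType.quad F) V} (hf : f.Nondeg)
    (h2 : finrank F E = 2) (hac : ∀ k : E, ∃ k' : E, ∀ u v, f.B (k • u) v = f.B u (k' • v))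
    (hnsa : ¬ ∀ (k : E) u v, f.B (k • u) v = f.B u (k • v))
    (hsc : ∀ k : E, ∃ c : F, ∀ v, f.q (k • v) = c * f.q v) :
    ∃ (τ : E →+* E) (hτ : ∀ a, τ (τ a) = a) (h : Form (FormType.herm τ hτ) V),
      Nonempty (UExt f h) := by
  obtain ⟨τ, hτ, hne, halg, hfix, hadj⟩ := exists_adjoint_hom hf (fun _ => rfl) h2 hac hnsa
  have hε : τ 1 = ι₀ (FormType.quad F).ε * 1 := by
    rw [FormType.quad_ε, map_one, map_one, mul_one]
  obtain ⟨h, hh⟩ := exists_herm_trace (f := f) (fun _ => rfl) hτ hne halg hfix hadj one_ne_zero hε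
  refine ⟨τ, hτ, h, ⟨1, one_ne_zero, fun _ => rfl, hne, halg, hfix, hε, hh, fun v a ha => ?_⟩⟩
  have hN : ∀ (k : E) v, ι₀ (f.q (k • v)) = τ k * k * ι₀ (f.q v) := by
    intro k v
    obtain ⟨c, hc⟩ := hsc k
    obtain ⟨n, hn⟩ := hfix (τ k * k) (by rw [map_mul, hτ, mul_comm])
    obtain ⟨v₀, hv₀⟩ := exists_ne (0 : V)
    have e : n = c := by
      refine smul_left_injective F hv₀ (hf.ext_right fun u => ?_)
      dsimp only
      rw [← algebraMap_smul E n, hn, mul_smul, ← hadj, f.quad_B, ← smul_add, hc, hc, hc,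
        f.B_smul_right, f.quad_B]
      ring
    rw [hc, map_mul, ← hn, e]
  obtain ⟨s, hs⟩ := FormType.exists_add_σ_eq_one hne hτ
  apply (algebraMap F E).injective
  have h1 := hN (1 + s) v
  rw [add_smul, one_smul, f.quad_q_add, map_add, map_add, hN, hh, h.B_smul_right, ← h.herm_q, ha]
    at h1
  simp only [map_mul, map_add, map_one, halg, one_mul] at h1
  rw [FormType.quad_π]
  linear_combination h1 + (ι₀ (f.q v) - ι₀ a) * hs

end Abstract

variable {ι : Type} [Fintype ι] [DecidableEq ι] {F : Type*} [Field F]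

/-- A field subalgebra of the matrix algebra as an extension field acting on the space. -/
theorem exists_field_of_isFieldSubalgebra.{u} {F : Type u} [Field F] [Nonempty ι] {r : ℕ}
    {K : Subalgebra F (Matrix ι ι F)} (hK : IsFieldSubalgebra r K) :
    ∃ (E : Type u) (_ : Field E) (_ : Algebra F E) (_ : Module E (ι → F))
      (_ : IsScalarTower F E (ι → F)), finrank F E = r ∧
      ∀ A, A ∈ K ↔ ∃ k : E, ∀ v, A *ᵥ v = k • v := by
  have hK' : IsField K := ⟨⟨0, 1, zero_ne_one⟩, fun x y => Subtype.ext (hK.comm x x.2 y y.2),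
    fun {x} hx => by
      obtain ⟨y, hy, hxy⟩ := hK.inv x x.2 (fun h => hx (Subtype.ext h))
      exact ⟨⟨y, hy⟩, Subtype.ext hxy⟩⟩
  let _ := hK'.toField
  let iM : Module K (ι → F) :=
    Module.compHom (ι → F) (toLinAlgEquiv'.toAlgHom.comp K.val).toRingHom
  have iT : @IsScalarTower F K (ι → F) _ iM.toSMul _ := ⟨fun c k v => by
    change ((c • k : K) : Matrix ι ι F) *ᵥ v = c • ((k : Matrix ι ι F) *ᵥ v)
    rw [Subalgebra.coe_smul, smul_mulVec]⟩
  refine ⟨K, inferInstance, inferInstance, iM, iT, hK.finrank_eq,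
    fun A => ⟨fun hA => ⟨⟨A, hA⟩, fun v => rfl⟩, ?_⟩⟩
  rintro ⟨k, hk⟩
  have : A = k := toLin'.injective (LinearMap.ext hk)
  rw [this]; exact k.2

theorem mem_subalgebraNormalizer_iff {E : Type*} [Field E] [Algebra F E] [Module E (ι → F)]
    [IsScalarTower F E (ι → F)] {K : Subalgebra F (Matrix ι ι F)}
    (hK : ∀ A, A ∈ K ↔ ∃ k : E, ∀ v, A *ᵥ v = k • v) (g : GL ι F) :
    g ∈ subalgebraNormalizer K ↔ act g ∈ UExt.normE F E (ι → F) := by
  have hA : ∀ k : E, ∃ A ∈ K, ∀ v, A *ᵥ v = k • v := fun k =>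
    ⟨LinearMap.toMatrix' ((LinearMap.lsmul E (ι → F) k).restrictScalars F),
      (hK _).2 ⟨k, fun v => LinearMap.toMatrix'_mulVec _ v⟩, fun v => LinearMap.toMatrix'_mulVec _ v⟩
  have e : ∀ (g : GL ι F) (A : Matrix ι ι F) v,
      ((g : Matrix ι ι F) * A * ((g⁻¹ : GL ι F) : Matrix ι ι F)) *ᵥ v =
        act g (A *ᵥ act g⁻¹ v) := fun g A v => by
    rw [← mulVec_mulVec, ← mulVec_mulVec]; rfl
  have key : ∀ g ∈ subalgebraNormalizer K, ∀ k : E, ∃ k' : E, ∀ v,
      act g (k • v) = k' • act g v := fun g hg k => by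
    obtain ⟨A, hA, h⟩ := hA k
    obtain ⟨k', hk'⟩ := (hK _).1 ((hg A).1 hA)
    exact ⟨k', fun v => by rw [← hk', e, act_inv_act, h]⟩
  refine ⟨fun hg => ⟨key g hg, fun k' => ?_⟩, fun hg A => ⟨fun h => ?_, fun h => ?_⟩⟩
  · obtain ⟨k, hk⟩ := key g⁻¹ (inv_mem hg) k'
    refine ⟨k, fun v => ?_⟩
    rw [← act_act_inv g (k' • act g v), hk, act_inv_act]
  · obtain ⟨k, hk⟩ := (hK _).1 h
    obtain ⟨k', hk'⟩ := hg.1 k
    exact (hK _).2 ⟨k', fun v => by rw [e, hk, hk', act_act_inv]⟩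
  · obtain ⟨k', hk'⟩ := (hK _).1 h
    obtain ⟨k, hk⟩ := hg.2 k'
    refine (hK _).2 ⟨k, fun v => (act g).injective ?_⟩
    rw [hk, ← hk', e, act_inv_act]

theorem isMaximalIn_normE [Finite F] {T : FormType F} {f : Form T (ι → F)} (hf : f.Nondeg)
    {E : Type*} [Field E] [Algebra F E] [Module E (ι → F)]
    [IsScalarTower F E (ι → F)] {K : Subalgebra F (Matrix ι ι F)}
    (hK : ∀ A, A ∈ K ↔ ∃ k : E, ∀ v, A *ᵥ v = k • v) (h2 : finrank F E = 2)
    (hn : 13 ≤ Fintype.card ι) {τ : E →+* E} {hτ : ∀ a, τ (τ a) = a}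
    {h : Form (FormType.herm τ hτ) (ι → F)} (U : UExt f h)
    (hπ : ∀ a, T.π a = 0 → ∃ c, a = c - T.ε * T.σ c) (hO : ⁅f.O, f.O⁆ ≤ f.E)
    {X : Subgroup (GL ι F)} (hX : ∀ g, g ∈ X ↔ act g ∈ f.E) :
    IsMaximalIn X (subalgebraNormalizer K ⊓ X) := by
  have : FiniteDimensional F E := Module.finite_of_finrank_pos (by omega)
  have : Finite E := Module.finite_of_finite F
  have : FiniteDimensional E (ι → F) := Module.Finite.of_restrictScalars_finite F E _
  have hr : 7 ≤ finrank E (ι → F) := by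
    have := Module.finrank_mul_finrank F E (ι → F)
    rw [h2, Module.finrank_fintype_fun_eq_card] at this
    omega
  have hh := U.nondeg hf
  refine isMaximalIn_of_act hX (mem_subalgebraNormalizer_iff hK) (U.not_E_le_normE hf hr) ?_
  rintro L h1 h2 ⟨g, hg, hg'⟩
  refine (U.E_le_or_mem (fun u v a => h1 ⟨UExt.res_mem_normE _, hO ?_⟩) (h2.trans E_le_O) hf hr hπ
    hg).resolve_right hg'
  have := (Iso3.idx2 (sing3_herm U.τ_ne h) hh (by omega)).commutator_E hh (by omega)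
  have hm := Subgroup.mem_map_of_mem (UExt.res F E (ι → F)) (this ▸ ei_mem_E (f := h) u v a)
  rw [Subgroup.map_commutator] at hm
  have hle : h.E.map (UExt.res F E (ι → F)) ≤ f.O := by
    rintro _ ⟨e, he, rfl⟩; exact U.res_mem_O (E_le_O he)
  exact Subgroup.commutator_mono hle hle hm

end CL.Root
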