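import Mathlib
import Cfsg.Agent.CLAS.Elus8
import Cfsg.Agent.CLAS.ElusL6
import Cfsg.Agent.CLAS.ExtO3
import Cfsg.Agent.CLAS.UniOverStd

/-! Elements of prime order of isometry groups conjugate into extension-field subgroups. -/

set_option autoImplicit false
set_option linter.unusedSectionVars false

namespace CL.ElusS

open Module Polynomial CL.GLn CL.SpU CL.Witt CL.Witt.Form CL.PrimeCl CL.Elus CL.ExtF CL.Tv

variable {F : Type*} [Field F] {T : FormType F} {V : Type*} [AddCommGroup V] [Module F V]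
  {f : Form T V} {G H : Subgroup (V ≃ₗ[F] V)} {r : ℕ} {A B : Module.End F V}

/-- The underlying endomorphism. -/
abbrev en (x : V ≃ₗ[F] V) : Module.End F V := (x : V →ₗ[F] V)

theorem en_pow (x : V ≃ₗ[F] V) (k : ℕ) : en (x ^ k) = en x ^ k :=
  map_pow (LinearEquiv.automorphismGroup.toLinearMapMonoidHom (R := F) (M := V)) x k

theorem en_pow_eq_one {x : V ≃ₗ[F] V} {k : ℕ} : en x ^ k = 1 ↔ x ^ k = 1 := by
  rw [← en_pow]
  exact ⟨fun h => LinearEquiv.toLinearMap_injective h, fun h => by rw [h]; rfl⟩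

/-- Every element of `G` of projective order `r` is `G`-conjugate into `H`. -/
def EluG (G H : Subgroup (V ≃ₗ[F] V)) (r : ℕ) : Prop :=
  ∀ x ∈ G, (∃ c, en x ^ r = algebraMap F _ c) → (∀ c, en x ≠ algebraMap F _ c) →
    ∃ g ∈ G, g⁻¹ * x * g ∈ H

section Bridge

variable {ι : Type} [Fintype ι] [DecidableEq ι] {G H : Subgroup (GL ι F)}
  {G' H' : Subgroup ((ι → F) ≃ₗ[F] (ι → F))} (hG : ∀ g, g ∈ G ↔ act g ∈ G')
  (hH : ∀ g, g ∈ H ↔ act g ∈ H')
include hG hH

theorem elu_iff_act : (∀ x ∈ G,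
    (∃ z : F, ((x ^ r : GL ι F) : Matrix ι ι F) = z • (1 : Matrix ι ι F)) →
    (∀ z : F, (x : Matrix ι ι F) ≠ z • (1 : Matrix ι ι F)) →
    ∃ g ∈ G, g⁻¹ * x * g ∈ H) ↔ EluG G' H' r := by
  rw [EluG, (Root.actE ι F).surjective.forall]
  refine forall_congr' fun x => imp_congr (hG x) (imp_congr (exists_congr fun z => ?_)
    (imp_congr (forall_congr' fun z => not_congr ?_) ?_))
  · rw [Units.val_pow_eq_pow_val, pow_eq_smul_iff, en, Root.actE_apply, act_coe]
  · rw [toLin'_eq_algebraMap_iff, en, Root.actE_apply, act_coe]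
  · rw [(Root.actE ι F).surjective.exists]
    refine exists_congr fun g => and_congr (hG g) ?_
    rw [hH, ← Root.actE_apply, map_mul, map_mul, map_inv]

theorem relIndex_act : H.relIndex G = H'.relIndex G' := by
  have h1 : G = G'.comap (Root.actE ι F : GL ι F →* _) := Subgroup.ext hG
  have h2 : H = H'.comap (Root.actE ι F : GL ι F →* _) := Subgroup.ext hH
  rw [h1, h2, Subgroup.relIndex_comap, Subgroup.map_comap_eq_self_of_surjective
    (Root.actE ι F).surjective]

end Bridge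

theorem simil_conj (g x : V ≃ₗ[F] V) : Simil (en x) (en (g⁻¹ * x * g)) :=
  ⟨g⁻¹, fun v => by simp⟩

theorem EluG.test [FiniteDimensional F V] (h : EluG G H r) (hf : f.Nondeg) (hG : G ≤ f.O)
    (hG' : ∀ g ∈ f.O, g ^ r = 1 → g ∈ G) (hA : IsIsom f f A) (h1 : A ^ r = 1)
    (h2 : ∀ c, A ≠ algebraMap F _ c) : ∃ y ∈ H, IsIsom f f (en y) ∧ Simil A (en y) := by
  obtain ⟨x, hx, h3⟩ := hA.exists_mem_O hf
  obtain rfl : A = en x := LinearMap.ext fun v => (h3 v).symm
  have h4 := hG' x hx (en_pow_eq_one.1 h1)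
  obtain ⟨g, h5, h6⟩ := h x h4 ⟨1, by rw [h1, map_one]⟩ h2
  exact ⟨_, h6, hG (G.mul_mem (G.mul_mem (G.inv_mem h5) h4) h5), simil_conj g x⟩

theorem exists_conj_of_isomConj {x y : V ≃ₗ[F] V} (h : IsomConj f f (en x) (en y)) :
    ∃ g ∈ f.O, g⁻¹ * x * g = y := by
  obtain ⟨e, h1, h2⟩ := h
  exact ⟨e⁻¹, f.O.inv_mem h1, LinearEquiv.ext fun v => by
    simpa using h2 (e.symm v)⟩

theorem not_dvd_relIndex {Γ : Type*} [Group Γ] {G H K : Subgroup Γ} [Finite G] [Fact r.Prime]
    (h1 : K ≤ H) (h2 : K ≤ G) (h : padicValNat r (Nat.card G) ≤ padicValNat r (Nat.card K)) :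
    ¬ r ∣ H.relIndex G := fun h3 => by
  have h4 : r ∣ K.relIndex G := h3.trans (Subgroup.relIndex_dvd_of_le_left G h1)
  have h5 : Nat.card K * K.relIndex G = Nat.card G := by
    rw [← Subgroup.card_mul_index (K.subgroupOf G), Nat.card_congr
      (Subgroup.subgroupOfEquivOfLe h2).toEquiv]
    rfl
  have h6 : Nat.card G ≠ 0 := Nat.card_pos.ne'
  rw [← h5] at h h6
  rw [padicValNat.mul (left_ne_zero_of_mul h6) (right_ne_zero_of_mul h6)] at h
  have := one_le_padicValNat_of_dvd (right_ne_zero_of_mul h6) h4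
  omega

theorem dvd_card_of_dvd_relIndex {Γ : Type*} [Group Γ] {G H K : Subgroup Γ} (h1 : G ≤ K)
    (h : r ∣ H.relIndex G) : r ∣ Nat.card K :=
  (h.trans (Subgroup.relIndex_dvd_card H G)).trans (Subgroup.card_dvd_of_le h1)

/-! ### Test elements -/

theorem ne_algebraMap_of_range [FiniteDimensional F V] {j : ℕ}
    (h : finrank F (LinearMap.range (A - 1)) = j) (h0 : j ≠ 0) (h1 : j < finrank F V) (c : F) :
    A ≠ algebraMap F _ c := by
  have := LinearMap.finrank_range_add_finrank_ker (A - 1)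
  refine ne_algebraMap_of_ker (fun h2 => ?_) (fun h2 => ?_) c
  · rw [h2, finrank_bot] at this; omega
  · rw [h2, sub_self, LinearMap.range_zero, finrank_bot] at h; omega

theorem ne_algebraMap_of_odd [Nontrivial V] (hf : f.Nondeg) (hσ : ∀ c, T.σ c = c)
    (hA : IsIsom f f A) (hr : Odd r) (h : A ^ r = 1) (h1 : A ≠ 1) (c : F) :
    A ≠ algebraMap F _ c := by
  rintro rfl
  have h2 := norm_eq_one hf hA
  rw [hσ, ← sq] at h2
  rw [← map_pow, ← map_one (algebraMap F (Module.End F V))] at h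
  rw [eq_one_of_coprime (Nat.coprime_two_right.2 hr) h2 ((algebraMap F _).injective h),
    map_one] at h1
  exact h1 rfl

theorem isCompl_range_ker [FiniteDimensional F V] (h : A.IsSemisimple) :
    IsCompl (LinearMap.range (A - 1)) (LinearMap.ker (A - 1)) := (isCompl_ker_range h).symm

theorem exists_glue_one [FiniteDimensional F V] (hA : IsIsom f f A) {W : Submodule F V}
    (hN : ND f W) (hW : Inv A W) : ∃ B : Module.End F V, IsIsom f f B ∧ (∀ w ∈ W, B w = A w) ∧
      ∀ u ∈ f.perp W, B u = u := by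
  refine ⟨LinearMap.ofIsCompl hN.isCompl (A ∘ₗ W.subtype) (f.perp W).subtype, ?_,
    fun w hw => LinearMap.ofIsCompl_apply_left hN.isCompl ⟨w, hw⟩,
    fun w hw => LinearMap.ofIsCompl_apply_right hN.isCompl ⟨w, hw⟩⟩
  set B := LinearMap.ofIsCompl hN.isCompl (A ∘ₗ W.subtype) (f.perp W).subtype
  have h3 : ∀ w ∈ W, B w = A w := fun w hw => LinearMap.ofIsCompl_apply_left hN.isCompl ⟨w, hw⟩
  have h4 : ∀ w ∈ f.perp W, B w = w := fun w hw =>
    LinearMap.ofIsCompl_apply_right hN.isCompl ⟨w, hw⟩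
  refine isIsom_of_span f f B (s := W ∪ f.perp W) (by
    rw [Submodule.span_union, Submodule.span_eq, Submodule.span_eq, hN.isCompl.sup_eq_top]) ?_ ?_
  · rintro x (hx | hx) y (hy | hy)
    · rw [h3 x hx, h3 y hy, hA.B_eq]
    · rw [h3 x hx, h4 y hy, (mem_perp f).1 hy x hx, (mem_perp f).1 hy _ (hW x hx)]
    · rw [h4 x hx, h3 y hy, (mem_perp' f).1 hx y hy, (mem_perp' f).1 hx _ (hW y hy)]
    · rw [h4 x hx, h4 y hy]
  · rintro x (hx | hx)
    · rw [h3 x hx, hA.q_eq]
    · rw [h4 x hx]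

/-- An isometry of order `r` moving a minimal non-degenerate subspace. -/
theorem exists_single [Fintype F] [FiniteDimensional F V] {s c τ : ℕ} [Fact r.Prime]
    (D : Dat T r s c τ) (hf : f.Nondeg) (h : r ∣ Nat.card f.O) : ∃ A : Module.End F V,
      IsIsom f f A ∧ A ^ r = 1 ∧ finrank F (LinearMap.range (A - 1)) = c := by
  have := finite_equiv (F := F) (V := V)
  obtain ⟨⟨x, hx⟩, h1⟩ := exists_prime_orderOf_dvd_card' r h
  have h2 : en x ^ r = 1 := en_pow_eq_one.2 (congrArg Subtype.val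
    (h1 ▸ pow_orderOf_eq_one (⟨x, hx⟩ : f.O)))
  have h3 : IsIsom f f (en x) := hx
  have hs := isSemisimple_of_pow_eq_one D.hr h2
  obtain ⟨W, h4, h5, h6, h7⟩ := D.exists_nd h3 h2 (inv_range_sub_one _) (nd_range_sub_one hf h3 hs)
    le_rfl (j := 1) (by
      rw [mul_one]
      refine Nat.le_of_dvd (Nat.pos_of_ne_zero fun h0 => ?_) (D.dvd_finrank_range hf h3 h2)
      rw [Submodule.finrank_eq_zero, LinearMap.range_eq_bot, sub_eq_zero] at h0
      rw [show (⟨x, hx⟩ : f.O) = 1 from Subtype.ext (LinearEquiv.toLinearMap_injective h0),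
        orderOf_one] at h1
      exact (Fact.out : r.Prime).one_lt.ne h1)
  obtain ⟨B, h8, h9, h10⟩ := exists_glue_one h3 h6 h5
  have h11 : ∀ k : ℕ, ∀ w ∈ W, (B ^ k) w = (en x ^ k) w := fun k => by
    induction k with
    | zero => exact fun _ _ => rfl
    | succ k ih =>
      intro w hw
      rw [pow_succ, pow_succ, Module.End.mul_apply, Module.End.mul_apply, h9 w hw, ih _ (h5 w hw)]
  refine ⟨B, h8, LinearMap.ext fun v => ?_, ?_⟩
  · obtain ⟨w, u, rfl⟩ := exists_add_of_isCompl h6.isCompl v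
    rw [map_add, h11 r w w.2, h2, Module.End.pow_apply, Function.iterate_fixed (h10 u u.2)]
    rfl
  · have h12 : LinearMap.range (B - 1) = W.map (en x - 1) := by
      refine le_antisymm ?_ ?_
      · rintro _ ⟨v, rfl⟩
        obtain ⟨w, u, rfl⟩ := exists_add_of_isCompl h6.isCompl v
        exact ⟨w, w.2, by simp [h9 w w.2, h10 u u.2]⟩
      · rintro _ ⟨w, hw, rfl⟩
        exact ⟨w, by simp [h9 w hw]⟩
    rw [h12, ← mul_one c, ← h7, ← LinearMap.range_domRestrict, LinearMap.finrank_range_of_inj]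
    rw [← LinearMap.ker_eq_bot, LinearMap.ker_domRestrict, ← Submodule.disjoint_iff_comap_eq_bot]
    exact (isCompl_range_ker hs).disjoint.mono_left h4

theorem alt_exists_transv [FiniteDimensional F V] {f : Form (FormType.alt F) V} (hf : f.Nondeg)
    (p : ℕ) [Fact p.Prime] [CharP F p] (h : 2 ≤ finrank F V) :
    ∃ A : Module.End F V, IsIsom f f A ∧ A ^ p = 1 ∧ finrank F (LinearMap.range (A - 1)) = 1 := by
  have h1 : ∀ a ∈ 2 ::ₘ Multiset.replicate (finrank F V - 2) 1, 0 < a ∧ a ≤ 2 := fun a ha => by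
    rcases Multiset.mem_cons.1 ha with rfl | ha
    · omega
    · rw [Multiset.eq_of_mem_replicate ha]; omega
  obtain ⟨B, hB⟩ := exists_hasJT_of_sum (V := V) (1 : F) (fun a ha => (h1 a ha).1)
    (by simp; omega)
  obtain ⟨A, h5, h6⟩ := exists_isom_alt hf ((isReal_iff_even_count hB).2 fun j hj => by
    obtain ⟨m, hm⟩ := hf.even_finrank_alt
    rw [Multiset.count_cons_of_ne (by rintro rfl; exact absurd hj (by decide)), Multiset.count_replicate]
    split_ifs
    · exact ⟨m - 1, by omega⟩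
    · exact Even.zero) rfl
  have h7 := hB.of_simil h6
  refine ⟨A, h5, pow_eq_one_of_hasJT p h7 fun a ha => (h1 a ha).2.trans (Fact.out : p.Prime).two_le,
    ?_⟩
  have h8 := finrank_range_pow_eq_count (k := 1) h7 fun a ha => (h1 a ha).2
  rw [pow_one] at h8
  simpa [Multiset.count_replicate] using h8

/-! ### Projective involutions -/

section Invol

variable [FiniteDimensional F V]

theorem simil_of_diag {U W U' W' : Submodule F V} (h : IsCompl U W) (h' : IsCompl U' W')
    (hd : finrank F U = finrank F U') {a b : F} (hU : ∀ u ∈ U, A u = a • u)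
    (hW : ∀ u ∈ W, A u = b • u) (hU' : ∀ u ∈ U', B u = a • u) (hW' : ∀ u ∈ W', B u = b • u) :
    Simil A B := by
  obtain ⟨g, rfl, rfl⟩ := exists_mp_eq_isCompl h h' hd
  refine ⟨g, fun v => ?_⟩
  obtain ⟨u, w, rfl⟩ := exists_add_of_isCompl h v
  rw [map_add, map_add, map_add, map_add, hU u u.2, hW w w.2, hU' (g u) ⟨u, u.2, rfl⟩,
    hW' (g w) ⟨w, w.2, rfl⟩, map_smul, map_smul]

theorem simil_of_sq_one (h2 : (2 : F) ≠ 0) (hA : A ^ 2 = 1) (hB : B ^ 2 = 1)
    (h : finrank F (LinearMap.range (A - 1)) = finrank F (LinearMap.range (B - 1))) :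
    Simil A B := by
  exact simil_of_diag (isCompl_range_ker (ss_of_sq h2 hA)) (isCompl_range_ker (ss_of_sq h2 hB)) h
    (b := 1) (fun _ => apply_of_mem_range hA)
    (fun u hu => by simpa [sub_eq_zero] using hu) (fun _ => apply_of_mem_range hB)
    fun u hu => by simpa [sub_eq_zero] using hu

theorem simil_of_sq_neg (h2 : (2 : F) ≠ 0) (hf : f.Nondeg) (hσ : ∀ c, T.σ c = c)
    (hA : IsIsom f f A) (hB : IsIsom f f B) (h : A ^ 2 = algebraMap F _ (-1))
    (h' : B ^ 2 = algebraMap F _ (-1)) : Simil A B := by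
  by_cases h1 : ∃ b : F, b ^ 2 = -1
  · obtain ⟨b, hb⟩ := h1
    obtain ⟨U, W, h3, h4, h5⟩ := anti_pair hf hA h2 (b := b) (by rw [hσ, ← sq, hb]) (hb ▸ h)
    obtain ⟨U', W', h3', h4', h5'⟩ := anti_pair hf hB h2 (b := b) (by rw [hσ, ← sq, hb]) (hb ▸ h')
    have := tsPair_finrank hf h3
    have := tsPair_finrank hf h3'
    exact simil_of_diag h3.compl h3'.compl (by omega) h4 h5 h4' h5'
  · exact simil_of_aeval_irreducible ((X_pow_sub_C_irreducible_iff_of_prime Nat.prime_two).2
      fun b hb => h1 ⟨b, hb⟩) (aeval_X_pow_sub_C h) (aeval_X_pow_sub_C h') rfl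

omit [FiniteDimensional F V] in
theorem ss_of_sq_neg (h2 : (2 : F) ≠ 0) (h : A ^ 2 = algebraMap F _ (-1)) : A.IsSemisimple :=
  isSemisimple_of_pow_eq_one (k := 4) (by
    rw [show ((4 : ℕ) : F) = 2 * 2 by norm_num]; exact mul_ne_zero h2 h2) (by
    rw [show 4 = 2 * 2 from rfl, pow_mul, h, ← map_pow, neg_one_sq, map_one])

theorem range_invol_pos (h : A ≠ 1) : 0 < finrank F (LinearMap.range (A - 1)) :=
  Nat.pos_of_ne_zero fun h0 => h (by
    rwa [Submodule.finrank_eq_zero, LinearMap.range_eq_bot, sub_eq_zero] at h0)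

theorem range_invol_lt (h : A ^ 2 = 1) (h' : A ≠ algebraMap F _ (-1)) :
    finrank F (LinearMap.range (A - 1)) < finrank F V :=
  Submodule.finrank_lt fun h0 => h' (LinearMap.ext fun v => by
    rw [apply_of_mem_range h (h0 ▸ Submodule.mem_top)]; rfl)

theorem alt_range_invol {f : Form (FormType.alt F) V} (hf : f.Nondeg) (h2 : (2 : F) ≠ 0)
    (hA : IsIsom f f A) (h : A ^ 2 = 1) (h' : ∀ c, A ≠ algebraMap F _ c) :
    ∃ j, 0 < j ∧ 2 * j < finrank F V ∧ finrank F (LinearMap.range (A - 1)) = 2 * j := by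
  obtain ⟨j, hj⟩ := (nd_range_sub_one hf hA (ss_of_sq h2 h)).nondeg.even_finrank_alt
  have := range_invol_pos (A := A) (by simpa using h' 1)
  have := range_invol_lt h (h' _)
  exact ⟨j, by omega, by omega, by omega⟩

/-- Sufficient condition for the involutions of a symplectic group. -/
theorem elu_two_alt [Finite F] [Nontrivial V] {f : Form (FormType.alt F) V} (hf : f.Nondeg)
    (h2 : (2 : F) ≠ 0) (h1 : ∀ j, 0 < j → 2 * j < finrank F V → ∃ y ∈ H, IsIsom f f (en y) ∧
      en y ^ 2 = 1 ∧ finrank F (LinearMap.range (en y - 1)) = 2 * j)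
    (h3 : ∃ y ∈ H, IsIsom f f (en y) ∧ en y ^ 2 = algebraMap F _ (-1)) : EluG f.O H 2 := by
  rintro x hx ⟨c, hc⟩ hx2
  have hx' : IsIsom f f (en x) := hx
  suffices h : ∃ y ∈ H, IsIsom f f (en y) ∧ (en x).IsSemisimple ∧ Simil (en x) (en y) by
    obtain ⟨y, h4, h5, h6, h7⟩ := h
    obtain ⟨g, h8, rfl⟩ := exists_conj_of_isomConj ((rigid_alt hf hx' h6).isomConj hf h5 h7)
    exact ⟨g, h8, h4⟩
  rcases alt_sq_cases hf hx' hc with h | h
  · obtain ⟨j, hj0, hj1, hj⟩ := alt_range_invol hf h2 hx' h hx2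
    obtain ⟨y, h4, h5, h6, h7⟩ := h1 j hj0 hj1
    exact ⟨y, h4, h5, ss_of_sq h2 h, simil_of_sq_one h2 h h6 (by omega)⟩
  · obtain ⟨y, h4, h5, h6⟩ := h3
    exact ⟨y, h4, h5, ss_of_sq_neg h2 h, simil_of_sq_neg h2 hf (fun _ => rfl) hx' h5 h h6⟩

end Invol

/-! ### Extension fields -/

section Ext

variable {K : Type*} [Field K] [Algebra F K] [Module K V] [IsScalarTower F K V] {T' : FormType K}
  {h : Form T' V} {g : V ≃ₗ[F] V}

theorem kl_of_coprime [Finite K] [Nontrivial V] (hg : g ∈ Gam F K V)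
    (hr : r.Coprime (finrank F K)) (h1 : en g ^ r = 1) : KL K g := by
  obtain ⟨σ, hσ⟩ := hg
  obtain ⟨v, hv⟩ := exists_ne (0 : V)
  let τ : K ≃ₐ[F] K := { σ with
    commutes' := fun c => smul_left_injective K (g.map_ne_zero_iff.2 hv) (by
      simpa using (hσ (algebraMap F K c) v).symm) }
  have h2 : ∀ (k : ℕ) (a : K) (v : V), (en g ^ k) (a • v) = (τ ^ k) a • (en g ^ k) v := fun k => by
    induction k with
    | zero => exact fun _ _ => rfl
    | succ k ih =>
      intro a v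
      rw [pow_succ, pow_succ, Module.End.mul_apply, Module.End.mul_apply, AlgEquiv.mul_apply]
      exact (congrArg _ (hσ a v)).trans (ih _ _)
  have h3 : τ ^ r = 1 := AlgEquiv.ext fun a => smul_left_injective K hv (by
    simpa [h1] using (h2 r a v).symm)
  have : Finite F := Finite.of_injective _ (algebraMap F K).injective
  have h4 : τ = 1 := (pow_eq_one_iff_of_coprime hr).1 ⟨h3, by
    rw [← IsGalois.card_aut_eq_finrank, pow_card_eq_one']⟩
  exact fun a v => (hσ a v).trans (congrArg (· • g v) (AlgEquiv.congr_fun h4 a))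

theorem kl_of_range [FiniteDimensional F V] (hg : g ∈ Gam F K V)
    (h1 : 2 * finrank F (LinearMap.range (en g - 1)) < finrank F V) : KL K g := by
  obtain ⟨σ, hσ⟩ := hg
  by_contra h2
  obtain ⟨a, ha⟩ : ∃ a, σ a ≠ a := by
    by_contra! h3
    exact h2 fun a v => by rw [hσ, h3]
  have ha0 : a ≠ 0 := by rintro rfl; exact ha (map_zero σ)
  have := LinearMap.finrank_range_add_finrank_ker (en g - 1)
  set W := LinearMap.ker (en g - 1)
  have hW : ∀ v, v ∈ W ↔ g v = v := fun v => sub_eq_zero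
  let e : V ≃ₗ[F] V := (LinearEquiv.smulOfNeZero K V a ha0).restrictScalars F
  have h4 : Disjoint W (W.map (e : V →ₗ[F] V)) := by
    rw [Submodule.disjoint_def]
    rintro _ h4 ⟨v, hv, rfl⟩
    have h5 : g (a • v) = a • v := (hW _).1 h4
    rw [hσ, (hW v).1 hv, ← sub_eq_zero, ← sub_smul, smul_eq_zero, sub_eq_zero] at h5
    rw [h5.resolve_left ha, map_zero]
  have h5 := Submodule.finrank_le (W ⊔ W.map (e : V →ₗ[F] V))
  rw [finrank_sup_of_disjoint h4, LinearEquiv.finrank_map_eq] at h5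
  omega

variable (F) in
/-- Restriction of scalars. -/
def rsc : Module.End K V →+* Module.End F V where
  toFun C := C.restrictScalars F
  map_one' := rfl
  map_mul' _ _ := rfl
  map_zero' := rfl
  map_add' _ _ := rfl

theorem rsc_apply (C : Module.End K V) (v : V) : rsc F C v = C v := rfl

theorem rsc_injective : Function.Injective (rsc F : Module.End K V → Module.End F V) :=
  LinearMap.restrictScalars_injective F

theorem finrank_range_rsc (C : Module.End K V) : finrank F (LinearMap.range (rsc F C)) =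
    finrank F K * finrank K (LinearMap.range C) := by
  rw [Module.finrank_mul_finrank]; rfl

theorem exists_rsc (hg : KL K g) : ∃ C : Module.End K V, rsc F C = en g :=
  ⟨{ toFun := g, map_add' := g.map_add, map_smul' := hg }, rfl⟩

variable (f h) in
/-- The `K`-linear isometries of `f` are the isometries of `h`. -/
structure Ind : Prop where
  nd : f.Nondeg
  nd' : h.Nondeg
  iff : ∀ C : Module.End K V, IsIsom f f C ↔ IsIsom h h C

variable [FiniteDimensional F V] [FiniteDimensional K V] [Finite K]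

theorem Ind.test (I : Ind f h) [Nontrivial V] (hE : EluG G (Gam F K V) r) (hG : G ≤ f.O)
    (hG' : ∀ g ∈ f.O, g ^ r = 1 → g ∈ G) (hA : IsIsom f f A) (h1 : A ^ r = 1)
    (h2 : ∀ c, A ≠ algebraMap F _ c) (h3 : r.Coprime (finrank F K) ∨
      2 * finrank F (LinearMap.range (A - 1)) < finrank F V) :
    ∃ C : Module.End K V, IsIsom h h C ∧ C ^ r = 1 ∧ ∀ k, finrank F (LinearMap.range ((A - 1) ^ k)) =
      finrank F K * finrank K (LinearMap.range ((C - 1) ^ k)) := by
  obtain ⟨y, h4, h5, h6⟩ := hE.test I.nd hG hG' hA h1 h2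
  have h7 : en y ^ r = 1 := by
    simpa using (h6.pow_eq_algebraMap_iff r 1).1 (by rw [h1, map_one])
  have h8 : ∀ k, finrank F (LinearMap.range ((A - 1) ^ k)) =
      finrank F (LinearMap.range ((en y - 1) ^ k)) := fun k => by
    have := (h6.aeval ((X - 1) ^ k)).finrank_range
    rwa [map_pow, map_pow, map_sub, map_sub, aeval_X, aeval_X, map_one, map_one] at this
  obtain ⟨C, hC⟩ := exists_rsc (h3.elim (kl_of_coprime h4 · h7) fun h => kl_of_range h4 (by
    rwa [← pow_one (en y - 1), ← h8, pow_one]))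
  refine ⟨C, (I.iff C).1 (by rw [← hC] at h5; exact h5), rsc_injective (F := F) (by
    rw [map_pow, hC, h7, map_one]), fun k => ?_⟩
  rw [h8, ← finrank_range_rsc, map_pow, map_sub, map_one, hC]

theorem Ind.exists_mem (I : Ind f h) {C : Module.End K V} (hC : IsIsom h h C) :
    ∃ y ∈ Gam F K V, IsIsom f f (en y) ∧ en y = rsc F C := by
  obtain ⟨y, h1, h2⟩ := IsIsom.exists_mem_O I.nd (g := rsc F C) ((I.iff C).2 hC)
  exact ⟨y, KL.mem_Gam fun a v => by rw [h2, h2, rsc_apply, rsc_apply, map_smul], h1,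
    LinearMap.ext h2⟩

theorem Ind.exists_invol (I : Ind f h) (h2 : (2 : F) ≠ 0) {W : Submodule K V} (hW : ND h W) :
    ∃ y ∈ Gam F K V, IsIsom f f (en y) ∧ en y ^ 2 = 1 ∧
      LinearMap.range (en y - 1) = W.restrictScalars F := by
  obtain ⟨C, h3, h4, rfl⟩ := Elus.exists_invol I.nd' (fun h => h2 ((algebraMap F K).injective
    (by rw [map_ofNat, h, map_zero]))) hW
  obtain ⟨y, h5, h6, h7⟩ := I.exists_mem h3
  exact ⟨y, h5, h6, by rw [h7, ← map_pow, h4, map_one], by rw [h7]; rfl⟩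

theorem Ind.not_dvd (I : Ind f h) [Fact r.Prime]
    (hv : padicValNat r (Nat.card f.O) ≤ padicValNat r (Nat.card h.O)) :
    ¬ r ∣ (Gam F K V).relIndex f.O := by
  have : Finite F := Finite.of_injective _ (algebraMap F K).injective
  have := finite_equiv (F := F) (V := V)
  refine not_dvd_relIndex (K := h.O.map (rs F K V)) ?_ ?_ ?_
  · rintro _ ⟨k, -, rfl⟩
    exact (kl_rs k).mem_Gam
  · rintro _ ⟨k, hk, rfl⟩
    exact (I.iff (k : V →ₗ[K] V)).2 hk
  · rwa [Subgroup.card_map_of_injective fun a b hab =>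
      LinearEquiv.ext fun v => LinearEquiv.congr_fun (e := rs F K V a) hab v]

omit [FiniteDimensional F V] [FiniteDimensional K V] [Finite K]

theorem ind_of_dual (hf : f.Nondeg) {l : Dual F K} (hl : l ≠ 0)
    (hB : ∀ x y, f.B x y = l (h.B x y))
    (h1 : ∀ C : Module.End F V, (∀ x y, f.B (C x) (C y) = f.B x y) → IsIsom f f C)
    (h2 : ∀ C : Module.End K V, (∀ x y, h.B (C x) (C y) = h.B x y) → IsIsom h h C) : Ind f h where
  nd := hf
  nd' x hx := hf x fun y => by rw [hB, hx, map_zero]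
  iff C := ⟨fun hC => h2 C fun x y => eq_of_forall_dual_mul hl fun c => by
    rw [← h.B_smul_right, ← h.B_smul_right, ← map_smul, ← hB, ← hB, hC.B_eq],
    fun hC => h1 (rsc F C) fun x y => by rw [hB, hB, rsc_apply, rsc_apply, hC.B_eq]⟩

/-! Semilinear maps. -/

variable {ι : Type*} [Fintype ι] [DecidableEq ι] (b : Basis ι K V) (σ : K ≃ₐ[F] K) (a : ι → K)

/-- The semilinear map sending `b i` to `a i • b i`. -/
noncomputable def semi : Module.End F V :=
  (b.equivFun.symm.restrictScalars F).toLinearMap ∘ₗ LinearMap.pi fun i =>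
    LinearMap.mulLeft F (a i) ∘ₗ σ.toLinearMap ∘ₗ (b.coord i).restrictScalars F

theorem repr_semi (v : V) (i : ι) : b.repr (semi b σ a v) i = a i * σ (b.repr v i) := by
  rw [← b.equivFun_apply]
  exact congrFun (b.equivFun.apply_symm_apply _) i

theorem semi_smul (c : K) (v : V) : semi b σ a (c • v) = σ c • semi b σ a v :=
  b.ext_elem fun i => by simp [repr_semi, mul_left_comm]

theorem semi_sq (hσ : ∀ c, σ (σ c) = c) {c : F} (ha : ∀ i, a i * σ (a i) = algebraMap F K c) :
    semi b σ a ^ 2 = algebraMap F _ c := LinearMap.ext fun v => b.ext_elem fun i => by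
  rw [sq, Module.End.mul_apply, repr_semi, repr_semi, map_mul, hσ, ← mul_assoc, ha,
    Module.algebraMap_end_apply, ← algebraMap_smul K, map_smul]
  rfl

theorem semi_ne [Nontrivial V] (hσ : σ ≠ 1) (ha : IsUnit (semi b σ a)) (c : F) :
    semi b σ a ≠ algebraMap F _ c := fun h => hσ (AlgEquiv.ext fun d => by
  obtain ⟨v, hv⟩ := exists_ne (0 : V)
  have h1 := semi_smul b σ a d v
  have h2 : semi b σ a v ≠ 0 := fun h0 => hv (((Module.End.isUnit_iff _).1 ha).1
    (h0.trans (map_zero _).symm))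
  refine smul_left_injective K h2 (h1.symm.trans ?_)
  simp [h, smul_comm c d])

theorem B_eq_sum (x y : V) :
    h.B x y = ∑ i, ∑ j, T'.σ (b.repr x i) * b.repr y j * h.B (b i) (b j) := by
  conv_lhs => rw [← b.sum_repr x, ← b.sum_repr y]
  simp only [map_sum, LinearMap.sum_apply, h.B_smul_left, h.B_smul_right]
  rw [Finset.sum_comm]
  exact Finset.sum_congr rfl fun i _ => Finset.sum_congr rfl fun j _ => by ring

theorem B_semi (hσ : ∀ c, T'.σ (σ c) = σ (T'.σ c)) {d : K}
    (ha : ∀ i j, T'.σ (a i) * a j * h.B (b i) (b j) = d * σ (h.B (b i) (b j))) (x y : V) :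
    h.B (semi b σ a x) (semi b σ a y) = d * σ (h.B x y) := by
  simp only [B_eq_sum b (semi b σ a x), B_eq_sum b x, repr_semi, map_sum, map_mul, hσ,
    Finset.mul_sum]
  refine Finset.sum_congr rfl fun i _ => Finset.sum_congr rfl fun j _ => ?_
  linear_combination σ (T'.σ (b.repr x i)) * σ (b.repr y j) * ha i j

theorem exists_semi [FiniteDimensional F V] (hf : f.Nondeg) (h1 : IsIsom f f (semi b σ a)) :
    ∃ y ∈ Gam F K V, IsIsom f f (en y) ∧ en y = semi b σ a := by
  obtain ⟨y, h2, h3⟩ := h1.exists_mem_O hf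
  exact ⟨y, ⟨σ, fun c v => by rw [h3, h3, semi_smul]; rfl⟩, h2, LinearMap.ext h3⟩

end Ext

end CL.ElusS
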