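import Mathlib
import Cfsg.Agent.CLAS.ElusS1

/-! Elements of prime order of symplectic groups and the extension-field subgroups. -/

set_option autoImplicit false
set_option linter.unusedSectionVars false

namespace CL.ElusS

open Module Polynomial CL.GLn CL.SpU CL.Witt CL.Witt.Form CL.PrimeCl CL.Elus CL.ExtF CL.Tv

/-! ### Arithmetic -/

theorem sum_range_le {g : ℕ → ℕ} {k m N : ℕ} (hk : 0 < k) (hN : N < k * (m + 1))
    (h : ∀ j, ¬ k ∣ j → g j = 0) :
    ∑ j ∈ Finset.range N, g (j + 1) ≤ ∑ j ∈ Finset.range m, g (k * (j + 1)) := by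
  have h1 : ∀ j, k * (j + 1) - 1 + 1 = k * (j + 1) := fun j =>
    Nat.sub_add_cancel (Nat.mul_pos hk j.succ_pos)
  rw [← Finset.sum_filter_of_ne (p := fun j => k ∣ j + 1) fun j _ hj => by_contra fun h2 => hj (h _ h2)]
  refine (Finset.sum_le_sum_of_subset (t := (Finset.range m).image fun j => k * (j + 1) - 1)
    fun j hj => ?_).trans (Finset.sum_image_le_of_nonneg fun _ _ => Nat.zero_le _) |>.trans ?_
  · obtain ⟨h2, l, h3⟩ := Finset.mem_filter.1 hj
    obtain ⟨l, rfl⟩ : ∃ l', l = l' + 1 := ⟨l - 1, by rcases l with _ | l <;> simp at h3 ⊢⟩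
    rw [Finset.mem_range] at h2
    refine Finset.mem_image.2 ⟨l, Finset.mem_range.2 ?_, by omega⟩
    have := Nat.lt_of_mul_lt_mul_left (a := k) (show k * (l + 1) < k * (m + 1) by omega)
    omega
  · simp only [h1, le_refl]

/-- Dimension of a minimal non-degenerate block. -/
abbrev cc (i : ℕ) : ℕ := if Even i then i else 2 * i

theorem cc_pos {i : ℕ} (hi : 0 < i) : 0 < cc i := by unfold cc; split_ifs <;> omega

theorem cc_dvd {i j : ℕ} (h : i ∣ j) (hj : Even j) : cc i ∣ j := by
  unfold cc
  split_ifs with h1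
  · exact h
  · exact (Nat.coprime_two_left.2 (Nat.not_even_iff_odd.1 h1)).mul_dvd_of_dvd_of_dvd hj.two_dvd h

theorem dvd_of_cc {i k : ℕ} (hk : k.Prime) (hi : 0 < i) (h : k * cc (i / i.gcd k) ∣ cc i) {j : ℕ}
    (hj : i ∣ 2 * j) : k ∣ j := by
  by_cases h1 : k ∣ i
  · obtain ⟨l, rfl⟩ := h1
    rw [Nat.gcd_eq_right (dvd_mul_right k l), Nat.mul_div_cancel_left _ hk.pos] at h
    rcases eq_or_ne k 2 with rfl | h2
    · have h3 : Even l := by
        by_contra h3
        rw [cc, cc, if_neg h3, if_pos (by simp)] at h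
        have := Nat.le_of_dvd hi h
        omega
      exact h3.two_dvd.trans (Nat.dvd_of_mul_dvd_mul_left two_pos hj)
    · exact ((Nat.coprime_primes hk Nat.prime_two).2 h2).dvd_of_dvd_mul_left
        ((dvd_mul_right k l).trans hj)
  · rw [((hk.coprime_iff_not_dvd).2 h1).symm, Nat.div_one] at h
    have h2 := Nat.le_of_dvd (cc_pos hi) h
    have := Nat.mul_le_mul_right (cc i) hk.two_le
    have := cc_pos hi
    omega

variable {F : Type*} [Field F] [Fintype F] {V : Type*} [AddCommGroup V] [Module F V]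
  [FiniteDimensional F V] {K : Type*} [Field K] [Algebra F K] [Module K V] [IsScalarTower F K V]
  [FiniteDimensional K V] [Fintype K] {r : ℕ} [Fact r.Prime] (p : ℕ) [Fact p.Prime] [CharP F p]

theorem card_ext : Fintype.card K = Fintype.card F ^ finrank F K := Module.card_eq_pow_finrank

theorem ord_ext : ord K r = ord F r / (ord F r).gcd (finrank F K) := by
  rw [ord, card_ext (F := F), Nat.cast_pow, orderOf_pow' _ finrank_pos.ne']

omit [Fintype F] [Fintype K] [Fact r.Prime] in
theorem cast_ne_zero_ext (h : (r : F) ≠ 0) : (r : K) ≠ 0 := fun h1 =>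
  h ((algebraMap F K).injective (by rw [map_natCast, h1, map_zero]))

theorem val_eq_zero {j : ℕ} (h : ¬ ord F r ∣ j) : padicValNat r (Fintype.card F ^ j - 1) = 0 :=
  padicValNat.eq_zero_of_not_dvd fun h1 =>
    h ((orderOf_dvd_iff_dvd_pow_sub_one Fintype.card_pos).2 h1)

theorem val_O_alt (hr : r ≠ p) {f : Form (FormType.alt F) V} (hf : f.Nondeg) {d : ℕ}
    (hd : finrank F V = 2 * d) : padicValNat r (Nat.card f.O) =
      ∑ i ∈ Finset.range d, padicValNat r (Fintype.card F ^ (2 * (i + 1)) - 1) := by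
  rw [Nondeg.card_O_alt d hf hd, Nat.card_eq_fintype_card (α := F), ElusL.val_pow_mul p hr,
    ElusL.val_prod _ fun i _ => ElusL.pow_sub_one_ne_zero Fintype.one_lt_card (by omega)]

omit [Fintype F] [Fintype K] in
/-- The conjugation of a quadratic extension. -/
def cj (hK : Fintype.card K = Fintype.card F ^ 2) : K ≃ₐ[F] K :=
  { SqField.conj hK with commutes' := algebraMap_pow_q rfl }

theorem cj_apply (hK : Fintype.card K = Fintype.card F ^ 2) (a : K) :
    cj hK a = a ^ Fintype.card F := rfl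

theorem cj_cj (hK : Fintype.card K = Fintype.card F ^ 2) (a : K) : cj hK (cj hK a) = a :=
  SqField.pow_q_pow_q hK a

theorem cj_ne_one (hK : Fintype.card K = Fintype.card F ^ 2) : cj hK ≠ 1 := fun h => by
  obtain ⟨x, hx⟩ := SqField.exists_pow_q_ne hK
  exact hx (AlgEquiv.congr_fun h x)

variable {f : Form (FormType.alt F) V}

include p in
theorem not_elu_char {T' : FormType K} {h : Form T' V} (I : Ind f h) (hk : 2 ≤ finrank F K)
    (h3 : 3 ≤ finrank F V) : ¬ EluG f.O (Gam F K V) p := fun hE => by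
  have : Nontrivial V := Module.nontrivial_of_finrank_pos (R := F) (by omega)
  obtain ⟨A, h4, h5, h6⟩ := alt_exists_transv I.nd p (by omega)
  obtain ⟨C, -, -, h7⟩ := I.test hE le_rfl (fun _ h _ => h) h4 h5
    (ne_algebraMap_of_range h6 one_ne_zero (by omega)) (Or.inr (by omega))
  have := h7 1
  rw [pow_one, h6] at this
  have := Nat.eq_one_of_mul_eq_one_right this.symm
  omega

/-- Symplectic groups over an extension field. -/
theorem elu_alt_alt {h : Form (FormType.alt K) V}
    (hB : ∀ x y, f.B x y = Algebra.trace F K (h.B x y)) (hf : f.Nondeg) (hk : (finrank F K).Prime)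
    {d : ℕ} (hd : finrank F V = 2 * d) (h2 : 2 ≤ d) (hΩ : r ∣ (Gam F K V).relIndex f.O) :
    EluG f.O (Gam F K V) r ↔ r = 2 ∧ d = 2 ∧ finrank F K = 2 ∧ p ≠ 2 := by
  have : Nontrivial V := Module.nontrivial_of_finrank_pos (R := F) (by omega)
  have I : Ind f h := ind_of_dual hf (Algebra.trace_ne_zero F K) hB
    (fun _ => (alt_isIsom_iff _ _ _).2) fun _ => (alt_isIsom_iff _ _ _).2
  obtain ⟨m, hm⟩ := I.nd'.even_finrank_alt
  have h3 : d = finrank F K * m := by
    have := Module.finrank_mul_finrank F K V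
    rw [hm, hd] at this
    linarith
  have h4 : finrank F K ≤ d := h3 ▸ Nat.le_mul_of_pos_right _ (by
    rcases m with _ | m; exacts [by omega, m.succ_pos])
  have := hk.two_le
  constructor
  · intro hE
    have hr : r ≠ p := by
      rintro rfl
      exact not_elu_char r I hk.two_le (by omega) hE
    have h0 := ElusL.cast_ne_zero (F := F) p hr
    rcases eq_or_ne r 2 with rfl | hr2
    · obtain rfl : d = 2 := by
        by_contra h5
        obtain ⟨W, -, h6, h7⟩ := (iso_alt f).exists_nd (nd_top hf) (e := 2) (by simp; omega) dvd_rfl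
        obtain ⟨A, h8, h9, rfl⟩ := Elus.exists_invol hf (by simpa using h0) h6
        obtain ⟨C, h10, h11, h12⟩ := I.test hE le_rfl (fun _ h _ => h) h8 h9
          (ne_algebraMap_of_range h7 two_ne_zero (by omega)) (Or.inr (by omega))
        have h13 := h12 1
        obtain ⟨j, hj⟩ := (nd_range_sub_one I.nd' h10 (ss_of_sq (by
          simpa using cast_ne_zero_ext (K := K) h0) h11)).nondeg.even_finrank_alt
        rw [pow_one, pow_one, h7, hj] at h13
        rcases j with _ | j
        · omega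
        · nlinarith
      exact ⟨rfl, rfl, by omega, hr.symm⟩
    exfalso
    have hi := PrimeCl.ord_pos h0
    obtain ⟨A, h5, h6, h7⟩ := exists_single (dat_alt h0 hr2) hf (dvd_card_of_dvd_relIndex le_rfl hΩ)
    have hodd := (Fact.out : r.Prime).odd_of_ne_two hr2
    obtain ⟨C, h8, h9, h10⟩ := I.test hE le_rfl (fun _ h _ => h) h5 h6
      (ne_algebraMap_of_odd hf (fun _ => rfl) h5 hodd h6 (by
        rintro rfl
        rw [sub_self, LinearMap.range_zero, finrank_bot] at h7
        exact (cc_pos hi).ne h7)) (by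
        rcases eq_or_ne r (finrank F K) with h8 | h8
        · have := Nat.le_of_dvd (by omega) (cc_dvd (Elus.ord_dvd (F := F) p hr)
            (Nat.Odd.sub_odd hodd odd_one))
          right; rw [h7]; unfold cc at this; unfold ord; omega
        · exact Or.inl ((Nat.coprime_primes Fact.out hk).2 h8))
    have h11 := (dat_alt (cast_ne_zero_ext (K := K) h0) hr2).dvd_finrank_range I.nd' h8 h9
    have h12 := h10 1
    rw [pow_one, pow_one, h7] at h12
    rw [ord_ext (F := F)] at h11
    have : CharP K p := charP_of_injective_algebraMap (algebraMap F K).injective p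
    refine I.not_dvd ?_ hΩ
    rw [val_O_alt p hr hf hd, val_O_alt p hr I.nd' (d := m) (by omega),
      card_ext (F := F) (K := K)]
    refine (sum_range_le (g := fun j => padicValNat r (Fintype.card F ^ (2 * j) - 1)) hk.pos
      (m := m) (N := d)
      (by rw [h3]; nlinarith) fun j hj => val_eq_zero fun h13 => hj (dvd_of_cc hk hi
        ((Nat.mul_dvd_mul_left _ h11).trans h12.symm.dvd) h13)).trans (le_of_eq ?_)
    exact Finset.sum_congr rfl fun j _ => by rw [← pow_mul, mul_left_comm]
  · rintro ⟨rfl, rfl, h5, hp⟩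
    have h0 : (2 : F) ≠ 0 := by simpa using ElusL.cast_ne_zero (F := F) (r := 2) p hp.symm
    have hK : Fintype.card K = Fintype.card F ^ 2 := by rw [card_ext (F := F), h5]
    refine elu_two_alt hf h0 (fun j h6 h7 => ?_) ?_
    · obtain ⟨e, he⟩ := (Sp.spForm_nondeg m K).exists_isIsom_alt I.nd' (by
        rw [Sp.finrank_sp]; omega)
      have h8 : IsIsom f f (semi ((Pi.basisFun K _).map e) (cj hK) fun _ => 1) := by
        refine (alt_isIsom_iff _ _ _).2 fun x y => ?_
        rw [hB, hB, B_semi (d := 1) _ _ _ (fun _ => rfl), one_mul, Algebra.trace_eq_of_algEquiv]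
        rintro (i | i) (j | j) <;>
          simp [he.B_eq, Sp.spForm_B_single_inl, Sp.spForm_B_single_inr, FormType.alt_σ,
            Pi.single_apply]
      obtain ⟨y, h9, h10, h11⟩ := exists_semi _ _ _ hf h8
      have h12 : en y ^ 2 = 1 := by
        rw [h11, semi_sq _ _ _ (cj_cj hK) (c := 1) (by simp), map_one]
      obtain ⟨l, h13, h14, h15⟩ := alt_range_invol hf h0 h10 h12 (h11 ▸
        semi_ne _ _ _ (cj_ne_one hK) (isUnit_of_isIsom hf h8))
      exact ⟨y, h9, h10, h12, by omega⟩
    · obtain ⟨C, h6, h7⟩ := exists_isom_sq_neg I.nd'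
      obtain ⟨y, h8, h9, h10⟩ := I.exists_mem h6
      exact ⟨y, h8, h9, by rw [h10, ← map_pow, h7, map_neg, map_one, map_neg, map_one, map_neg,
        map_one]⟩

theorem pow_eq_neg_one_pow {r : ℕ} [Fact r.Prime] {x : ZMod r} (h : orderOf x % 4 = 2) {j : ℕ}
    (hj : orderOf x ∣ 2 * j) : x ^ j = (-1) ^ j := by
  obtain ⟨i, hi⟩ : ∃ i, orderOf x = (2 * i + 1) + (2 * i + 1) := ⟨orderOf x / 4, by omega⟩
  have h4 : x ^ (2 * i + 1) = -1 :=
    (mul_self_eq_one_iff.1 (by rw [← pow_add, ← hi, pow_orderOf_eq_one])).resolve_left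
      (pow_ne_one_of_lt_orderOf (by omega) (by omega))
  rw [hi, ← two_mul] at hj
  obtain ⟨t, rfl⟩ := Nat.dvd_of_mul_dvd_mul_left two_pos hj
  rw [pow_mul, pow_mul, h4, Odd.neg_one_pow ⟨i, rfl⟩]

/-- Unitary groups over a quadratic extension. -/
theorem elu_alt_herm (hK : Fintype.card K = Fintype.card F ^ 2) {h : Form (Uni.HT hK) V}
    (U : Root.UExt f h) (hf : f.Nondeg) (hp : p ≠ 2) (h3 : 3 ≤ finrank F V)
    (hΩ : r ∣ (Gam F K V).relIndex f.O) : EluG f.O (Gam F K V) r ↔ r = 2 := by
  have : Nontrivial V := Module.nontrivial_of_finrank_pos (R := F) (by omega)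
  have I : Ind f h := ⟨hf, U.nondeg hf, fun C => ⟨fun hC => (herm_isIsom_iff _ _ _).2 fun x y => by
    by_contra h1
    obtain ⟨s, hs⟩ := FormType.exists_add_σ_eq_one U.τ_ne (Uni.sig_sig hK)
    have h2 := mul_ne_zero U.η_ne (sub_ne_zero.2 h1)
    set c := s / (U.η * (h.B (C x) (C y) - h.B x y))
    have h4 := congrArg (algebraMap F K) (hC.B_eq x (c • y))
    rw [U.hB, U.hB, map_smul, h.B_smul_right, h.B_smul_right] at h4
    have h5 : s = U.η * (c * h.B (C x) (C y)) - U.η * (c * h.B x y) := by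
      rw [← div_mul_cancel₀ s h2]; ring
    rw [h5, map_sub] at hs
    exact one_ne_zero (α := K) (by linear_combination h4 - hs),
    fun hC => (alt_isIsom_iff _ _ _).2 fun x y => (algebraMap F K).injective (by
      rw [U.hB, U.hB, hC.B_eq])⟩⟩
  have h2 := finrank_eq_two hK rfl
  have hd := Module.finrank_mul_finrank F K V
  rw [h2] at hd
  constructor
  · intro hE
    by_contra hr2
    have hr : r ≠ p := by
      rintro rfl
      exact not_elu_char r I h2.ge h3 hE
    have h0 := ElusL.cast_ne_zero (F := F) p hr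
    have hi := PrimeCl.ord_pos h0
    obtain ⟨A, h5, h6, h7⟩ := exists_single (dat_alt h0 hr2) hf (dvd_card_of_dvd_relIndex le_rfl hΩ)
    have hodd := (Fact.out : r.Prime).odd_of_ne_two hr2
    obtain ⟨C, h8, h9, h10⟩ := I.test hE le_rfl (fun _ h _ => h) h5 h6
      (ne_algebraMap_of_odd hf (fun _ => rfl) h5 hodd h6 (by
        rintro rfl
        rw [sub_self, LinearMap.range_zero, finrank_bot] at h7
        exact (cc_pos hi).ne h7)) (Or.inl (h2 ▸ Nat.coprime_two_right.2 hodd))
    have h11 := Nat.mul_dvd_mul_left 2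
      ((dat_herm (cast_ne_zero_ext (K := K) h0) hr2).dvd_finrank_range I.nd' h8 h9)
    have h12 := h10 1
    rw [pow_one, pow_one, h7, h2] at h12
    rw [← h12] at h11
    have h13 : ord F r % 4 = 2 := by
      have := Nat.le_of_dvd (cc_pos hi) h11
      simp only [cc, ord, Nat.even_iff] at this hi ⊢
      split_ifs at this <;> omega
    have hq := Fintype.one_lt_card (α := F)
    refine I.not_dvd ?_ hΩ
    rw [val_O_alt p hr hf hd.symm, Uni.card_O I.nd', Uni.guOrder, ElusL.val_pow_mul p hr,
      ElusL.val_prod _ fun i _ => by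
        split_ifs; exacts [by omega, ElusL.pow_sub_one_ne_zero hq (by omega)]]
    refine Finset.sum_le_sum fun i _ => ?_
    by_cases h14 : ord F r ∣ 2 * (i + 1)
    · have h15 := pow_eq_neg_one_pow h13 h14
      rw [pow_mul']
      split_ifs with h4
      · rw [Odd.neg_one_pow (by simpa [parity_simps] using h4)] at h15
        rw [ElusL.val_sq_sub_one (ElusL.not_dvd_sub_one_of_neg hr2 (by positivity)
          (by simpa using h15))]
      · rw [Even.neg_one_pow (by simpa [parity_simps] using h4)] at h15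
        rw [ElusL.val_sq_sub_one' (ElusL.not_dvd_add_one hr2 (by simpa using h15))]
    · rw [val_eq_zero h14]; exact Nat.zero_le _
  · rintro rfl
    have h0 : (2 : F) ≠ 0 := by simpa using ElusL.cast_ne_zero (F := F) (r := 2) p hp.symm
    refine elu_two_alt hf h0 (fun j h6 h7 => ?_) ?_
    · obtain ⟨W, -, h8, h9⟩ := herm_exists_nd (nd_top I.nd') (e := j) (by simp; omega)
      obtain ⟨y, h10, h11, h12, h13⟩ := I.exists_invol h0 h8
      exact ⟨y, h10, h11, h12, by rw [h13, ← h9, ← h2, Module.finrank_mul_finrank]; rfl⟩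
    · obtain ⟨b, hb⟩ := Uni.exists_isON_basis U.τ_ne I.nd' (Fintype.card_fin _)
      obtain ⟨a, ha⟩ := SqField.exists_mul_pow_q_eq hK (μ := -1) (by
        rw [SqField.neg_pow_q hK, one_pow])
      have h8 : IsIsom f f (semi b (cj hK) fun _ => a) := by
        refine (alt_isIsom_iff _ _ _).2 fun x y => (algebraMap F K).injective ?_
        have h9 : Uni.sig hK U.η = -U.η := by rw [U.hε, FormType.alt_ε]; simp
        rw [U.hB, U.hB, B_semi (d := -1) _ _ _ (fun _ => rfl) fun i j => by
          rw [hb, Uni.HT_σ, mul_comm _ a, ha]; split_ifs <;> simp]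
        simp only [map_mul, h9, map_neg, map_one]
        rw [show cj hK (h.B x y) = Uni.sig hK (h.B x y) from rfl, Uni.sig_sig]
        ring
      obtain ⟨y, h9, h10, h11⟩ := exists_semi _ _ _ hf h8
      exact ⟨y, h9, h10, by rw [h11, semi_sq _ _ _ (cj_cj hK) fun _ => by
        rw [cj_apply, ha, map_neg, map_one]]⟩

omit [Module K V] [IsScalarTower F K V] [FiniteDimensional K V] in
theorem eq_sig (hK : Fintype.card K = Fintype.card F ^ 2) {τ : K →+* K} (hτ : ∀ a, τ (τ a) = a)
    (h1 : ∀ c, τ (algebraMap F K c) = algebraMap F K c)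
    (h2 : ∀ k, τ k = k → k ∈ Set.range (algebraMap F K)) : τ = Uni.sig hK := RingHom.ext fun a => by
  have h3 : ∀ k, τ k = k → Uni.sig hK k = k := fun k hk => by
    obtain ⟨c, rfl⟩ := h2 k hk
    exact algebraMap_pow_q rfl c
  have h4 := h3 (a + τ a) (by rw [map_add, hτ, add_comm])
  have h5 := h3 (a * τ a) (by rw [map_mul, hτ, mul_comm])
  rw [map_add] at h4
  rw [map_mul] at h5
  rcases mul_eq_zero.1 (show (Uni.sig hK a - a) * (τ a - Uni.sig hK a) = 0 by
    linear_combination h5 - Uni.sig hK a * h4) with h | h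
  · obtain ⟨c, rfl⟩ := exists_algebraMap_eq rfl (sub_eq_zero.1 h)
    rw [h1, sub_eq_zero.1 h]
  · exact sub_eq_zero.1 h

end CL.ElusS
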