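/-
Two square-zero operators in general position: the group generated by `1 + ξ P` and `1 + Q`.
-/
import Mathlib
import Cfsg.Agent.CLAS.ExtF3

namespace CL.Tens

open Module CL.ExtF

attribute [-simp] LinearEquiv.coe_inv

variable {F : Type*} [Field F] {V : Type*} [AddCommGroup V] [Module F V]
  {X : Subgroup (V ≃ₗ[F] V)}

theorem cheb {P Q : Module.End F V} (hP : P * P = 0) (hQ : Q * Q = 0) (n : ℕ) :
    ∃ a b : Module.End F V, Commute a P ∧ Commute a Q ∧ Commute b P ∧ Commute b Q ∧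
      ((1 + P) * (1 + Q)) ^ n = a + b * ((1 + P) * (1 + Q)) ∧
      ((1 - Q) * (1 - P)) ^ n = a + b * ((1 - Q) * (1 - P)) ∧
      ∀ v, P v = 0 → Q v = 0 → a v = (1 - n : F) • v ∧ b v = (n : F) • v := by
  have hP' : ∀ x, P * (P * x) = 0 := fun x => by rw [← mul_assoc, hP, zero_mul]
  have hQ' : ∀ x, Q * (Q * x) = 0 := fun x => by rw [← mul_assoc, hQ, zero_mul]
  have t1 : Commute (2 + (P * Q + Q * P)) P := by
    simp [Commute, SemiconjBy, add_mul, mul_add, mul_assoc, hP, hP', mul_two, two_mul]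
  have t2 : Commute (2 + (P * Q + Q * P)) Q := by
    simp [Commute, SemiconjBy, add_mul, mul_add, mul_assoc, hQ, hQ', mul_two, two_mul]
  have g1 : ((1 + P) * (1 + Q)) * ((1 + P) * (1 + Q)) =
      (2 + (P * Q + Q * P)) * ((1 + P) * (1 + Q)) - 1 := by
    simp only [add_mul, mul_add, mul_assoc, hP, hP', hQ, ← one_add_one_eq_two, mul_one, one_mul,
      mul_zero]
    abel
  have g2 : ((1 - Q) * (1 - P)) * ((1 - Q) * (1 - P)) =
      (2 + (P * Q + Q * P)) * ((1 - Q) * (1 - P)) - 1 := by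
    simp only [add_mul, sub_mul, mul_sub, mul_assoc, hP, hQ, hQ', ← one_add_one_eq_two, mul_one,
      one_mul, mul_zero]
    abel
  induction n with
  | zero => exact ⟨1, 0, by simp, by simp, by simp, by simp, by simp, by simp, by simp⟩
  | succ n ih =>
    obtain ⟨a, b, a1, a2, b1, b2, e1, e2, e3⟩ := ih
    refine ⟨-b, a + b * (2 + (P * Q + Q * P)), b1.neg_left, b2.neg_left,
      a1.add_left (b1.mul_left t1), a2.add_left (b2.mul_left t2), ?_, ?_, fun v h1 h2 => ?_⟩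
    · rw [pow_succ, e1, add_mul, mul_assoc b, g1]; noncomm_ring
    · rw [pow_succ, e2, add_mul, mul_assoc b, g2]; noncomm_ring
    · obtain ⟨h3, h4⟩ := e3 v h1 h2
      simp [h1, h2, h3, h4, two_smul]
      module

theorem eq_zero_of_pow_inj {S : Submodule F V} {E : Module.End F V} (h1 : ∀ w ∈ S, E w ∈ S)
    (h2 : ∀ w ∈ S, E w = 0 → w = 0) {k : ℕ} (hk : E ^ k = 0) {w : V} (hw : w ∈ S) : w = 0 := by
  have : ∀ k : ℕ, ∀ w ∈ S, (E ^ k) w = 0 → w = 0 := fun k => by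
    induction k with
    | zero => simp
    | succ k ih => exact fun w hw e => h2 w hw (ih _ (h1 w hw) (by rwa [pow_succ] at e))
  exact this k w hw (by simp [hk])

theorem coe_pow' (G : V ≃ₗ[F] V) (n : ℕ) :
    (G : Module.End F V) ^ n = ((G ^ n : V ≃ₗ[F] V) : Module.End F V) :=
  (map_pow LinearEquiv.automorphismGroup.toLinearMapMonoidHom G n).symm

theorem exists_unip_pow [Finite F] [FiniteDimensional F V] [Nontrivial V] (G : V ≃ₗ[F] V) :
    ∃ n k : ℕ, (n : F) ≠ 0 ∧ ((G : Module.End F V) ^ n - ((G⁻¹ : V ≃ₗ[F] V) : Module.End F V) ^ n) ^ k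
      = 0 := by
  have : Finite V := Module.finite_of_finite F
  have : Finite (V ≃ₗ[F] V) := Finite.of_injective _ DFunLike.coe_injective
  obtain ⟨p, hp⟩ := CharP.exists F
  have hpp : Fact p.Prime := ⟨CharP.char_is_prime F p⟩
  have : CharP (Module.End F V) p := charP_of_injective_algebraMap (algebraMap F _).injective p
  obtain ⟨e, n, hn, hord⟩ := Nat.exists_eq_pow_mul_and_not_dvd (orderOf_pos G).ne' p hpp.out.ne_one
  refine ⟨n, p ^ e, fun h => hn ((CharP.cast_eq_zero_iff F p n).1 h), ?_⟩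
  have h1 : ∀ G : V ≃ₗ[F] V, G ^ (n * p ^ e) = 1 → ((G : Module.End F V) ^ n) ^ p ^ e = 1 :=
    fun G h => by
      rw [← pow_mul, coe_pow', h]; rfl
  have h2 : G ^ (n * p ^ e) = 1 := by rw [mul_comm, ← hord, pow_orderOf_eq_one]
  rw [sub_pow_char_pow_of_commute, h1 G h2, h1 G⁻¹ (by rw [inv_pow, h2, inv_one]), sub_self]
  refine Commute.pow_pow ?_ _ _
  ext v; simp [app_inv, inv_app]

/-- Two square-zero operators in general position, inside a group in which the intersection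
`W ⊓ U` is optimal. -/
structure PF (X : Subgroup (V ≃ₗ[F] V)) (W U : Submodule F V) (P Q : Module.End F V) : Prop where
  PW : ∀ v, P v ∈ W
  QU : ∀ v, Q v ∈ U
  P0 : ∀ w ∈ W, P w = 0
  Q0 : ∀ u ∈ U, Q u = 0
  Ps : ∀ w ∈ W, ∃ v, P v = w
  Qs : ∀ u ∈ U, ∃ v, Q v = u
  i1 : ∀ w ∈ W, Q w ∈ W → w ∈ U
  i2 : ∀ u ∈ U, P u ∈ U → u ∈ W
  mx : ∀ k ∈ X, (∀ n ∈ W, n ∈ U → k n = n) → ∀ w ∈ W, w ∉ U → k w ∈ W → ∀ w ∈ W, k w ∈ W
  mx' : ∀ k ∈ X, (∀ n ∈ W, n ∈ U → k n = n) → ∀ w ∈ W, w ∉ U → k w ∈ U → ∀ w ∈ W, k w ∈ U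
  lev : ∀ k ∈ X, (∀ v, k v - v ∈ W) → ∃ s : F, ∀ v, k v = v + s • P v
  tX : ∀ ξ : F, Has X fun v => ξ • P v
  zX : ∀ ξ : F, Has X fun v => ξ • Q v
  ne : ∃ w ∈ W, w ∉ U

namespace PF

variable {W U : Submodule F V} {P Q : Module.End F V} (H : PF X W U P Q)
include H

theorem le_W {w : V} (hw : w ∈ LinearMap.range (P * Q)) : w ∈ W := by
  obtain ⟨v, rfl⟩ := hw
  exact H.PW _

theorem disj {w : V} (hw : w ∈ LinearMap.range (P * Q)) (hu : w ∈ U) : w = 0 := by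
  obtain ⟨v, rfl⟩ := hw
  exact H.P0 _ (H.i2 _ (H.QU v) hu)

theorem mem_of_PQ {w : V} (hw : w ∈ W) (h0 : P (Q w) = 0) : w ∈ U :=
  H.i1 w hw (H.i2 _ (H.QU w) (h0 ▸ U.zero_mem))

theorem inj {w : V} (hw : w ∈ LinearMap.range (P * Q)) (h0 : P (Q w) = 0) : w = 0 :=
  H.disj hw (H.mem_of_PQ (H.le_W hw) h0)

theorem exists_G (ξ η : F) : ∃ G ∈ X, ∀ v, G v = v + η • Q v + ξ • P (v + η • Q v) := by
  obtain ⟨t, ht, e⟩ := H.tX ξ
  obtain ⟨z, hz, e'⟩ := H.zX η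
  exact ⟨t * z, X.mul_mem ht hz, fun v => by rw [mul_app, e, e']⟩

theorem scalar {w₀ : V} (hw : w₀ ∈ LinearMap.range (P * Q)) (h0 : w₀ ≠ 0) {μ : F}
    (e : P (Q w₀) = μ • w₀) {w : V} (hw' : w ∈ LinearMap.range (P * Q)) : P (Q w) = μ • w := by
  have m0 : μ ≠ 0 := by rintro rfl; exact h0 (H.inj hw (by simpa using e))
  obtain ⟨G, hG, eG⟩ := H.exists_G (-μ⁻¹) 1
  have := H.mx' G hG (fun n h1 h2 => by simp [eG, H.P0 n h1, H.Q0 n h2]) w₀ (H.le_W hw)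
    (fun hu => h0 (H.disj hw hu))
    (by simpa [eG, H.P0 _ (H.le_W hw), e, smul_smul, m0] using H.QU w₀) w (H.le_W hw')
  have h2 := H.disj (Submodule.sub_mem _ hw' (Submodule.smul_mem _ μ⁻¹ ⟨w, rfl⟩))
    (by convert U.sub_mem this (H.QU w) using 1; simp [eG, H.P0 _ (H.le_W hw')]; abel)
  rw [sub_eq_zero] at h2
  conv_rhs => rw [h2]
  simp [smul_smul, m0]

variable [FiniteDimensional F V]

theorem surj {w : V} (hw : w ∈ LinearMap.range (P * Q)) :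
    ∃ w' ∈ LinearMap.range (P * Q), P (Q w') = w := by
  have : Function.Injective ((P * Q).restrict (p := LinearMap.range (P * Q))
      (q := LinearMap.range (P * Q)) fun x _ => ⟨x, rfl⟩) := by
    rw [← LinearMap.ker_eq_bot, eq_bot_iff]
    exact fun x hx => Subtype.ext (H.inj x.2 (congrArg Subtype.val hx))
  obtain ⟨x, hx⟩ := LinearMap.injective_iff_surjective.1 this ⟨w, hw⟩
  exact ⟨x, x.2, congrArg Subtype.val hx⟩

theorem decW {w : V} (hw : w ∈ W) : ∃ w₁ ∈ LinearMap.range (P * Q), w - w₁ ∈ W ∧ w - w₁ ∈ U := by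
  obtain ⟨w₁, h1, h2⟩ := H.surj (w := P (Q w)) ⟨w, rfl⟩
  have := W.sub_mem hw (H.le_W h1)
  exact ⟨w₁, h1, this, H.mem_of_PQ this (by simp [h2])⟩

theorem decU {u : V} (hu : u ∈ U) :
    ∃ w₁ ∈ LinearMap.range (P * Q), u - Q w₁ ∈ W ∧ u - Q w₁ ∈ U := by
  obtain ⟨v, rfl⟩ := H.Qs u hu
  obtain ⟨w₁, h1, h2⟩ := H.surj (w := P (Q v)) ⟨v, rfl⟩
  have := U.sub_mem hu (H.QU w₁)
  exact ⟨w₁, h1, H.i2 _ this (by simp [h2]), this⟩

theorem exists_ne : ∃ w ∈ LinearMap.range (P * Q), w ≠ 0 := by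
  obtain ⟨w, hw, hu⟩ := H.ne
  obtain ⟨w₁, h1, -, h2⟩ := H.decW hw
  exact ⟨w₁, h1, by rintro rfl; exact hu (by simpa using h2)⟩

theorem dec (v : V) : ∃ w₁ ∈ LinearMap.range (P * Q), ∃ w₂ ∈ LinearMap.range (P * Q),
    P (v - w₁ - Q w₂) ∈ U ∧ Q (v - w₁ - Q w₂) ∈ W := by
  obtain ⟨a, ha, -, h1⟩ := H.decW (H.PW v)
  obtain ⟨w₂, h2, rfl⟩ := H.surj ha
  obtain ⟨w₁, h3, h4, -⟩ := H.decU (H.QU v)
  exact ⟨w₁, h3, w₂, h2, by simpa [H.P0 _ (H.le_W h3)] using h1,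
    by simpa [H.Q0 _ (H.QU _)] using h4⟩

theorem claim [Finite F] (h2 : (2 : F) ≠ 0) {ξ : F} (h0 : ξ ≠ 0)
    (h4 : ∀ w ∈ LinearMap.range (P * Q), ξ • P (Q w) + (4 : F) • w = 0 → w = 0) {m : V}
    (h1 : P m ∈ U) (h1' : Q m ∈ W) : ξ • P m + Q m = 0 := by
  obtain ⟨w₁, hw₁, w0⟩ := H.exists_ne
  have : Nontrivial V := ⟨⟨w₁, 0, w0⟩⟩
  obtain ⟨G, hG, eG⟩ := H.exists_G ξ 1
  have PP : ∀ v, P (P v) = 0 := fun v => H.P0 _ (H.PW v)
  have QQ : ∀ v, Q (Q v) = 0 := fun v => H.Q0 _ (H.QU v)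
  have e1 : (G : Module.End F V) = (1 + ξ • P) * (1 + Q) := by ext v; simp [eG]
  have e2 : ((G⁻¹ : V ≃ₗ[F] V) : Module.End F V) = (1 - Q) * (1 - ξ • P) := by
    ext v; exact inv_app_eq (by simp [eG, PP, QQ])
  obtain ⟨n, k, hn, hk⟩ := exists_unip_pow G
  obtain ⟨a, b, a1, a2, b1, b2, c1, c2, c3⟩ := cheb (P := ξ • P) (Q := Q)
    (by ext v; simp [PP]) (by ext v; simp [QQ]) n
  have P1 : ∀ {b : Module.End F V}, Commute b (ξ • P) → ∀ v, b (P v) = P (b v) := fun hb v => by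
    have := LinearMap.congr_fun hb.eq v
    simpa [h0] using this
  have Q1 : ∀ {b : Module.End F V}, Commute b Q → ∀ v, b (Q v) = Q (b v) := fun hb v =>
    LinearMap.congr_fun hb.eq v
  have r1 : ∀ {b : Module.End F V}, Commute b (ξ • P) → Commute b Q →
      ∀ w ∈ LinearMap.range (P * Q), b w ∈ LinearMap.range (P * Q) := by
    rintro b p1 p2 _ ⟨v, rfl⟩
    exact ⟨b v, by simp [P1 p1, Q1 p2]⟩
  set D := (1 + ξ • P) * (1 + Q) - (1 - Q) * (1 - ξ • P) with hD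
  have eD : ∀ v, D v = (2 : F) • (ξ • P v + Q v) + ξ • P (Q v) - ξ • Q (P v) := fun v => by
    simp [hD]; module
  have e3 : (G : Module.End F V) ^ n - ((G⁻¹ : V ≃ₗ[F] V) : Module.End F V) ^ n = b * D := by
    rw [e1, e2, c1, c2, hD]; noncomm_ring
  have bD : ∀ v, b (D v) = D (b v) := fun v => by simp [eD, P1 b1, Q1 b2]
  have hn' : ∀ v, (G ^ n) v = a v + G (b v) := fun v => by
    have := LinearMap.congr_fun c1 v
    rw [← e1, coe_pow'] at this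
    simpa [eG, P1 b1, Q1 b2] using this
  obtain ⟨w₀, hw₀, n0, hb⟩ : ∃ w ∈ LinearMap.range (P * Q), w ≠ 0 ∧ b w = 0 := by
    by_contra! Hb
    have DD : ∀ w ∈ LinearMap.range (P * Q), D (D w) = ξ • P (Q (ξ • P (Q w) + (4 : F) • w)) :=
      fun w hw => by simp [eD, H.P0 _ (H.le_W hw), PP, QQ]; module
    refine w0 (eq_zero_of_pow_inj (S := LinearMap.range (P * Q)) (E := (b * D) ^ 2) (k := k)
      (fun w hw => ?_) (fun w hw e => ?_) (by rw [← pow_mul, mul_comm, pow_mul, ← e3, hk]; simp) hw₁)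
    · rw [pow_two, Module.End.mul_apply, Module.End.mul_apply, Module.End.mul_apply, ← bD, DD w hw]
      exact r1 b1 b2 _ (r1 b1 b2 _ (Submodule.smul_mem _ _ ⟨_, rfl⟩))
    · rw [pow_two, Module.End.mul_apply, Module.End.mul_apply, Module.End.mul_apply, ← bD,
        DD w hw] at e
      have p1 := Submodule.smul_mem (LinearMap.range (P * Q)) ξ ⟨ξ • P (Q w) + (4 : F) • w, rfl⟩
      have p2 : b _ = 0 := by_contra fun e' => Hb _ (r1 b1 b2 _ p1) e' e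
      have p3 := by_contra fun e' => Hb _ p1 e' p2
      exact h4 w hw (H.inj (Submodule.add_mem _ (Submodule.smul_mem _ _ ⟨w, rfl⟩)
        (Submodule.smul_mem _ _ hw)) ((smul_eq_zero.1 p3).resolve_left h0))
  have fN : ∀ v ∈ W, v ∈ U → b v = (n : F) • v ∧ (G ^ n) v = v := fun v h1 h2 => by
    obtain ⟨p1, p2⟩ := c3 v (by simp [H.P0 v h1]) (H.Q0 v h2)
    refine ⟨p2, ?_⟩
    simp [hn', p1, p2, eG, H.P0 v h1, H.Q0 v h2, sub_smul]
  have st := H.mx _ (X.pow_mem hG n) (fun v h1 h2 => (fN v h1 h2).2) w₀ (H.le_W hw₀)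
    (fun hu => n0 (H.disj hw₀ hu)) (by simpa [hn', hb] using H.le_W (r1 a1 a2 _ hw₀))
  have b0 : ∀ w ∈ LinearMap.range (P * Q), b w = 0 := fun w hw => by
    have p1 := r1 b1 b2 w hw
    refine H.disj p1 (H.i1 _ (H.le_W p1) ?_)
    have := W.sub_mem (W.sub_mem (W.sub_mem (st w (H.le_W hw)) (H.le_W (r1 a1 a2 w hw)))
      (H.le_W p1)) (W.smul_mem ξ (H.PW (b w + Q (b w))))
    convert this using 1
    simp [hn', eG]; abel
  have bW : ∀ w ∈ W, b w ∈ W ∧ b w ∈ U := fun w hw => by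
    obtain ⟨w₁, p1, p2, p3⟩ := H.decW hw
    rw [← sub_add_cancel w w₁, map_add, b0 w₁ p1, add_zero, (fN _ p2 p3).1]
    exact ⟨W.smul_mem _ p2, U.smul_mem _ p3⟩
  have bU : ∀ w ∈ U, b w ∈ W ∧ b w ∈ U := fun w hw => by
    obtain ⟨w₁, p1, p2, p3⟩ := H.decU hw
    rw [← sub_add_cancel w (Q w₁), map_add, Q1 b2, b0 w₁ p1, map_zero, add_zero, (fN _ p2 p3).1]
    exact ⟨W.smul_mem _ p2, U.smul_mem _ p3⟩
  have bN : ∀ v, b (D v) ∈ W ⊓ U := fun v => by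
    rw [eD]
    simp only [map_add, map_sub, map_smul]
    exact sub_mem (add_mem (Submodule.smul_mem _ _ (add_mem (Submodule.smul_mem _ _
      (bW _ (H.PW _))) (bU _ (H.QU _)))) (Submodule.smul_mem _ _ (bW _ (H.PW _))))
      (Submodule.smul_mem _ _ (bU _ (H.QU _)))
  have e4 : ∀ v, (G ^ n * G ^ n) v - v = b (D ((G ^ n) v)) := fun v => by
    have := LinearMap.congr_fun e3 ((G ^ n) v)
    rw [coe_pow', coe_pow', inv_pow] at this
    simpa [inv_app] using this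
  obtain ⟨s, hs⟩ := H.lev _ (X.mul_mem (X.pow_mem hG n) (X.pow_mem hG n)) fun v => e4 v ▸ (bN _).1
  obtain ⟨v, hv⟩ := H.Ps _ (H.le_W hw₁)
  have s0 : s = 0 := by
    have := (e4 v ▸ (bN _).2 : _ ∈ U)
    rw [hs, add_sub_cancel_left, hv] at this
    exact (smul_eq_zero.1 (H.disj (Submodule.smul_mem _ _ hw₁) this)).resolve_right w0
  have := e4 ((G ^ n)⁻¹ m)
  rw [hs, app_inv, eD, H.P0 _ h1', H.Q0 _ h1, s0] at this
  have p := fN _ (W.smul_mem 2 (W.add_mem (W.smul_mem ξ (H.PW m)) h1'))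
    (U.smul_mem 2 (U.add_mem (U.smul_mem ξ h1) (H.QU m)))
  simp only [smul_zero, add_zero, sub_zero, p.1] at this
  simpa [hn, h2, -smul_add] using this.symm

/-- If the intersection is non-zero, the field has three elements. -/
theorem three [Finite F] (h2 : (2 : F) ≠ 0) {n : V} (h1 : n ∈ W) (h1' : n ∈ U) (n0 : n ≠ 0) :
    (∀ t : F, t ≠ 0 → t * t = 1) ∧ ∃ μ : F, μ ≠ 0 ∧
      (∀ w ∈ LinearMap.range (P * Q), P (Q w) = μ • w) ∧
      ∀ m, P m ∈ U → Q m ∈ W → μ • P m + Q m = 0 := by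
  obtain ⟨v, rfl⟩ := H.Ps n h1
  obtain ⟨w, hw, p1, -⟩ := H.decU (H.QU v)
  have m1 : P (v - w) = P v := by simp [H.P0 _ (H.le_W hw)]
  have key : ∀ ξ ξ' : F, ξ ≠ 0 → ξ' ≠ 0 → ξ ≠ ξ' →
      (∀ w ∈ LinearMap.range (P * Q), ξ • P (Q w) + (4 : F) • w = 0 → w = 0) →
      ¬ ∀ w ∈ LinearMap.range (P * Q), ξ' • P (Q w) + (4 : F) • w = 0 → w = 0 := by
    intro ξ ξ' a1 a2 a3 a4 a5
    have e1 := H.claim h2 a1 a4 (m := v - w) (m1 ▸ h1') (by simpa using p1)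
    have e2 := H.claim h2 a2 a5 (m := v - w) (m1 ▸ h1') (by simpa using p1)
    have : (ξ - ξ') • P v = 0 := by rw [← m1]; linear_combination (norm := module) e1 - e2
    simp [sub_eq_zero, a3, n0] at this
  have h4 : (4 : F) ≠ 0 := by rw [show (4 : F) = 2 * 2 by norm_num]; exact mul_ne_zero h2 h2
  obtain ⟨μ, hμ⟩ : ∃ μ : F, ∀ w ∈ LinearMap.range (P * Q), P (Q w) = μ • w := by
    by_contra hn
    have : ∀ ξ : F, ξ ≠ 0 →
        ∀ w ∈ LinearMap.range (P * Q), ξ • P (Q w) + (4 : F) • w = 0 → w = 0 := fun ξ a w hw e =>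
      by_contra fun w0 => hn ⟨-4 / ξ, fun w' hw' => H.scalar hw w0 (by
        linear_combination (norm := match_scalars <;> field_simp <;> ring) ξ⁻¹ • e) hw'⟩
    exact key 1 (-1) one_ne_zero (by simp) (fun e => h2 (by linear_combination e))
      (this _ one_ne_zero) (this _ (by simp))
  obtain ⟨w₁, hw₁, w0⟩ := H.exists_ne
  have m0 : μ ≠ 0 := by rintro rfl; exact w0 (H.inj hw₁ (by simpa using hμ _ hw₁))
  have gd : ∀ ξ : F, ξ * μ + 4 ≠ 0 →
      ∀ w ∈ LinearMap.range (P * Q), ξ • P (Q w) + (4 : F) • w = 0 → w = 0 := fun ξ a w hw e => by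
    rw [hμ w hw, smul_smul, ← add_smul] at e
    exact (smul_eq_zero.1 e).resolve_left a
  have h3 : ∀ t : F, t ≠ 0 → t * t = 1 := fun t t0 => by_contra fun t1 => by
    have a1 : t ≠ 1 := by rintro rfl; simp at t1
    have a2 : t + 1 ≠ 0 := fun e => t1 (by linear_combination (t - 1) * e)
    refine key (4 / μ) (4 * t / μ) (by simp [h4, m0]) (by simp [h4, m0, t0]) (fun e => a1 ?_)
      (gd _ ?_) (gd _ ?_)
    · field_simp at e; exact e.symm
    · rw [div_mul_cancel₀ _ m0, ← two_mul]; exact mul_ne_zero h2 h4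
    · rw [div_mul_cancel₀ _ m0, ← mul_add_one]; exact mul_ne_zero h4 a2
  refine ⟨h3, μ, m0, hμ, fun m a1 a2 => H.claim h2 m0 (gd μ fun e => h2 ?_) a1 a2⟩
  linear_combination e - h3 μ m0 - h3 2 h2

end PF

end CL.Tens
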