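/-
Tensor products of forms whose second factor is symplectic: basic calculus, and the stabilizer of a
member `V₁ ⊗ c`.
-/
import Mathlib
import Cfsg.Agent.CLAS.Tens3
import Cfsg.Agent.CLAS.RootCalc

namespace CL.Tens

open Module CL.ExtF CL.Witt CL.Witt.Form

attribute [-simp] LinearEquiv.coe_inv
attribute [local simp] FormType.alt_σ FormType.alt_ε alt_B_self

variable {F : Type*} [Field F] {V₁ V₂ V : Type*} [AddCommGroup V₁] [Module F V₁] [AddCommGroup V₂]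
  [Module F V₂] [AddCommGroup V] [Module F V] {τ : V₁ →ₗ[F] V₂ →ₗ[F] V} {T T₁ : FormType F}
  {X : Subgroup (V ≃ₗ[F] V)}

theorem exists_adjL {f : Form T V} [FiniteDimensional F V] (hf : f.Nondeg)
    (N : V →ₗ[F] V) : ∃ N' : V →ₗ[F] V, ∀ x y, f.B (N x) y = f.B x (N' y) := by
  choose t ht using fun y => hf.exists_rep (f.B y ∘ₗ N)
  have e : ∀ x y, f.B (N x) y = f.B x (t y) := fun x y => by
    rw [f.symm y (N x), f.symm (t y) x, ht]; rfl
  exact ⟨IsLinearMap.mk' t ⟨fun a b => hf.ext_right fun x => by simp [← e],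
    fun s a => hf.ext_right fun x => by simp [← e]⟩, e⟩

theorem alt_ok (f₂ : Form (FormType.alt F) V₂) {c y : V₂} (h : f₂.B c y = 0) (μ : F) :
    f₂.EichOK c y μ := ⟨f₂.alt_q c, h, (f₂.alt_q y).symm⟩

theorem alt_ei_apply {f₂ : Form (FormType.alt F) V₂} {c y : V₂} (h : f₂.B c y = 0) (μ : F) (x : V₂) :
    f₂.ei c y μ x = x + f₂.B c x • y + (f₂.B y x + μ * f₂.B c x) • c := by
  rw [(alt_ok f₂ h μ).ei_apply]; simp; module

theorem alt_tv_apply (f₂ : Form (FormType.alt F) V₂) (c : V₂) (μ : F) (x : V₂) :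
    f₂.ei c 0 μ x = x + (μ * f₂.B c x) • c := by
  rw [alt_ei_apply (by simp)]; simp

/-- `f` is the tensor product of `f₁` and the symplectic form `f₂`. -/
structure TF (h : IsTensorProduct τ) (f : Form T V) (f₁ : Form T₁ V₁)
    (f₂ : Form (FormType.alt F) V₂) : Prop where
  σ : ∀ a, T.σ a = a
  σ₁ : ∀ a, T₁.σ a = a
  nd₁ : f₁.Nondeg
  nd₂ : f₂.Nondeg
  mul : ∀ x y x' y', f.B (τ x y) (τ x' y') = f₁.B x x' * f₂.B y y'

/-- Contraction with a vector of the symplectic factor. -/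
noncomputable def eta (h : IsTensorProduct τ) (f₂ : Form (FormType.alt F) V₂) :
    V₂ →ₗ[F] V →ₗ[F] V₁ := ct h ∘ₗ (show V₂ →ₗ[F] V₂ →ₗ[F] F from f₂.B)

/-- The Eichler transformations of the symplectic factor. -/
noncomputable def ec (h : IsTensorProduct τ) (f₂ : Form (FormType.alt F) V₂) (c y : V₂) (μ : F) :
    V ≃ₗ[F] V := kr h 1 (f₂.ei c y μ)

/-- The nilpotent part `v ↦ η_c v ⊗ c` of the transvection group of `c`. -/
noncomputable def pc (h : IsTensorProduct τ) (f₂ : Form (FormType.alt F) V₂) (c : V₂) :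
    V →ₗ[F] V := τ.flip c ∘ₗ eta h f₂ c

/-- The unipotent radical of the stabilizer of `V₁ ⊗ c`. -/
def QW (h : IsTensorProduct τ) (f₂ : Form (FormType.alt F) V₂) (c : V₂) (u : V ≃ₗ[F] V) : Prop :=
  (∀ x, u (τ x c) = τ x c) ∧ ∀ v, eta h f₂ c v = 0 → u v - v ∈ mem τ c

variable {h : IsTensorProduct τ} {f : Form T V} {f₁ : Form T₁ V₁} {f₂ : Form (FormType.alt F) V₂}

theorem eta_eq (c : V₂) : eta h f₂ c = ct h (f₂.B c) := rfl

@[simp] theorem eta_pure (c : V₂) (x : V₁) (y : V₂) : eta h f₂ c (τ x y) = f₂.B c y • x :=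
  ct_apply h _ x y

theorem eta_mem {c y : V₂} (hy : f₂.B y c = 0) {w : V} (hw : w ∈ mem τ c) : eta h f₂ y w = 0 :=
  ct_mem h hy hw

theorem pc_apply (c : V₂) (v : V) : pc h f₂ c v = τ (eta h f₂ c v) c := rfl

theorem pc_mem (c : V₂) (v : V) : pc h f₂ c v ∈ mem τ c := pure_mem _ _

theorem pc_of_mem {c : V₂} {w : V} (hw : w ∈ mem τ c) : pc h f₂ c w = 0 := by
  rw [pc_apply, eta_mem (by simp) hw]; simp

theorem ec_apply {c y : V₂} (hy : f₂.B c y = 0) (μ : F) (v : V) :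
    ec h f₂ c y μ v = v + τ (eta h f₂ c v) y + τ (eta h f₂ y v + μ • eta h f₂ c v) c := by
  refine h.inductionOn v (by simp) (fun x d => ?_) fun a b ha hb => ?_
  · simp [ec, alt_ei_apply hy, add_smul, mul_smul]
  · simp only [map_add, ha, hb, LinearMap.add_apply, smul_add]; abel

theorem ec_zero_apply (c : V₂) (μ : F) (v : V) : ec h f₂ c 0 μ v = v + μ • pc h f₂ c v := by
  rw [ec_apply (by simp)]; simp [pc_apply]

theorem ec_zero_inv (c : V₂) (μ : F) (v : V) : (ec h f₂ c 0 μ)⁻¹ v = v - μ • pc h f₂ c v :=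
  inv_app_eq (by simp [ec_zero_apply, pc_of_mem (pc_mem _ _)])

theorem ec_mem_kron (c y : V₂) (μ : F) : ec h f₂ c y μ ∈ Kron τ := kr_mem h _ _

theorem eta_kr (A : V₁ ≃ₗ[F] V₁) {e : V₂ ≃ₗ[F] V₂} (he : e ∈ f₂.O) (c : V₂) (v : V) :
    eta h f₂ (e c) (kr h A e v) = A (eta h f₂ c v) := by
  refine h.inductionOn v (by simp) (fun x d => ?_) fun a b ha hb => ?_
  · simp [mem_O_B he]
  · simp [ha, hb]

theorem eta_kr_inv (A : V₁ ≃ₗ[F] V₁) {e : V₂ ≃ₗ[F] V₂} (he : e ∈ f₂.O) (c : V₂) (v : V) :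
    eta h f₂ c ((kr h A e)⁻¹ v) = A⁻¹ (eta h f₂ (e c) v) := by
  have := eta_kr (h := h) A he c ((kr h A e)⁻¹ v)
  rw [app_inv] at this
  rw [this, inv_app]

theorem mem_of_perp_pure {c c' : V₂} (hc : f₂.B c c' = 1) {g : V →ₗ[F] V} {S : Submodule F V}
    (H : ∀ x y, f₂.B c y = 0 → g (τ x y) ∈ S) {v : V} (hv : eta h f₂ c v = 0) : g v ∈ S := by
  have : ∀ v, g (v - τ (eta h f₂ c v) c') ∈ S := fun v => by
    refine h.inductionOn v (by simp) (fun x d => ?_) fun a b ha hb => ?_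
    · have := H x (d - f₂.B c d • c') (by simp [hc])
      simpa using this
    · have := S.add_mem ha hb
      rw [← map_add] at this
      convert this using 2
      simp only [map_add, LinearMap.add_apply]; abel
  simpa [hv] using this v

namespace TF

variable (hT : TF h f f₁ f₂)
include hT

theorem B_pure (x : V₁) (c : V₂) (v : V) : f.B (τ x c) v = f₁.B x (eta h f₂ c v) := by
  refine h.inductionOn v (by simp) (fun x d => ?_) fun a b ha hb => ?_
  · simp [hT.mul, mul_comm]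
  · simp [ha, hb]

theorem eta_eq_zero {c : V₂} {v : V} (H : ∀ x, f.B (τ x c) v = 0) : eta h f₂ c v = 0 :=
  hT.nd₁.right _ fun x => by rw [← hT.B_pure, H]

theorem B_mem {c : V₂} {w v : V} (hw : w ∈ mem τ c) (hv : eta h f₂ c v = 0) : f.B w v = 0 := by
  obtain ⟨x, rfl⟩ := mem_mem.1 hw
  rw [hT.B_pure, hv, map_zero]

theorem B_mem' {c : V₂} {w v : V} (hw : w ∈ mem τ c) (hv : eta h f₂ c v = 0) : f.B v w = 0 :=
  f.B_eq_zero_symm (hT.B_mem hw hv)

theorem kr_iso {A : V₁ ≃ₗ[F] V₁} {B : V₂ ≃ₗ[F] V₂} {m m' : F} (hm : m * m' = 1)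
    (hA : ∀ x y, f₁.B (A x) (A y) = m * f₁.B x y) (hB : ∀ x y, f₂.B (B x) (B y) = m' * f₂.B x y)
    (v w : V) : f.B (kr h A B v) (kr h A B w) = f.B v w := by
  refine h.inductionOn v (by simp) (fun x d => ?_) fun a b ha hb => by simp [ha, hb]
  refine h.inductionOn w (by simp) (fun x' d' => ?_) fun a b ha hb => by
    simp only [map_add, ha, hb]
  simp only [kr_apply, hT.mul, hA, hB]
  linear_combination (f₁.B x x' * f₂.B d d') * hm

theorem eta_of_stab {z : V ≃ₗ[F] V} (hz : z ∈ f.O) {c : V₂} {x x' : V₁} (hx : z (τ x c) = τ x' c)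
    (v : V) : f₁.B x' (eta h f₂ c (z v)) = f₁.B x (eta h f₂ c v) := by
  rw [← hT.B_pure, ← hT.B_pure, ← hx, mem_O_B hz]

theorem eta_of_fix {z : V ≃ₗ[F] V} (hz : z ∈ f.O) {c : V₂} (hx : ∀ x, z (τ x c) = τ x c) (v : V) :
    eta h f₂ c (z v) = eta h f₂ c v := hT.nd₁.ext_right fun x => hT.eta_of_stab hz (hx x) v

variable [FiniteDimensional F V₂]

theorem eq_zero_of_eta {v : V} (H : ∀ c, eta h f₂ c v = 0) : v = 0 :=
  eq_zero_of_ct h fun ψ => by
    obtain ⟨c, hc⟩ := hT.nd₂.exists_rep ψ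
    rw [← show f₂.B c = ψ from LinearMap.ext hc]
    exact H c

theorem nd : f.Nondeg := fun _ hv =>
  hT.eq_zero_of_eta fun _ => hT.eta_eq_zero fun _ => f.B_eq_zero_symm (hv _)

theorem mem_of_eta {c : V₂} {v : V} (H : ∀ y, f₂.B y c = 0 → eta h f₂ y v = 0) : v ∈ mem τ c :=
  mem_of_ct h fun ψ h0 => by
    obtain ⟨y, hy⟩ := hT.nd₂.exists_rep ψ
    rw [← show f₂.B y = ψ from LinearMap.ext hy]
    exact H y ((hy c).trans h0)

theorem mem_of_perp {c : V₂} {v : V} (H : ∀ w, eta h f₂ c w = 0 → f.B w v = 0) : v ∈ mem τ c :=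
  hT.mem_of_eta fun y hy => hT.eta_eq_zero fun x => H _ (by simp [f₂.B_eq_zero_symm hy])

theorem exists_partner {c : V₂} (hc : c ≠ 0) : ∃ c', f₂.B c c' = 1 := hT.nd₂.exists_B_eq hc 1

/-- An element acting trivially on `(V₁ ⊗ c)^⊥`. -/
theorem exists_level {z : V ≃ₗ[F] V} (hz : z ∈ f.O) {c : V₂} (hc : c ≠ 0)
    (H : ∀ v, eta h f₂ c v = 0 → z v = v) :
    ∃ β : V₁ →ₗ[F] V₁, ∀ v, z v = v + τ (β (eta h f₂ c v)) c := by
  obtain ⟨c', h1⟩ := hT.exists_partner hc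
  have h2 : ∀ v, z v - v ∈ mem τ c := fun v => hT.mem_of_perp fun w hw => by
    rw [map_sub, ← H w hw, mem_O_B hz, H w hw, sub_self]
  refine ⟨-eta h f₂ c' ∘ₗ ((z : V →ₗ[F] V) - LinearMap.id) ∘ₗ τ.flip c', fun v => ?_⟩
  obtain ⟨x, hx⟩ := mem_mem.1 (h2 (τ (eta h f₂ c v) c'))
  have h3 := H (v - τ (eta h f₂ c v) c') (by simp [h1])
  have h4 : f₂.B c' c = -1 := by rw [f₂.alt_symm, h1]
  simp only [LinearMap.neg_apply, LinearMap.comp_apply, LinearMap.flip_apply, LinearMap.sub_apply,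
    LinearEquiv.coe_coe, LinearMap.id_apply, ← hx, eta_pure, h4]
  rw [map_sub] at h3
  simp only [neg_smul, one_smul, neg_neg]
  linear_combination (norm := module) h3 - hx

theorem level_move (h2 : ∀ e ∈ f₂.O, kr h 1 e ∈ X) {c : V₂} (hc : c ≠ 0) {β : V₁ →ₗ[F] V₁}
    (H : Has X fun v => τ (β (eta h f₂ c v)) c) (d : V₂) :
    Has X fun v => τ (β (eta h f₂ d v)) d := by
  rcases eq_or_ne d 0 with rfl | hd
  · exact Has.zero.congr fun v => by simp
  obtain ⟨e, he, rfl⟩ := hT.nd₂.witt_vector hc hd (by simp [alt_q])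
  exact (H.conj (h2 e he)).congr fun v => by rw [eta_kr_inv _ he, kr_apply]; rfl

theorem scalar_of_QT {c : V₂} (hc : c ≠ 0)
    (hQ : ∀ u ∈ X, QW h f₂ c u → ∃ y μ, f₂.B c y = 0 ∧ u = ec h f₂ c y μ) {β : V₁ →ₗ[F] V₁}
    (H : Has X fun v => τ (β (eta h f₂ c v)) c) : ∃ s : F, ∀ x, β x = s • x := by
  obtain ⟨u, hu, e⟩ := H
  obtain ⟨y, μ, hy, rfl⟩ := hQ u hu ⟨fun x => by simp [e], fun v hv => by simp [e, hv]⟩
  obtain ⟨c', h1⟩ := hT.exists_partner hc
  have h4 : f₂.B c' c = -1 := by rw [f₂.alt_symm, h1]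
  refine ⟨μ + f₂.B y c' - f₂.B c' y, fun x => ?_⟩
  have := congrArg (eta h f₂ c') ((e (τ x c')).symm.trans (ec_apply hy μ _))
  simp [h1, h4] at this
  linear_combination (norm := module) -this

variable [FiniteDimensional F V₁]

/-- If `X` meets the unipotent radical only in the obvious elements, the stabilizer of the member
lies in the Kronecker subgroup. -/
theorem stab_kron [Nontrivial V₁] (hX : X ≤ f.O) (h2 : ∀ e ∈ f₂.O, kr h 1 e ∈ X) {c : V₂}
    (hc : c ≠ 0) (hQ : ∀ u ∈ X, QW h f₂ c u → ∃ y μ, f₂.B c y = 0 ∧ u = ec h f₂ c y μ)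
    {z : V ≃ₗ[F] V} (hz : z ∈ X) (hW : ∀ w ∈ mem τ c, z w ∈ mem τ c)
    (hK : ∀ k ∈ Kron τ, (∀ v w, f.B (k v) (k w) = f.B v w) → QW h f₂ c (k⁻¹ * z) → k ∈ X) :
    z ∈ Kron τ := by
  have := finiteDimensional h
  obtain ⟨D, hD⟩ := exists_left_of_stab h hc hW
  obtain ⟨c', h1⟩ := hT.exists_partner hc
  have h1' : f₂.B c' c = -1 := by rw [f₂.alt_symm, h1]
  obtain ⟨D', hD'⟩ := exists_adjL hT.nd₁ (D : V₁ →ₗ[F] V₁)
  simp only [LinearEquiv.coe_coe] at hD'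
  have e1 : ∀ v, eta h f₂ c (z⁻¹ v) = D' (eta h f₂ c v) := fun v => hT.nd₁.ext_right fun x => by
    rw [← hD', ← hT.eta_of_stab (hX hz) (hD x), app_inv]
  obtain ⟨m, hm⟩ := hT.scalar_of_QT hc hQ (β := (D : V₁ →ₗ[F] V₁) ∘ₗ D')
    ((Has.conj (ξ := pc h f₂ c) ⟨ec h f₂ c 0 1, h2 _ (ei_mem_O _ _ _), fun v => by
      simp [ec_zero_apply]⟩ hz).congr fun v => by simp [pc_apply, hD, e1])
  have hm' : ∀ x, D' (D x) = m • x := fun x => D.injective (by simpa using hm (D x))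
  have hDm : ∀ x y, f₁.B (D x) (D y) = m * f₁.B x y := fun x y => by simp [hD', hm']
  obtain ⟨x0, hx0⟩ := exists_ne (0 : V₁)
  obtain ⟨x1, hx1⟩ := hT.nd₁.exists_B_eq hx0 1
  have m0 : m ≠ 0 := by
    rintro rfl
    exact hx0 (by simpa using hT.nd₁ (D x0) fun y => by simpa [app_inv] using hDm x0 (D⁻¹ y))
  have e2 : ∀ v, eta h f₂ c (z v) = m⁻¹ • D (eta h f₂ c v) := fun v => by
    have := hm (eta h f₂ c (z v))
    rw [LinearMap.comp_apply, ← e1, inv_app, LinearEquiv.coe_coe] at this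
    rw [this, smul_smul, inv_mul_cancel₀ m0, one_smul]
  obtain ⟨α, hα⟩ := Module.Projective.exists_dual_eq_one F (show D x0 ≠ 0 by simpa using hx0)
  let B0 : V₂ →ₗ[F] V₂ := cl h α ∘ₗ (z : V →ₗ[F] V) ∘ₗ τ x0
  have hB0 : B0 c = c := by simp [B0, hD, hα]
  have hB : ∀ y, f₂.B c y = 0 → f₂.B c (B0 y) = 0 ∧ ∀ x, z (τ x y) - τ (D x) (B0 y) ∈ mem τ c := by
    intro y hy
    have hy' := f₂.B_eq_zero_symm hy
    obtain ⟨y', μ, hy1, e⟩ := hQ (z * ec h f₂ c y 0 * z⁻¹)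
      (X.mul_mem (X.mul_mem hz (h2 _ (ei_mem_O _ _ _))) (X.inv_mem hz))
      ⟨fun x => by
        rw [mul_app, mul_app, ← app_inv D x, inv_app_eq (hD _), ec_apply hy]; simp [hy', hD],
      fun v hv => by
        rw [mul_app, mul_app, ec_apply hy, e1, hv]
        simpa [app_inv] using hW _ (pure_mem _ _)⟩
    have e3 : ∀ x, z (τ x y) - τ (D x) (m⁻¹ • y') ∈ mem τ c := fun x => by
      have := congrArg (fun k : V ≃ₗ[F] V => k (z (τ x c'))) e
      simp only [mul_app, inv_app, ec_apply hy, ec_apply hy1, e2, eta_pure, h1,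
        one_smul] at this
      rw [map_add, map_add, hD] at this
      refine ⟨eta h f₂ y' (z (τ x c')) + μ • m⁻¹ • D x - D (f₂.B y c' • x + (0 : F) • x), ?_⟩
      simp only [LinearMap.flip_apply, map_sub, map_add, map_smul, LinearMap.add_apply,
        LinearMap.sub_apply, LinearMap.smul_apply] at this ⊢
      linear_combination (norm := module) -this
    obtain ⟨a, ha⟩ := mem_mem.1 (e3 x0)
    have e4 : B0 y = m⁻¹ • y' + α a • c := by
      have := congrArg (cl h α) ha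
      simp only [map_sub, cl_apply, hα, one_smul] at this
      rw [this]; simp [B0]
    refine ⟨by simp [e4, hy1], fun x => ?_⟩
    have := Submodule.sub_mem _ (e3 x) (pure_mem (τ := τ) (α a • D x) c)
    convert this using 1
    simp [e4]; abel
  have hBm : ∀ y y', f₂.B c y = 0 → f₂.B c y' = 0 → f₂.B (B0 y) (B0 y') = m⁻¹ * f₂.B y y' := by
    intro y y' hy hy'
    obtain ⟨a, ha⟩ := mem_mem.1 ((hB y hy).2 x0)
    obtain ⟨b, hb⟩ := mem_mem.1 ((hB y' hy').2 x1)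
    have := mem_O_B (hX hz) (τ x0 y) (τ x1 y')
    rw [← sub_add_cancel (z (τ x0 y)), ← ha, ← sub_add_cancel (z (τ x1 y')), ← hb] at this
    simp [hT.mul, (hB y' hy').1, f₂.B_eq_zero_symm (hB y hy).1, hDm, hx1] at this
    rw [← this]; field_simp
  let π : V₂ →ₗ[F] V₂ := LinearMap.id + (f₂.B c').smulRight c - (f₂.B c).smulRight c'
  have hπ : ∀ y, π y = y + f₂.B c' y • c - f₂.B c y • c' := fun _ => rfl
  have π1 : ∀ y, f₂.B c (π y) = 0 := fun y => by simp [hπ, h1]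
  let B1 : V₂ →ₗ[F] V₂ := π ∘ₗ B0 ∘ₗ π - (f₂.B c').smulRight c + m⁻¹ • (f₂.B c).smulRight c'
  have hB1 : ∀ y, B1 y = B0 (π y) + (f₂.B c' (B0 (π y)) - f₂.B c' y) • c +
      (m⁻¹ * f₂.B c y) • c' := fun y => by
    simp only [B1, LinearMap.add_apply, LinearMap.sub_apply, LinearMap.comp_apply, hπ (B0 _),
      (hB _ (π1 y)).1, LinearMap.smul_apply, LinearMap.smulRight_apply]
    module
  have hB2 : ∀ y y', f₂.B (B1 y) (B1 y') = m⁻¹ * f₂.B y y' := fun y y' => by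
    have p1 := (hB _ (π1 y)).1
    have p2 := (hB _ (π1 y')).1
    have p3 := hBm _ _ (π1 y) (π1 y')
    rw [hB1, hB1]
    generalize B0 (π y) = u at *
    generalize B0 (π y') = u' at *
    simp [hπ, h1, h1', p2, f₂.alt_symm c u, f₂.alt_symm c' u, p1, f₂.alt_symm c y,
      f₂.alt_symm c' y] at p3 ⊢
    linear_combination p3
  let B : V₂ ≃ₗ[F] V₂ := LinearEquiv.ofInjectiveEndo B1 (by
    rw [← LinearMap.ker_eq_bot, eq_bot_iff]
    intro d hd
    refine hT.nd₂ d fun y => ?_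
    simpa [LinearMap.mem_ker.1 hd, m0] using hB2 d y)
  have Ba : ∀ d, B d = B1 d := fun _ => rfl
  have Bc : B c = c := by simp [Ba, hB1, hπ, h1']
  have hk : ∀ w ∈ mem τ c, (kr h D B)⁻¹ w ∈ mem τ c := inv_mem_of_stab fun w hw => by
    obtain ⟨x, rfl⟩ := mem_mem.1 hw
    rw [kr_apply, Bc]; exact pure_mem _ _
  have hq : QW h f₂ c ((kr h D B)⁻¹ * z) := by
    refine ⟨fun x => by rw [mul_app, hD]; exact inv_app_eq (by rw [kr_apply, Bc]), fun v hv => ?_⟩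
    refine mem_of_perp_pure (g := (((kr h D B)⁻¹ * z : V ≃ₗ[F] V) : V →ₗ[F] V) - LinearMap.id) h1
      (fun x y hy => ?_) hv
    have := hk _ (Submodule.sub_mem _ ((hB y hy).2 x)
      (pure_mem (τ := τ) ((f₂.B c' (B0 (π y))) • D x) c))
    have e5 : τ (D x) (B0 y) + τ (f₂.B c' (B0 (π y)) • D x) c = kr h D B (τ x y) := by
      rw [kr_apply, Ba, hB1]; simp [hπ y, hy, hB0, sub_smul]
    rwa [sub_sub, e5, map_sub, inv_app] at this
  have hkX := hK _ (kr_mem h D B) (hT.kr_iso (mul_inv_cancel₀ m0) hDm hB2) hq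
  obtain ⟨y, μ, -, e⟩ := hQ _ (X.mul_mem (X.inv_mem hkX) hz) hq
  have h5 := (Kron τ).mul_mem (kr_mem h D B) (ec_mem_kron (h := h) (f₂ := f₂) c y μ)
  rwa [← e, mul_inv_cancel_left] at h5

end TF

end CL.Tens
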