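/-
Orthogonal ⊗ symplectic tensor products in `Sp`: the level calculus.
-/
import Mathlib
import Cfsg.Agent.CLAS.TForm
import Cfsg.Agent.CLAS.Ref5
import Cfsg.Agent.CLAS.ExtO

namespace CL.Tens

open Module CL.ExtF CL.Witt CL.Witt.Form CL.Root

attribute [-simp] LinearEquiv.coe_inv
attribute [local simp] FormType.alt_σ FormType.alt_ε alt_B_self FormType.quad_σ FormType.quad_ε
  FormType.alt_π FormType.quad_π

variable {F : Type*} [Field F] {V₁ V₂ V : Type*} [AddCommGroup V₁] [Module F V₁] [AddCommGroup V₂]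
  [Module F V₂] [AddCommGroup V] [Module F V] {X : Subgroup (V ≃ₗ[F] V)}

section Cen

variable {f : Form (FormType.alt F) V} {p p' w w' z : V}

theorem cen_add_of_ne (h : Cen f X p) (h' : Cen f X p') (hB : f.B p p' ≠ 0) (c : F) :
    Cen f X (p' + c • p) := by
  have := h'.conj (f.alt_q _) (h (c / f.B p p') rfl) (ei_mem_O _ _ _)
  rwa [alt_tv_apply, div_mul_cancel₀ _ hB] at this

theorem cen_of_three (h2 : (2 : F) ≠ 0) (h : Cen f X (p + z)) (h' : Cen f X (p - z))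
    (hp : Cen f X p) (hB : f.B p z = 0) : Cen f X z := fun a _ => by
  have hB' := f.B_eq_zero_symm hB
  have : f.ei z 0 a = f.ei (p + z) 0 (a / 2) * f.ei (p - z) 0 (a / 2) * f.ei p 0 (-a) :=
    LinearEquiv.ext fun v => by
      simp only [mul_app, alt_tv_apply, map_add, map_sub, map_smul, LinearMap.add_apply,
        LinearMap.sub_apply, hB, hB', alt_B_self]
      match_scalars <;> field_simp <;> ring
  rw [this]
  exact X.mul_mem (X.mul_mem (h _ rfl) (h' _ rfl)) (hp _ rfl)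

theorem cen_add_of_common (h2 : (2 : F) ≠ 0) (h : Cen f X w) (h' : Cen f X w') (hz : Cen f X z)
    (h1 : f.B w z ≠ 0) (h1' : f.B w' z ≠ 0) : Cen f X (w + w') := by
  by_cases h0 : f.B w' w ≠ 0
  · simpa using cen_add_of_ne h' h h0 1
  push Not at h0
  have key : ∀ a b : F, f.B (a • w + b • w') z ≠ 0 → Cen f X (a • w + b • w') := fun a b hab => by
    have e1 := cen_add_of_ne h' (cen_add_of_ne h hz h1 a) (by simpa [h0] using h1') b
    have e2 := cen_add_of_ne hz e1 (fun e => hab (f.B_eq_zero_symm (by simpa using e))) (-1)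
    convert e2 using 1; module
  by_cases h3 : f.B (w + w') z ≠ 0
  · simpa using key 1 1 (by simpa using h3)
  push Not at h3
  refine cen_of_three h2 (p := w) ?_ ?_ h (by simp [f.B_eq_zero_symm h0])
  · convert key 2 1 fun e => h1 ?_ using 1
    · module
    · simp at e h3; linear_combination e - h3
  · convert key 0 (-1) (by simpa using h1') using 1; module

end Cen

section Quad

variable {f : Form (FormType.quad F) V} [FiniteDimensional F V]

theorem scalar_of_eig (h2 : (2 : F) ≠ 0) (hf : f.Nondeg) (h3 : 3 ≤ finrank F V) {β : V →ₗ[F] V}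
    (H : ∀ v, f.q v ≠ 0 → β v ∈ F ∙ v) : ∃ s : F, ∀ x, β x = s • x := by
  refine exists_smul_of_mem_span fun u => ?_
  by_cases hu : f.q u ≠ 0
  · exact H u hu
  push Not at hu
  rcases eq_or_ne u 0 with rfl | u0
  · simp
  obtain ⟨u', hu', h1⟩ := hf.exists_partner' hu u0
  obtain ⟨v, a, e1, e2, ha, a0⟩ := hf.exists_ne_zero_hyp (big_of_three h3) hu hu' (by simp [h1])
  have hv : f.q v ≠ 0 := by rw [← ha]; exact a0
  have e3 := f.B_eq_zero_symm e1
  obtain ⟨l, hl⟩ := Submodule.mem_span_singleton.1 (H v hv)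
  obtain ⟨m, hm⟩ := Submodule.mem_span_singleton.1 (H (v + u) (by simpa [quad_q_add, hu, e3]))
  obtain ⟨n, hn⟩ := Submodule.mem_span_singleton.1 (H (v - u) (by simpa [q_sub, hu, e3]))
  have e4 : (2 * l - m - n) • v = (m - n) • u := by
    rw [map_add] at hm; rw [map_sub] at hn
    linear_combination (norm := module) (2 : F) • hl - hm - hn
  have e5 := congrArg (f.B u') e4
  have e6 := congrArg (f.B v) e4
  simp [e2, f.quad_symm u u', h1, e3, quad_B_self, h2, hv] at e5 e6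
  refine Submodule.mem_span_singleton.2 ⟨m, ?_⟩
  have : l = m := mul_left_cancel₀ h2 (by linear_combination e6 + e5)
  rw [map_add] at hm
  linear_combination (norm := module) hm - hl + this • v

omit [FiniteDimensional F V] in
theorem exists_q_ne (hf : f.Nondeg) [Nontrivial V] : ∃ v, f.q v ≠ 0 := by
  by_contra! H
  obtain ⟨x, hx⟩ := exists_ne (0 : V)
  exact hx (hf x fun y => by simp [quad_B, H])

theorem eq_zero_of_nonsing (h2 : (2 : F) ≠ 0) (hf : f.Nondeg) (h3 : 3 ≤ finrank F V)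
    {β : V →ₗ[F] V} (H : ∀ v, f.q v ≠ 0 → β v = 0) (x : V) : β x = 0 := by
  have : Nontrivial V := Module.nontrivial_of_finrank_pos (R := F) (by omega)
  obtain ⟨s, hs⟩ := scalar_of_eig h2 hf h3 (β := β) fun v hv => by simp [H v hv]
  obtain ⟨v, hv⟩ := exists_q_ne hf
  have := H v hv
  rw [hs, smul_eq_zero] at this
  rw [hs, this.resolve_right (by rintro rfl; exact hv f.q_zero), zero_smul]

theorem exists_orth_pair (h2 : (2 : F) ≠ 0) (hf : f.Nondeg) (h3 : 3 ≤ finrank F V) {v : V}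
    (hv : f.q v ≠ 0) : ∃ a b, f.q a ≠ 0 ∧ f.q b ≠ 0 ∧ f.B v a = 0 ∧ f.B v b = 0 ∧ f.B a b = 0 := by
  have key : ∀ W : Submodule F V, (f.restrict W).Nondeg → finrank F W ≤ 2 →
      ∃ a ∈ f.perp W, f.q a ≠ 0 := fun W hW hd =>
    exists_q_ne_zero_mem (hf.restrict_perp hW) fun e => by
      have := hf.finrank_add_finrank_perp W
      rw [e, finrank_bot] at this
      omega
  obtain ⟨a, ha, a0⟩ := key (F ∙ v) (restrict_nondeg_span_singleton (by simp [quad_B_self, h2, hv]))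
    ((finrank_span_le_card ({v} : Set V)).trans (by simp))
  rw [mem_perp_span_singleton] at ha
  obtain ⟨b, hb, b0⟩ := key (Submodule.span F {v, a})
    (restrict_nondeg_span_pair (by simp [quad_B_self, h2, hv, a0, ha])) (finrank_span_pair_le _ _)
  rw [mem_perp_span_pair] at hb
  exact ⟨a, b, a0, b0, ha, hb.1, hb.2⟩

omit [FiniteDimensional F V]

variable (f) in
/-- The symmetric operator `v ∘ w`. -/
def sy : V →ₗ[F] V →ₗ[F] V →ₗ[F] V :=
  LinearMap.mk₂ F (fun v w => (f.B v).smulRight w + (f.B w).smulRight v)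
    (fun a b c => by ext x; simp [add_smul]; abel) (fun s a b => by ext x; simp [smul_smul, mul_comm])
    (fun a b c => by ext x; simp [add_smul]; abel) (fun s a b => by ext x; simp [smul_smul, mul_comm])

theorem sy_apply (v w x : V) : sy f v w x = f.B v x • w + f.B w x • v := rfl

theorem sy_comm (v w : V) : sy f v w = sy f w v := by ext x; simp [sy_apply, add_comm]

theorem sy_conj {A : V ≃ₗ[F] V} (hA : A ∈ f.O) (v w : V) :
    (A : V →ₗ[F] V) ∘ₗ sy f v w ∘ₗ (A⁻¹ : V ≃ₗ[F] V) = sy f (A v) (A w) := by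
  ext x; simp [sy_apply, B_apply_left hA]

variable [FiniteDimensional F V] [Finite F]

/-- An `O`-invariant space of symmetric operators containing a non-scalar contains a rank one
operator. -/
theorem exists_sy_self (h2 : (2 : F) ≠ 0) (hf : f.Nondeg) (h3 : 3 ≤ finrank F V)
    (hex : finrank F V ≠ 3 ∨ 4 ≤ Nat.card F) {R : Submodule F (V →ₗ[F] V)}
    (hc : ∀ A ∈ f.O, ∀ β ∈ R, (A : V →ₗ[F] V) ∘ₗ β ∘ₗ (A⁻¹ : V ≃ₗ[F] V) ∈ R) {β : V →ₗ[F] V}
    (hβ : β ∈ R) (hs : ∀ x y, f.B (β x) y = f.B x (β y)) (hn : ¬ ∃ s : F, ∀ x, β x = s • x) :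
    ∃ s, s ≠ 0 ∧ f.q s = 0 ∧ sy f s s ∈ R := by
  have key : ∀ v w, f.q v ≠ 0 → w ≠ 0 → f.B v w = 0 → sy f v w ∈ R →
      ∀ u, f.B v u = 0 → sy f v u ∈ R := by
    intro v w hv hw hvw H u hu
    have hY := hf.restrict_perp (restrict_nondeg_span_singleton (t := v)
      (by simp [quad_B_self, h2, hv]))
    have hd := hf.finrank_add_finrank_perp (F ∙ v)
    rw [finrank_span_singleton (by rintro rfl; exact hv f.q_zero)] at hd
    have := (quad_oIrr' hY (by omega) ((R.comap (sy f v)).comap (f.perp (F ∙ v)).subtype)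
      fun e he d hd => by
        obtain ⟨g, hg, g1, g2⟩ := exists_ext hY he
        have := hc g hg _ hd
        rwa [sy_conj hg, g2 v (f.le_perp_perp _ (Submodule.mem_span_singleton_self v)),
          Submodule.subtype_apply, g1] at this).resolve_left fun e => hw (by
      have : (⟨w, f.mem_perp_span_singleton.2 hvw⟩ : f.perp (F ∙ v)) ∈
        (R.comap (sy f v)).comap (f.perp (F ∙ v)).subtype := H
      rw [e] at this
      exact congrArg Subtype.val this)
    exact (this ▸ Submodule.mem_top : (⟨u, f.mem_perp_span_singleton.2 hu⟩ : f.perp (F ∙ v)) ∈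
      (R.comap (sy f v)).comap (f.perp (F ∙ v)).subtype)
  obtain ⟨v, hv, hv'⟩ : ∃ v, f.q v ≠ 0 ∧ β v ∉ F ∙ v := by
    by_contra! H
    exact hn (scalar_of_eig h2 hf h3 H)
  have v0 : v ≠ 0 := by rintro rfl; exact hv f.q_zero
  have h1 : ∀ u, f.B v u = 0 → sy f v u ∈ R := by
    refine key v (β v - (f.B v (β v) / (2 * f.q v)) • v) hv (fun e => hv' ?_)
      (by simp [quad_B_self]; field_simp; ring) ?_
    · rw [sub_eq_zero.1 e]; exact Submodule.smul_mem _ _ (Submodule.mem_span_singleton_self v)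
    · convert R.smul_mem (-f.q v) (R.sub_mem (hc _ (rf_mem_O v) β hβ) hβ) using 1
      ext x
      simp only [sy_apply, rf_inv, LinearMap.smul_apply, LinearMap.sub_apply, LinearMap.comp_apply,
        LinearEquiv.coe_coe, rf_apply, map_sub, map_smul, hs]
      match_scalars <;> field_simp <;> ring
  obtain ⟨a, b, ha, hb, va, vb, ab⟩ := exists_orth_pair h2 hf h3 hv
  obtain ⟨x, y, e⟩ := exists_binary_eq h2 ha hb (-f.q v)
  have av := f.B_eq_zero_symm va
  have bv := f.B_eq_zero_symm vb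
  have ba := f.B_eq_zero_symm ab
  set s := v + (x • a + y • b) with hsd
  set w := (y * f.q b) • a - (x * f.q a) • b with hwd
  have qs : f.q s = 0 := by simp [hsd, quad_q_add, quad_q_smul, va, vb, ab]; linear_combination e
  have qw : f.q w ≠ 0 := by
    have : f.q w = -(f.q a * f.q b * f.q v) := by
      simp [hwd, q_sub, quad_q_smul, ab]; linear_combination f.q a * f.q b * e
    simp [this, ha, hb, hv]
  have vw : f.B v w = 0 := by simp [hwd, va, vb]
  have ws : f.B w s = 0 := by simp [hwd, hsd, av, bv, ab, ba, quad_B_self]; ring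
  have h4 : sy f w v ∈ R := by rw [sy_comm]; exact h1 w vw
  have q2 : f.q (w + s) = f.q w := by simp [quad_q_add, qs, ws]
  obtain ⟨g, hg, e2⟩ := hf.witt_vector (x := w) (y := w + s) (fun e => qw (by rw [e, f.q_zero]))
    (fun e => qw (by rw [← q2, e, f.q_zero])) q2.symm
  have h5 := hc g hg _ h4
  rw [sy_conj hg, e2] at h5
  refine ⟨s, fun e => by simpa [hsd, va, vb, quad_B_self, h2, hv] using congrArg (f.B v) e, qs, ?_⟩
  have := R.sub_mem (key _ _ (q2 ▸ qw) (by simpa using v0)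
    (by rw [← e2, mem_O_B hg, f.B_eq_zero_symm vw]) h5 s (by simp [ws, quad_B_self, qs]))
    (key w v qw v0 (f.B_eq_zero_symm vw) h4 s ws)
  simpa using this

end Quad

variable {τ : V₁ →ₗ[F] V₂ →ₗ[F] V} {h : IsTensorProduct τ} {f₂ : Form (FormType.alt F) V₂}

section Gen

variable {T T₁ : FormType F} {f : Form T V} {f₁ : Form T₁ V₁}

variable (h f₂ X) in
/-- The central level. -/
def lvA [Finite F] : Submodule F (V₁ →ₗ[F] V₁) where
  carrier := {β | ∀ c, Has X fun v => τ (β (eta h f₂ c v)) c}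
  zero_mem' c := Has.zero.congr fun v => by simp
  add_mem' ha hb c := ((ha c).add (hb c) fun v => by simp).congr fun v => by simp
  smul_mem' s β hβ c := by
    obtain ⟨a, b, rfl⟩ := exists_eq_sq_sub_sq s
    have k : ∀ a : F, Has X fun v => a ^ 2 • τ (β (eta h f₂ c v)) c := fun a =>
      (hβ (a • c)).congr fun v => by simp [smul_smul, sq]
    exact ((k a).sub (k b) (fun v w => by simp) fun v w => by simp).congr fun v => by
      simp [sub_smul]

theorem lvA_conj [Finite F] {A : V₁ ≃ₗ[F] V₁} (hA : kr h A 1 ∈ X) {β : V₁ →ₗ[F] V₁}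
    (hβ : β ∈ lvA X h f₂) : (A : V₁ →ₗ[F] V₁) ∘ₗ β ∘ₗ (A⁻¹ : V₁ ≃ₗ[F] V₁) ∈ lvA X h f₂ := fun c =>
  ((hβ c).conj hA).congr fun v => by rw [eta_kr_inv _ f₂.O.one_mem, kr_apply]; rfl

theorem TF.level_B (hT : TF h f f₁ f₂) (hX : X ≤ f.O) {c c' : V₂} (h1 : f₂.B c c' = 1)
    {β : V₁ →ₗ[F] V₁} (H : Has X fun v => τ (β (eta h f₂ c v)) c) (x y : V₁) :
    f₁.B (β x) y = f₁.B x (β y) := by
  obtain ⟨u, hu, e⟩ := H
  have := mem_O_B (hX hu) (τ x c') (τ y c')
  simp [e, h1, hT.mul, f₂.alt_symm c c'] at this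
  linear_combination this

variable (h f₂ X) in
/-- Elements of the radical supported on `V₁ ⊗ ⟨c, y⟩`. -/
def El (c y : V₂) (N N' β : V₁ →ₗ[F] V₁) : Prop :=
  Has X fun v => τ (N' (eta h f₂ c v)) y + τ (N (eta h f₂ y v) + β (eta h f₂ c v)) c

theorem El.comm {c y y' : V₂} {N N' β M M' γ : V₁ →ₗ[F] V₁} (H : El X h f₂ c y N N' β)
    (H' : El X h f₂ c y' M M' γ) (hy : f₂.B c y = 0) (hy' : f₂.B c y' = 0) :
    Has X fun v => τ ((f₂.B y y' • (N ∘ₗ M' + M ∘ₗ N')) (eta h f₂ c v)) c := by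
  obtain ⟨k, hk, e⟩ := H
  obtain ⟨k', hk', e'⟩ := H'
  refine ⟨k * k' * (k' * k)⁻¹, X.mul_mem (X.mul_mem hk hk') (X.inv_mem (X.mul_mem hk' hk)),
    fun v => ?_⟩
  obtain ⟨w, rfl⟩ := (k' * k).surjective v
  rw [mul_app, inv_app]
  simp [e, e', hy, hy', f₂.B_eq_zero_symm hy, f₂.B_eq_zero_symm hy', f₂.alt_symm y y']
  module

theorem El.conj {c y : V₂} {N N' β : V₁ →ₗ[F] V₁} (H : El X h f₂ c y N N' β) {A : V₁ ≃ₗ[F] V₁}
    {e : V₂ ≃ₗ[F] V₂} (he : e ∈ f₂.O) (hk : kr h A e ∈ X) :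
    El X h f₂ (e c) (e y) ((A : V₁ →ₗ[F] V₁) ∘ₗ N ∘ₗ (A⁻¹ : V₁ ≃ₗ[F] V₁))
      ((A : V₁ →ₗ[F] V₁) ∘ₗ N' ∘ₗ (A⁻¹ : V₁ ≃ₗ[F] V₁))
      ((A : V₁ →ₗ[F] V₁) ∘ₗ β ∘ₗ (A⁻¹ : V₁ ≃ₗ[F] V₁)) :=
  (Has.conj H hk).congr fun v => by simp [eta_kr_inv _ he]

theorem el_id (h2 : ∀ e ∈ f₂.O, kr h 1 e ∈ X) {c y : V₂} (hy : f₂.B c y = 0) :
    El X h f₂ c y LinearMap.id LinearMap.id 0 :=
  ⟨ec h f₂ c y 0, h2 _ (ei_mem_O _ _ _), fun v => by simp [ec_apply hy, add_assoc]⟩

/-- The commutator of an element of the radical with a transvection of the symplectic factor. -/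
theorem TF.el_of_QW (hT : TF h f f₁ f₂) (hX : X ≤ f.O) (h2 : ∀ e ∈ f₂.O, kr h 1 e ∈ X) {c y : V₂}
    (hy : f₂.B c y = 0) {z : V ≃ₗ[F] V} (hz : z ∈ X) {N N' : V₁ →ₗ[F] V₁}
    (hN : ∀ x, z (τ x y) = τ x y + τ (N x) c) (hN' : ∀ x x', f₁.B (N x) x' = f₁.B x (N' x'))
    (μ : F) : El X h f₂ c y (μ • N) (μ • N') (μ • N ∘ₗ N') := by
  have e1 : ∀ v, eta h f₂ y (z⁻¹ v) = eta h f₂ y v + N' (eta h f₂ c v) := fun v =>
    hT.nd₁.ext_right fun x => by
      rw [← hT.B_pure, ← B_apply_left (hX hz), hN]; simp [hT.B_pure, hN']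
  have hm := h2 _ (ei_mem_O y 0 μ)
  refine ⟨z * ec h f₂ y 0 μ * z⁻¹ * (ec h f₂ y 0 μ)⁻¹,
    X.mul_mem (X.mul_mem (X.mul_mem hz hm) (X.inv_mem hz)) (X.inv_mem hm), fun v => ?_⟩
  simp [ec_zero_inv, ec_zero_apply, app_inv, pc_apply, e1, hN, hy]
  module

theorem TF.exists_theta [FiniteDimensional F V₂] (hT : TF h f f₁ f₂) {c : V₂} (hc : c ≠ 0)
    {z : V ≃ₗ[F] V} (hz : QW h f₂ c z) : ∃ θ : V₂ →ₗ[F] V₁ →ₗ[F] V₁,
      ∀ y, f₂.B c y = 0 → ∀ x, z (τ x y) = τ x y + τ (θ y x) c := by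
  obtain ⟨c', h1⟩ := hT.exists_partner hc
  refine ⟨τ.flip.compr₂ (-eta h f₂ c' ∘ₗ ((z : V →ₗ[F] V) - LinearMap.id)), fun y hy x => ?_⟩
  obtain ⟨a, ha⟩ := mem_mem.1 (hz.2 (τ x y) (by simp [hy]))
  simp only [LinearMap.compr₂_apply, LinearMap.flip_apply, LinearMap.neg_apply,
    LinearMap.comp_apply, LinearMap.sub_apply, LinearEquiv.coe_coe, LinearMap.id_apply, ← ha,
    eta_pure, f₂.alt_symm c c', h1]
  simp [ha]

/-- If all components of elements of the radical are scalar, the radical is the obvious one. -/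
theorem TF.QT_of_scalar [FiniteDimensional F V₂] [Nontrivial V₁] (hT : TF h f f₁ f₂) (hX : X ≤ f.O)
    (h2 : ∀ e ∈ f₂.O, kr h 1 e ∈ X) {c : V₂} (hc : c ≠ 0)
    (hA : ∀ β : V₁ →ₗ[F] V₁, (Has X fun v => τ (β (eta h f₂ c v)) c) → ∃ s : F, ∀ x, β x = s • x)
    {z : V ≃ₗ[F] V} (hz : z ∈ X) (hq : QW h f₂ c z)
    (hL : ∀ y (N : V₁ →ₗ[F] V₁), f₂.B c y = 0 → (∀ x, z (τ x y) = τ x y + τ (N x) c) →
      ∃ s : F, ∀ x, N x = s • x) : ∃ y μ, f₂.B c y = 0 ∧ z = ec h f₂ c y μ := by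
  obtain ⟨θ, hθ⟩ := hT.exists_theta hc hq
  obtain ⟨c', h1⟩ := hT.exists_partner hc
  obtain ⟨x0, hx0⟩ := exists_ne (0 : V₁)
  obtain ⟨α, hα⟩ := Module.Projective.exists_dual_eq_one F hx0
  obtain ⟨t, ht⟩ := hT.nd₂.exists_rep (α ∘ₗ θ.flip x0)
  have e1 : ∀ y, f₂.B c y = 0 → ∀ x, z (τ x y) = τ x y + f₂.B t y • τ x c := fun y hy x => by
    obtain ⟨s, hs⟩ := hL y _ hy (hθ y hy)
    simp [hθ y hy, ht, hs, hα]
  have e2 : f₂.B c t = 0 := by
    have := e1 c (by simp) x0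
    rw [hq.1, left_eq_add, smul_eq_zero] at this
    exact f₂.B_eq_zero_symm (this.resolve_right (pure_ne_zero h hx0 hc))
  have hm := h2 _ (ei_mem_O c t 0)
  have hu := X.mul_mem (X.inv_mem hm) hz
  obtain ⟨β, hβ⟩ := hT.exists_level (hX hu) hc fun v hv => by
    have := mem_of_perp_pure (h := h) (S := ⊥)
      (g := (z : V →ₗ[F] V) - (ec h f₂ c t 0 : V →ₗ[F] V)) h1
      (fun x y hy => by simp [e1 y hy, ec_apply e2, hy]) hv
    exact inv_app_eq (sub_eq_zero.1 this).symm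
  obtain ⟨s, hs⟩ := hA β ⟨_, hu, hβ⟩
  refine ⟨t, s, e2, LinearEquiv.ext fun v => ?_⟩
  have := congrArg (ec h f₂ c t 0) (hβ v)
  rw [mul_app, ec, app_inv, ← ec] at this
  simp [this, ec_apply e2, hs, f₂.B_eq_zero_symm e2]
  module

end Gen

variable {f : Form (FormType.alt F) V} {f₁ : Form (FormType.quad F) V₁} [Finite F]
  [FiniteDimensional F V₁] [FiniteDimensional F V₂]

/-- A non-scalar central level element generates everything. -/
theorem TF.so_of_level (hT : TF h f f₁ f₂) (h2 : (2 : F) ≠ 0) (h3 : 3 ≤ finrank F V₁)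
    (hex : finrank F V₁ ≠ 3 ∨ 4 ≤ Nat.card F) (hX : X ≤ f.O) (hL : ∀ A ∈ f₁.O, kr h A 1 ∈ X)
    (hR : ∀ e ∈ f₂.O, kr h 1 e ∈ X) {c : V₂} (hc : c ≠ 0) {β : V₁ →ₗ[F] V₁}
    (H : Has X fun v => τ (β (eta h f₂ c v)) c) (hn : ¬ ∃ s : F, ∀ x, β x = s • x) : f.O ≤ X := by
  have := finiteDimensional h
  obtain ⟨c', h1⟩ := hT.exists_partner hc
  obtain ⟨s, s0, qs, hs⟩ := exists_sy_self h2 hT.nd₁ h3 hex (R := lvA X h f₂)
    (fun A hA β hβ => lvA_conj (hL A hA) hβ) (hT.level_move hR hc H) (hT.level_B hX h1 H) hn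
  have k1 : ∀ x d, f₁.q x = 0 → x ≠ 0 → Cen f X (τ x d) := fun x d hx x0 a _ => by
    obtain ⟨g, hg, rfl⟩ := hT.nd₁.witt_vector s0 x0 (qs.trans hx.symm)
    have := lvA_conj (hL g hg) hs
    rw [sy_conj hg] at this
    obtain ⟨u, hu, e⟩ := (lvA X h f₂).smul_mem (a / 2) this d
    convert hu using 1
    ext v
    simp only [e, alt_tv_apply, hT.B_pure, LinearMap.smul_apply, sy_apply, map_smul, map_add,
      LinearMap.add_apply]
    match_scalars <;> field_simp; ring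
  have k0 : Cen f X 0 := fun a _ => by
    convert X.one_mem using 1
    ext v; simp [alt_tv_apply]
  have k2 : ∀ x d, Cen f X (τ x d) := fun x d => by
    rcases eq_or_ne d 0 with rfl | d0
    · simpa using k0
    rcases eq_or_ne x 0 with rfl | x0
    · simpa using k0
    by_cases hx : f₁.q x = 0
    · exact k1 x d hx x0
    obtain ⟨u, hu, ux⟩ := hT.nd₁.exists_singular_B_ne qs s0 x0
    have q1 : f₁.q ((f₁.q x / f₁.B u x) • u) = 0 := f₁.q_smul_eq_zero hu _
    have q2 : f₁.q (x - (f₁.q x / f₁.B u x) • u) = 0 := by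
      simp [q_sub, q1, f₁.quad_symm u x]; field_simp; ring
    have n1 : (f₁.q x / f₁.B u x) • u ≠ 0 :=
      smul_ne_zero (div_ne_zero hx ux) (by rintro rfl; simp at ux)
    have n2 : x - (f₁.q x / f₁.B u x) • u ≠ 0 := fun e => hx (by rw [sub_eq_zero.1 e]; exact q1)
    obtain ⟨w, qw, w1, w2⟩ := hT.nd₁.exists_common_partner' (big_of_three h3) q1 n1 q2 n2
    obtain ⟨d', hd'⟩ := hT.exists_partner d0
    have := cen_add_of_common h2 (k1 _ d q1 n1) (k1 _ d q2 n2)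
      (k1 w d' qw (by rintro rfl; simp at w1)) (by rwa [hT.mul, hd', mul_one])
      (by rwa [hT.mul, hd', mul_one])
    simpa using this
  have k3 : ∀ v, Cen f X v := fun v => by
    refine h.inductionOn v k0 k2 fun a b ha hb => ?_
    rcases eq_or_ne a 0 with rfl | a0
    · simpa using hb
    rcases eq_or_ne b 0 with rfl | b0
    · simpa using ha
    have p1 : ∀ w, w ≠ 0 → LinearMap.ker ((eta h f₂).flip w) ≠ ⊤ := fun w w0 e =>
      w0 (hT.eq_zero_of_eta fun d =>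
        (e ▸ Submodule.mem_top : d ∈ LinearMap.ker ((eta h f₂).flip w)))
    obtain ⟨d, d1, d2⟩ := exists_not_mem_not_mem (p1 a a0) (p1 b b0)
    have p2 : ∀ x : V₁, x ≠ 0 → LinearMap.ker (f₁.B x) ≠ ⊤ := fun x x0 e =>
      x0 (hT.nd₁ x fun y => (e ▸ Submodule.mem_top : y ∈ LinearMap.ker (f₁.B x)))
    obtain ⟨x, x1, x2⟩ := exists_not_mem_not_mem (p2 _ d1) (p2 _ d2)
    refine cen_add_of_common h2 ha hb (k2 x d) (fun e => x1 ?_) fun e => x2 ?_ <;>
    · have := f.B_eq_zero_symm e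
      rw [hT.B_pure] at this
      exact f₁.B_eq_zero_symm this
  have : Nontrivial V₂ := ⟨⟨c, 0, hc⟩⟩
  have hd : 2 ≤ finrank F V₂ := by
    by_contra! H
    obtain ⟨a, rfl⟩ := (finrank_eq_one_iff_of_nonzero' (K := F) c hc).1
      (le_antisymm (by omega) Module.finrank_pos) c'
    simp at h1
  rw [← hT.nd.alt_E_eq_O]
  exact ((alt_iso3 f).idx2 hT.nd (by rw [finrank_eq h]; nlinarith)).E_le_of_tv hT.nd one_ne_zero rfl
    fun u a _ ha => k3 u a ha

omit [Finite F] in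
/-- If the central level is scalar, the radical is the obvious one. -/
theorem TF.so_QT (hT : TF h f f₁ f₂) (h2 : (2 : F) ≠ 0) (h3 : 3 ≤ finrank F V₁) (hX : X ≤ f.O)
    (hL : ∀ A ∈ f₁.O, kr h A 1 ∈ X) (hR : ∀ e ∈ f₂.O, kr h 1 e ∈ X) {c : V₂} (hc : c ≠ 0)
    (hA : ∀ β : V₁ →ₗ[F] V₁, (Has X fun v => τ (β (eta h f₂ c v)) c) → ∃ s : F, ∀ x, β x = s • x)
    (z : V ≃ₗ[F] V) (hz : z ∈ X) (hq : QW h f₂ c z) : ∃ y μ, f₂.B c y = 0 ∧ z = ec h f₂ c y μ := by
  have : Nontrivial V₁ := Module.nontrivial_of_finrank_pos (R := F) (by omega)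
  refine hT.QT_of_scalar hX hR hc hA hz hq fun y N hy hN => ?_
  by_cases hyc : y ∈ F ∙ c
  · obtain ⟨a, rfl⟩ := Submodule.mem_span_singleton.1 hyc
    refine ⟨0, fun x => pure_inj h hc ?_⟩
    simpa [hq.1] using hN x
  obtain ⟨N', hN'⟩ := exists_adjL hT.nd₁ N
  have E := hT.el_of_QW hX hR hy hz hN hN' 1
  obtain ⟨t, t1, t2⟩ := hT.nd₂.exists_perp_eq' hyc 1
  have t3 : f₂.B c t = 0 := t1 c (Submodule.mem_span_singleton_self c)
  have t4 : f₂.B t y = -1 := by rw [f₂.alt_symm, t2]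
  obtain ⟨l, hl⟩ := hA _ (E.comm (el_id hR t3) hy t3)
  simp [t2] at hl
  have key : ∀ A ∈ f₁.O, ∃ s : F, ∀ x, N (A (N' (A⁻¹ x))) + A (N (A⁻¹ (N' x))) = s • x := by
    intro A hA'
    have hk : kr h A (f₂.ei t 0 1) ∈ X := by
      convert X.mul_mem (hL A hA') (hR _ (ei_mem_O t 0 1)) using 1
      exact equiv_ext h fun x y => by simp
    have E' := E.conj (ei_mem_O t 0 1) hk
    rw [show f₂.ei t 0 1 c = c by simp [alt_tv_apply, f₂.B_eq_zero_symm t3]] at E'
    obtain ⟨s, hs⟩ := hA _ (E.comm E' hy (by simp [alt_tv_apply, hy, t3]))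
    exact ⟨-s, fun x => by have := hs x; simp [alt_tv_apply, t4, t2] at this; rw [neg_smul, ← this]; abel⟩
  let M : V₁ →ₗ[F] V₁ := N - (l / 2) • LinearMap.id
  have hM : ∀ x, N x = M x + (l / 2) • x := fun x => by simp [M]
  have hM' : ∀ x, N' x = -M x + (l / 2) • x := fun x => by
    have := hl x
    rw [hM] at this
    linear_combination (norm := match_scalars <;> field_simp <;> ring) this
  have sk : ∀ x x', f₁.B (M x) x' = -f₁.B x (M x') := fun x x' => by
    have := hN' x x'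
    simpa [hM, hM'] using this
  obtain ⟨s1, hs1⟩ := key 1 f₁.O.one_mem
  have hM2 : ∀ x, M (M x) = ((l ^ 2 / 2 - s1) / 2) • x := fun x => by
    have := hs1 x
    simp only [hM, hM', inv_one, LinearEquiv.coe_one, id, map_add, map_neg, map_smul] at this
    linear_combination (norm := match_scalars <;> field_simp <;> ring) (-(2 : F)⁻¹) • this
  refine ⟨l / 2, fun x => ?_⟩
  rw [hM, eq_zero_of_nonsing h2 hT.nd₁ h3 (fun v hv => ?_) x, zero_add]
  have vw : f₁.B v (M v) = 0 := by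
    have := sk v v
    rw [f₁.quad_symm] at this
    exact mul_left_cancel₀ h2 (by linear_combination this)
  obtain ⟨s2, hs2⟩ := key _ (rf_mem_O v)
  have e1 : ∀ x, (2 * (f₁.q v)⁻¹) • (((l ^ 2 / 2 - s1) / 2 * f₁.B v x) • v -
      f₁.B (M v) x • M v) = (s2 - s1) • x := fun x => by
    have := hs2 x
    simp only [rf_inv, rf_apply, hM, hM', map_add, map_neg, map_smul, map_sub, hM2, vw,
      quad_B_self, sk v x] at this ⊢
    linear_combination (norm := match_scalars <;> field_simp <;> ring) this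
  obtain ⟨x, hx⟩ : ∃ x, x ∉ Submodule.span F {v, M v} := by
    by_contra! H
    have := finrank_span_pair_le (F := F) v (M v)
    rw [show Submodule.span F {v, M v} = ⊤ from eq_top_iff.2 fun x _ => H x, finrank_top] at this
    omega
  have e2 : s2 - s1 = 0 := by
    by_contra e
    refine hx ((Submodule.smul_mem_iff _ e).1 ?_)
    rw [← e1]
    exact Submodule.smul_mem _ _ (Submodule.sub_mem _
      (Submodule.smul_mem _ _ (Submodule.subset_span (by simp)))
      (Submodule.smul_mem _ _ (Submodule.subset_span (by simp))))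
  by_contra e
  obtain ⟨x, hx⟩ := hT.nd₁.exists_B_eq e 1
  have e3 := e1 x
  rw [e2, zero_smul, hx, one_smul, smul_eq_zero, sub_eq_zero] at e3
  have e4 := e3.resolve_left (by simp [h2, hv])
  rw [← e4] at vw e
  simp [quad_B_self, h2, hv] at vw e
  tauto

end CL.Tens
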