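/-
Orthogonal ⊗ symplectic tensor products in `Sp`: conjugates of members.
-/
import Mathlib
import Cfsg.Agent.CLAS.TFormL

namespace CL.Tens

open Module CL.ExtF CL.Witt CL.Witt.Form CL.Root

attribute [-simp] LinearEquiv.coe_inv
attribute [local simp] FormType.alt_σ FormType.alt_ε alt_B_self FormType.quad_σ FormType.quad_ε
  FormType.alt_π FormType.quad_π

variable {F : Type*} [Field F] {V₁ V₂ V : Type*} [AddCommGroup V₁] [Module F V₁] [AddCommGroup V₂]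
  [Module F V₂] [AddCommGroup V] [Module F V] {X : Subgroup (V ≃ₗ[F] V)}
  {τ : V₁ →ₗ[F] V₂ →ₗ[F] V}

theorem Opt.eq_of_lt [FiniteDimensional F V] {W : Submodule F V} {g k : V ≃ₗ[F] V} (h : Opt X W g)
    (hk : k ∈ X) (hle : ∀ w ∈ W, g w ∈ W → k w ∈ W) {w : V} (hw : w ∈ W) (h1 : k w ∈ W)
    (h2 : g w ∉ W) : ∀ w ∈ W, k w ∈ W := fun _ hv => by
  refine mem_of_kp_eq (by_contra fun hne => h2 ?_) hv
  have := Submodule.eq_of_le_of_finrank_le (S₁ := kp W g) (S₂ := kp W k)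
    (fun w hw => ⟨hw.1, hle w hw.1 hw.2⟩) (h.max k hk hne)
  exact (this ▸ mem_kp.2 ⟨hw, h1⟩ : w ∈ kp W g).2

theorem right_of_scalar (h : IsTensorProduct τ) [FiniteDimensional F V₂] [Nontrivial V₁]
    {Z : V →ₗ[F] V} (H : ∀ y ψ, ∃ s : F, ∀ x, ct h ψ (Z (τ x y)) = s • x) :
    ∃ B : V₂ →ₗ[F] V₂, ∀ x y, Z (τ x y) = τ x (B y) := by
  obtain ⟨x0, hx0⟩ := exists_ne (0 : V₁)
  obtain ⟨α, hα⟩ := Module.Projective.exists_dual_eq_one F hx0
  refine ⟨cl h α ∘ₗ Z ∘ₗ τ x0, fun x y => sub_eq_zero.1 (eq_zero_of_ct h fun ψ => ?_)⟩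
  obtain ⟨s, hs⟩ := H y ψ
  simp [hs, ct_comm, hα]

theorem kron_norm (h : IsTensorProduct τ) {z : V ≃ₗ[F] V} (hz : z ∈ Kron τ) {x₁ : V₁} {y₁ : V₂}
    (hx : x₁ ≠ 0) (hy : y₁ ≠ 0) (e : z (τ x₁ y₁) = τ x₁ y₁) :
    ∃ (A : V₁ →ₗ[F] V₁) (B : V₂ →ₗ[F] V₂), A x₁ = x₁ ∧ B y₁ = y₁ ∧
      ∀ x y, z (τ x y) = τ (A x) (B y) := by
  obtain ⟨A, B, H⟩ := hz
  rw [H] at e
  obtain ⟨l, hl⟩ := Submodule.mem_span_singleton.1
    (mem_span_of_pure_mem h (show A x₁ ≠ 0 by simpa using hx) (e ▸ pure_mem x₁ y₁))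
  have l0 : l ≠ 0 := by rintro rfl; exact hy (by simpa using hl.symm)
  refine ⟨l • (A : V₁ →ₗ[F] V₁), l⁻¹ • (B : V₂ →ₗ[F] V₂), pure_inj h hy ?_,
    by simp [← hl, smul_smul, l0], fun x y => by simp [H, smul_smul, l0]⟩
  simpa [← hl] using e

theorem mul_finrank_le (h : IsTensorProduct τ) [FiniteDimensional F V] (R : Submodule F V₁)
    {U : Submodule F V} (H : ∀ x ∈ R, ∀ y, τ x y ∈ U) :
    finrank F R * finrank F V₂ ≤ finrank F U := by
  let φ := (h.equiv : _ →ₗ[F] V) ∘ₗ LinearMap.rTensor V₂ R.subtype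
  have h1 : Function.Injective φ := h.equiv.injective.comp
    (Module.Flat.rTensor_preserves_injective_linearMap _ R.injective_subtype)
  rw [← Module.finrank_tensorProduct, ← LinearMap.finrank_range_of_inj h1]
  refine Submodule.finrank_mono ?_
  rintro _ ⟨t, rfl⟩
  induction t using TensorProduct.induction_on with
  | zero => simp
  | tmul x y => simpa [φ] using H x x.2 y
  | add a b ha hb => rw [map_add]; exact U.add_mem ha hb

theorem finrank_map_pure (h : IsTensorProduct τ) {c : V₂} (hc : c ≠ 0) (S : Submodule F V₁) :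
    finrank F (S.map (τ.flip c)) = finrank F S :=
  (Submodule.equivMapOfInjective _ (pure_inj h hc) S).finrank_eq.symm

variable {h : IsTensorProduct τ} {f₂ : Form (FormType.alt F) V₂} {c : V₂} {g : V ≃ₗ[F] V}

variable (h f₂ c g) in
/-- The conjugate of `pc`. -/
noncomputable def qc : V →ₗ[F] V := (g : V →ₗ[F] V) ∘ₗ pc h f₂ c ∘ₗ (g⁻¹ : V ≃ₗ[F] V)

theorem qc_apply (v : V) : qc h f₂ c g v = g (pc h f₂ c (g⁻¹ v)) := rfl

theorem zc_apply (μ : F) (v : V) : (g * ec h f₂ c 0 μ * g⁻¹) v = v + μ • qc h f₂ c g v := by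
  simp [ec_zero_apply, app_inv, qc_apply]

theorem inv_qc_mem (v : V) : g⁻¹ (qc h f₂ c g v) ∈ mem τ c := by
  rw [qc_apply, inv_app]; exact pc_mem _ _

theorem qc_of_mem {v : V} (hv : g⁻¹ v ∈ mem τ c) : qc h f₂ c g v = 0 := by
  rw [qc_apply, pc_of_mem hv, map_zero]

theorem qc_qc (v : V) : qc h f₂ c g (qc h f₂ c g v) = 0 := qc_of_mem (inv_qc_mem v)

theorem pc_surj {c' : V₂} (h1 : f₂.B c c' = 1) {w : V} (hw : w ∈ mem τ c) :
    ∃ v, pc h f₂ c v = w := by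
  obtain ⟨x, rfl⟩ := mem_mem.1 hw
  exact ⟨τ x c', by simp [pc_apply, h1]⟩

theorem qc_surj {c' : V₂} (h1 : f₂.B c c' = 1) {w : V} (hw : g⁻¹ w ∈ mem τ c) :
    ∃ v, qc h f₂ c g v = w := by
  obtain ⟨v, hv⟩ := pc_surj (h := h) h1 hw
  exact ⟨g v, by rw [qc_apply, inv_app, hv, app_inv]⟩

variable (τ c g) in
/-- `g` maps the member of `c` to a member. -/
def Mb : Prop := ∃ d, d ≠ 0 ∧ ∀ w ∈ mem τ c, g w ∈ mem τ d

theorem Mb.kp_eq (h : IsTensorProduct τ) (H : Mb τ c g) (hb : kp (mem τ c) g ≠ ⊥) :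
    kp (mem τ c) g = mem τ c := by
  obtain ⟨d, hd, H⟩ := H
  obtain ⟨w, hw, w0⟩ := Submodule.exists_mem_ne_zero_of_ne_bot hb
  obtain ⟨x, hx⟩ := mem_mem.1 (H w hw.1)
  have hx0 : x ≠ 0 := by rintro rfl; exact w0 (g.injective (by simpa using hx.symm))
  obtain ⟨t, rfl⟩ := Submodule.mem_span_singleton.1
    (mem_span_of_pure_mem h hx0 (hx ▸ (mem_kp.1 hw).2 : τ x d ∈ mem τ c))
  rw [mem_smul (by rintro rfl; simp at hd)] at H
  exact le_antisymm (kp_le _ _) fun w hw => ⟨hw, H w hw⟩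

variable [FiniteDimensional F V₁] [FiniteDimensional F V₂]

theorem mb_of_right [Nontrivial V₁] (hc : c ≠ 0) {c' : V₂} (h1 : f₂.B c c' = 1) {N : V₂ →ₗ[F] V₂}
    (H : ∀ x y, qc h f₂ c g (τ x y) = τ x (N y)) : Mb τ c g := by
  have := finiteDimensional h
  obtain ⟨y, hy⟩ : ∃ y, N y ≠ 0 := by
    by_contra! H0
    obtain ⟨x, hx⟩ := exists_ne (0 : V₁)
    obtain ⟨v, hv⟩ := qc_surj (h := h) (g := g) h1 (w := g (τ x c)) (by
      rw [inv_app]; exact pure_mem _ _)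
    rw [show qc h f₂ c g = 0 from ext_of h fun x y => by simp [H, H0]] at hv
    exact pure_ne_zero h hx hc (by simpa using hv.symm)
  have := Submodule.eq_of_le_of_finrank_le (S₁ := mem τ (N y))
    (S₂ := (mem τ c).map (g : V →ₗ[F] V)) (fun w hw => by
      obtain ⟨x, rfl⟩ := mem_mem.1 hw
      exact ⟨_, H x y ▸ inv_qc_mem _, app_inv _ _⟩)
    (by rw [LinearEquiv.finrank_map_eq, finrank_mem h hc, finrank_mem h hy])
  exact ⟨N y, hy, fun w hw => this ▸ ⟨w, hw, rfl⟩⟩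

theorem mb_or_left [Nontrivial V₁] (h2 : (2 : F) ≠ 0) (hc : c ≠ 0) {c' : V₂} (h1 : f₂.B c c' = 1)
    (hz : g * ec h f₂ c 0 1 * g⁻¹ ∈ Kron τ) {x₁ : V₁} {y₁ : V₂} (hx : x₁ ≠ 0) (hy : y₁ ≠ 0)
    (e : qc h f₂ c g (τ x₁ y₁) = 0) :
    Mb τ c g ∨ ∃ M : V₁ →ₗ[F] V₁, ∀ x y, qc h f₂ c g (τ x y) = τ (M x) y := by
  obtain ⟨A, B, hA, hB, H⟩ := kron_norm h hz hx hy (by simp only [zc_apply, e]; simp)
  obtain ⟨M, rfl⟩ : ∃ M, A = M + LinearMap.id := ⟨A - LinearMap.id, by simp⟩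
  obtain ⟨N, rfl⟩ : ∃ N, B = N + LinearMap.id := ⟨B - LinearMap.id, by simp⟩
  simp at hA hB
  have e1 : ∀ x y, qc h f₂ c g (τ x y) = τ (M x) (N y) + τ (M x) y + τ x (N y) := fun x y => by
    have := H x y
    simp only [zc_apply, LinearMap.add_apply, LinearMap.id_apply, map_add] at this
    linear_combination (norm := module) this
  have hM : ∀ x, M (M x) = 0 := fun x => pure_inj h hy (by
    simpa [e1, hB] using qc_qc (h := h) (f₂ := f₂) (c := c) (g := g) (τ x y₁))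
  have hN : ∀ y, N (N y) = 0 := fun y => pure_inj (flip h) hx (by
    simpa [e1, hA] using qc_qc (h := h) (f₂ := f₂) (c := c) (g := g) (τ x₁ y))
  by_cases h0 : ∀ y, N y = 0
  · exact Or.inr ⟨M, fun x y => by simp [e1, h0]⟩
  push Not at h0
  obtain ⟨y, hy'⟩ := h0
  refine Or.inl (mb_of_right (h := h) hc h1 (N := N) fun x y' => ?_)
  have : M x = 0 := pure_inj h hy' (by
    have := qc_qc (h := h) (f₂ := f₂) (c := c) (g := g) (τ x y)
    simp [e1, hM, hN, ← two_smul F, h2] at this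
    simpa using this)
  simp [e1, this]

variable {f : Form (FormType.alt F) V} {f₁ : Form (FormType.quad F) V₁}

variable (h f f₁ f₂ X) in
/-- An overgroup with scalar central level. -/
structure SO : Prop extends TF h f f₁ f₂ where
  two : (2 : F) ≠ 0
  three : 3 ≤ finrank F V₁
  le : X ≤ f.O
  L : ∀ A ∈ f₁.O, kr h A 1 ∈ X
  R : ∀ e ∈ f₂.O, kr h 1 e ∈ X
  A : ∀ c, c ≠ 0 → ∀ β : V₁ →ₗ[F] V₁, (Has X fun v => τ (β (eta h f₂ c v)) c) →
    ∃ s : F, ∀ x, β x = s • x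
  P : ∀ c, c ≠ 0 → ∀ z ∈ X, (∀ w ∈ mem τ c, z w ∈ mem τ c) → z ∈ Kron τ

namespace SO

variable (S : SO X h f₂ f f₁)
include S

omit [FiniteDimensional F V₁] [FiniteDimensional F V₂] in
theorem nt : Nontrivial V₁ :=
  Module.nontrivial_of_finrank_pos (R := F) (by have := S.three; omega)

omit [FiniteDimensional F V₁] [FiniteDimensional F V₂] in
theorem tv_mem (c : V₂) (μ : F) : ec h f₂ c 0 μ ∈ X := S.R _ (ei_mem_O _ _ _)

omit [FiniteDimensional F V₁] [FiniteDimensional F V₂] in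
theorem zc_mem (hg : g ∈ X) (c : V₂) (μ : F) : g * ec h f₂ c 0 μ * g⁻¹ ∈ X :=
  X.mul_mem (X.mul_mem hg (S.tv_mem c μ)) (X.inv_mem hg)

omit [FiniteDimensional F V₁] [FiniteDimensional F V₂] in
theorem B_qc (hg : g ∈ X) (v w : V) : f.B (qc h f₂ c g v) w = f.B (qc h f₂ c g w) v := by
  simp only [qc_apply, B_apply_left (S.le hg), pc_apply, S.B_pure]
  exact f₁.quad_symm _ _

omit [FiniteDimensional F V₁] in
theorem kron_of_mb (hc : c ≠ 0) (hg : g ∈ X) (H : Mb τ c g) : g ∈ Kron τ := by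
  obtain ⟨d, hd, H⟩ := H
  obtain ⟨e, he, rfl⟩ := S.nd₂.witt_vector hc hd (by simp [alt_q])
  have := S.P c hc _ (X.mul_mem (X.inv_mem (S.R e he)) hg) fun w hw => by
    obtain ⟨x, hx⟩ := mem_mem.1 (H w hw)
    rw [mul_app, ← hx, kr_inv_apply, inv_app]; exact pure_mem _ _
  simpa using (Kron τ).mul_mem (kr_mem h 1 e) this

theorem lt_of_left (hc : c ≠ 0) (hg : g ∈ X) (hex : ¬ (finrank F V₁ = 4 ∧ finrank F V₂ = 2))
    {M : V₁ →ₗ[F] V₁} (H : ∀ x y, qc h f₂ c g (τ x y) = τ (M x) y) :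
    finrank F (kp (mem τ c) g⁻¹) + finrank F V₂ < finrank F V₁ := by
  have := finiteDimensional h
  have := S.nt
  obtain ⟨c', h1⟩ := S.exists_partner hc
  have e1 : finrank F (LinearMap.range M) * finrank F V₂ ≤ finrank F V₁ := by
    rw [← finrank_mem h hc, ← LinearEquiv.finrank_map_eq g]
    refine mul_finrank_le h _ ?_
    rintro _ ⟨x, rfl⟩ y
    exact ⟨_, H x y ▸ inv_qc_mem _, app_inv _ _⟩
  have e2 : finrank F (kp (mem τ c) g⁻¹) ≤ finrank F (LinearMap.range M) := by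
    rw [← finrank_map_pure h hc]
    refine Submodule.finrank_mono fun w hw => ?_
    obtain ⟨x, rfl⟩ := mem_mem.1 hw.1
    obtain ⟨v, hv⟩ := qc_surj (h := h) h1 (mem_kp.1 hw).2
    have : eta h f₂ c' ∘ₗ qc h f₂ c g = M ∘ₗ eta h f₂ c' := ext_of h fun x y => by simp [H]
    have := LinearMap.congr_fun this v
    simp [hv, f₂.alt_symm c c', h1] at this
    exact ⟨x, ⟨-eta h f₂ c' v, by simp [← this]⟩, rfl⟩
  have sk : ∀ x x', f₁.B (M x) x' = -f₁.B (M x') x := fun x x' => by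
    have := S.B_qc (c := c) hg (τ x c) (τ x' c')
    simpa [H, S.mul, f₂.alt_symm c c', h1] using this
  obtain ⟨x, hx⟩ : ∃ x, M x ≠ 0 := by
    by_contra! H0
    obtain ⟨x, hx⟩ := exists_ne (0 : V₁)
    obtain ⟨v, hv⟩ := qc_surj (h := h) (g := g) h1 (w := g (τ x c)) (by
      rw [inv_app]; exact pure_mem _ _)
    rw [show qc h f₂ c g = 0 from ext_of h fun x y => by simp [H, H0]] at hv
    exact pure_ne_zero h hx hc (by simpa using hv.symm)
  obtain ⟨x', hx'⟩ := S.nd₁.exists_B_eq hx 1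
  have e3 : 2 ≤ finrank F (LinearMap.range M) := by
    rw [← finrank_span_pair_of (F := F) hx (x := M x') fun e => ?_]
    · exact Submodule.finrank_mono (Submodule.span_le.2 (by
        rintro _ (rfl | rfl) <;> exact ⟨_, rfl⟩))
    · obtain ⟨l, hl⟩ := Submodule.mem_span_singleton.1 e
      have p1 := sk x' x'
      have p2 := sk x x'
      rw [← hl] at p1 p2
      simp only [map_smulₛₗ, LinearMap.smul_apply, hx', smul_eq_mul, FormType.quad_σ] at p1 p2
      rw [show l = 0 from mul_left_cancel₀ S.two (by linear_combination p1)] at p2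
      simp at p2
  have hd : 2 ≤ finrank F V₂ := by
    rw [← finrank_span_pair_of (F := F) hc (x := c') fun e => ?_]
    · exact Submodule.finrank_le _
    · obtain ⟨l, rfl⟩ := Submodule.mem_span_singleton.1 e
      simp at h1
  by_contra! H0
  obtain ⟨a, ha⟩ := Nat.exists_eq_add_of_le e3
  obtain ⟨b, hb⟩ := Nat.exists_eq_add_of_le hd
  rw [ha, hb] at e1
  exact hex ⟨by nlinarith, by nlinarith⟩

omit [FiniteDimensional F V₁] [FiniteDimensional F V₂] S in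
theorem rf_apply' (v : V₁) (u : V) :
    kr h (f₁.rf v) 1 u = u - (f₁.q v)⁻¹ • τ v (cl h (f₁.B v) u) := by
  refine h.inductionOn u (by simp) (fun x d => ?_) fun a b ha hb => ?_
  · simp [rf_apply, mul_smul]
  · simp only [map_add, ha, hb, smul_add]; abel

/-- Reflections of the orthogonal factor: large intersections force members. -/
theorem mb_of_big (hc : c ≠ 0) (H : ∀ k ∈ X, finrank F V₁ ≤ finrank F (kp (mem τ c) k) +
    finrank F V₂ → kp (mem τ c) k = mem τ c) (hg : g ∈ X) : Mb τ c g := by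
  have := finiteDimensional h
  have := S.nt
  have : Nontrivial V₂ := ⟨⟨c, 0, hc⟩⟩
  obtain ⟨c', h1⟩ := S.exists_partner hc
  have k1 : ∀ g ∈ X, ∀ v x, g⁻¹ (kr h (f₁.rf v) 1 (g (τ x c))) ∈ mem τ c := fun g hg v x => by
    refine mem_of_kp_eq (H (g⁻¹ * kr h (f₁.rf v) 1 * g)
      (X.mul_mem (X.mul_mem (X.inv_mem hg) (S.L _ (rf_mem_O v))) hg) ?_) (pure_mem x c)
    let φ : V₁ →ₗ[F] V₂ := cl h (f₁.B v) ∘ₗ (g : V →ₗ[F] V) ∘ₗ τ.flip c
    have e1 := φ.finrank_range_add_finrank_ker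
    have e2 := (LinearMap.range φ).finrank_le
    have e3 : finrank F ((LinearMap.ker φ).map (τ.flip c)) ≤
        finrank F (kp (mem τ c) (g⁻¹ * kr h (f₁.rf v) 1 * g)) := Submodule.finrank_mono (by
      rintro _ ⟨x, hx, rfl⟩
      have hx' : cl h (f₁.B v) (g (τ x c)) = 0 := hx
      exact mem_kp.2 ⟨pure_mem _ _, by simpa [rf_apply', hx', inv_app] using pure_mem x c⟩)
    rw [finrank_map_pure h hc] at e3
    omega
  have k2 : ∀ v u, kr h (f₁.rf v) 1 (qc h f₂ c g u) = qc h f₂ c g (kr h (f₁.rf v) 1 u) := by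
    intro v u
    obtain ⟨A, hA⟩ := right_of_scalar (flip h)
      (Z := ((g⁻¹ * kr h (f₁.rf v) 1 * g : V ≃ₗ[F] V) : V →ₗ[F] V)) fun x α =>
      exists_smul_of_mem_span
        (f := cl h α ∘ₗ ((g⁻¹ * kr h (f₁.rf v) 1 * g : V ≃ₗ[F] V) : V →ₗ[F] V) ∘ₗ τ x) fun d => by
        rcases eq_or_ne d 0 with rfl | hd
        · simp
        obtain ⟨e, he, rfl⟩ := S.nd₂.witt_vector hc hd (by simp [alt_q])
        obtain ⟨a, ha⟩ := mem_mem.1 (k1 _ (X.mul_mem hg (S.R e he)) v x)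
        rw [mul_inv_rev, mul_app, mul_app, kr_apply, eq_comm] at ha
        have := congrArg (kr h 1 e) ha
        rw [app_inv, kr_apply] at this
        simp only [LinearEquiv.coe_one, id] at this
        simp [this, Submodule.smul_mem _ _ (Submodule.mem_span_singleton_self _)]
    simp only [LinearMap.flip_apply, LinearEquiv.coe_coe, mul_app] at hA
    have e : ∀ w, g⁻¹ (kr h (f₁.rf v) 1 (g (pc h f₂ c w))) =
        pc h f₂ c (g⁻¹ (kr h (f₁.rf v) 1 (g w))) := fun w => by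
      refine h.inductionOn w (by simp) (fun x d => ?_) fun a b ha hb => ?_
      · simp only [pc_apply, hA, eta_pure, map_smul, LinearMap.smul_apply]
      · simp only [map_add, ha, hb]
    have := congrArg g (e (g⁻¹ u))
    simpa [qc_apply, app_inv] using this
  obtain ⟨N, hN⟩ := right_of_scalar h (Z := qc h f₂ c g) fun y ψ =>
    scalar_of_eig S.two S.nd₁ S.three (β := ct h ψ ∘ₗ qc h f₂ c g ∘ₗ τ.flip y) fun v hv => by
      have e := k2 v (τ v y)
      rw [kr_apply, rf_self hv, rf_apply'] at e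
      have e2 := congrArg (ct h ψ) e
      simp only [map_sub, map_smul, ct_apply, map_neg, LinearMap.neg_apply, LinearEquiv.coe_one,
        id] at e2
      refine (Submodule.smul_mem_iff _ S.two).1 (Submodule.mem_span_singleton.2
        ⟨(f₁.q v)⁻¹ * ψ (cl h (f₁.B v) (qc h f₂ c g (τ v y))), ?_⟩)
      simp only [LinearMap.comp_apply, LinearMap.flip_apply]
      linear_combination (norm := module) -e2
  exact mb_of_right hc h1 hN

/-- In an optimal configuration the intersection is large. -/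
theorem le_of_opt (hc : c ≠ 0) (O : Opt X (mem τ c) g) (hb : kp (mem τ c) g ≠ ⊥) :
    finrank F V₁ ≤ finrank F (kp (mem τ c) g) + finrank F V₂ := by
  by_contra! H
  refine O.ne ((S.mb_of_big hc (fun k hk e => by_contra fun hne => ?_) O.mem).kp_eq h hb)
  have := O.max k hk hne
  omega

theorem inv_mem_of_qc (hc : c ≠ 0) (hex : ¬ (finrank F V₁ = 4 ∧ finrank F V₂ = 2))
    (O : Opt X (mem τ c) g) (hb : kp (mem τ c) g ≠ ⊥) {w : V} (hw : w ∈ mem τ c)
    (h1 : qc h f₂ c g w ∈ mem τ c) : g⁻¹ w ∈ mem τ c := by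
  have := finiteDimensional h
  have := S.nt
  obtain ⟨c', h2⟩ := S.exists_partner hc
  by_contra h3
  have h4 := S.P c hc _ (S.zc_mem O.mem c 1) (Opt.eq_of_lt O.inv (S.zc_mem O.mem c 1)
    (fun w hw e => by rw [zc_apply, qc_of_mem e]; simpa using hw) hw
    (by rw [zc_apply, one_smul]; exact Submodule.add_mem _ hw h1) h3)
  obtain ⟨n, hn, n0⟩ := Submodule.exists_mem_ne_zero_of_ne_bot hb
  obtain ⟨x, hx⟩ := mem_mem.1 (mem_kp.1 hn).2
  rcases mb_or_left S.two hc h2 h4 (x₁ := x) (by rintro rfl; exact n0 (by simpa using hx.symm)) hc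
    (qc_of_mem (by rw [hx, inv_app]; exact hn.1)) with H | ⟨M, H⟩
  · exact O.ne (H.kp_eq h hb)
  · have := S.lt_of_left hc O.mem hex H
    have := S.le_of_opt hc O hb
    rw [finrank_kp_inv] at *
    omega

omit [FiniteDimensional F V₁] [FiniteDimensional F V₂] in
theorem B_pure' (x : V₁) (y : V₂) (v : V) : f.B (τ x y) v = f₂.B y (cl h (f₁.B x) v) := by
  rw [S.B_pure, eta_eq, ct_comm]

omit [FiniteDimensional F V₂] in
/-- Elements fixing `s ⊗ V₂` pointwise for a singular vector `s`. -/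
theorem B_eq_zero_of_fix (hc : c ≠ 0) {G : V ≃ₗ[F] V} (hG : G ∈ X) {s x x' : V₁} (s0 : s ≠ 0)
    (hs : f₁.q s = 0) (hx : f₁.B s x = 0) (hx' : f₁.B s x' = 0)
    (H : ∀ y, G (τ s y) = τ s y) : f.B (τ x' c) (G (τ x c)) = 0 := by
  let η := cl h (f₁.B s)
  have ss : f₁.B s s = 0 := f₁.B_self_eq_zero hs
  have e0 : ∀ x, f₁.B s x = 0 → ∀ v, kr h (f₁.ei s x (f₁.q x)) 1 v =
      v + τ x (η v) - τ s (cl h (f₁.B x) v + f₁.q x • η v) := fun x hx v => by
    refine h.inductionOn v (by simp) (fun a d => ?_) fun a b ha hb => ?_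
    · simp [quad_ei hs hx, η, add_smul, mul_smul]
    · simp only [map_add, ha, hb, smul_add]; abel
  have H' : ∀ y, G⁻¹ (τ s y) = τ s y := fun y => inv_app_eq (H y)
  have e1 : ∀ v, η (G v) = η v := fun v => S.nd₂.ext_right fun y => by
    rw [← S.B_pure', ← S.B_pure', ← H, mem_O_B (S.le hG), H]
  have e2 : ∀ v, η (G⁻¹ v) = η v := fun v => by rw [← e1, app_inv]
  let β : V₂ →ₗ[F] V₂ := cl h (f₁.B x') ∘ₗ (G : V →ₗ[F] V) ∘ₗ τ x -
    cl h (f₁.B x) ∘ₗ ((G⁻¹ : V ≃ₗ[F] V) : V →ₗ[F] V) ∘ₗ τ x'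
  have hk := X.mul_mem (X.mul_mem hG (S.L _ (ei_mem_O s x (f₁.q x)))) (X.inv_mem hG)
  have hk' := S.L _ (ei_mem_O s x' (f₁.q x'))
  have ek : ∀ v, (G * kr h (f₁.ei s x (f₁.q x)) 1 * G⁻¹) v =
      v + G (τ x (η v)) - τ s (cl h (f₁.B x) (G⁻¹ v) + f₁.q x • η v) := fun v => by
    rw [mul_app, mul_app, e0 x hx, map_sub, map_add, app_inv, H, e2]
  have b1 : Has X fun v => τ s (β (η v)) := by
    refine ⟨_, X.mul_mem (X.mul_mem hk hk') (X.inv_mem (X.mul_mem hk' hk)), fun v => ?_⟩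
    obtain ⟨w, rfl⟩ := (kr h (f₁.ei s x' (f₁.q x')) 1 *
      (G * kr h (f₁.ei s x (f₁.q x)) 1 * G⁻¹)).surjective v
    rw [mul_app, inv_app, mul_app, mul_app (kr h _ 1), ek, ek, e0 x' hx', e0 x' hx']
    have p1 : ∀ y, η (τ s y) = 0 := fun y => by simp [η, ss]
    have p2 : ∀ y, η (τ x y) = 0 := fun y => by simp [η, hx]
    have p3 : ∀ y, η (τ x' y) = 0 := fun y => by simp [η, hx']
    simp [p1, p2, p3, e1, H', β, f₁.B_eq_zero_symm hx, f₁.B_eq_zero_symm hx']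
    module
  have b2 : ∀ μ : F, Has X fun v => τ s (f₂.ei c 0 μ (β (f₂.ei c 0 (-μ) (η v)))) := fun μ =>
    (b1.conj (S.tv_mem c μ)).congr fun v => by
      have : η ((ec h f₂ c 0 μ)⁻¹ v) = f₂.ei c 0 (-μ) (η v) := by
        simp [ec_zero_inv, pc_apply, alt_tv_apply, η, eta_eq, ct_comm, mul_smul, sub_eq_add_neg]
      rw [this, ec, kr_apply]; rfl
  have p1 : ∀ y, η (τ s y) = 0 := fun y => by simp [η, ss]
  have b3 := (((b2 1).add (b2 (-1)) fun v => by simp [p1]).sub b1 (fun v w => by simp [p1])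
    fun v w => by simp [p1]).sub b1 (fun v w => by simp [p1]) fun v w => by simp [p1]
  obtain ⟨l, hl⟩ := S.A c hc ((-2 * f₂.B c (β c)) • (f₁.B s).smulRight s) (b3.congr fun v => by
    simp [alt_tv_apply, η, eta_eq, ct_comm]; module)
  obtain ⟨s', hs'⟩ := S.nd₁.exists_B_eq s0 1
  have q1 : l = 0 := by simpa [ss, s0] using (hl s).symm
  have q2 : f₂.B c (β c) = 0 := by simpa [q1, hs', s0, S.two] using hl s'
  simp only [β, LinearMap.sub_apply, LinearMap.comp_apply, map_sub, ← S.B_pure',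
    LinearEquiv.coe_coe, ← B_apply_left (S.le hG), f.alt_symm (τ x' c)] at q2
  exact mul_left_cancel₀ S.two (by linear_combination q2)

end SO

end CL.Tens
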