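/-
Maximality of `Sp ⊗ O` in `Sp` (factors of different dimensions).
-/
import Mathlib
import Cfsg.Agent.CLAS.TFormO
import Cfsg.Agent.CLAS.TFormC
import Cfsg.Agent.CLAS.ExtO3

namespace CL.Tens

open Module CL.ExtF CL.Witt CL.Witt.Form CL.Root

attribute [-simp] LinearEquiv.coe_inv
attribute [local simp] FormType.alt_σ FormType.alt_ε alt_B_self FormType.quad_σ FormType.quad_ε
  FormType.alt_π FormType.quad_π

variable {F : Type*} [Field F] {V₁ V₂ V : Type*} [AddCommGroup V₁] [Module F V₁] [AddCommGroup V₂]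
  [Module F V₂] [AddCommGroup V] [Module F V] {X : Subgroup (V ≃ₗ[F] V)}
  {τ : V₁ →ₗ[F] V₂ →ₗ[F] V} {h : IsTensorProduct τ} {f₂ : Form (FormType.alt F) V₂} {c : V₂}
  {g : V ≃ₗ[F] V} [FiniteDimensional F V₁] [FiniteDimensional F V₂]

omit [FiniteDimensional F V₁] [FiniteDimensional F V₂] in
theorem kron_flip : Kron τ.flip = Kron τ :=
  Subgroup.ext fun _ => ⟨fun ⟨A, B, H⟩ => ⟨B, A, fun x y => H y x⟩,
    fun ⟨A, B, H⟩ => ⟨B, A, fun x y => H y x⟩⟩

omit [FiniteDimensional F V₁] in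
theorem TF.exists_level' {T T₁ : FormType F} {f : Form T V} {f₁ : Form T₁ V₁} (hT : TF h f f₁ f₂)
    {z : V ≃ₗ[F] V} (hz : z ∈ f.O) (hc : c ≠ 0) (H : ∀ v, z v - v ∈ mem τ c) :
    ∃ β : V₁ →ₗ[F] V₁, ∀ v, z v = v + τ (β (eta h f₂ c v)) c :=
  hT.exists_level hz hc fun v hv => sub_eq_zero.1 (hT.nd.right _ fun w => by
    obtain ⟨w, rfl⟩ := z.surjective w
    have := hT.B_mem (H w) hv
    rw [map_sub, mem_O_B hz]
    rw [map_sub, LinearMap.sub_apply] at this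
    linear_combination -this)

theorem not_mem_kron {T : FormType F} {f : Form T V} (hf : f.Nondeg) (h1 : 2 ≤ finrank F V₁)
    (h2 : 2 ≤ finrank F V₂) (h : IsTensorProduct τ) {x : V₁} (hx : x ≠ 0) (hc : c ≠ 0)
    {t : V ≃ₗ[F] V} (e : ∀ v, t v = v + f.B (τ x c) v • τ x c) : t ∉ Kron τ := fun ht => by
  have := finiteDimensional h
  have p0 := pure_ne_zero h hx hc
  obtain ⟨N, hN⟩ := exists_right_of_small h ht (U := F ∙ τ x c)
    (fun v => by simp [e, Submodule.smul_mem _ _ (Submodule.mem_span_singleton_self _)])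
    (by rw [finrank_span_singleton p0]; omega)
  obtain ⟨x', hx'⟩ := exists_notMem_span (K := F) h1 x
  obtain ⟨α, a1, a2⟩ := CL.Tv.exists_dual_one_zero hx'
  have : ∀ y, N y = 0 := fun y => by simpa [e, a1, a2] using congrArg (cl h α) (hN x' y).symm
  refine p0 (hf _ fun v => ?_)
  have : f.B (τ x c) = 0 := ext_of h fun a b => by simpa [e, this, p0] using hN a b
  simp [this]

variable {f : Form (FormType.alt F) V} {f₁ : Form (FormType.quad F) V₁}

namespace SO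

variable (S : SO X h f₂ f f₁)
include S

omit [FiniteDimensional F V₁] in
theorem pf (hc : c ≠ 0) (hg : g ∈ X)
    (i1 : ∀ w ∈ mem τ c, qc h f₂ c g w ∈ mem τ c → g⁻¹ w ∈ mem τ c)
    (i2 : ∀ w ∈ mem τ c, qc h f₂ c g⁻¹ w ∈ mem τ c → g w ∈ mem τ c)
    (mx : ∀ k ∈ X, (∀ w ∈ mem τ c, g⁻¹ w ∈ mem τ c → k w ∈ mem τ c) → ∀ w ∈ mem τ c,
      k w ∈ mem τ c → g⁻¹ w ∉ mem τ c → ∀ w ∈ mem τ c, k w ∈ mem τ c)
    (ne : kp (mem τ c) g⁻¹ ≠ mem τ c) :
    PF X (mem τ c) ((mem τ c).comap ((g⁻¹ : V ≃ₗ[F] V) : V →ₗ[F] V)) (pc h f₂ c) (qc h f₂ c g) := by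
  obtain ⟨c', h1⟩ := S.exists_partner hc
  refine ⟨pc_mem c, inv_qc_mem, fun w => pc_of_mem, fun w => qc_of_mem, fun w => pc_surj h1,
    fun w => qc_surj h1, i1, fun u hu e => ?_,
    fun k hk e w hw hw' e' => mx k hk (fun w h1 h2 => by rwa [e w h1 h2]) w hw e' hw',
    fun k hk e w hw hw' e' => mx (g⁻¹ * k) (X.mul_mem (X.inv_mem hg) hk)
      (fun w h1 h2 => by rwa [mul_app, e w h1 h2]) w hw e' hw',
    fun k hk e => ?_, fun ξ => ⟨_, S.tv_mem c ξ, ec_zero_apply c ξ⟩,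
    fun ξ => ⟨_, S.zc_mem hg c ξ, zc_apply ξ⟩, exists_moved ne⟩
  · have := i2 _ hu (by rwa [qc_apply, inv_inv, LinearEquiv.coe_coe, app_inv])
    rwa [LinearEquiv.coe_coe, app_inv] at this
  · obtain ⟨β, hβ⟩ := S.exists_level' (S.le hk) hc e
    obtain ⟨s, hs⟩ := S.A c hc β ⟨k, hk, hβ⟩
    exact ⟨s, fun v => by simp [hβ, hs, pc_apply]⟩

variable [Finite F]

/-- A conjugate of a member meets it trivially or equals it. -/
theorem dich (hc : c ≠ 0) (hex : finrank F V₁ ≠ 3 ∨ 4 ≤ Nat.card F)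
    (hex' : ¬ (finrank F V₁ = 4 ∧ finrank F V₂ = 2)) {k : V ≃ₗ[F] V} (hk : k ∈ X)
    (k1 : kp (mem τ c) k ≠ ⊥) : kp (mem τ c) k = mem τ c := by
  have := finiteDimensional h
  by_contra k2
  obtain ⟨g, O⟩ := exists_opt ⟨k, hk, k2⟩
  have hb := O.ne_bot hk k2 k1
  have hb' := O.inv.ne_bot hk k2 k1
  have H := S.pf hc O.mem (fun w => S.inv_mem_of_qc hc hex' O hb)
    (fun w hw e => by simpa using S.inv_mem_of_qc hc hex' O.inv hb' hw e)
    (fun k hk e w hw h1 h2 => Opt.eq_of_lt O.inv hk e hw h1 h2) O.inv.ne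
  set P := pc h f₂ c
  set Q := qc h f₂ c g
  set U := (mem τ c).comap ((g⁻¹ : V ≃ₗ[F] V) : V →ₗ[F] V)
  obtain ⟨n, hn, n0⟩ := Submodule.exists_mem_ne_zero_of_ne_bot hb'
  obtain ⟨h3, μ, m0, e1, e2⟩ := H.three S.two hn.1 hn.2 n0
  have mm := h3 μ m0
  have three : (3 : F) = 0 := by linear_combination h3 2 S.two
  obtain ⟨G, hG, eG⟩ := H.exists_G μ 1
  have QQ : ∀ v, Q (Q v) = 0 := fun v => H.Q0 _ (H.QU v)
  have g1 : ∀ m, P m ∈ U → Q m ∈ mem τ c → G m = m := fun m p1 p2 => by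
    simp only [eG, one_smul, map_add, H.P0 _ p2]
    linear_combination (norm := module) e2 m p1 p2
  have g2 : ∀ w ∈ LinearMap.range (P * Q), G w = Q w + (2 : F) • w ∧ G (Q w) = Q w + w :=
    fun w hw => by
    simp only [eG, one_smul, H.P0 _ (H.le_W hw), map_add, e1 w hw, QQ, zero_add, add_zero,
      smul_smul, mm]
    exact ⟨by module, trivial⟩
  have g3 : ∀ w ∈ LinearMap.range (P * Q), G (G w) = -w ∧ G (G (Q w)) = -Q w := fun w hw => by
    simp only [(g2 w hw).1, (g2 w hw).2, map_add, map_smul]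
    constructor
    · linear_combination (norm := module) three • (Q w + (2 : F) • w)
    · linear_combination (norm := module) three • (Q w + w)
  have dec : ∀ v, ∃ w₁ ∈ LinearMap.range (P * Q), ∃ w₂ ∈ LinearMap.range (P * Q),
      G (v - w₁ - Q w₂) = v - w₁ - Q w₂ ∧ G (G v) = v - (2 : F) • (w₁ + Q w₂) := fun v => by
    obtain ⟨w₁, a1, w₂, a2, a3, a4⟩ := H.dec v
    have a5 := g1 _ a3 a4
    refine ⟨w₁, a1, w₂, a2, a5, ?_⟩
    have : v = (v - w₁ - Q w₂) + w₁ + Q w₂ := by abel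
    conv_lhs => rw [this]
    rw [map_add, map_add, map_add, map_add, a5, a5, (g3 _ a1).1, (g3 _ a2).2]
    module
  have fix : ∀ v, G (G v) = v → G v = v := fun v hv => by
    obtain ⟨w₁, -, w₂, -, a3, a4⟩ := dec v
    rw [hv, eq_comm, sub_eq_self, smul_eq_zero] at a4
    rwa [sub_sub, a4.resolve_left S.two, sub_zero] at a3
  have neg : ∀ v, G (G v) = -v → P v ∈ U → v ∈ mem τ c := fun v hv hu => by
    obtain ⟨w₁, a1, w₂, a2, -, a4⟩ := dec v
    have : v = w₁ + Q w₂ := smul_right_injective V S.two (by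
      linear_combination (norm := module) hv - a4)
    rw [this, map_add, H.P0 _ (H.le_W a1), zero_add] at hu
    rw [this, H.inj a2 (H.disj ⟨w₂, rfl⟩ hu), map_zero, add_zero]
    exact H.le_W a1
  have fN : ∀ w ∈ mem τ c, w ∈ U → G w = w := fun w a1 a2 =>
    g1 w (by simp [H.P0 w a1]) (by simp [H.Q0 w a2])
  have hK := S.P c hc _ (X.mul_mem hG hG) fun w hw => by
    obtain ⟨w₁, a1, a2, a3⟩ := H.decW hw
    rw [← sub_add_cancel w w₁, map_add, mul_app, mul_app, fN _ a2 a3, fN _ a2 a3, (g3 _ a1).1]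
    exact add_mem a2 (neg_mem (H.le_W a1))
  obtain ⟨x₀, rfl⟩ := mem_mem.1 hn.1
  have x0 : x₀ ≠ 0 := by rintro rfl; simp at n0
  obtain ⟨A, B, hA, hB, hAB⟩ := kron_norm h hK x0 hc (by
    rw [mul_app, fN _ hn.1 hn.2, fN _ hn.1 hn.2])
  simp only [mul_app] at hAB
  have B1 : ∀ y, B y = y := fun y => by
    have p1 : B (B y) = y := pure_inj (flip h) x0 (by
      obtain ⟨w₁, a1, w₂, a2, -, a4⟩ := dec (τ x₀ y)
      have := congrArg (fun v => G (G v)) a4
      simp only [hAB, hA, map_sub, map_smul, map_add, (g3 _ a1).1, (g3 _ a2).2] at this a4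
      simp only [LinearMap.flip_flip]
      linear_combination (norm := module) this + a4)
    obtain ⟨s, hs⟩ := Submodule.mem_span_singleton.1 (mem_span_of_pure_mem h x0
      (neg (τ x₀ (y - B y)) (by rw [hAB]; simp [hA, p1]) (by
        rw [pc_apply, eta_pure, map_smul]; exact U.smul_mem _ hn.2)))
    have p2 := congrArg B hs
    rw [map_smul, hB, map_sub, p1] at p2
    exact smul_right_injective V₂ S.two (by linear_combination (norm := module) hs - p2)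
  obtain ⟨w₀, hw₀, w0⟩ := H.exists_ne
  obtain ⟨x₁, rfl⟩ := mem_mem.1 (H.le_W hw₀)
  have x1 : x₁ ≠ 0 := by rintro rfl; simp at w0
  have A1 : A x₁ = -x₁ := pure_inj h hc (by simpa [hAB, hB] using (g3 _ hw₀).1)
  have s2 : finrank F V₂ ≤ 2 := by
    have p1 := S.nd₂.finrank_add_finrank_perp (F ∙ c)
    have p2 : finrank F (f₂.perp (F ∙ c)) ≤ finrank F (F ∙ c) := Submodule.finrank_mono fun y hy =>
      mem_span_of_pure_mem h x1 (neg _ (by simp [hAB, A1, B1]) (by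
        rw [pc_apply, eta_pure, f₂.mem_perp_span_singleton.1 hy]; simp))
    rw [finrank_span_singleton hc] at p1 p2
    omega
  have d3 : 3 ≤ finrank F ((kp (mem τ c) g⁻¹).comap (τ.flip c)) := by
    rw [← finrank_map_pure h hc, Submodule.map_comap_eq_of_le (f := τ.flip c) (kp_le (mem τ c) _),
      finrank_kp_inv]
    have p1 := S.le_of_opt hc O hb
    have p2 := S.three
    have : Fintype F := Fintype.ofFinite F
    have p3 := CL.FGL.card_le_three_of_sq h3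
    obtain ⟨c', h1⟩ := S.exists_partner hc
    have hd : 2 ≤ finrank F V₂ := by
      rw [← finrank_span_pair_of (F := F) hc (x := c') fun e => ?_]
      · exact Submodule.finrank_le _
      · obtain ⟨l, rfl⟩ := Submodule.mem_span_singleton.1 e
        simp at h1
    rw [Nat.card_eq_fintype_card] at hex
    omega
  obtain ⟨s, hs, s0, qs⟩ := quad_iso3 f₁ _ d3
  have hs' : τ s c ∈ U := hs.2
  have sx : f₁.B s x₁ = 0 := by
    obtain ⟨v, hv⟩ := hw₀
    have : eta h f₂ c (Q v) = x₁ := pure_inj h hc hv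
    rw [← this, ← S.B_pure, f.alt_symm, S.B_qc O.mem, H.Q0 _ hs']; simp
  obtain ⟨x', p1, p2⟩ := S.nd₁.exists_perp_eq' (H := F ∙ s) (x := x₁) (fun e => by
    obtain ⟨l, rfl⟩ := Submodule.mem_span_singleton.1 e
    exact w0 (H.disj hw₀ (by simpa using U.smul_mem l hs'))) 1
  have As : A s = s := pure_inj h hc (by
    simpa [fN _ (pure_mem s c) hs', hB] using (hAB s c).symm)
  have := S.B_eq_zero_of_fix hc hG s0 qs sx (p1 s (Submodule.mem_span_singleton_self s))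
    fun y => fix _ (by rw [hAB, As, B1])
  have p3 : eta h f₂ c (Q (τ x₁ c)) = μ • x₁ := pure_inj h hc (by
    rw [map_smul]; exact e1 _ hw₀)
  simp [(g2 _ hw₀).1, S.B_pure, p3, f₁.quad_symm x₁ x', p2, m0] at this

theorem mb_of_fix (hc : c ≠ 0) (hex : finrank F V₁ ≠ 3 ∨ 4 ≤ Nat.card F)
    (hex' : ¬ (finrank F V₁ = 4 ∧ finrank F V₂ = 2)) (hg : g ∈ X) {x : V₁} {y : V₂} (hx : x ≠ 0)
    (hy : y ≠ 0) (e : qc h f₂ c g (τ x y) = 0) : Mb τ c g := by
  have := finiteDimensional h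
  have := S.nt
  obtain ⟨c', h1⟩ := S.exists_partner hc
  have hz := S.zc_mem hg c 1
  have := S.dich hy hex hex' hz (kp_ne_bot (pure_mem x y) (pure_ne_zero h hx hy) (by
    rw [zc_apply, e]; simpa using pure_mem x y))
  rcases mb_or_left S.two hc h1 (S.P y hy _ hz fun w => mem_of_kp_eq this) hx hy e with H | ⟨M, H⟩
  · exact H
  by_cases hb : kp (mem τ c) g⁻¹ = ⊥
  · obtain ⟨v, hv⟩ := qc_surj (h := h) (g := g) h1 (w := g (τ x c)) (by
      rw [inv_app]; exact pure_mem _ _)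
    rw [show qc h f₂ c g = 0 from ext_of h fun x y => by
      have : τ (M x) c ∈ kp (mem τ c) g⁻¹ := ⟨pure_mem _ _, H x c ▸ inv_qc_mem _⟩
      rw [hb] at this
      simp [H, show M x = 0 from pure_inj h hc (by simpa using this)]] at hv
    exact absurd (by simpa using hv.symm) (pure_ne_zero h hx hc)
  have := kp_inv_eq (S.dich hc hex hex' (X.inv_mem hg) hb)
  exact ⟨c, hc, fun w => mem_of_kp_eq (by simpa using this)⟩

theorem le_kron (hc : c ≠ 0) (hex : finrank F V₁ ≠ 3 ∨ 4 ≤ Nat.card F)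
    (hex' : ¬ (finrank F V₁ = 4 ∧ finrank F V₂ = 2))
    (hD : finrank F V₁ = finrank F V₂ → ∀ g ∈ X, Mb τ c g) : X ≤ Kron τ := fun g hg => by
  have := S.nt
  refine S.kron_of_mb hc hg ?_
  rcases lt_trichotomy (finrank F V₁) (finrank F V₂) with H | H | H
  · obtain ⟨x, hx⟩ := exists_ne (0 : V₁)
    obtain ⟨y, hy, y0⟩ := Submodule.exists_mem_ne_zero_of_ne_bot
      (LinearMap.ker_ne_bot_of_finrank_lt
        (f := eta h f₂ c ∘ₗ ((g⁻¹ : V ≃ₗ[F] V) : V →ₗ[F] V) ∘ₗ τ x) H)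
    have hy' : eta h f₂ c (g⁻¹ (τ x y)) = 0 := hy
    exact S.mb_of_fix hc hex hex' hg hx y0 (by simp [qc_apply, pc_apply, hy'])
  · exact hD H g hg
  · exact S.mb_of_big hc (fun k hk e => S.dich hc hex hex' hk fun e' => by
      rw [e', finrank_bot] at e; omega) hg

end SO

/-- Overgroups of `O ⊗ Sp` in `Sp`. -/
theorem TF.so_main [Finite F] (hT : TF h f f₁ f₂) (h2 : (2 : F) ≠ 0) (h3 : 3 ≤ finrank F V₁)
    (hex : finrank F V₁ ≠ 3 ∨ 4 ≤ Nat.card F) (hX : X ≤ f.O) (hG : Kron τ ⊓ f.O ≤ X)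
    (hD : SO X h f₂ f f₁ → X ≤ Kron τ) : X ≤ Kron τ ∨ f.O ≤ X := by
  have : Nontrivial V₁ := Module.nontrivial_of_finrank_pos (R := F) (by omega)
  have hK : ∀ k ∈ Kron τ, (∀ v w, f.B (k v) (k w) = f.B v w) → k ∈ X := fun k hk e =>
    hG ⟨hk, (alt_isIsom_iff f f k).2 e⟩
  have hL : ∀ A ∈ f₁.O, kr h A 1 ∈ X := fun A hA => hK _ (kr_mem h _ _)
    (hT.kr_iso (mul_one 1) (by simp [mem_O_B hA]) (by simp))
  have hR : ∀ e ∈ f₂.O, kr h 1 e ∈ X := fun e he => hK _ (kr_mem h _ _)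
    (hT.kr_iso (mul_one 1) (by simp) (by simp [mem_O_B he]))
  by_cases hA : ∀ c, c ≠ 0 → ∀ β : V₁ →ₗ[F] V₁, (Has X fun v => τ (β (eta h f₂ c v)) c) →
      ∃ s : F, ∀ x, β x = s • x
  · exact Or.inl (hD ⟨hT, h2, h3, hX, hL, hR, hA, fun c hc z hz hW => hT.stab_kron hX hR hc
      (hT.so_QT h2 h3 hX hL hR hc (hA c hc)) hz hW fun k hk e _ => hK k hk e⟩)
  · push Not at hA
    obtain ⟨c, hc, β, H, hn⟩ := hA
    exact Or.inr (hT.so_of_level h2 h3 hex hX hL hR hc H (by simpa using hn))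

section Matrices

open Matrix Cfsg Cfsg.Geo CL.Tv
open scoped Kronecker

variable {ι : Type} [Fintype ι] [DecidableEq ι]

theorem bilin_eq_gram {n : ℕ} {f : (Fin n → F) → (Fin n → F) → F} (hf : IsBilinearForm f)
    (x y : Fin n → F) : f x y = ∑ a, ∑ b, x a * gramMatrix f a b * y b := by
  conv_lhs => rw [← bilin_apply hf, pi_eq_sum_univ' x, pi_eq_sum_univ' y]
  simp only [map_sum, map_smul, LinearMap.sum_apply, LinearMap.smul_apply, smul_eq_mul,
    Finset.mul_sum, bilin_apply, gramMatrix]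
  rw [Finset.sum_comm]
  exact Finset.sum_congr rfl fun a _ => Finset.sum_congr rfl fun b _ => by ring

theorem tensor_form_pure {n₁ n₂ : ℕ} {f : (ι → F) → (ι → F) → F}
    {f₁ : (Fin n₁ → F) → (Fin n₁ → F) → F} {f₂ : (Fin n₂ → F) → (Fin n₂ → F) → F}
    (h1 : IsBilinearForm f₁) (h2 : IsBilinearForm f₂) {e : ι ≃ Fin n₁ × Fin n₂} {P : GL ι F}
    (hT : IsTensorFormStructure id f f₁ f₂ e P) :
    ∃ c : F, c ≠ 0 ∧ ∀ x y x' y', f (pt e P x y) (pt e P x' y') = c * (f₁ x x' * f₂ y y') := by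
  obtain ⟨c, hc, H⟩ := hT
  refine ⟨c, hc, fun x y x' y' => ?_⟩
  rw [pt_apply, pt_apply, H, bilin_eq_gram h1, bilin_eq_gram h2, formOfGram]
  simp only [Fintype.sum_prod_type, Finset.sum_mul_sum, kroneckerMap_apply, id]
  congr 1
  refine Finset.sum_congr rfl fun a _ => Finset.sum_congr rfl fun b _ => ?_
  exact Finset.sum_congr rfl fun a' _ => Finset.sum_congr rfl fun b' _ => by ring

/-- Reduction of the maximality of `Sp ⊗ O` to groups with scalar central level. -/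
theorem sp_tensor_maximal_of [Fintype F] {m n₁ n₂ : ℕ} (hodd : Odd (Fintype.card F)) (h1 : n₁ ≠ 0)
    (hn₂ : 3 ≤ n₂) (hex : ¬ (Fintype.card F = 3 ∧ n₂ = 3)) (e : (Fin m ⊕ Fin m) ≃ Fin n₁ × Fin n₂)
    (P : GL (Fin m ⊕ Fin m) F) {f₁ : (Fin n₁ → F) → (Fin n₁ → F) → F}
    {f₂ : (Fin n₂ → F) → (Fin n₂ → F) → F} (hf₁ : IsSymplecticForm f₁) (hf₂ : IsSymmetricForm f₂)
    (hT : IsTensorFormStructure id (sympForm m F) f₁ f₂ e P)
    (hD : ∀ (g₁ : Form (FormType.quad F) (Fin n₂ → F)) (g₂ : Form (FormType.alt F) (Fin n₁ → F)) X,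
      SO X (flip (isTensorProduct_pt e P)) g₂ (CL.Sp.spForm m F) g₁ → ∀ c : Fin n₁ → F, c ≠ 0 →
      (finrank F (Fin n₂ → F) ≠ 3 ∨ 4 ≤ Nat.card F) → X ≤ Kron (pt e P).flip) :
    IsMaximalIn (spGL m F) (tensorProductSubgroup n₁ n₂ e P ⊓ spGL m F) := by
  have h2 := two_ne_zero_of_odd hodd
  obtain ⟨c, hc, H⟩ := tensor_form_pure hf₁.bilinear hf₂.bilinear hT
  let g₁ := ofSymm h2 (c • bilin hf₂.bilinear) fun x y => by simp [bilin_apply, hf₂.symm x y]
  let g₂ := Form.ofAlt (bilin hf₁.bilinear) hf₁.alternating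
  have hT' : TF (flip (isTensorProduct_pt e P)) (CL.Sp.spForm m F) g₁ g₂ :=
    ⟨fun _ => rfl, fun _ => rfl, fun x hx => by_contra fun x0 => by
      obtain ⟨y, hy⟩ := (hf₂.nondegenerate x x0).2
      exact mul_ne_zero hc hy (hx y), fun x hx => by_contra fun x0 => by
      obtain ⟨y, hy⟩ := (hf₁.nondegenerate x x0).2
      exact hy (hx y), fun x y x' y' => by
      rw [CL.Sp.spForm_B, LinearMap.flip_apply, LinearMap.flip_apply, H]
      change _ = c * f₂ x x' * f₁ y y'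
      ring⟩
  have hex' : finrank F (Fin n₂ → F) ≠ 3 ∨ 4 ≤ Nat.card F := by
    have := Fintype.one_lt_card (α := F)
    obtain ⟨k, hk⟩ := hodd
    simp only [finrank_fin_fun, Nat.card_eq_fintype_card]
    omega
  have : Nonempty (Fin n₁) := ⟨⟨0, by omega⟩⟩
  have : Nonempty (Fin n₂) := ⟨⟨0, by omega⟩⟩
  obtain ⟨d, hd⟩ := exists_ne (0 : Fin n₁ → F)
  refine isMaximalIn_of_act mem_spGL_iff_O (mem_tensor_iff e P) (fun hle => ?_)
    fun K h3 h4 ⟨g, hg, hg'⟩ => ?_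
  · obtain ⟨x, hx⟩ := exists_ne (0 : Fin n₂ → F)
    obtain ⟨d', hd'⟩ := hT'.exists_partner hd
    refine not_mem_kron hT'.nd (by simp; omega) ?_ (flip (isTensorProduct_pt e P)) hx hd
      (fun v => by rw [alt_tv_apply, one_mul]) (by rw [kron_flip]; exact hle (ei_mem_O _ 0 1))
    rw [← finrank_span_pair_of (F := F) hd (x := d') fun e => ?_]
    · exact Submodule.finrank_le _
    · obtain ⟨l, rfl⟩ := Submodule.mem_span_singleton.1 e
      simp at hd'
  · rw [← kron_flip] at h3 hg'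
    exact (hT'.so_main h2 (by simpa using hn₂) hex' h4 h3 fun S => hD _ _ _ S d hd hex').resolve_left
      fun H => hg' (H hg)

/-- The stabilizer of a decomposition `Sp_{n₁} ⊗ O_{n₂}` with `n₁ ≠ n₂` is maximal in `Sp`. -/
theorem sp_tensor_maximal_ne [Fintype F] {m n₁ n₂ : ℕ} (hodd : Odd (Fintype.card F)) (h1 : n₁ ≠ 0)
    (hn₂ : 3 ≤ n₂) (hex : ¬ (Fintype.card F = 3 ∧ n₂ = 3)) (h24 : ¬ (n₁ = 2 ∧ n₂ = 4))
    (hne : n₁ ≠ n₂) (e : (Fin m ⊕ Fin m) ≃ Fin n₁ × Fin n₂)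
    (P : GL (Fin m ⊕ Fin m) F) {f₁ : (Fin n₁ → F) → (Fin n₁ → F) → F}
    {f₂ : (Fin n₂ → F) → (Fin n₂ → F) → F} (hf₁ : IsSymplecticForm f₁) (hf₂ : IsSymmetricForm f₂)
    (hT : IsTensorFormStructure id (sympForm m F) f₁ f₂ e P) :
    IsMaximalIn (spGL m F) (tensorProductSubgroup n₁ n₂ e P ⊓ spGL m F) :=
  sp_tensor_maximal_of hodd h1 hn₂ hex e P hf₁ hf₂ hT fun _ _ _ S _ hc hex' =>
    S.le_kron hc hex' (by simp; omega) fun e => (hne (by simpa using e.symm)).elim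

end Matrices

end CL.Tens
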