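import Mathlib
import Cfsg.Agent.CLAS.ElusS2
import Cfsg.Agent.CLAS.Elus12
import Cfsg.Agent.CLAS.TFormD

/-! Elements of prime order of symplectic groups and tensor decompositions `O ⊗ Sp`. -/

set_option autoImplicit false
set_option linter.unusedSectionVars false

namespace CL.ElusS

open Module Polynomial CL.GLn CL.SpU CL.Witt CL.Witt.Form CL.PrimeCl CL.Elus CL.ExtF CL.Tv CL.Tens

variable {F : Type*} [Field F] {V₁ V₂ V : Type*} [AddCommGroup V₁] [Module F V₁] [AddCommGroup V₂]
  [Module F V₂] [AddCommGroup V] [Module F V] {τ : V₁ →ₗ[F] V₂ →ₗ[F] V}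
  [FiniteDimensional F V₁] [FiniteDimensional F V₂] {r : ℕ} {z : Module.End F V}
  {A : Module.End F V₁} {N : Module.End F V₂}

omit [FiniteDimensional F V₁] in
theorem quad_isIsom_of_B (h2 : (2 : F) ≠ 0) {f : Form (FormType.quad F) V₁}
    {f' : Form (FormType.quad F) V} {g : V₁ → V} (h : ∀ x y, f'.B (g x) (g y) = f.B x y) :
    IsIsom f f' g :=
  ⟨h, fun x => mul_left_cancel₀ h2 (by rw [← quad_B_self, ← quad_B_self, h])⟩

theorem finrank_range_right (h : IsTensorProduct τ) (H : ∀ x y, z (τ x y) = τ x (N y)) :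
    finrank F (LinearMap.range z) = finrank F V₁ * finrank F (LinearMap.range N) := by
  have h1 : Simil (N.lTensor V₁) z := ⟨h.equiv, fun v => by
    have : (h.equiv : _ →ₗ[F] V) ∘ₗ N.lTensor V₁ = z ∘ₗ h.equiv :=
      TensorProduct.ext' fun x y => by simp [H]
    exact LinearMap.congr_fun this v⟩
  rw [← h1.finrank_range, LinearMap.lTensor_range, LinearMap.finrank_range_of_inj
    (Module.Flat.lTensor_preserves_injective_linearMap _ (Submodule.injective_subtype _)),
    Module.finrank_tensorProduct]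

theorem pow_pure (H : ∀ x y, z (τ x y) = τ (A x) (N y)) (k : ℕ) (x : V₁) (y : V₂) :
    (z ^ k) (τ x y) = τ ((A ^ k) x) ((N ^ k) y) := by
  induction k generalizing x y with
  | zero => rfl
  | succ k ih => simp only [pow_succ, Module.End.mul_apply, H, ih]

theorem eq_one_of_pure (h : IsTensorProduct τ) [Nontrivial V₁] (H : ∀ x y, τ x (N y) = τ x y) :
    N = 1 := LinearMap.ext fun y => by
  obtain ⟨x, hx⟩ := exists_ne (0 : V₁)
  exact pure_inj (Tens.flip h) hx (H x y)

theorem dvd_of_small (h : IsTensorProduct τ) {y : V ≃ₗ[F] V} (hy : y ∈ Kron τ)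
    (hlt : finrank F (LinearMap.range (en y - 1)) < finrank F V₂) :
    ∃ N : Module.End F V₂, ∀ x w, en y (τ x w) = τ x (N w) := by
  have := finiteDimensional h
  obtain ⟨N, hN⟩ := exists_right_of_small h hy (U := LinearMap.range (en y - 1))
    (fun v => ⟨v, rfl⟩) hlt
  exact ⟨1 + N, fun x w => by simp [← hN]⟩

theorem range_sub_right (h : IsTensorProduct τ) (H : ∀ x y, z (τ x y) = τ x (N y)) :
    finrank F (LinearMap.range (z - 1)) = finrank F V₁ * finrank F (LinearMap.range (N - 1)) :=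
  finrank_range_right h fun x y => by simp [H]

theorem two_mul_le_range (h : IsTensorProduct τ) (H : ∀ x y, z (τ x y) = τ (A x) (N y))
    (hN : Function.Injective N) {u : V₁}
    (hu : ∀ s t w : F, s • u + t • A u + w • A (A u) = 0 → s = 0 ∧ w = 0) :
    2 * finrank F V₂ ≤ finrank F (LinearMap.range (z - 1)) := by
  have := finiteDimensional h
  let Φ : V₂ × V₂ →ₗ[F] V := (z - 1) ∘ₗ (τ u).coprod (τ (A u))
  have h1 : Function.Injective Φ := (injective_iff_map_eq_zero Φ).2 fun w hw => by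
    have h2 : ∀ ψ : Dual F V₂, -ψ w.1 = 0 ∧ ψ (N w.2) = 0 := fun ψ =>
      hu _ (ψ (N w.1) - ψ w.2) _ (by
        have := congrArg (Tens.ct h ψ) hw
        simp only [Φ, LinearMap.comp_apply, LinearMap.coprod_apply, LinearMap.sub_apply, map_add,
          H, map_sub, Tens.ct_apply, Module.End.one_apply, map_zero] at this
        rw [← this]; module)
    exact Prod.ext ((Module.forall_dual_apply_eq_zero_iff F _).1 fun ψ => neg_eq_zero.1 (h2 ψ).1)
      (hN (((Module.forall_dual_apply_eq_zero_iff F _).1 fun ψ => (h2 ψ).2).trans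
        (map_zero N).symm))
  have h2 := Submodule.finrank_mono (LinearMap.range_comp_le_range ((τ u).coprod (τ (A u))) (z - 1))
  rw [LinearMap.finrank_range_of_inj h1, Module.finrank_prod] at h2
  omega

variable [Fintype F] (p : ℕ) [Fact p.Prime] [CharP F p] [Fact r.Prime]

theorem exists_triple (hr : r ≠ p) (hi : 3 ≤ ord F r) (h : A ^ r = 1) (h1 : A ≠ 1) :
    ∃ u, ∀ s t w : F, s • u + t • A u + w • A (A u) = 0 → s = 0 ∧ w = 0 := by
  obtain ⟨U, h2, h3⟩ := exists_irr (inv_range_sub_one A) (fun h0 => h1 (by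
    rwa [LinearMap.range_eq_bot, sub_eq_zero] at h0))
  obtain ⟨μ, -, -, h4, h5⟩ := h3.exists_poly
  rw [hom_range p hr h U h2 h3] at h4
  obtain ⟨u, hu, hu0⟩ := U.exists_mem_ne_zero_of_ne_bot h3.ne_bot
  refine ⟨u, fun s t w h6 => ?_⟩
  have h7 : (C w * X ^ 2 + C t * X + C s : F[X]) = 0 := by
    refine eq_zero_of_dvd_of_natDegree_lt ((h5 _).1 ((h3.le_or_disjoint (inv_ker_aeval A _)).resolve_right
      fun h7 => hu0 (Submodule.disjoint_def.1 h7 u hu ?_))) (natDegree_quadratic_le.trans_lt (by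
        unfold ord at hi; omega))
    rw [LinearMap.mem_ker, ← h6]
    simp [sq, add_comm, add_assoc]
  have h8 := congrArg (coeff · 0) h7
  have h9 := congrArg (coeff · 2) h7
  simp [coeff_X, coeff_C] at h8 h9
  exact ⟨h8, h9⟩

theorem exists_normal (h : IsTensorProduct τ) [Nontrivial V₁] [Nontrivial V₂]
    (hi : ord F r ≠ 1) (H : ∀ x y, z (τ x y) = τ (A x) (N y)) (hz : z ^ r = 1) :
    ∃ (A : Module.End F V₁) (N : Module.End F V₂), A ^ r = 1 ∧ N ^ r = 1 ∧
      ∀ x y, z (τ x y) = τ (A x) (N y) := by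
  obtain ⟨w, hw⟩ := exists_ne (0 : V₂)
  obtain ⟨ψ, hψ⟩ := Module.Projective.exists_dual_eq_one F hw
  have h1 : ∀ x, ψ ((N ^ r) w) • (A ^ r) x = x := fun x => by
    simpa [hz, hψ] using congrArg (Tens.ct h ψ) (pow_pure H r x w).symm
  obtain ⟨x, hx⟩ := exists_ne (0 : V₁)
  have h2 : ψ ((N ^ r) w) ≠ 0 := fun h0 => hx (by rw [← h1 x, h0, zero_smul])
  obtain ⟨t, ht⟩ := (Nat.Coprime.pow_left_bijective (G := Fˣ) (n := r) (by
    rw [ElusL.card_units_eq, Nat.coprime_comm, (Fact.out : r.Prime).coprime_iff_not_dvd]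
    exact fun h => hi ((ord_eq_one_iff Fintype.card_pos).2 h))).2 (Units.mk0 _ h2)
  have h3 : (t : F) ^ r = ψ ((N ^ r) w) := by simpa using congrArg Units.val ht
  have h4 : ((t : F) • A) ^ r = 1 := LinearMap.ext fun x => by
    rw [_root_.smul_pow, h3]; exact h1 x
  have h5 : ∀ x y, z (τ x y) = τ (((t : F) • A) x) ((((t⁻¹ : Fˣ) : F) • N) y) := fun x y => by
    simp [H, smul_smul]
  refine ⟨_, _, h4, eq_one_of_pure h fun x y => ?_, h5⟩
  simpa [hz, h4] using (pow_pure h5 r x y).symm

variable {h : IsTensorProduct τ} {f : Form (FormType.alt F) V} {f₁ : Form (FormType.quad F) V₁}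
  {f₂ : Form (FormType.alt F) V₂}

theorem elu_tens (hT : TF h f f₁ f₂) (hp : p ≠ 2) (h3 : 3 ≤ finrank F V₁) (h2 : 2 ≤ finrank F V₂)
    (hΩ : r ∣ Nat.card f.O) : EluG f.O (Kron τ) r ↔ r = 2 ∧ finrank F V₂ = 2 := by
  have := finiteDimensional h
  have hf := hT.nd
  have hd := finrank_eq h
  have h0 : (2 : F) ≠ 0 := by simpa using ElusL.cast_ne_zero (F := F) (r := 2) p hp.symm
  have : Nontrivial V₁ := Module.nontrivial_of_finrank_pos (R := F) (by omega)
  have : Nontrivial V₂ := Module.nontrivial_of_finrank_pos (R := F) (by omega)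
  have h6 : 6 ≤ finrank F V := hd ▸ Nat.mul_le_mul h3 h2
  have : Nontrivial V := Module.nontrivial_of_finrank_pos (R := F) (by omega)
  constructor
  · intro hE
    have key : ∀ A : Module.End F V, IsIsom f f A → A ^ r = 1 → (∀ c, A ≠ algebraMap F _ c) →
        ∃ y ∈ Kron τ, IsIsom f f (en y) ∧ en y ^ r = 1 ∧
        finrank F (LinearMap.range (en y - 1)) = finrank F (LinearMap.range (A - 1)) := by
      intro A h4 h5 h7
      obtain ⟨y, h8, h9, h10⟩ := hE.test hf le_rfl (fun _ h _ => h) h4 h5 h7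
      refine ⟨y, h8, h9, by simpa using (h10.pow_eq_algebraMap_iff r 1).1 (by rw [h5, map_one]), ?_⟩
      have := (h10.aeval (X - C 1)).finrank_range.symm
      rwa [aeval_X_sub_one, aeval_X_sub_one] at this
    rcases eq_or_ne r p with rfl | hr
    · obtain ⟨A, h4, h5, h7⟩ := alt_exists_transv hf r (by omega)
      obtain ⟨y, h8, -, -, h9⟩ := key A h4 h5 (ne_algebraMap_of_range h7 one_ne_zero (by omega))
      obtain ⟨N, hN⟩ := dvd_of_small h h8 (by omega)
      have := Nat.eq_one_of_mul_eq_one_right ((range_sub_right h hN).symm.trans (h9.trans h7))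
      omega
    rcases eq_or_ne r 2 with rfl | hr2
    · obtain ⟨W, -, h4, h5⟩ := (iso_alt f).exists_nd (nd_top hf) (e := 2) (by simp; omega) dvd_rfl
      obtain ⟨A, h7, h8, rfl⟩ := Elus.exists_invol hf h0 h4
      obtain ⟨y, h9, -, -, h10⟩ := key A h7 h8 (ne_algebraMap_of_range h5 two_ne_zero (by omega))
      obtain ⟨N, hN⟩ := dvd_of_small (Tens.flip h) (y := y) (by rwa [kron_flip]) (by omega)
      have := Nat.le_of_dvd two_pos ⟨_, ((range_sub_right (Tens.flip h) hN).symm.trans
        (h10.trans h5)).symm⟩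
      exact ⟨rfl, by omega⟩
    exfalso
    have hr0 := ElusL.cast_ne_zero (F := F) p hr
    have hi := PrimeCl.ord_pos hr0
    have hc := cc_pos hi
    obtain ⟨A, h4, h5, h7⟩ := exists_single (dat_alt hr0 hr2) hf hΩ
    obtain ⟨y, h8, h9, h10, h11⟩ := key A h4 h5 (ne_algebraMap_of_odd hf (fun _ => rfl) h4
      ((Fact.out : r.Prime).odd_of_ne_two hr2) h5 (by
        rintro rfl
        rw [sub_self, LinearMap.range_zero, finrank_bot] at h7
        exact hc.ne h7))
    rw [h7] at h11
    obtain ⟨x, hx⟩ := exists_ne (0 : V₁)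
    obtain ⟨x', hx'⟩ := hT.nd₁.exists_B_eq hx 1
    obtain ⟨w, hw⟩ := exists_ne (0 : V₂)
    obtain ⟨w', hw'⟩ := hT.nd₂.exists_B_eq hw 1
    have hR : ∀ N : Module.End F V₂, ¬ ∀ x w, en y (τ x w) = τ x (N w) := fun N hN => by
      have h12 := (dat_alt hr0 hr2).dvd_finrank_range hT.nd₂ (A := N)
        ((alt_isIsom_iff _ _ _).2 fun a b => by
          simpa [hN, hT.mul, hx'] using h9.B_eq (τ x a) (τ x' b))
        (eq_one_of_pure h fun a b => by
          simpa [h10] using (pow_pure (A := 1) hN r a b).symm)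
      have h13 := range_sub_right h hN
      rw [h11] at h13
      have := Nat.le_of_dvd (Nat.pos_of_ne_zero fun h0 => hc.ne' (h13.trans (by rw [h0, mul_zero]))) h12
      nlinarith
    have hL : ∀ N : Module.End F V₁, ¬ ∀ w x, en y (τ.flip w x) = τ.flip w (N x) := fun N hN => by
      have h12 := (dat_quad hr0 hr2).dvd_finrank_range hT.nd₁ (A := N)
        (quad_isIsom_of_B h0 fun a b => by
          have := h9.B_eq (τ.flip w a) (τ.flip w' b)
          rw [hN, hN] at this
          simpa [hT.mul, hw'] using this)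
        (eq_one_of_pure (Tens.flip h) fun a b => by
          simpa [h10] using (pow_pure (A := 1) hN r a b).symm)
      have h13 := range_sub_right (Tens.flip h) hN
      rw [h11] at h13
      have := Nat.le_of_dvd (Nat.pos_of_ne_zero fun h0 => hc.ne' (h13.trans (by rw [h0, mul_zero]))) h12
      nlinarith
    have h12 : 3 ≤ ord F r := by
      by_contra h12
      obtain ⟨N, hN⟩ := dvd_of_small (Tens.flip h) (y := y) (by rwa [kron_flip]) (by
        rw [h11]; simp only [Nat.even_iff]; split_ifs <;> omega)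
      exact hL N hN
    obtain ⟨g₁, g₂, hg⟩ := h8
    obtain ⟨A₁, A₂, h13, h14, h15⟩ := exists_normal (z := en y) (A := g₁) (N := g₂) h (by omega) hg h10
    have h16 : A₁ ≠ 1 := by rintro rfl; exact hR _ h15
    have h17 : A₂ ≠ 1 := by rintro rfl; exact hL A₁ fun a b => h15 b a
    obtain ⟨u, hu⟩ := exists_triple p hr h12 h13 h16
    have h18 := two_mul_le_range h h15 (((Module.End.isUnit_iff _).1 (IsUnit.of_pow_eq_one h14
      (Fact.out : r.Prime).ne_zero)).1) hu
    have h19 := (Nat.le_of_dvd (range_invol_pos h17) (ord_dvd_finrank_range p hr h14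
      (inv_range_sub_one _) le_rfl)).trans (Submodule.finrank_le _)
    have h20 := hT.nd₂.even_finrank_alt
    rw [h11] at h18
    simp only [Nat.even_iff, ord] at h18 h20
    split_ifs at h18 <;> omega
  · rintro ⟨rfl, h4⟩
    refine elu_two_alt hf h0 (fun j h5 h7 => ?_) ?_
    · obtain ⟨W, -, h8, h9⟩ := exists_nd_le h0 (nd_top hT.nd₁) (e := j) (by simp; rw [h4] at hd; omega)
      obtain ⟨A, h10, h11, rfl⟩ := Elus.exists_invol hT.nd₁ h0 h8
      obtain ⟨g, hg, h12⟩ := h10.exists_mem_O hT.nd₁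
      have h13 : ∀ x w, en (kr h g 1) (τ x w) = τ (A x) ((1 : Module.End F V₂) w) := fun x w => by
        simp [h12]
      refine ⟨kr h g 1, kr_mem h _ _, (alt_isIsom_iff _ _ _).2 (hT.kr_iso (one_mul 1)
        (fun x y => by rw [one_mul, mem_O_B hg]) fun x y => by simp),
        ext_of h fun x w => by simp [pow_pure h13, h11], ?_⟩
      rw [range_sub_right (Tens.flip h) (N := A) fun w x => h13 x w, h4, h9]
    · obtain ⟨A, h10, h11⟩ := exists_isom_sq_neg hT.nd₂
      obtain ⟨g, hg, h12⟩ := h10.exists_mem_O hT.nd₂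
      have h13 : ∀ x w, en (kr h 1 g) (τ x w) = τ ((1 : Module.End F V₁) x) (A w) := fun x w => by
        simp [h12]
      exact ⟨kr h 1 g, kr_mem h _ _, (alt_isIsom_iff _ _ _).2 (hT.kr_iso (one_mul 1)
        (fun x y => by simp) fun x y => by rw [one_mul, mem_O_B hg]),
        ext_of h fun x w => by simp [pow_pure h13, h11]⟩

end CL.ElusS
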