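import Mathlib
import Cfsg.Agent.CLAS.ElusT1

/-! Elements of prime order of `Ω_{2d}(q)` and the subgroups of type `O_d(q²)`. -/

set_option autoImplicit false
set_option linter.unusedSectionVars false

namespace CL.ElusS

open Module Polynomial CL.GLn CL.SpU CL.Witt CL.Witt.Form CL.PrimeCl CL.Elus CL.ExtF CL.Tv
open CL.Orth (qfOf sqSign qfOf_nondeg toEnd dsign spin)

variable {F : Type*} [Field F] {V : Type*} [AddCommGroup V] [Module F V]
  {f : Form (FormType.quad F) V} {x y g : V ≃ₗ[F] V} {H : Subgroup (V ≃ₗ[F] V)}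

/-- The group `Ω`. -/
noncomputable def Om (f : Form (FormType.quad F) V) : Subgroup (V ≃ₗ[F] V) :=
  (commutator (Orth.O (qfOf f))).map (Orth.O _).subtype

theorem mem_Om : g ∈ Om f ↔ InOm f (en g) :=
  ⟨fun ⟨k, hk, e⟩ => ⟨k, hk, congrArg en e⟩,
    fun ⟨k, hk, e⟩ => ⟨k, hk, LinearEquiv.toLinearMap_injective e⟩⟩

theorem Om_le : Om f ≤ f.O := O_qfOf f ▸ Subgroup.map_subtype_le _

theorem mem_omegaGL_iff_Om {ι : Type} [Fintype ι] [DecidableEq ι] (Q : QuadraticForm F (ι → F))
    (g : GL ι F) : g ∈ Cfsg.Geo.omegaGL ⇑Q ↔ act g ∈ Om (ofQuad Q) := by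
  rw [mem_omegaGL_iff_inOm, ← act_coe, ← mem_Om]
  exact and_iff_right_of_imp fun h => Om_le h

variable [Fintype F] [FiniteDimensional F V] (hf : f.Nondeg) (h5 : 5 ≤ finrank F V)
  (h2 : (2 : F) ≠ 0)
include hf h5

theorem coe_mem_Om (g : Orth.O (qfOf f)) : g.1 ∈ Om f ↔ dsign g = 1 ∧ spin g = 1 :=
  (mem_Om.trans (inOm_iff hf h5 g)).trans (and_congr_left' Orth.dsign_eq_one_iff.symm)

theorem dsign_mul_eq (g k : Orth.O (qfOf f)) : dsign (g * k) = dsign g * dsign k :=
  Orth.dsign_mul (qfOf_nondeg hf) (Or.inr (by omega)) g k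

theorem spin_mul_eq (g k : Orth.O (qfOf f)) : spin (g * k) = spin g * spin k :=
  Orth.spin_mul (qfOf_nondeg hf) (Or.inr (by omega)) g k

include h2 in
theorem invol_conj (hx : IsIsom f f (en x)) (hy : IsIsom f f (en y)) (x2 : en x ^ 2 = 1)
    (y2 : en y ^ 2 = 1) (h1 : 2 ≤ finrank F (LinearMap.range (en x - 1)))
    (hd : finrank F (LinearMap.range (en y - 1)) = finrank F (LinearMap.range (en x - 1)))
    (hs : ds f (LinearMap.range (en y - 1)) = ds f (LinearMap.range (en x - 1))) :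
    ∃ g ∈ Om f, g⁻¹ * x * g = y := by
  have hW := nd_range_sub_one hf hx (ss_of_sq h2 x2)
  have hU := nd_range_sub_one hf hy (ss_of_sq h2 y2)
  obtain ⟨e, he⟩ := isom_of_ds h2 hU hW hd hs
  obtain ⟨g, h3, h4, h6⟩ := hf.witt_equiv e ((quad_isIsom_iff _ _ _).2 he)
  have h7 : x * g = g * y := LinearEquiv.ext fun v => by
    obtain ⟨u, w, rfl⟩ := exists_add_of_isCompl hU.isCompl v
    have h8 : g w ∈ f.perp (LinearMap.range (en x - 1)) := by
      rw [← h6]
      rintro _ ⟨a, ha, rfl⟩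
      exact (mem_O_B h3 a w).trans (w.2 a ha)
    have h9 : y w = w := sub_eq_zero.1 ((perp_range_sub_one hf hy).le w.2)
    have h10 : x (g w) = g w := sub_eq_zero.1 ((perp_range_sub_one hf hx).le h8)
    have h11 : y u = _ := apply_of_mem_range y2 u.2
    have h12 : x (g u) = _ := apply_of_mem_range x2 (h4 u ▸ (e u).2)
    simp [h9, h10, h11, h12]
  have hc := Orth.isCompl_perp ((Orth.restrict_nondeg_iff (Q := qfOf f)).1 hW.qr_nondeg)
  let G : Orth.O (qfOf f) := ⟨g, O_qfOf f ▸ h3⟩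
  obtain ⟨c, c1, c2⟩ := Orth.exists_dsign_spin_eq
    (Q := (qfOf f).restrict (LinearMap.range (en x - 1))) hW.qr_nondeg h2 h1 (dsign G) (spin G)
  refine ⟨(Orth.glue hc (c, 1) * G).1, (coe_mem_Om hf h5 _).2 ⟨?_, ?_⟩, ?_⟩
  · rw [dsign_mul_eq hf h5, Orth.dsign_glue, c1, Orth.dsign_one, mul_one, Int.units_mul_self]
  · rw [spin_mul_eq hf h5, Orth.spin_glue (qfOf_nondeg hf), c2, Orth.spin_one, mul_one,
      Int.units_mul_self]
  have h8 : x * (Orth.glue hc (c, 1)).1 = (Orth.glue hc (c, 1)).1 * x := LinearEquiv.ext fun v => by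
    obtain ⟨u, w, rfl⟩ := exists_add_of_isCompl hc v
    have h9 : x w = w := sub_eq_zero.1 ((perp_range_sub_one hf hx).le fun a ha =>
      (Orth.polar_qfOf f a w).symm.trans (Orth.mem_perp.1 w.2 a ha))
    have h11 : ∀ u : LinearMap.range (en x - 1), x u = _ := fun u => apply_of_mem_range x2 u.2
    simp only [LinearEquiv.mul_apply, map_add, h9, h11, map_smul, Orth.glue_apply_left,
      Orth.glue_apply_right]
    simp [h9]
  rw [mul_assoc, inv_mul_eq_iff_eq_mul, Subgroup.coe_mul, ← mul_assoc, h8, mul_assoc, h7, mul_assoc]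

include h2 in
omit h5 in
theorem exists_refl_conj (hy : IsIsom f f (en y)) (y2 : en y ^ 2 = algebraMap F _ (-1))
    {t : V ≃ₗ[F] V} (ht : IsIsom f f (en t)) (t2 : en t ^ 2 = 1)
    (h1 : finrank F (LinearMap.range (en t - 1)) = 2) (h3 : Inv (en y) (LinearMap.range (en t - 1))) :
    ∃ ρ : Orth.O (qfOf f), dsign ρ = -1 ∧ ρ.1⁻¹ * y * ρ.1 = t * y := by
  have hW := nd_range_sub_one hf ht (ss_of_sq h2 t2)
  obtain ⟨v, hv, h4⟩ := hW.exists_q_eq h1.ge 1
  have h6 : f.q v ≠ 0 := h4 ▸ one_ne_zero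
  obtain ⟨A, h7, h8, h9⟩ := Elus.exists_invol hf h2 (nd_span h2 h6)
  obtain ⟨ρ, rfl⟩ := exists_toEnd hf h7
  have yy : ∀ u, y (y u) = -u := fun u => by simpa [sq] using LinearMap.congr_fun y2 u
  have h10 : f.B v (y v) = 0 := by
    have := hy.B_eq v (y v)
    simp only [LinearEquiv.coe_coe, yy, map_neg] at this
    exact mul_left_cancel₀ h2 (by linear_combination -this + f.quad_symm (y v) v)
  have r1 : ρ.1 v = -v := (apply_of_mem_range h8 (h9 ▸ Submodule.mem_span_singleton_self v)).trans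
    (neg_one_smul _ _)
  have r2 : ∀ u, f.B v u = 0 → ρ.1 u = u := fun u hu => sub_eq_zero.1
    ((perp_range_sub_one hf h7).le (h9 ▸ fun a ha => by
      obtain ⟨c, rfl⟩ := Submodule.mem_span_singleton.1 ha
      rw [f.B_smul_left, hu, mul_zero]))
  have t1 : ∀ u ∈ LinearMap.range (en t - 1), t u = -u := fun u hu =>
    (apply_of_mem_range t2 hu).trans (neg_one_smul _ _)
  refine ⟨ρ, by rw [Orth.dsign, show Orth.moved ρ = _ from h9,
    finrank_span_singleton (ne_zero_of_q h6), pow_one], ?_⟩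
  have hli : LinearIndependent F ![v, y v] := LinearIndependent.pair_iff.2 fun s t hst => by
    have h11 := congrArg (f.B v) hst
    simp only [map_add, map_smul, h10, quad_B_self, h4, map_zero, smul_eq_mul] at h11
    obtain rfl : s = 0 := by simpa [h2] using h11
    simpa [ne_zero_of_q h6] using hst
  have hsp : Submodule.span F (Set.range ![v, y v]) = LinearMap.range (en t - 1) :=
    Submodule.eq_of_le_of_finrank_eq (Submodule.span_le.2 (by
      rintro _ ⟨i, rfl⟩; fin_cases i; exacts [hv, h3 v hv])) (by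
      rw [finrank_span_eq_card hli, h1]; rfl)
  rw [mul_assoc, inv_mul_eq_iff_eq_mul]
  refine LinearEquiv.ext fun a => ?_
  obtain ⟨u, w, rfl⟩ := exists_add_of_isCompl hW.isCompl a
  have h11 := hW.inv_perp hy.B_eq h3 w w.2
  have h12 : t (y w) = y w := sub_eq_zero.1 ((perp_range_sub_one hf ht).le h11)
  obtain ⟨c, hc⟩ := (Submodule.mem_span_range_iff_exists_fun F).1 (hsp.ge u.2)
  simp only [LinearEquiv.mul_apply, map_add, h12, r2 w (w.2 v hv), r2 (y w) (h11 v hv), ← hc]
  simp [r1, r2 _ h10, yy, t1 v hv, t1 (y v) (h3 v hv)]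

theorem exists_Om_of (hg : g ∈ f.O) (h1 : g⁻¹ * x * g ∈ H) {ρ k : Orth.O (qfOf f)}
    (h3 : dsign ρ = -1) (h4 : ρ.1⁻¹ * (g⁻¹ * x * g) * ρ.1 ∈ H) (h6 : k.1 ∈ H) (h7 : dsign k = 1)
    (h8 : spin k = -1) : ∃ g ∈ Om f, g⁻¹ * x * g ∈ H := by
  obtain ⟨G, h9, h10⟩ : ∃ G : Orth.O (qfOf f), dsign G = 1 ∧ G.1⁻¹ * x * G.1 ∈ H := by
    rcases Int.units_eq_one_or (dsign (⟨g, O_qfOf f ▸ hg⟩ : Orth.O (qfOf f))) with h | h
    · exact ⟨_, h, h1⟩
    · exact ⟨_ * ρ, by rw [dsign_mul_eq hf h5, h, h3]; simp, by simpa [mul_assoc] using h4⟩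
  rcases Int.units_eq_one_or (spin G) with h | h
  · exact ⟨_, (coe_mem_Om hf h5 G).2 ⟨h9, h⟩, h10⟩
  · exact ⟨_, (coe_mem_Om hf h5 (G * k)).2 ⟨by rw [dsign_mul_eq hf h5, h9, h7, one_mul],
      by rw [spin_mul_eq hf h5, h, h8]; simp⟩,
      by simpa [mul_assoc] using H.mul_mem (H.mul_mem (H.inv_mem h6) h10) h6⟩

omit h5 in
include h2 in
theorem quad_exists_unip (p : ℕ) [Fact p.Prime] [CharP F p] (h4 : 4 ≤ finrank F V) :
    ∃ A : Module.End F V, IsIsom f f A ∧ A ^ p = 1 ∧
      finrank F (LinearMap.range ((A - 1) ^ 2)) = 1 := by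
  obtain ⟨v, -, hv⟩ := (nd_top hf).exists_q_eq (by simp; omega) 1
  have h6 : f.q v ≠ 0 := hv ▸ one_ne_zero
  have h7 := (nd_span h2 h6).finrank_inf_perp le_top
  rw [finrank_span_singleton (ne_zero_of_q h6), top_inf_eq, finrank_top] at h7
  obtain ⟨U, h8, h9, h10⟩ := (exists_ts_iff ((nd_span h2 h6).perp hf) (e := 1)).2
    ⟨by omega, by omega⟩
  obtain ⟨u, hu, hu0⟩ := U.exists_mem_ne_zero_of_ne_bot (by rintro rfl; simp at h10)
  have h11 : f.B v u = 0 := h8 hu v (Submodule.mem_span_singleton_self v)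
  have h12 : f.q u = 0 := (quad_totSing_iff _ _).1 h9 u hu
  have h13 : f.EichOK u v 1 := ⟨h12, by rw [f.quad_symm, h11], hv.symm⟩
  have h14 : ∀ a, (en (f.ei u v 1) - 1) a = f.B u a • v - (f.B v a + f.B u a) • u := fun a => by
    simp [h13.ei_apply, FormType.quad_ε]; abel
  have h15 : (en (f.ei u v 1) - 1) ^ 2 = (f.B u).smulRight ((-2 : F) • u) := LinearMap.ext fun a => by
    simp only [sq, Module.End.mul_apply, map_sub, map_smul, h14, h13.huv, h11, quad_B_self, hv, h12]
    simp; module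
  have : Nontrivial V := nontrivial_of_ne u 0 hu0
  have := charP_of_injective_algebraMap (algebraMap F (Module.End F V)).injective p
  refine ⟨_, ei_mem_O u v 1, ?_, ?_⟩
  · obtain ⟨k, hk⟩ : ∃ k, p = 2 + (k + 1) := by
      have := (Fact.out : p.Prime).two_le
      have : p ≠ 2 := by rintro rfl; exact h2 (by simpa using CharP.cast_eq_zero F 2)
      exact ⟨p - 3, by omega⟩
    have h16 : (en (f.ei u v 1) - 1) ^ p = 0 := by
      rw [hk, pow_add, pow_succ' _ k, ← mul_assoc, h15]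
      convert zero_mul _
      ext a
      simp [h14, h13.huv, quad_B_self, h12]
    rwa [sub_pow_char_of_commute _ (Commute.one_right _), one_pow, sub_eq_zero] at h16
  · obtain ⟨w, hw⟩ := hf.exists_B_eq hu0 1
    rw [h15, LinearMap.range_smulRight_apply (fun h0 => by simp [h0] at hw),
      finrank_span_singleton (smul_ne_zero (neg_ne_zero.2 h2) hu0)]

/-! ### Quadratic extensions -/

omit hf h5

variable {K : Type*} [Field K] [Fintype K] [Algebra F K] [Module K V] [IsScalarTower F K V]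
  [FiniteDimensional K V] {h : Form (FormType.quad K) V} {U W : Submodule K V}
  (hK : Fintype.card K = Fintype.card F ^ 2)
  (hB : ∀ x y, f.B x y = Algebra.trace F K (h.B x y))

theorem trace_eq_cj (a : K) : algebraMap F K (Algebra.trace F K a) = a + cj hK a := by
  simp [FiniteField.algebraMap_trace_eq_sum_pow, finrank_eq_two hK rfl, Finset.sum_range_succ,
    cj_apply]

include h2 in
theorem two_ne_zero_ext : (2 : K) ≠ 0 := by
  rwa [← map_ofNat (algebraMap F K) 2, _root_.map_ne_zero]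

include h2 hK in
theorem exists_half_card : ∃ m, Fintype.card F = 2 * m + 1 ∧ Fintype.card F / 2 = m ∧
    Fintype.card K / 2 = m * (2 * m + 2) := by
  obtain ⟨m, hm⟩ : Odd (Fintype.card F) :=
    Nat.odd_iff.2 (FiniteField.odd_card_of_char_ne_two (Orth.ringChar_ne_two_of h2))
  exact ⟨m, hm, by omega, by
    rw [hK, hm, show (2 * m + 1) ^ 2 = 2 * (m * (2 * m + 2)) + 1 by ring]; omega⟩

include h2 in
theorem sqSign_norm {c : F} {θ ν : K} (h0 : θ ≠ 0) (hθ : θ + cj hK θ = 0) (hν : ν ≠ 0)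
    (h1 : algebraMap F K c = 4 * θ ^ 2 * (ν * cj hK ν)) : sqSign c = -sqSign ν := by
  obtain ⟨m, hm, h3, h4⟩ := exists_half_card h2 hK
  have h5 := two_ne_zero_ext (K := K) h2
  have h6 : (-1 : K) ≠ 1 := fun h => h5 (by linear_combination -h)
  have h7 : (2 : K) ^ (2 * m) = 1 := mul_right_cancel₀ h5 (by
    rw [← pow_succ, ← hm, one_mul, ← cj_apply hK, map_ofNat])
  have h8 : θ ^ (2 * m) = -1 := mul_right_cancel₀ h0 (by
    rw [← pow_succ, ← hm, ← cj_apply hK]; linear_combination hθ)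
  have h9 : algebraMap F K (c ^ (Fintype.card F / 2)) = -ν ^ (Fintype.card K / 2) := by
    rw [pow_mul, show (2 : K) ^ 2 = 4 by norm_num] at h7
    rw [map_pow, h1, h3, h4, cj_apply, hm]
    linear_combination θ ^ (2 * m) * ν ^ (m * (2 * m + 2)) * h7 + ν ^ (m * (2 * m + 2)) * h8
  have hc : c ≠ 0 := by
    rintro rfl
    rw [map_zero, show (4 : K) = 2 * 2 by norm_num] at h1
    simp [h5, h0, hν] at h1
  have h10 := FiniteField.isSquare_iff (Orth.ringChar_ne_two_of h2) hc
  have h11 := FiniteField.isSquare_iff (Orth.ringChar_ne_two_of h5) hν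
  rw [← (algebraMap F K).injective.eq_iff, map_one, h9] at h10
  rcases FiniteField.pow_dichotomy (Orth.ringChar_ne_two_of h5) hν with h | h
  · rw [Orth.sqSign_of_isSquare (h11.2 h), Orth.sqSign_eq_neg_one_iff, h10, h]; exact h6
  · rw [Orth.sqSign_eq_neg_one_iff.2 (h11.not.2 (h ▸ h6)), neg_neg, Orth.sqSign_eq_one_iff,
      h10, h, neg_neg]

include hB

theorem nd_rs (hU : ND h U) : ND f (U.restrictScalars F) := nd_iff.2 fun u hu h0 => by
  obtain ⟨v, hv, h1⟩ := nd_iff.1 hU u hu h0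
  by_contra! h3
  exact h1 (eq_of_forall_dual_mul (Algebra.trace_ne_zero F K) fun c => by
    rw [← h.B_smul_right, ← hB, h3 _ (U.smul_mem c hv), mul_zero, map_zero])

theorem le_perp_rs (ho : U ≤ h.perp W) : U.restrictScalars F ≤ f.perp (W.restrictScalars F) :=
  fun u hu w hw => by rw [hB, ho hu w hw, map_zero]

include h2 hK

theorem ds_line (hU : ND h U) (h1 : finrank K U = 1) : ds f (U.restrictScalars F) = -ds h U := by
  obtain ⟨v, hv, h0⟩ := U.exists_mem_ne_zero_of_ne_bot (by rintro rfl; simp at h1)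
  obtain rfl : K ∙ v = U := Submodule.eq_of_le_of_finrank_eq
    ((Submodule.span_singleton_le_iff_mem _ _).2 hv) (by rw [finrank_span_singleton h0, h1])
  have h5 := two_ne_zero_ext (K := K) h2
  have h3 : h.B v v ≠ 0 := by
    obtain ⟨_, h3, h4⟩ := nd_iff.1 hU v hv h0
    obtain ⟨c, rfl⟩ := Submodule.mem_span_singleton.1 h3
    rw [h.B_smul_right] at h4
    exact right_ne_zero_of_mul h4
  obtain ⟨θ, h6, h7⟩ := SqField.exists_trace_zero hK
  rw [← cj_apply hK] at h7
  have h8 : LinearIndependent F ![1, θ] := LinearIndependent.pair_iff.2 fun s t hst => by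
    have h9 := congrArg (cj hK) hst
    simp only [map_add, map_smul, map_one, map_zero, eq_neg_of_add_eq_zero_right h7] at h9
    have h10 : (2 * t) • θ = 0 := by linear_combination (norm := module) hst - h9
    obtain rfl : t = 0 := by simpa [h2, h6] using h10
    simpa using hst
  let b := (basisOfLinearIndependentOfCardEqFinrank h8 (by simp [finrank_eq_two hK rfl])).map
    (((LinearEquiv.toSpanNonzeroSingleton K V v h0).restrictScalars F).trans
      ((Submodule.restrictScalarsEquiv F K V _).symm.restrictScalars F))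
  have h9 : ∀ i j, Orth.gram (qr f ((K ∙ v).restrictScalars F)) b i j =
      Algebra.trace F K (![1, θ] i * ![1, θ] j * h.B v v) := fun i j => by
    rw [Orth.gram_apply, Orth.polar_qfOf, mul_assoc, ← h.B_smul_right, ← smul_eq_mul,
      ← FormType.quad_σ (![1, θ] i), smul_eq_mul, ← h.B_smul_left, ← hB]
    simp [b]
    rfl
  rw [ds, Orth.dsc_eq (nd_rs hB hU).qr_nondeg b, ds_span h5 (by
    rw [quad_B_self] at h3; exact right_ne_zero_of_mul h3), ← quad_B_self]
  refine sqSign_norm h2 hK h6 h7 h3 ?_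
  simp only [Matrix.det_fin_two, h9, map_sub, map_mul, trace_eq_cj hK,
    eq_neg_of_add_eq_zero_right h7, Matrix.cons_val_zero, Matrix.cons_val_one, map_one]
  ring

theorem ds_rs (n : ℕ) : ∀ U : Submodule K V, ND h U → finrank K U = n →
    ds f (U.restrictScalars F) = (-1) ^ n * ds h U := by
  have h5 := two_ne_zero_ext (K := K) h2
  induction n with
  | zero =>
    intro U _ h1
    obtain rfl := Submodule.finrank_eq_zero.1 h1
    have h3 := (sup_type (f := f) nd_bot nd_bot bot_le).1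
    have h4 := (sup_type (f := h) nd_bot nd_bot bot_le).1
    rw [bot_sup_eq, Int.units_mul_self] at h3 h4
    rw [Submodule.restrictScalars_bot, h3, h4, pow_zero, one_mul]
  | succ n ih =>
    intro U hU h1
    obtain ⟨L, h3, h4, h6⟩ := exists_nd_le h5 hU (e := 1) (by omega)
    have h7 := h4.finrank_inf_perp h3
    have h8 := hU.inf_perp h4 h3
    have h9 : L ≤ h.perp (U ⊓ h.perp L) := fun a ha b hb => (mem_perp' h).1 hb.2 a ha
    rw [← h4.sup_inf_perp h3, Submodule.restrictScalars_sup, (sup_type h4 h8 h9).1,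
      (sup_type (nd_rs hB h4) (nd_rs hB h8) (le_perp_rs hB h9)).1, ds_line h2 hK hB h4 h6,
      ih _ h8 (by omega), pow_succ]
    simp [mul_left_comm]

omit hK hB h2 in
theorem val_O_quad (p : ℕ) [Fact p.Prime] [CharP F p] {r : ℕ} [Fact r.Prime] (hr : r ≠ p)
    (hr2 : r ≠ 2) (hf : f.Nondeg) {n : ℕ} (hn : finrank F V = n) (h0 : 0 < n) :
    padicValNat r (Nat.card f.O) = padicValNat r (oy (Fintype.card F) n (Pl f ⊤)) +
      ∑ i ∈ Finset.range ((n - 1) / 2), padicValNat r (Fintype.card F ^ (2 * (i + 1)) - 1) := by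
  have h1 : ∀ i ∈ Finset.range ((n - 1) / 2), Fintype.card F ^ (2 * (i + 1)) - 1 ≠ 0 := fun i _ =>
    ElusL.pow_sub_one_ne_zero Fintype.one_lt_card (by omega)
  rw [card_O_quad hf hn h0, mul_assoc, mul_assoc, mul_comm 2,
    ElusL.val_mul_of_not_dvd (ElusL.not_dvd_two hr2), ElusL.val_pow_mul p hr,
    padicValNat.mul (oy_pos Fintype.one_lt_card h0 _).ne' (Finset.prod_ne_zero_iff.2 h1),
    ElusL.val_prod _ h1]

theorem exists_anti_semi (hh : h.Nondeg) (hf : f.Nondeg) [Nontrivial V] (h1 : ds f ⊤ = 1) :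
    ∃ y ∈ Gam F K V, IsIsom f f (en y) ∧ en y ^ 2 = algebraMap F _ (-1) ∧
      ∃ U : Submodule K V, ND h U ∧ finrank K U = 1 ∧ Inv (en y) (U.restrictScalars F) := by
  have h5 := two_ne_zero_ext (K := K) h2
  obtain ⟨ν, h3, h4⟩ := Orth.exists_sqSign_eq_neg_one h5
  let h' := ofSymm h5 (ν • dotProductBilin K K (m := Fin (finrank K V))) fun x y => by
    simp [dotProduct_comm]
  have h6 : Orth.gram (qfOf h') (Pi.basisFun K _) = ν • 1 := by
    ext i j
    rw [Orth.gram_apply, Orth.polar_qfOf]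
    change ν * (Pi.basisFun K _ i ⬝ᵥ Pi.basisFun K _ j) = _
    simp [Matrix.one_apply, Pi.single_apply, eq_comm]
  have h7 := Orth.nondeg_of_gram_det_ne_zero _ (by rw [h6]; simp [h3])
  have h8 := ds_rs h2 hK hB _ ⊤ (nd_top hh) rfl
  rw [Submodule.restrictScalars_top, h1, ds_top hh, finrank_top] at h8
  obtain ⟨e, he⟩ := Orth.exists_isometry_of_dsc_eq h5 h7 (qfOf_nondeg hh) (by simp) (by
    rw [Orth.dsc_eq h7 (Pi.basisFun K _), h6, Matrix.det_smul, Matrix.det_one, mul_one,
      Orth.sqSign_pow h3, h4, Fintype.card_fin, ← mul_left_inj (Orth.dsc (qfOf h)), ← h8,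
      Int.units_mul_self])
  have he' : IsIsom h' h e := (quad_isIsom_iff h' h e.toLinearMap).2 he
  let b := (Pi.basisFun K _).map e
  have hb : ∀ i j, h.B (b i) (b j) = if i = j then ν else 0 := fun i j => by
    have := congrFun (congrFun h6 i) j
    rw [Orth.gram_apply, Orth.polar_qfOf, ← he'.B_eq] at this
    simpa [Matrix.one_apply, b] using this
  obtain ⟨m, hm, -, h9⟩ := exists_half_card h2 hK
  have h10 : IsIsom f f (semi b (cj hK) fun _ => ν ^ m) := quad_isIsom_of_B h2 fun x y => by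
    rw [hB, hB, B_semi (d := 1) _ _ _ (fun _ => rfl), one_mul, Algebra.trace_eq_of_algEquiv]
    intro i j
    rw [hb, FormType.quad_σ]
    split_ifs
    · rw [cj_apply, hm]; ring
    · simp
  obtain ⟨y, h11, h12, h13⟩ := exists_semi _ _ _ hf h10
  have : Nontrivial V := inferInstance
  let i : Fin (finrank K V) := ⟨0, finrank_pos⟩
  refine ⟨y, h11, h12, ?_, K ∙ b i, nd_span h5 fun h0 => h3 ?_,
    finrank_span_singleton (b.ne_zero i), fun v hv => ?_⟩
  · rw [h13, semi_sq _ _ _ (cj_cj hK) fun _ => ?_]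
    rw [cj_apply, hm, map_neg, map_one, ← (FiniteField.pow_dichotomy (Orth.ringChar_ne_two_of h5)
      h3).resolve_left ((FiniteField.isSquare_iff (Orth.ringChar_ne_two_of h5) h3).not.1
      (Orth.sqSign_eq_neg_one_iff.1 h4)), h9]
    ring
  · rw [← if_pos (c := i = i) (t := ν) (e := 0) rfl, ← hb, quad_B_self, h0, mul_zero]
  · obtain ⟨c, rfl⟩ := Submodule.mem_span_singleton.1 hv
    refine Submodule.mem_span_singleton.2 ⟨cj hK c * ν ^ m, b.ext_elem fun j => ?_⟩
    rw [h13, repr_semi]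
    by_cases hj : i = j <;> simp [hj, mul_comm]

/-- Orthogonal groups over a quadratic extension. -/
theorem elu_quad_ext (p : ℕ) [Fact p.Prime] [CharP F p] {r : ℕ} [Fact r.Prime] (hf : f.Nondeg)
    (h8 : 8 ≤ finrank F V) (hΩ : r ∣ (Gam F K V).relIndex (Om f)) :
    EluG (Om f) (Gam F K V) r ↔ r = 2 := by
  have : Nontrivial V := Module.nontrivial_of_finrank_pos (R := F) (by omega)
  have h2' := two_ne_zero_ext (K := K) h2
  have I : Ind f h := ind_of_dual hf (Algebra.trace_ne_zero F K) hB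
    (fun _ => quad_isIsom_of_B h2) fun _ => quad_isIsom_of_B h2'
  have hk := finrank_eq_two hK rfl
  have hd := Module.finrank_mul_finrank F K V
  have h5 : 5 ≤ finrank F V := by omega
  have hrs : ∀ U : Submodule K V, finrank F (U.restrictScalars F) = 2 * finrank K U := fun U => by
    rw [← hk, Module.finrank_mul_finrank]; rfl
  rw [hk] at hd
  constructor
  · intro hE
    by_contra hr2
    have hodd := (Fact.out : r.Prime).odd_of_ne_two hr2
    have hG : ∀ g ∈ f.O, g ^ r = 1 → g ∈ Om f := fun g hg h1 =>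
      mem_Om.2 (inOm_of_odd hf h5 hodd hg (en_pow_eq_one.2 h1))
    have hco : r.Coprime (finrank F K) := hk ▸ Nat.coprime_two_right.2 hodd
    rcases eq_or_ne r p with rfl | hr
    · obtain ⟨A, h1, h3, h4⟩ := quad_exists_unip hf h2 r (by omega)
      obtain ⟨C, -, -, h6⟩ := I.test hE Om_le hG h1 h3 (ne_algebraMap_of_odd hf (fun _ => rfl) h1
        hodd h3 (by
          rintro rfl
          rw [sub_self, zero_pow two_ne_zero, LinearMap.range_zero, finrank_bot] at h4
          omega)) (Or.inl hco)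
      have := h6 2
      rw [hk] at this
      omega
    have h0 := ElusL.cast_ne_zero (F := F) p hr
    have hi := PrimeCl.ord_pos h0
    obtain ⟨A, h1, h3, h4⟩ := exists_single (dat_quad h0 hr2) hf (dvd_card_of_dvd_relIndex Om_le hΩ)
    obtain ⟨C, h6, h7, h9⟩ := I.test hE Om_le hG h1 h3
      (ne_algebraMap_of_odd hf (fun _ => rfl) h1 hodd h3 (by
        rintro rfl
        rw [sub_self, LinearMap.range_zero, finrank_bot] at h4
        exact (cc_pos hi).ne h4)) (Or.inl hco)
    have h11 := (dat_quad (cast_ne_zero_ext (K := K) h0) hr2).dvd_finrank_range I.nd' h6 h7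
    have h12 := h9 1
    rw [pow_one, pow_one, h4] at h12
    rw [ord_ext (F := F)] at h11
    have h13 : ∀ j, ord F r ∣ 2 * j → 2 ∣ j := fun j hj => hk ▸ dvd_of_cc (hk ▸ Nat.prime_two) hi
      ((Nat.mul_dvd_mul_left _ h11).trans h12.symm.dvd) hj
    have : CharP K p := charP_of_injective_algebraMap (algebraMap F K).injective p
    have hv : padicValNat r (Nat.card f.O) ≤ padicValNat r (Nat.card h.O) := by
      rw [val_O_quad p hr hr2 hf hd.symm (by omega), val_O_quad p hr hr2 I.nd' rfl (by omega), hK]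
      refine add_le_add ?_ ((sum_range_le (g := fun j => padicValNat r (Fintype.card F ^ (2 * j) - 1))
        two_pos (m := (finrank K V - 1) / 2) (by omega) fun j hj => val_eq_zero fun h14 =>
        hj (h13 j h14)).trans (le_of_eq (Finset.sum_congr rfl fun j _ => by rw [← pow_mul])))
      by_cases he : Even (finrank K V)
      · obtain ⟨m, hm⟩ := he.two_dvd
        have h14 : Pl f ⊤ ↔ Pl h ⊤ := by
          have h15 := ds_rs h2 hK hB _ ⊤ (nd_top I.nd') rfl
          rw [Submodule.restrictScalars_top, finrank_top, he.neg_one_pow, one_mul] at h15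
          obtain ⟨a, ha, -⟩ := exists_half_card h2 hK
          rw [pl_iff_ds h2 (nd_top hf) (a := 2 * m) (by simp; omega), h15,
            pl_iff_ds h2' (nd_top I.nd') (a := m) (by simpa using hm),
            (sqSign_neg_one_pow_iff h2 _).2 (Or.inl (by simp)),
            (sqSign_neg_one_pow_iff h2' _).2 (Or.inr (by
              rw [hK, ha, show (2 * a + 1) ^ 2 = 4 * (a * a + a) + 1 by ring]; omega))]
        rw [oy, oy, if_pos he, if_pos (by simp), h14, ← pow_mul, hm]
        simp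
      · rw [padicValNat.eq_zero_of_not_dvd fun h14 => he (even_iff_two_dvd.2 (h13 _
          ((dat_quad h0 hr2).ord_dvd.trans (dvd_of_dvd_oy h0 hr2 h14).1)))]
        exact Nat.zero_le _
    have := finite_equiv (F := F) (V := V)
    have := finite_equiv (F := K) (V := V)
    obtain ⟨P⟩ : Nonempty (Sylow r h.O) := inferInstance
    refine not_dvd_relIndex (K := ((P : Subgroup h.O).map h.O.subtype).map (rs F K V)) ?_ ?_ ?_ hΩ
    · rintro _ ⟨k, -, rfl⟩
      exact (kl_rs k).mem_Gam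
    · rintro _ ⟨_, ⟨k, hk, rfl⟩, rfl⟩
      obtain ⟨j, hj⟩ := P.isPGroup' ⟨k, hk⟩
      refine mem_Om.2 (inOm_of_odd hf h5 (hodd.pow (n := j)) ((I.iff (k.1 : V →ₗ[K] V)).2 k.2)
        (en_pow_eq_one.2 ?_))
      rw [← map_pow, ← map_pow, show k ^ r ^ j = 1 from congrArg Subtype.val hj, map_one, map_one]
    · rw [Subgroup.card_map_of_injective fun a b hab =>
        LinearEquiv.ext fun v => LinearEquiv.congr_fun (e := rs F K V a) hab v,
        Subgroup.card_map_of_injective h.O.subtype_injective, P.card_eq_multiplicity,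
        padicValNat.prime_pow, Nat.factorization_def _ Fact.out]
      exact (padicValNat_dvd_iff_le Nat.card_pos.ne').1
        (pow_padicValNat_dvd.trans (Subgroup.card_dvd_of_le Om_le)) |>.trans hv
  · rintro rfl x hx ⟨c, hc⟩ hx2
    have hx' : IsIsom f f (en x) := Om_le hx
    rcases sq_eq_one_iff.1 (quad_norm_sq c (norm_eq_one hf (hc ▸ isIsom_pow hx' 2)))
      with rfl | rfl
    · rw [map_one] at hc
      obtain ⟨⟨a, ha⟩, h3⟩ := (inOm_invol_iff hf h5 h2 hx' hc).1 (mem_Om.1 hx)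
      have h4 := range_invol_pos (A := en x) (by simpa using hx2 1)
      have h6 := range_invol_lt hc (hx2 _)
      obtain ⟨U, -, h7, h9, h10⟩ := exists_nd_ds h2' (nd_top I.nd') a (by simp; omega) ((-1) ^ a)
      obtain ⟨y, h11, h12, h13, h14⟩ := I.exists_invol h2 h7
      obtain ⟨g, h15, rfl⟩ := invol_conj hf h5 h2 hx' h12 hc h13 (by omega)
        (by rw [h14, hrs]; omega) (by
          rw [h14, ds_rs h2 hK hB _ _ h7 h9, h10 (by omega), Int.units_mul_self, h3])
      exact ⟨g, h15, h11⟩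
    · obtain ⟨y, h1, h3, h4, U, h6, h7, h9⟩ := exists_anti_semi h2 hK hB I.nd' hf
        ((ds_top hf).trans (anti_type hf h2 hx' hc).2)
      obtain ⟨g, h10, rfl⟩ := exists_conj_of_isomConj ((rigid_of_isUnit hf hx'
        (isUnit_of_anti h2 hc).1).isomConj hf h3 (simil_of_sq_neg h2 hf (fun _ => rfl) hx' h3 hc h4))
      obtain ⟨t, h11, h12, h13, h14⟩ := I.exists_invol h2 h6
      obtain ⟨ρ, h15, h16⟩ := exists_refl_conj hf h2 h3 h4 h12 h13 (by rw [h14, hrs, h7]) (h14 ▸ h9)
      obtain ⟨W, -, h17, h18, h19⟩ := exists_nd_ds h2' (nd_top I.nd') 1 (by simp; omega) 1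
      obtain ⟨k, h20, h21, h22, h23⟩ := I.exists_invol h2 h17
      have h26 : Even (finrank F (LinearMap.range (en k - 1))) := by rw [h23, hrs]; simp
      have h24 : dsign (⟨k, O_qfOf f ▸ h21⟩ : Orth.O (qfOf f)) = 1 := Orth.dsign_eq_one_iff.2 h26
      refine exists_Om_of hf h5 h10 h1 h15 (h16 ▸ Subgroup.mul_mem _ h11 h1) h20 h24
        ((Int.units_eq_one_or _).resolve_left fun h25 => ?_)
      have := ((inOm_invol_iff hf h5 h2 h21 h22).1
        (mem_Om.1 ((coe_mem_Om hf h5 _).2 ⟨h24, h25⟩))).2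
      rw [h23, ds_line h2 hK hB h17 h18, h19 one_pos] at this
      exact absurd this (by decide)

omit hK hB h2 in
open Cfsg Cfsg.Geo Matrix in
theorem elu_omega_ext {F : Type*} [Field F] [Fintype F] (p : ℕ) [Fact p.Prime] [CharP F p]
    (hodd : Odd (Fintype.card F)) {ι : Type} [Fintype ι] [DecidableEq ι]
    {Q : QuadraticForm F (ι → F)} (hQ : (QuadraticMap.polarBilin Q).Nondegenerate)
    (h8 : 8 ≤ Fintype.card ι) {A : Subalgebra F (Matrix ι ι F)} (hA : IsFieldSubalgebra 2 A)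
    (hsa : IsSelfAdjointFor (QuadraticMap.polar Q) A) (r : ℕ) [Fact r.Prime]
    (hΩ : r ∣ (subalgebraNormalizer A).relIndex (omegaGL Q)) :
    (∀ x ∈ omegaGL Q, (∃ z : F, ((x ^ r : GL ι F) : Matrix ι ι F) = z • (1 : Matrix ι ι F)) →
      (∀ z : F, (x : Matrix ι ι F) ≠ z • (1 : Matrix ι ι F)) →
      ∃ g ∈ omegaGL Q, g⁻¹ * x * g ∈ subalgebraNormalizer A) ↔ r = 2 := by
  have : Nonempty ι := Fintype.card_pos_iff.1 (by omega)
  have h2 := Orth.two_ne_zero_of_odd_card hodd
  obtain ⟨L, _, _, _, _, _, _, h1, -, h3, -, h4⟩ := exists_ext_model hA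
  have := Fintype.ofFinite L
  have hτ := Algebra.trace_ne_zero F L
  have hs : ∀ (a : L) u v, (ofQuad Q).B (a • u) v = (ofQuad Q).B u (a • v) := fun a u v => by
    obtain ⟨k, hk, h5⟩ := h3 a
    rw [h5, h5]
    exact hsa k hk u v
  obtain ⟨H, hH⟩ := exists_trace_form hτ (ofQuad Q) (σ := RingHom.id L) hs
  have hsym : ∀ x y, H y x = H x y := fun x y => eq_of_forall_dual_mul hτ fun a => by
    rw [← smul_eq_mul, ← smul_eq_mul, ← map_smul, ← map_smul, ← hH, ← hH, ← hs, Form.quad_symm]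
  rw [relIndex_act (mem_omegaGL_iff_Om Q) h4] at hΩ
  rw [elu_iff_act (mem_omegaGL_iff_Om Q) h4]
  exact elu_quad_ext h2 (by rw [card_ext (F := F), h1]) (h := ofSymm (two_ne_zero_ext h2) H hsym)
    hH p ((ofQuad_nondeg_iff _).2 hQ) (by simpa) hΩ

end CL.ElusS
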