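/-
Extension-field subgroups of orthogonal groups: three-dimensional spaces over the larger field.
-/
import Mathlib
import Cfsg.Agent.CLAS.ExtO3

set_option autoImplicit false

namespace CL.ExtF

open Module CL.Witt CL.Witt.Form

attribute [-simp] LinearEquiv.coe_inv

section Frame

variable {K : Type*} [Field K] {V : Type*} [AddCommGroup V] [Module K V]
  {h : Form (FormType.quad K) V} {e e' a : V}

/-- A hyperbolic pair and a vector orthogonal to it that span a three-dimensional space. -/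
structure Fr3 (h : Form (FormType.quad K) V) (e e' a : V) : Prop where
  he : h.q e = 0
  he' : h.q e' = 0
  hee : h.B e e' = 1
  ea : h.B e a = 0
  ea' : h.B e' a = 0
  ha : h.q a ≠ 0
  two : (2 : K) ≠ 0
  sp : ∀ v, ∃ x y z : K, v = x • e + y • a + z • e'

theorem exists_fr3 [FiniteDimensional K V] (h2 : (2 : K) ≠ 0) (hh : h.Nondeg)
    (hn : finrank K V = 3) (he : h.q e = 0) (he0 : e ≠ 0) : ∃ e' a, Fr3 h e e' a := by
  obtain ⟨e', he', hee⟩ := hh.exists_partner' he he0
  obtain ⟨a, c, h1, h3, h4, h5⟩ := hh.exists_ne_zero_hyp (big_of_three hn.ge) he he'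
    (by rw [hee]; exact one_ne_zero)
  have ha : h.q a ≠ 0 := h4 ▸ h5
  refine ⟨e', a, he, he', hee, h1, h3, ha, h2, fun v => ?_⟩
  let Φ : (K × K × K) →ₗ[K] V := (LinearMap.toSpanSingleton K V e).coprod
    ((LinearMap.toSpanSingleton K V a).coprod (LinearMap.toSpanSingleton K V e'))
  have hΦ : ∀ x y z : K, Φ (x, y, z) = x • e + y • a + z • e' := fun x y z => by
    simp [Φ, add_assoc]
  have hinj : Function.Injective Φ := by
    rw [← LinearMap.ker_eq_bot, LinearMap.ker_eq_bot']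
    rintro ⟨x, y, z⟩ h0
    rw [hΦ] at h0
    have e1 := congrArg (h.B e) h0
    have e2 := congrArg (h.B e') h0
    have e3 := congrArg (h.B a) h0
    simp only [map_add, map_smul, smul_eq_mul, h.B_self_eq_zero he, h.B_self_eq_zero he', h1, h3,
      hee, h.quad_symm e e', h.quad_symm e a, h.quad_symm e' a, h.quad_B_self, map_zero, mul_zero,
      mul_one, zero_add, add_zero, mul_eq_zero, h2, ha, or_false] at e1 e2 e3
    simp [e1, e2, e3]
  obtain ⟨⟨x, y, z⟩, rfl⟩ := (LinearMap.injective_iff_surjective_of_finrank_eq_finrank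
    (by simp [hn])).1 hinj v
  exact ⟨x, y, z, hΦ x y z⟩

namespace Fr3

variable (R : Fr3 h e e' a)
include R

theorem ee : h.B e e = 0 := h.B_self_eq_zero R.he
theorem ee' : h.B e' e' = 0 := h.B_self_eq_zero R.he'
theorem e'e : h.B e' e = 1 := by rw [h.quad_symm, R.hee]
theorem ae : h.B a e = 0 := by rw [h.quad_symm, R.ea]
theorem ae' : h.B a e' = 0 := by rw [h.quad_symm, R.ea']
omit R in
theorem aa : h.B a a = 2 * h.q a := h.quad_B_self a
theorem ne : e ≠ 0 := fun h0 => by simpa [h0] using R.hee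
theorem k2 : 2 * h.q a ≠ 0 := mul_ne_zero R.two R.ha

theorem symm : Fr3 h e' e a :=
  ⟨R.he', R.he, R.e'e, R.ea', R.ea, R.ha, R.two, fun v => by
    obtain ⟨x, y, z, rfl⟩ := R.sp v
    exact ⟨z, y, x, by abel⟩⟩

theorem q_eq (x y z : K) : h.q (x • e + y • a + z • e') = x * z + y * y * h.q a := by
  simp only [h.quad_q_add, quad_q_smul', R.he, R.he', map_add, map_smul, LinearMap.add_apply,
    h.B_smul_left, FormType.quad_σ, smul_eq_mul, R.ea, R.hee, R.ae']
  ring

theorem eq_zero {v : V} (h1 : h.B e v = 0) (h2 : h.B e' v = 0) (h3 : h.B a v = 0) : v = 0 := by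
  obtain ⟨x, y, z, rfl⟩ := R.sp v
  simp only [map_add, map_smul, smul_eq_mul, R.ee, R.ee', R.e'e, R.hee, R.ea, R.ea', R.ae, R.ae',
    aa, mul_zero, mul_one, zero_add, add_zero, mul_eq_zero, R.two, R.ha, or_false] at h1 h2 h3
  simp [h1, h2, h3]

theorem nondeg : h.Nondeg := fun _ hx => R.eq_zero (h.B_eq_zero_symm (hx _))
  (h.B_eq_zero_symm (hx _)) (h.B_eq_zero_symm (hx _))

/-- A vector orthogonal to `e` and `a` is a multiple of `e`. -/
theorem eq_smul {v : V} (h1 : h.B e v = 0) (h3 : h.B a v = 0) : v = h.B e' v • e :=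
  sub_eq_zero.1 (R.eq_zero (by simp [h1, R.ee]) (by simp [R.e'e]) (by simp [h3, R.ae]))

theorem perp_eq {v : V} (h1 : h.B e v = 0) :
    v = h.B e' v • e + (h.B a v / (2 * h.q a)) • a :=
  sub_eq_zero.1 (R.eq_zero (by simp [h1, R.ee, R.ea]) (by simp [R.e'e, R.ea'])
    (by simp [R.ae, aa, div_mul_cancel₀ _ R.k2]))

theorem q_perp {v : V} (h1 : h.B e v = 0) (h3 : h.B a v ≠ 0) : h.q v ≠ 0 := by
  have := R.q_eq (h.B e' v) (h.B a v / (2 * h.q a)) 0
  rw [zero_smul, add_zero, ← R.perp_eq h1] at this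
  rw [this]
  simp [h3, R.ha, R.two]

theorem ei_apply (t : K) (v : V) : h.ei e (t • a) (h.q (t • a)) v =
    v + (h.B e v * t) • a - (t * h.B a v + t * t * h.q a * h.B e v) • e := by
  rw [quad_ei R.he (by simp [R.ea]), quad_q_smul', smul_smul, h.B_smul_left]; rfl

/-- The half-turn about a vector of length `-q a`. -/
theorem exists_halfTurn_aux {γ : K} (hγ : γ ≠ 0) :
    ∃ s ∈ h.E, ∀ x, s x = -rf h ((-h.q a / γ) • e + γ • e') x := by
  refine ⟨h.ei e (γ⁻¹ • a) (h.q (γ⁻¹ • a)) * h.ei e' ((γ / h.q a) • a) (h.q ((γ / h.q a) • a)) *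
    h.ei e (γ⁻¹ • a) (h.q (γ⁻¹ • a)),
    h.E.mul_mem (h.E.mul_mem (ei_mem_E _ _ _) (ei_mem_E _ _ _)) (ei_mem_E _ _ _), fun v => ?_⟩
  obtain ⟨x, y, z, rfl⟩ := R.sp v
  have hq := R.q_eq (-h.q a / γ) 0 γ
  rw [zero_smul, add_zero] at hq
  have ha := R.ha
  have h2 := R.two
  rw [LinearEquiv.mul_apply, LinearEquiv.mul_apply, R.ei_apply, R.symm.ei_apply, R.ei_apply, rf, hq]
  simp only [map_add, map_sub, map_smul, smul_eq_mul, LinearMap.add_apply, h.B_smul_left,
    FormType.quad_σ, R.ee, R.ee', R.e'e, R.hee, R.ea, R.ea', R.ae, R.ae', aa]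
  match_scalars <;> field_simp <;> ring

theorem exists_halfTurn [FiniteDimensional K V] (hn : finrank K V = 3) {b : V}
    (hb : h.q b = -h.q a) : ∃ s ∈ h.E, ∀ x, s x = -rf h b x := by
  have hb0 : h.q b ≠ 0 := by rw [hb]; exact neg_ne_zero.2 R.ha
  have conj : ∀ k ∈ h.E, ∀ b' : V, k b' = b → (∃ s ∈ h.E, ∀ x, s x = -rf h b' x) →
      ∃ s ∈ h.E, ∀ x, s x = -rf h b x := by
    rintro k hk b' rfl ⟨s, hs, h1⟩
    refine ⟨k * s * k⁻¹, h.E.mul_mem (h.E.mul_mem hk hs) (h.E.inv_mem hk), fun x => ?_⟩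
    obtain ⟨x, rfl⟩ := k.surjective x
    rw [mul_app, mul_app, inv_app, h1, rf, rf, mem_O_B (E_le_O hk), mem_O_q (E_le_O hk)]
    simp
  have key : ∀ b : V, h.q b = -h.q a → h.B e b ≠ 0 → ∃ k ∈ h.E, ∃ γ : K, γ ≠ 0 ∧
      k ((-h.q a / γ) • e + γ • e') = b := fun b hb hγ => by
    have hq := R.q_eq (-h.q a / h.B e b) 0 (h.B e b)
    rw [zero_smul, add_zero] at hq
    obtain ⟨k, hk, h1⟩ := exists_mem_U_apply_eq (f := h) (u := e)
      (w := (-h.q a / h.B e b) • e + h.B e b • e') (w' := b) R.he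
      (by rw [hq, hb]; field_simp; ring) (by simp [R.ee, R.hee]) (by simpa [R.ee, R.hee] using hγ)
    exact ⟨k, U_le_E e hk, _, hγ, h1⟩
  obtain ⟨w, hw, hwb⟩ : ∃ w, h.q w = 0 ∧ h.B w b ≠ 0 := by
    by_contra! H
    have h1 := H e R.he
    have h2 := H e' R.he'
    have h3 := H ((-h.q a) • e + (1 : K) • a + (1 : K) • e') (by rw [R.q_eq]; ring)
    simp only [map_add, LinearMap.add_apply, h.B_smul_left, h1, h2, FormType.quad_σ, mul_zero,
      zero_add, add_zero, one_mul] at h3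
    exact hb0 (by rw [R.eq_zero h1 h2 h3, h.q_zero])
  obtain ⟨k, hk, c, c0, h1⟩ := R.nondeg.exists_mem_E_apply_eq_smul (big_of_three hn.ge) R.he R.ne hw
    (by rintro rfl; simp at hwb)
  obtain ⟨k', hk', γ, hγ, h2⟩ := key (k⁻¹ b) (by rw [mem_O_q (h.O.inv_mem (E_le_O hk)), hb]) (by
    rw [← mem_O_B (E_le_O hk), app_inv, h1, h.B_smul_left]
    exact mul_ne_zero c0 hwb)
  exact conj (k * k') (h.E.mul_mem hk hk') _ (by rw [mul_app, h2, app_inv])
    (R.exists_halfTurn_aux hγ)

/-- An orthogonal basis of the complement of a non-singular vector. -/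
theorem exists_perp_basis [Finite K] [FiniteDimensional K V] (hn : finrank K V = 3) {v : V}
    (hv : h.q v ≠ 0) : ∃ b c, h.q b = -h.q a ∧ h.q c ≠ 0 ∧ h.B v b = 0 ∧ h.B v c = 0 ∧
      h.B b c = 0 ∧ ∀ y, h.B v y = 0 → y ∈ Submodule.span K {b, c} := by
  have h2 := R.two
  have key : ∀ b, h.q b ≠ 0 → h.B v b = 0 → ∃ c, h.q c ≠ 0 ∧ h.B v c = 0 ∧ h.B b c = 0 ∧
      ∀ y, h.B v y = 0 → y ∈ Submodule.span K {b, c} := fun b hb hvb => by
    obtain ⟨c, c0, c1, c2⟩ := exists_perp_two (h := h) hn.ge v b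
    have hli : LinearIndependent K ![v, b, c] := by
      rw [Fintype.linearIndependent_iff]
      intro l hl
      simp only [Fin.sum_univ_three, Matrix.cons_val_zero, Matrix.cons_val_one,
        Matrix.cons_val_two, Matrix.head_cons, Matrix.tail_cons] at hl
      have e1 := congrArg (h.B v) hl
      have e2 := congrArg (h.B b) hl
      simp only [map_add, map_smul, smul_eq_mul, hvb, c1, c2, h.B_eq_zero_symm hvb, h.quad_B_self,
        mul_zero, add_zero, zero_add, map_zero, mul_eq_zero, h2, hv, hb, or_false] at e1 e2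
      rw [e1, e2, zero_smul, zero_smul, zero_add, zero_add, smul_eq_zero_iff_left c0] at hl
      intro i; fin_cases i <;> assumption
    have hsp : ∀ y, ∃ x s t : K, y = x • v + s • b + t • c := fun y => by
      have : y ∈ Submodule.span K (Set.range ![v, b, c]) := by
        rw [hli.span_eq_top_of_card_eq_finrank (by simp [hn])]; trivial
      obtain ⟨l, rfl⟩ := (Submodule.mem_span_range_iff_exists_fun K).1 this
      exact ⟨l 0, l 1, l 2, by simp [Fin.sum_univ_three]⟩
    refine ⟨c, fun hc => c0 (R.nondeg c fun y => ?_), c1, c2, fun y hy => ?_⟩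
    · obtain ⟨x, s, t, rfl⟩ := hsp y
      simp [h.B_eq_zero_symm c1, h.B_eq_zero_symm c2, h.B_self_eq_zero hc]
    · obtain ⟨x, s, t, rfl⟩ := hsp y
      simp only [map_add, map_smul, smul_eq_mul, hvb, c1, h.quad_B_self, mul_zero, add_zero,
        mul_eq_zero, h2, hv, or_false] at hy
      rw [hy, zero_smul, zero_add]
      exact Submodule.mem_span_pair.2 ⟨s, t, rfl⟩
  obtain ⟨b, hb, hvb⟩ : ∃ b, h.q b ≠ 0 ∧ h.B v b = 0 := by
    by_contra! H
    obtain ⟨c, c0, c1, -⟩ := exists_perp_two (h := h) hn.ge v v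
    have H' : ∀ b, h.B v b = 0 → h.q b = 0 := fun b hb => by
      by_contra h0; exact H b h0 hb
    refine c0 (R.nondeg c fun y => ?_)
    have h1 : h.B v (y - (h.B v y / (2 * h.q v)) • v) = 0 := by
      simp [h.quad_B_self, div_mul_cancel₀ _ (mul_ne_zero h2 hv)]
    have h3 := H' _ (show h.B v (c + (y - (h.B v y / (2 * h.q v)) • v)) = 0 by
      rw [map_add, c1, h1, add_zero])
    rw [h.quad_q_add, H' _ c1, H' _ h1] at h3
    simpa [h.B_eq_zero_symm c1] using h3
  obtain ⟨c, hc, c1, c2, -⟩ := key b hb hvb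
  obtain ⟨s, t, hst⟩ := exists_binary_eq h2 hb hc (-h.q a)
  have hq : h.q (s • b + t • c) = -h.q a := by
    rw [h.quad_q_add, quad_q_smul', quad_q_smul', ← hst]; simp [c2]
  obtain ⟨c', h3, h4, h5, h6⟩ := key (s • b + t • c) (by rw [hq]; exact neg_ne_zero.2 R.ha)
    (by simp [hvb, c1])
  exact ⟨_, c', hq, h3, by simp [hvb, c1], h4, h5, h6⟩

theorem exists_neg [Finite K] [FiniteDimensional K V] (hn : finrank K V = 3) {v : V}
    (hv : h.q v ≠ 0) : ∃ k ∈ h.E, k v = -v := by
  obtain ⟨b, c, hb, -, h1, -⟩ := R.exists_perp_basis hn hv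
  obtain ⟨s, hs, h2⟩ := R.exists_halfTurn hn hb
  exact ⟨s, hs, by rw [h2, rf_of_perp (h.B_eq_zero_symm h1)]⟩

end Fr3

end Frame

section Alg

variable {F K : Type*} [Field F] [Field K] [Algebra F K] [Finite K]

/-- In an extension of odd degree every element is a square times an element of the base field. -/
theorem exists_eq_mul_sq (h2 : (2 : F) ≠ 0) (hr : Odd (finrank F K)) {x : K} (hx : x ≠ 0) :
    ∃ (s : F) (t : K), s ≠ 0 ∧ t ≠ 0 ∧ x * (t * t) = algebraMap F K s := by
  have : Finite F := Finite.of_injective _ (algebraMap F K).injective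
  have := Fintype.ofFinite F
  have hq : 2 ≤ Nat.card F := Finite.one_lt_card
  have hodd : Odd (Nat.card F) := by
    rw [Nat.card_eq_fintype_card, Nat.odd_iff]
    exact FiniteField.odd_card_of_char_ne_two fun h => h2 (by
      have := ringChar.spec F 2; rw [h] at this; simpa using this)
  have h1 := FiniteField.algebraMap_norm_eq_pow (K := F) (x := x)
  rw [Module.natCard_eq_pow_finrank (K := F) (V := K), ← Nat.geomSum_eq hq] at h1
  obtain ⟨k, hk⟩ : Odd (∑ i ∈ Finset.range (finrank F K), Nat.card F ^ i) := by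
    rw [Finset.odd_sum_iff_odd_card_odd, Finset.filter_true_of_mem fun i _ => hodd.pow]
    simpa using hr
  refine ⟨Algebra.norm F x, x ^ k, ?_, pow_ne_zero _ hx, by rw [h1, hk]; ring⟩
  intro h0
  rw [h0, map_zero] at h1
  exact pow_ne_zero _ hx h1.symm

theorem mem_range_of_selfAdj (h2 : (2 : F) ≠ 0) (hr : (finrank F K).Prime)
    (ω : K →ₗ[F] K →ₗ[F] F) (hω : ∀ x y, ω y x = -ω x y) (h0 : ω ≠ 0) {ρ : K} (η : K → F)
    (H : ∀ x y, ω (ρ * x) y - ω x (ρ * y) = η (x * y)) : ∃ s : F, algebraMap F K s = ρ := by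
  have : Finite F := Finite.of_injective _ (algebraMap F K).injective
  have := Fintype.ofFinite K
  have h1 : ∀ n : ℕ, ∀ x y, ω (ρ ^ (n + 1) * x) y - ω x (ρ ^ (n + 1) * y) =
      (n + 1 : ℕ) * η (ρ ^ n * (x * y)) := by
    intro n
    induction n with
    | zero => simpa using H
    | succ n ih =>
      intro x y
      have e1 := H (ρ ^ (n + 1) * x) y
      have e2 := ih x (ρ * y)
      rw [show ρ * (ρ ^ (n + 1) * x) = ρ ^ (n + 1 + 1) * x by ring,
        show ρ ^ (n + 1) * x * y = ρ ^ (n + 1) * (x * y) by ring] at e1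
      rw [show ρ ^ (n + 1) * (ρ * y) = ρ ^ (n + 1 + 1) * y by ring,
        show ρ ^ n * (x * (ρ * y)) = ρ ^ (n + 1) * (x * y) by ring] at e2
      push_cast at e2 ⊢
      linear_combination e1 + e2
  have h3 : ∀ x y, ω (ρ * x) y = ω x (ρ * y) := fun x y => by
    obtain ⟨n, hn⟩ : ∃ n, Fintype.card K = n + 1 := ⟨_, (Nat.succ_pred_eq_of_pos Fintype.card_pos).symm⟩
    have h4 := h1 n x y
    have h5 : ((n + 1 : ℕ) : F) = 0 := (algebraMap F K).injective (by
      rw [map_natCast, map_zero, ← hn, FiniteField.cast_card_eq_zero])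
    rwa [← hn, FiniteField.pow_card, hn, h5, zero_mul, sub_eq_zero] at h4
  let S : Subalgebra F K :=
    { carrier := {c | ∀ x y, ω (c * x) y = ω x (c * y)}
      mul_mem' := fun {c d} hc hd x y => by rw [mul_assoc, hc, hd, mul_left_comm, mul_assoc]
      add_mem' := fun {c d} hc hd x y => by
        simp only [add_mul, map_add, LinearMap.add_apply, hc x y, hd x y]
      algebraMap_mem' := fun s x y => by simp [← Algebra.smul_def] }
  have := Subalgebra.isSimpleOrder_of_finrank_prime F K hr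
  rcases eq_bot_or_eq_top S with hS | hS
  · have : ρ ∈ S := h3
    rw [hS] at this
    exact Algebra.mem_bot.1 this
  · refine absurd (LinearMap.ext fun x => LinearMap.ext fun y => ?_) h0
    have h4 : ∀ c, c ∈ S := fun c => by rw [hS]; trivial
    have e1 := h4 x 1 y
    have e2 := h4 y 1 x
    rw [mul_one] at e1 e2
    have e3 := hω x y
    rw [e2, mul_comm y x, ← e1] at e3
    have : 2 * ω x y = 0 := by linear_combination e3
    simpa [h2] using this

/-- An additive group of skew maps that is stable under the torus has the largest possible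
values. -/
theorem exists_skew_apply (h2 : (2 : F) ≠ 0) (hr : (finrank F K).Prime) {τ : Dual F K} (hτ : τ ≠ 0)
    (A : AddSubgroup (K →ₗ[F] K)) (hA : A ≠ ⊥)
    (skew : ∀ ξ ∈ A, ∀ x y, τ (y * ξ x) = -τ (x * ξ y))
    (tor : ∀ ξ ∈ A, ∀ l : K, ∃ ξ' ∈ A, ∀ x, ξ' x = l * l * ξ (l * l * x)) {γ δ : K} (hγ : γ ≠ 0)
    (hδ : τ (δ * γ) = 0) : ∃ ξ ∈ A, ξ γ = δ := by
  have : FiniteDimensional F K := Module.Finite.of_finite
  obtain ⟨⟨ξ, hξ⟩, ξ0⟩ := AddSubgroup.ne_bot_iff_exists_ne_zero.1 hA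
  replace ξ0 : ξ ≠ 0 := fun h0 => ξ0 (Subtype.ext h0)
  let M : AddSubgroup K := A.map (LinearMap.applyₗ (R := F) γ).toAddMonoidHom
  let E : K → K → K := fun x y => x * ξ (y * γ) + y * ξ (x * γ)
  have h1 : ∀ l, l * l * ξ (l * l * γ) ∈ M := fun l => by
    obtain ⟨ξ', h1, h3⟩ := tor ξ hξ l
    exact ⟨ξ', h1, h3 γ⟩
  have h3 : ∀ x, 2 * (x * x * ξ γ + ξ (x * x * γ) + 4 * (x * ξ (x * γ))) ∈ M := fun x => by
    have := M.sub_mem (M.sub_mem (M.add_mem (h1 (x + 1)) (h1 (x - 1))) (M.nsmul_mem (h1 x) 2))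
      (M.nsmul_mem (h1 1) 2)
    convert this using 1
    rw [show (x + 1) * (x + 1) * γ = x * x * γ + (x * γ + x * γ) + γ by ring,
      show (x - 1) * (x - 1) * γ = x * x * γ - (x * γ + x * γ) + γ by ring]
    simp only [map_add, map_sub, one_mul, nsmul_eq_mul, Nat.cast_ofNat]
    ring
  have h4 : ∀ x y, 4 * (E (x * y) 1 + 2 * E x y) ∈ M := fun x y => by
    have := M.sub_mem (M.sub_mem (h3 (x + y)) (h3 x)) (h3 y)
    convert this using 1
    rw [show (x + y) * (x + y) * γ = x * x * γ + (x * y * γ + x * y * γ) + y * y * γ by ring,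
      add_mul x y γ]
    simp only [E, map_add, one_mul]
    ring
  let M' : Submodule F K := Submodule.span F {w | ∃ x y, w = 4 * (E (x * y) 1 + 2 * E x y)}
  have h5 : ∀ w ∈ M', ∀ s : F, s • w ∈ M := fun w hw => by
    induction hw using Submodule.span_induction with
    | mem w hw =>
      obtain ⟨x, y, rfl⟩ := hw
      intro s
      convert h4 (s • x) y using 1
      simp only [E, smul_mul_assoc, map_smul, mul_smul_comm, smul_add, mul_add]
    | zero => intro s; simp
    | add x y _ _ hx hy => intro s; rw [smul_add]; exact M.add_mem (hx s) (hy s)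
    | smul c x _ hx => intro s; rw [smul_smul]; exact hx _
  suffices hs : δ ∈ M' by
    obtain ⟨ξ', h6, h7⟩ := h5 δ hs 1
    exact ⟨ξ', h6, by simpa using h7⟩
  by_contra hn
  obtain ⟨θ, h6, h7⟩ := CL.Tv.exists_dual_one M' hn
  obtain ⟨ψ, hψ⟩ := exists_dual_comp (V := K) hτ θ
  have h8 : ∀ w, θ w = τ (ψ 1 * w) := fun w => by
    rw [hψ, mul_comm, ← smul_eq_mul, ← map_smul, smul_eq_mul, mul_one]
  have h4F : (4 : F) ≠ 0 := by rw [show (4 : F) = 2 * 2 by norm_num]; exact mul_ne_zero h2 h2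
  have h9 : ∀ x y, θ (E x y) = -θ (E (x * y) 1) / 2 := fun x y => by
    have := h7 _ (Submodule.subset_span ⟨x, y, rfl⟩)
    rw [show (4 : K) * (E (x * y) 1 + 2 * E x y) = (4 : F) • (E (x * y) 1 + (2 : F) • E x y) by
      simp only [Algebra.smul_def, map_ofNat], map_smul, map_add, map_smul, smul_eq_mul,
      smul_eq_mul, mul_eq_zero_iff_left h4F] at this
    field_simp
    linear_combination this
  let ω : K →ₗ[F] K →ₗ[F] F := LinearMap.mk₂ F (fun x y => τ (x * ξ y))
    (fun _ _ _ => by simp [add_mul]) (fun _ _ _ => by simp) (fun _ _ _ => by simp [mul_add])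
    (fun _ _ _ => by simp)
  obtain ⟨s, hs⟩ := mem_range_of_selfAdj h2 hr ω (fun x y => skew ξ hξ x y) (fun h0 => ξ0 (by
      ext y
      exact eq_zero_of_forall_mul hτ fun c => LinearMap.congr_fun₂ h0 c y))
    (ρ := ψ 1 / γ) (fun w => -θ (E (w / (γ * γ)) 1) / 2) fun x y => by
      have := h9 (x / γ) (y / γ)
      rw [div_mul_div_comm] at this
      rw [← this, h8]
      simp only [ω, E, LinearMap.mk₂_apply, div_mul_cancel₀ _ hγ, mul_add, map_add]
      rw [skew ξ hξ (ψ 1 / γ * y) x, sub_neg_eq_add]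
      congr 2 <;> ring
  rw [h8, eq_div_iff hγ |>.1 hs |>.symm, mul_assoc, ← Algebra.smul_def, map_smul, mul_comm, hδ,
    smul_zero] at h6
  exact zero_ne_one h6

omit [Finite K] in
theorem finrank_ker_comp_le {V : Type*} [AddCommGroup V] [Module F V] [FiniteDimensional F V]
    (M N : V →ₗ[F] V) : finrank F (LinearMap.ker (M ∘ₗ N)) ≤
      finrank F (LinearMap.ker M) + finrank F (LinearMap.ker N) := by
  let φ : LinearMap.ker (M ∘ₗ N) →ₗ[F] LinearMap.ker M := N.restrict fun x hx => hx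
  have h1 := φ.finrank_range_add_finrank_ker
  have h2 := Submodule.finrank_le (LinearMap.range φ)
  have h3 : finrank F (LinearMap.ker φ) ≤ finrank F (LinearMap.ker N) := by
    let ι : LinearMap.ker φ →ₗ[F] LinearMap.ker N :=
      ((LinearMap.ker (M ∘ₗ N)).subtype ∘ₗ (LinearMap.ker φ).subtype).codRestrict _
        fun x => congrArg Subtype.val x.2
    refine LinearMap.finrank_le_finrank_of_injective (f := ι) fun x y hxy => ?_
    exact Subtype.ext (Subtype.ext (congrArg (fun z : LinearMap.ker N => (z : V)) hxy))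
  omega

omit [Finite K] in
/-- A semilinear map with a non-trivial automorphism fixes at most a line. -/
theorem finrank_ker_semi (hr : (finrank F K).Prime) {σ : K ≃ₐ[F] K} (hσ : σ ≠ 1) (c : K)
    {M : K →ₗ[F] K} (hM : ∀ x, M x = c * σ x - x) : finrank F (LinearMap.ker M) ≤ 1 := by
  rcases eq_or_ne (LinearMap.ker M) ⊥ with h0 | h0
  · rw [h0, finrank_bot]; exact zero_le_one
  obtain ⟨x, hx, x0⟩ := Submodule.exists_mem_ne_zero_of_ne_bot h0
  refine (Submodule.finrank_mono (t := F ∙ x) fun y hy => ?_).trans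
    (by simpa using finrank_span_le_card (R := F) ({x} : Set K))
  let S : Subalgebra F K := AlgHom.equalizer (σ : K →ₐ[F] K) (AlgHom.id F K)
  have := Subalgebra.isSimpleOrder_of_finrank_prime F K hr
  have hS : S = ⊥ := (eq_bot_or_eq_top S).resolve_right fun hS => hσ (AlgEquiv.ext fun z =>
    (show z ∈ S by rw [hS]; trivial))
  rw [LinearMap.mem_ker, hM, sub_eq_zero] at hx hy
  have c0 : c ≠ 0 := by rintro rfl; exact x0 (by simpa using hx.symm)
  have h1 : y / x ∈ S := by
    change σ (y / x) = y / x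
    rw [map_div₀, ← mul_div_mul_left _ _ c0, hx, hy]
  rw [hS] at h1
  obtain ⟨s, hs⟩ := Algebra.mem_bot.1 h1
  exact Submodule.mem_span_singleton.2 ⟨s, by rw [Algebra.smul_def, hs, div_mul_cancel₀ _ x0]⟩

theorem aut_pow_finrank (σ : K ≃ₐ[F] K) : σ ^ finrank F K = 1 := by
  have : Finite F := Finite.of_injective _ (algebraMap F K).injective
  rw [← IsGalois.card_aut_eq_finrank F K, pow_card_eq_one']

end Alg

end CL.ExtF
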