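/-
Extension-field subgroups of type `O_3(q^r)`: the stabilizer of a singular line.
-/
import Mathlib
import Cfsg.Agent.CLAS.ExtO4

set_option autoImplicit false
set_option linter.unusedSectionVars false

namespace CL.ExtF

open Module CL.Witt CL.Witt.Form

attribute [-simp] LinearEquiv.coe_inv

theorem orbit_of_unique_fix {G Ω P : Type*} [Group G] [MulAction G Ω] [Finite Ω] [Group P] {p : ℕ}
    [Fact p.Prime] (hP : IsPGroup p P) (φ ψ : P →* G) {x y : Ω} (hx : ∀ t, φ t • x = x)
    (h1 : ∀ z ∈ MulAction.orbit G x, (∀ t, φ t • z = z) → z = x)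
    (h2 : ∀ z ∈ MulAction.orbit G x, (∀ t, ψ t • z = z) → z = y) : y ∈ MulAction.orbit G x := by
  by_contra hy
  have e1 : Nat.card (MulAction.orbit G x) ≡ 1 [MOD p] := by
    let _ := MulAction.compHom (MulAction.orbit G x) φ
    have h3 := hP.card_modEq_card_fixedPoints (MulAction.orbit G x)
    rwa [show Nat.card (MulAction.fixedPoints P (MulAction.orbit G x)) = 1 from
      Nat.card_eq_one_iff_exists.2 ⟨⟨⟨x, MulAction.mem_orbit_self x⟩, fun t => Subtype.ext (hx t)⟩,
        fun z => Subtype.ext (Subtype.ext (h1 _ z.1.2 fun t => congrArg Subtype.val (z.2 t)))⟩] at h3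
  have e2 : Nat.card (MulAction.orbit G x) ≡ 0 [MOD p] := by
    let _ := MulAction.compHom (MulAction.orbit G x) ψ
    have h3 := hP.card_modEq_card_fixedPoints (MulAction.orbit G x)
    have : IsEmpty (MulAction.fixedPoints P (MulAction.orbit G x)) :=
      ⟨fun z => hy (h2 _ z.1.2 (fun t => congrArg Subtype.val (z.2 t)) ▸ z.1.2)⟩
    rwa [Nat.card_of_isEmpty (α := MulAction.fixedPoints P _)] at h3
  have := e1.symm.trans e2
  exact (Fact.out : p.Prime).one_lt.ne' (Nat.dvd_one.1 ((Nat.modEq_zero_iff_dvd).1 this))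

variable {F K : Type*} [Field F] [Field K] [Algebra F K] {V : Type*} [AddCommGroup V] [Module F V]
  [Module K V] [IsScalarTower F K V] {X : Subgroup (V ≃ₗ[F] V)} {e e' a : V} {g : V ≃ₗ[F] V}
  {f : Form (FormType.quad F) V} {h : Form (FormType.quad K) V}

variable (F h e a) in
/-- The root group of the singular line `K e`. -/
noncomputable def uu (t : K) : V ≃ₗ[F] V := rs F K V (h.ei e (t • a) (h.q (t • a)))

theorem Ov.uu (hX : Ov F h X) (t : K) : uu F e a h t ∈ X := hX _ _ _

namespace Fr3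

variable (R : Fr3 h e e' a)
include R

theorem u_apply (t : K) (v : V) : uu F e a h t v =
    v + (h.B e v * t) • a - (t * h.B a v + t * t * h.q a * h.B e v) • e := R.ei_apply t v

theorem u_perp (t : K) {v : V} (hv : h.B e v = 0) : uu F e a h t v = v - (t * h.B a v) • e := by
  simp [R.u_apply, hv]

theorem Ba_line {w : V} (hw : w ∈ line F K e) : h.B a w = 0 := B_line' R.ea hw

theorem mem_line_of {v : V} (h1 : h.B e v = 0) (h2 : h.B a v = 0) : v ∈ line F K e := by
  rw [R.eq_smul h1 h2]; exact smul_mem_line _ _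

theorem u_fix (t : K) {w : V} (hw : w ∈ line F K e) : uu F e a h t w = w := by
  simp [R.u_perp t (B_line R.he hw), R.Ba_line hw]

theorem Be_u (t : K) (v : V) : h.B e (uu F e a h t v) = h.B e v := by
  simp [R.u_apply, R.ee, R.ea]

theorem Ba_u (t : K) (v : V) :
    h.B a (uu F e a h t v) = h.B a v + h.B e v * t * (2 * h.q a) := by
  simp [R.u_apply, R.ae, aa]

theorem u_add (s t : K) : uu F e a h (s + t) = uu F e a h s * uu F e a h t := by
  ext v
  rw [mul_app, R.u_apply s, R.Be_u, R.Ba_u, R.u_apply, R.u_apply]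
  module

theorem u_zero : uu F e a h 0 = 1 := by
  ext v; simp [R.u_apply]

theorem u_neg (t : K) : uu F e a h (-t) = (uu F e a h t)⁻¹ :=
  eq_inv_of_mul_eq_one_left (by rw [← R.u_add, neg_add_cancel, R.u_zero])

theorem u_inj {s t : K} (H : uu F e a h s = uu F e a h t) : s = t := by
  have := R.u_perp (F := F) s R.ea
  rw [H, R.u_perp t R.ea, sub_right_inj, aa] at this
  exact (mul_right_cancel₀ R.k2 (smul_left_injective K R.ne this)).symm

variable (F) in
/-- The root group as a homomorphism. -/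
noncomputable def uHom : Multiplicative K →* (V ≃ₗ[F] V) where
  toFun t := uu F e a h t.toAdd
  map_one' := R.u_zero
  map_mul' _ _ := R.u_add _ _

theorem mem_line_of_fix {t : K} (ht : t ≠ 0) {v : V} (hv : uu F e a h t v = v) :
    v ∈ line F K e := by
  have h1 := R.Ba_u (F := F) t v
  rw [hv, left_eq_add, mul_eq_zero_iff_right R.k2, mul_eq_zero_iff_right ht] at h1
  rw [R.u_perp t h1, sub_eq_self, smul_eq_zero_iff_left R.ne, mul_eq_zero_iff_left ht] at hv
  exact R.mem_line_of h1 hv

theorem line_le_of_inv {M : Submodule F V} (H : ∀ t, ∀ y ∈ M, uu F e a h t y ∈ M) {y : V}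
    (hy : y ∈ M) (hy' : y ∉ line F K e) : line F K e ≤ M := by
  have key : ∀ y ∈ M, h.B e y = 0 → h.B a y ≠ 0 → line F K e ≤ M := fun y hy h1 h2 w hw => by
    obtain ⟨c, rfl⟩ := mem_line.1 hw
    have := M.sub_mem hy (H (c / h.B a y) y hy)
    rwa [R.u_perp _ h1, sub_sub_cancel, div_mul_cancel₀ _ h2] at this
  by_cases h1 : h.B e y = 0
  · exact key y hy h1 fun h2 => hy' (R.mem_line_of h1 h2)
  · exact key _ (M.sub_mem (H 1 y hy) hy) (by rw [map_sub, R.Be_u, sub_self])
      (by rw [map_sub, R.Ba_u, add_sub_cancel_left, mul_one]; exact mul_ne_zero h1 R.k2)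

theorem u_sub_cube (t : K) (v : V) : uu F e a h t (uu F e a h t (uu F e a h t v)) -
    (3 : K) • uu F e a h t (uu F e a h t v) + (3 : K) • uu F e a h t v - v = 0 := by
  rw [← mul_app, ← mul_app, ← mul_app, ← R.u_add, ← R.u_add, R.u_apply, R.u_apply, R.u_apply]
  module

end Fr3

theorem map_eq_of_le [FiniteDimensional F V] {W : Submodule F V} {k : V ≃ₗ[F] V}
    (H : W ≤ W.map (k : V →ₗ[F] V)) : W.map (k : V →ₗ[F] V) = W :=
  (Submodule.eq_of_le_of_finrank_eq H (LinearEquiv.finrank_map_eq k W).symm).symm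

theorem mem_map_iff {W : Submodule F V} {k : V ≃ₗ[F] V} {v : V} :
    v ∈ W.map (k : V →ₗ[F] V) ↔ k⁻¹ v ∈ W := Submodule.mem_map_equiv W

open Pointwise in
/-- The stabilizer of a vector is transitive on the conjugates of `K e` through it. -/
theorem Fr3.exists_fix_stab [Finite K] [FiniteDimensional K V] (R : Fr3 h e e' a) (hX : Ov F h X)
    {v : V} (hv : v ∈ line F K e) {k : V ≃ₗ[F] V} (hk : k ∈ X) (hkv : k⁻¹ v ∈ line F K e) :
    ∃ y ∈ X, y v = v ∧ ∀ w ∈ line F K e, y (k w) ∈ line F K e := by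
  have : FiniteDimensional F K := Module.Finite.of_finite
  have : FiniteDimensional F V := Module.Finite.trans K V
  have : Finite V := Module.finite_of_finite K
  have : Finite (Submodule F V) := Finite.of_injective _ SetLike.coe_injective
  have := Fintype.ofFinite K
  obtain ⟨p, hp, n, hn⟩ := FiniteField.card' K
  have := Fact.mk hn.1
  have hP : IsPGroup p (Multiplicative K) :=
    IsPGroup.of_card (by rw [Nat.card_eq_fintype_card, Fintype.card_multiplicative, hn.2])
  let G := X ⊓ MulAction.stabilizer (V ≃ₗ[F] V) v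
  have hm : ∀ (x : V ≃ₗ[F] V) (M : Submodule F V) (w : V), w ∈ x • M ↔ x⁻¹ w ∈ M :=
    fun x M w => by
      rw [Submodule.mem_smul_pointwise_iff_exists]
      exact ⟨fun ⟨y, hy, e1⟩ => by rwa [inv_app_eq (show x y = w from e1)],
        fun hw => ⟨_, hw, app_inv x w⟩⟩
  have hsm : ∀ (x : V ≃ₗ[F] V) (M : Submodule F V), x • M = M.map (x : V →ₗ[F] V) :=
    fun x M => Submodule.ext fun w => by rw [hm, mem_map_iff]
  have key : ∀ (x l : V ≃ₗ[F] V), (∀ t, (l * uu F e a h t * l⁻¹) • x • line F K e = x • line F K e) →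
      x • line F K e = l • line F K e := fun x l H => by
    have h1 : (l⁻¹ * x) • line F K e = line F K e := by
      have h0 : finrank F ((l⁻¹ * x) • line F K e : Submodule F V) = finrank F (line F K e) := by
        rw [hsm, LinearEquiv.finrank_map_eq]
      by_cases h2 : (l⁻¹ * x) • line F K e ≤ line F K e
      · exact Submodule.eq_of_le_of_finrank_eq h2 h0
      refine (Submodule.eq_of_le_of_finrank_eq ?_ h0.symm).symm
      obtain ⟨y, h3, h4⟩ := SetLike.not_le_iff_exists.1 h2
      refine R.line_le_of_inv (M := (l⁻¹ * x) • line F K e) (fun t y hy => ?_) h3 h4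
      have h5 : uu F e a h t • (l⁻¹ * x) • line F K e = (l⁻¹ * x) • line F K e := by
        conv_rhs => rw [mul_smul, ← H t]
        simp only [smul_smul, mul_assoc, inv_mul_cancel_left]
      rw [← h5, hm, inv_app]; exact hy
    conv_rhs => rw [← h1, smul_smul, mul_inv_cancel_left]
  let φ : Multiplicative K →* G := (R.uHom F).codRestrict G fun t => ⟨hX.uu _, R.u_fix _ hv⟩
  let ψ : Multiplicative K →* G := ((MulAut.conj k).toMonoidHom.comp (R.uHom F)).codRestrict G
    fun t => ⟨X.mul_mem (X.mul_mem hk (hX.uu _)) (X.inv_mem hk), by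
      change k (uu F e a h _ (k⁻¹ v)) = v
      rw [R.u_fix _ hkv, app_inv]⟩
  obtain ⟨y, hy⟩ := orbit_of_unique_fix hP φ ψ (x := line F K e) (y := k • line F K e)
    (fun t => (hsm _ _).trans (map_eq_of_le fun w hw => ⟨w, hw, R.u_fix _ hw⟩))
    (by
      rintro _ ⟨x, rfl⟩ H
      have := key x 1 fun t => by rw [one_mul, inv_one, mul_one]; exact H (Multiplicative.ofAdd t)
      rwa [one_smul] at this)
    (by
      rintro _ ⟨x, rfl⟩ H
      exact key x k fun t => H (Multiplicative.ofAdd t))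
  refine ⟨y.1⁻¹, X.inv_mem y.2.1, inv_app_eq y.2.2, fun w hw => ?_⟩
  have h1 : y.1 • line F K e = k • line F K e := hy
  rw [← hm, h1, hm, inv_app]
  exact hw

/-- The situation of an overgroup of `Ω_3(K)` in `SO_{3r}(F)`. -/
structure O3 (f : Form (FormType.quad F) V) (h : Form (FormType.quad K) V)
    (X : Subgroup (V ≃ₗ[F] V)) (e e' a : V) extends TExt f h where
  R : Fr3 h e e' a
  hX : Ov F h X
  hXO : X ≤ f.O
  hn : finrank K V = 3
  hr : (finrank F K).Prime
  hr3 : 3 ≤ finrank F K
  two : (2 : F) ≠ 0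
  neg : ∀ g ∈ X, ¬ ∀ v, g v = -v

namespace O3

variable [Finite K] [FiniteDimensional K V] (D : O3 f h X e e' a)
include D

theorem fdK : FiniteDimensional F K := Module.Finite.of_finite
theorem fd : FiniteDimensional F V := have := D.fdK; Module.Finite.trans K V

theorem perp_stab (hg : g ∈ X) (hW : ∀ w ∈ line F K e, g w ∈ line F K e) {y : V}
    (hy : h.B e y = 0) : h.B e (g y) = 0 :=
  have := D.fd; D.toTExt.perp_stab (D.hXO hg) (inv_mem_of_stab hW) hy

/-- In the dichotomy case the blocks are the singular lines. -/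
theorem sing_of_dich
    (hd : ∀ g ∈ X, kp (line F K e) g = ⊥ ∨ kp (line F K e) g = line F K e) (hg : g ∈ X) :
    ∃ x, x ≠ 0 ∧ h.q x = 0 ∧ g x ∈ line F K e := by
  have R := D.R
  obtain ⟨x, hx⟩ : ∃ x, g x = e := ⟨_, app_inv g e⟩
  have x0 : x ≠ 0 := by rintro rfl; exact R.ne (by simpa using hx.symm)
  have hxW : g x ∈ line F K e := by rw [hx]; exact self_mem_line e
  refine ⟨x, x0, ?_, hxW⟩
  by_contra hq
  have hxx : h.B x x ≠ 0 := by rw [h.quad_B_self]; exact mul_ne_zero R.two hq
  obtain ⟨b, c, hb, hc, xb, xc, bc, hsp⟩ := R.exists_perp_basis D.hn hq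
  have hb0 : h.q b ≠ 0 := by rw [hb]; exact neg_ne_zero.2 R.ha
  obtain ⟨b', hb', hbb, hγ⟩ := exists_rot D.two D.hr.two_le hb0 hc bc (Or.inl D.hr3)
  have xb' : h.B x b' = 0 := by
    obtain ⟨s, t, rfl⟩ := Submodule.mem_span_pair.1 hb'
    simp [xb, xc]
  have hrf : ∀ b, h.q b = -h.q a → h.B x b = 0 → ∀ y, g y ∈ line F K e →
      g (rf h b y) ∈ line F K e := fun b h1 h2 y hy => by
    obtain ⟨s, hs, h3⟩ := R.exists_halfTurn D.hn h1
    have := stab_of_dich hd hg (D.hX.E_le hs) hxW x0 (by
      rw [rs_apply, h3, rf_of_perp (h.B_eq_zero_symm h2), map_neg]; exact Submodule.neg_mem _ hxW) hy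
    rwa [rs_apply, h3, map_neg, Submodule.neg_mem_iff] at this
  have hba : b' ∉ K ∙ b := fun hm => by
    obtain ⟨s, rfl⟩ := Submodule.mem_span_singleton.1 hm
    refine hγ 4 ?_
    rw [quad_q_smul', eq_comm, mul_eq_right₀ hb0] at hbb
    rw [h.B_smul_right, h.quad_B_self, map_ofNat]
    field_simp
    linear_combination 4 * hbb
  have hsp' : ∀ y, h.B x y = 0 → y ∈ Submodule.span K {b, b'} := fun y hy => by
    obtain ⟨s, t, rfl⟩ := Submodule.mem_span_pair.1 hb'
    obtain ⟨s', t', rfl⟩ := Submodule.mem_span_pair.1 (hsp y hy)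
    have t0 : t ≠ 0 := by
      rintro rfl
      exact hba (by simpa using Submodule.smul_mem _ s (Submodule.mem_span_singleton_self b))
    refine Submodule.mem_span_pair.2 ⟨s' - t' / t * s, t' / t, ?_⟩
    match_scalars
    · field_simp; ring
    · field_simp
  set δ := (h.B b b' / h.q b) ^ 2 - 4 with hδ
  have h1 : ∀ y, g y ∈ line F K e → g (δ • (y - (h.B x y / h.B x x) • x)) ∈ line F K e := by
    intro y hy
    have h2 := rr_add hb0 hbb (hsp' (y - (h.B x y / h.B x x) • x) (by simp [div_mul_cancel₀ _ hxx]))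
    have h3 : ∀ b, h.B x b = 0 → ∀ y (c : K), rf h b (y - c • x) = rf h b y - c • x := fun b hb y c => by
      simp only [rf, map_sub, map_smul, h.B_eq_zero_symm hb, smul_zero, sub_zero]; abel
    rw [h3 b' xb', h3 b xb, h3 b xb, h3 b' xb'] at h2
    have h4 := Submodule.sub_mem _ (Submodule.add_mem _
      (hrf b hb xb _ (hrf b' (hbb ▸ hb) xb' y hy)) (hrf b' (hbb ▸ hb) xb' _ (hrf b hb xb y hy)))
      (Submodule.add_mem _ hy hy)
    rw [← map_add, ← map_add, ← map_sub] at h4
    convert h4 using 2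
    rw [hδ]
    linear_combination (norm := module) -h2
  let S : Subalgebra F K :=
    { carrier := {t | ∀ y, h.B x y = 0 → g y ∈ line F K e → g (t • y) ∈ line F K e}
      mul_mem' := fun {s t} hs ht y h2 hy => by
        rw [mul_smul]; exact hs _ (by simp [h2]) (ht y h2 hy)
      add_mem' := fun {s t} hs ht y h2 hy => by
        rw [add_smul, map_add]; exact Submodule.add_mem _ (hs y h2 hy) (ht y h2 hy)
      algebraMap_mem' := fun s y _ hy => by
        rw [algebraMap_smul, map_smul]; exact Submodule.smul_mem _ _ hy }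
  have hδF : ∀ s : F, algebraMap F K s ≠ δ := fun s hs =>
    hγ (s + 4) (by rw [map_add, hs, map_ofNat, hδ, sub_add_cancel])
  have hS : S = ⊤ := by
    have := Subalgebra.isSimpleOrder_of_finrank_prime F K D.hr
    refine (eq_bot_or_eq_top S).resolve_left fun h0 => ?_
    have : δ ∈ S := fun y h2 hy => by simpa [h2] using h1 y hy
    rw [h0] at this
    obtain ⟨s, hs⟩ := Algebra.mem_bot.1 this
    exact hδF s hs
  refine hq (D.toTExt.q_eq_zero_of_le R.he R.ne (D.hXO hg) fun y hy => ?_)
  by_contra hm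
  set z := δ • (y - (h.B x y / h.B x x) • x) with hz
  have h2 : z ∉ K ∙ x := fun h2 => hm (by
    have h3 := Submodule.smul_mem _ δ⁻¹ h2
    rw [hz, inv_smul_smul₀ (by simpa using (hδF 0).symm)] at h3
    simpa using Submodule.add_mem _ h3
      (Submodule.smul_mem _ (h.B x y / h.B x x) (Submodule.mem_span_singleton_self x)))
  obtain ⟨φ, p1, p2⟩ := CL.Tv.exists_dual_one_zero h2
  refine x0 (eq_zero_of_surj φ (fun c => ⟨c • z, ?_, by simp [p1]⟩) hxW p2)
  exact (show c ∈ S by rw [hS]; trivial) z (by simp [hz, div_mul_cancel₀ _ hxx]) (h1 y hy)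

end O3

end CL.ExtF
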