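/-
Extension-field subgroups of type `O_3(q^r)`: the case of trivial level.
-/
import Mathlib
import Cfsg.Agent.CLAS.ExtO5

set_option autoImplicit false
set_option linter.unusedSectionVars false

namespace CL.ExtF

open Module CL.Witt CL.Witt.Form

attribute [-simp] LinearEquiv.coe_inv

variable {F K : Type*} [Field F] [Field K] [Algebra F K] {V : Type*} [AddCommGroup V] [Module F V]
  [Module K V] [IsScalarTower F K V] {X : Subgroup (V ≃ₗ[F] V)} {e e' a : V} {g j : V ≃ₗ[F] V}
  {f : Form (FormType.quad F) V} {h : Form (FormType.quad K) V}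

variable (K h X e) in
/-- An element inverting the root group. -/
structure IsJ (j : V ≃ₗ[F] V) : Prop where
  mem : j ∈ X
  neg : ∀ w ∈ line F K e, j w = -w
  mid : ∀ y, h.B e y = 0 → j y - y ∈ line F K e

theorem eq_zero_of_add_self (h2 : (2 : F) ≠ 0) {w : V} (H : w + w = 0) : w = 0 := by
  rwa [← two_smul F, smul_eq_zero_iff_right h2] at H

namespace O3

variable [Finite K] [FiniteDimensional K V] (D : O3 f h X e e' a) (hb : lv h X D.R.he = ⊥)
include D hb

theorem rad_eq_u {z : V ≃ₗ[F] V} (hz : z ∈ X) (fix : ∀ w ∈ line F K e, z w = w)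
    (hp : ∀ y, h.B e y = 0 → z y - y ∈ line F K e) : ∃ t, z = uu F e a h t := by
  have R := D.R
  obtain ⟨m, hm⟩ := D.toTExt.theta_of_lv_bot D.hX D.hXO R.nondeg R.he R.ne hb hz
    (fun c => fix _ (smul_mem_line c e)) hp
  have hme : h.B m e = 0 := by
    have := hm e R.ee
    rwa [fix e (self_mem_line e), left_eq_add, smul_eq_zero_iff_left R.ne] at this
  refine ⟨-(h.B m a / (2 * h.q a)), ?_⟩
  have h1 := X.mul_mem (X.inv_mem (D.hX.uu (e := e) (a := a) (-(h.B m a / (2 * h.q a))))) hz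
  obtain ⟨β, hβ, h2⟩ := D.toTExt.exists_lv R.nondeg R.he R.ne h1 (D.hXO h1) fun y hy => by
    rw [mul_app]
    refine inv_app_eq ?_
    rw [R.u_perp _ hy, hm y hy]
    conv_rhs => rw [show h.B m y = h.B m (h.B e' y • e + (h.B a y / (2 * h.q a)) • a) by
      rw [← R.perp_eq hy]]
    simp only [map_add, map_smul, hme, smul_eq_mul]
    match_scalars <;> ring
  rw [hb, AddSubgroup.mem_bot] at hβ
  refine (inv_mul_eq_one.1 (LinearEquiv.ext fun x => ?_)).symm
  simpa [hβ] using h2 x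

theorem conj_u (hg : g ∈ X) (hW : ∀ w ∈ line F K e, g w ∈ line F K e) (t : K) :
    ∃ t', g * uu F e a h t * g⁻¹ = uu F e a h t' ∧
      ∀ y, h.B e y = 0 → g ((t * h.B a y) • e) = (t' * h.B a (g y)) • e := by
  have := D.fd
  have R := D.R
  have hW' := inv_mem_of_stab hW
  obtain ⟨t', ht'⟩ := D.rad_eq_u hb (X.mul_mem (X.mul_mem hg (D.hX.uu (e := e) (a := a) t))
    (X.inv_mem hg)) (fun w hw => by rw [mul_app, mul_app, R.u_fix _ (hW' w hw), app_inv])
    fun y hy => by
      rw [mul_app, mul_app, R.u_perp _ (D.perp_stab (X.inv_mem hg) hW' hy), map_sub, app_inv,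
        sub_sub_cancel_left]
      exact Submodule.neg_mem _ (hW _ (smul_mem_line _ _))
  refine ⟨t', ht', fun y hy => ?_⟩
  have h1 := LinearEquiv.congr_fun ht' (g y)
  rwa [mul_app, mul_app, inv_app, R.u_perp _ hy, R.u_perp _ (D.perp_stab hg hW hy), map_sub,
    sub_right_inj] at h1

/-- The stabilizer of the line acts semilinearly on the factors of its flag. -/
theorem exists_semi (hg : g ∈ X) (hW : ∀ w ∈ line F K e, g w ∈ line F K e) :
    ∃ (σ : K ≃ₐ[F] K) (c : K), (∀ (s : K), ∀ w ∈ line F K e, g (s • w) = σ s • g w) ∧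
      (∀ (s : K) y, h.B e y = 0 → h.B a (g (s • y)) = σ s * h.B a (g y)) ∧
      ∀ t, g * uu F e a h t * g⁻¹ = uu F e a h (c * σ t) := by
  have R := D.R
  choose θ h1 h2 using D.conj_u hb hg hW
  choose g0 h3 using fun x : K => mem_line.1 (hW _ (smul_mem_line x e))
  have inj : ∀ {x y : K}, x • e = y • e → x = y := fun H => smul_left_injective K R.ne H
  let g1 : K → K := fun s => h.B a (g ((s / (2 * h.q a)) • a))
  have h4 : ∀ t s, g0 (t * s) = θ t * g1 s := fun t s => inj (by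
    rw [h3, ← h2 t _ (by simp [R.ea]), h.B_smul_right, Fr3.aa, div_mul_cancel₀ _ R.k2])
  have g01 : g0 1 ≠ 0 := fun h0 => R.ne (g.injective (by
    rw [← one_smul K e, ← h3, h0, zero_smul, map_zero]))
  have θ1 : θ 1 ≠ 0 := fun h0 => g01 (by rw [← mul_one (1 : K), h4, h0, zero_mul])
  have g11 : g1 1 ≠ 0 := fun h0 => g01 (by rw [← mul_one (1 : K), h4, h0, mul_zero])
  have h5 : ∀ x y, g0 (x * y) * g0 1 = g0 x * g0 y := fun x y => by
    have e1 := h4 x 1
    have e2 := h4 1 y
    have e3 := h4 1 1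
    rw [mul_one] at e1 e3
    rw [one_mul] at e2
    rw [h4, e1, e2, e3]; ring
  let σ : K →ₐ[F] K :=
    { toFun := fun x => g0 x / g0 1
      map_one' := div_self g01
      map_mul' := fun x y => by field_simp; exact h5 x y
      map_zero' := by
        rw [show g0 0 = 0 from inj (by rw [h3]; simp), zero_div]
      map_add' := fun x y => by
        rw [← add_div, show g0 (x + y) = g0 x + g0 y from inj (by
          rw [add_smul, h3, h3, h3, add_smul, map_add])]
      commutes' := fun s => by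
        rw [div_eq_iff g01]
        exact inj (by rw [h3, mul_smul, h3, algebraMap_smul, algebraMap_smul, map_smul, one_smul]) }
  have hσ : ∀ x y, g0 (x * y) = σ x * g0 y := fun x y => by
    change _ = g0 x / g0 1 * _
    field_simp; exact h5 x y
  refine ⟨AlgEquiv.ofBijective σ (Finite.injective_iff_bijective.1 σ.injective), θ 1,
    fun s w hw => ?_, fun s y hy => ?_, fun t => ?_⟩
  · obtain ⟨x, rfl⟩ := mem_line.1 hw
    rw [smul_smul, ← h3, ← h3, hσ, smul_smul]; rfl
  · have e1 := h2 1 _ hy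
    have e2 := h2 1 (s • y) (by simp [hy])
    rw [← h3] at e1 e2
    have e3 := inj e2
    rw [one_mul, h.B_smul_right, hσ, ← one_mul (h.B a y), inj e1] at e3
    refine mul_left_cancel₀ θ1 ?_
    rw [← e3]; change _ = θ 1 * (σ s * _); ring
  · rw [h1]
    congr 1
    have e1 := hσ t 1
    have e2 := h4 1 1
    rw [mul_one] at e2
    rw [h4, e2] at e1
    refine mul_right_cancel₀ g11 ?_
    rw [e1]; change _ = θ 1 * σ t * _; ring

theorem not_neg_mid (hg : g ∈ X) (h1 : ∀ w ∈ line F K e, g w = -w)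
    (h2 : ∀ y, h.B e y = 0 → g y + y ∈ line F K e) : False := by
  have R := D.R
  have hW : ∀ w ∈ line F K e, g w ∈ line F K e := fun w hw => by
    rw [h1 w hw]; exact Submodule.neg_mem _ hw
  have h3 : ∀ y, h.B e y = 0 → h.B a (g y) = -h.B a y := fun y hy => by
    have := R.Ba_line (h2 y hy)
    rwa [map_add, add_eq_zero_iff_eq_neg] at this
  have hc : ∀ t, g * uu F e a h t = uu F e a h t * g := fun t => by
    obtain ⟨t', h4, h5⟩ := D.conj_u hb hg hW t
    have h6 := h5 a R.ea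
    rw [h1 _ (smul_mem_line _ _), h3 a R.ea, mul_neg, neg_smul, neg_inj, Fr3.aa] at h6
    rw [← mul_right_cancel₀ R.k2 (smul_left_injective K R.ne h6)] at h4
    exact mul_inv_eq_iff_eq_mul.1 h4
  obtain ⟨t, ht⟩ := D.rad_eq_u hb (X.mul_mem hg hg)
    (fun w hw => by rw [mul_app, h1 w hw, map_neg, h1 w hw, neg_neg]) fun y hy => by
      have := Submodule.sub_mem _ (hW _ (h2 y hy)) (h2 y hy)
      convert this using 1
      rw [map_add, mul_app]; abel
  let k := g * uu F e a h (-(t / 2))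
  have hk : k ∈ X := X.mul_mem hg (D.hX.uu _)
  have hkk : ∀ v, k (k v) = v := fun v => by
    have : k * k = 1 := by
      rw [show k * k = g * (uu F e a h (-(t / 2)) * g) * uu F e a h (-(t / 2)) by
        simp only [k, mul_assoc], ← hc, ← mul_assoc, ht, ← R.u_add, ← R.u_add,
        show t + -(t / 2) + -(t / 2) = 0 by have := R.two; field_simp; ring, R.u_zero]
    exact LinearEquiv.congr_fun this v
  have k1 : ∀ w ∈ line F K e, k w = -w := fun w hw => by rw [mul_app, R.u_fix _ hw, h1 w hw]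
  have key : ∀ v, k v + v ∈ line F K e → k v = -v := fun v hv => by
    have := k1 _ hv
    rw [map_add, hkk] at this
    exact eq_neg_of_add_eq_zero_left (eq_zero_of_add_self D.two
      (by linear_combination (norm := module) this))
  have k2 : ∀ y, h.B e y = 0 → k y = -y := fun y hy => key y (by
    rw [mul_app, R.u_perp _ hy, map_sub, sub_add_eq_add_sub]
    exact Submodule.sub_mem _ (h2 y hy) (hW _ (smul_mem_line _ _)))
  refine D.neg k hk fun v => key v (D.toTExt.mem_line_of R.nondeg fun y hy => ?_)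
  rw [f.B_add_left, ← mem_O_B (D.hXO hk) v y, k2 y hy, map_neg, add_neg_cancel]

theorem mid_cases (hg : g ∈ X) (hW : ∀ w ∈ line F K e, g w ∈ line F K e) {n : V}
    (hn : n ∈ line F K e) (n0 : n ≠ 0) (H : ∀ s : K, g (s • n) = s • g n) :
    (∀ y, h.B e y = 0 → g y - y ∈ line F K e) ∨ ∀ y, h.B e y = 0 → g y + y ∈ line F K e := by
  have R := D.R
  obtain ⟨σ, c, h1, h2, -⟩ := D.exists_semi hb hg hW
  have hσ : ∀ s, σ s = s := fun s => smul_left_injective K (show g n ≠ 0 by simpa using n0)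
    ((h1 s n hn).symm.trans (H s))
  set μ := h.B a (g a) / (2 * h.q a) with hμ
  have h3 : ∀ y, h.B e y = 0 → h.B a (g y) = μ * h.B a y := fun y hy => by
    conv_lhs => rw [R.perp_eq hy, map_add, map_add, R.Ba_line (hW _ (smul_mem_line _ _)),
      h2 _ _ R.ea, hσ]
    rw [hμ]; ring
  have h4 : μ * μ = 1 := by
    refine sub_eq_zero.1 (mul_right_cancel₀ R.k2 ((eq_zero_of_forall_mul D.τ_ne fun s => ?_).trans
      (zero_mul _).symm))
    have e1 := mem_O_B (D.hXO hg) (s • a) a
    have e2 : h.B e (s • a) = 0 := by simp [R.ea]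
    rw [D.hB, D.hB, R.perp_eq (D.perp_stab hg hW e2), R.perp_eq (D.perp_stab hg hW R.ea), h3 _ e2,
      h3 _ R.ea] at e1
    simp only [map_add, map_smul, LinearMap.add_apply, h.B_smul_left, FormType.quad_σ, smul_eq_mul,
      R.ee, R.ea, R.ae, Fr3.aa, mul_zero, zero_add] at e1
    rw [← sub_eq_zero, ← map_sub] at e1
    rw [← e1]
    congr 1
    have := R.ha
    have := R.two
    field_simp
  rcases mul_self_eq_one_iff.1 h4 with h5 | h5
  · exact Or.inl fun y hy => R.mem_line_of (by simp [hy, D.perp_stab hg hW hy])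
      (by simp [h3 y hy, h5])
  · exact Or.inr fun y hy => R.mem_line_of (by simp [hy, D.perp_stab hg hW hy])
      (by simp [h3 y hy, h5])

theorem isJ_of_lin (hg : g ∈ X) {n : V} (hn : n ∈ line F K e) (n0 : n ≠ 0)
    (H : ∀ s : K, g (s • n) = -(s • n)) : IsJ K X e h g := by
  have h1 : ∀ w ∈ line F K e, g w = -w := fun w hw => by
    rw [← line_eq_of_mem hn n0] at hw
    obtain ⟨s, rfl⟩ := mem_line.1 hw
    exact H s
  refine ⟨hg, h1, (D.mid_cases hb hg (fun w hw => ?_) hn n0 fun s => ?_).resolve_right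
    (D.not_neg_mid hb hg h1)⟩
  · rw [h1 w hw]; exact Submodule.neg_mem _ hw
  · rw [H, h1 n hn, smul_neg]

omit hb in
theorem odd_r : Odd (finrank F K) := D.hr.odd_of_ne_two (by have := D.hr3; omega)

theorem isJ_of_sq (hg : g ∈ X) (hW : ∀ w ∈ line F K e, g w ∈ line F K e) (h2 : g * g = 1) {n : V}
    (hn : n ∈ line F K e) (n0 : n ≠ 0) (H : g n = -n) : IsJ K X e h g := by
  obtain ⟨σ, c, h1, -⟩ := D.exists_semi hb hg hW
  have h3 : σ ^ 2 = 1 := AlgEquiv.ext fun s => smul_left_injective K n0 (by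
    have := LinearEquiv.congr_fun h2 (s • n)
    rw [mul_app, h1 s n hn, h1 _ _ (hW n hn), ← mul_app, h2] at this
    simpa [pow_two] using this)
  obtain ⟨k, hk⟩ := D.odd_r
  have h4 := aut_pow_finrank σ
  rw [hk, pow_succ, pow_mul, h3, one_pow, one_mul] at h4
  exact D.isJ_of_lin hb hg hn n0 fun s => by rw [h1 s n hn, h4, H, smul_neg]; rfl

theorem exists_J (hg : g ∈ X) (hW : ∀ w ∈ line F K e, g w ∈ line F K e) {n : V}
    (hn : n ∈ line F K e) (n0 : n ≠ 0) (H : g n = -n) : ∃ j : V ≃ₗ[F] V, IsJ K X e h j := by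
  obtain ⟨σ, c, h1, -⟩ := D.exists_semi hb hg hW
  have h2 : ∀ k : ℕ, ∀ s : K, (g ^ k) (s • n) = (-1 : F) ^ k • (σ ^ k) s • n := fun k => by
    induction k with
    | zero => simp
    | succ k ih =>
      intro s
      rw [pow_succ', mul_app, ih, map_smul, h1 _ n hn, H, pow_succ' σ, pow_succ, AlgEquiv.mul_apply]
      simp
  refine ⟨g ^ finrank F K, D.isJ_of_lin hb (X.pow_mem hg _) hn n0 fun s => ?_⟩
  rw [h2, aut_pow_finrank, D.odd_r.neg_one_pow]; simp

theorem _root_.CL.ExtF.IsJ.conj (hj : IsJ K X e h j) (t : K) :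
    j * uu F e a h t * j⁻¹ = uu F e a h (-t) := by
  have R := D.R
  obtain ⟨t', h4, h5⟩ := D.conj_u hb hj.mem
    (fun w hw => by rw [hj.neg w hw]; exact Submodule.neg_mem _ hw) t
  have h6 := h5 a R.ea
  have h3 := R.Ba_line (hj.mid a R.ea)
  rw [map_sub, sub_eq_zero] at h3
  rw [hj.neg _ (smul_mem_line _ _), h3, ← neg_smul, ← neg_mul, Fr3.aa] at h6
  rw [h4, mul_right_cancel₀ R.k2 (smul_left_injective K R.ne h6)]

theorem _root_.CL.ExtF.IsJ.rad (hj : IsJ K X e h j) {k : V ≃ₗ[F] V} (hk : IsJ K X e h k) :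
    ∃ t, j * k = uu F e a h t :=
  D.rad_eq_u hb (X.mul_mem hj.mem hk.mem)
    (fun w hw => by rw [mul_app, hk.neg w hw, map_neg, hj.neg w hw, neg_neg]) fun y hy => by
      have h1 := hk.mid y hy
      have h2 := hj.neg _ h1
      have := Submodule.sub_mem _ (hj.mid y hy) h1
      convert this using 1
      rw [map_sub] at h2
      rw [mul_app]
      linear_combination (norm := module) h2

theorem _root_.CL.ExtF.IsJ.sq (hj : IsJ K X e h j) : j * j = 1 := by
  obtain ⟨t, ht⟩ := hj.rad D hb hj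
  have h1 := hj.conj D hb t
  rw [← ht, mul_assoc, mul_assoc, mul_inv_cancel, mul_one, ht] at h1
  have h2 := D.R.u_inj h1
  rw [ht, eq_zero_of_add_self (V := K) D.two (eq_neg_iff_add_eq_zero.1 h2), D.R.u_zero]

omit hb in
theorem _root_.CL.ExtF.IsJ.u_mul (hj : IsJ K X e h j) (t : K) : IsJ K X e h (uu F e a h t * j) := by
  have hW : ∀ w ∈ line F K e, j w ∈ line F K e := fun w hw => by
    rw [hj.neg w hw]; exact Submodule.neg_mem _ hw
  refine ⟨X.mul_mem (D.hX.uu t) hj.mem, fun w hw => ?_, fun y hy => ?_⟩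
  · rw [mul_app, D.R.u_fix _ (hW w hw), hj.neg w hw]
  · rw [mul_app, D.R.u_perp _ (D.perp_stab hj.mem hW hy), sub_right_comm]
    exact Submodule.sub_mem _ (hj.mid y hy) (smul_mem_line _ _)

theorem _root_.CL.ExtF.IsJ.conj_stab (hj : IsJ K X e h j) (hg : g ∈ X)
    (hW : ∀ w ∈ line F K e, g w ∈ line F K e) : IsJ K X e h (g * j * g⁻¹) := by
  have := D.fd
  have hW' := inv_mem_of_stab hW
  refine ⟨X.mul_mem (X.mul_mem hg hj.mem) (X.inv_mem hg), fun w hw => ?_, fun y hy => ?_⟩
  · rw [mul_app, mul_app, hj.neg _ (hW' w hw), map_neg, app_inv]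
  · have := hW _ (hj.mid _ (D.perp_stab (X.inv_mem hg) hW' hy))
    rwa [map_sub, app_inv] at this

/-- If two blocks meet non-trivially there is an element inverting the root group. -/
theorem exists_J_of_kp (hg : g ∈ X) (h1 : kp (line F K e) g ≠ ⊥)
    (h2 : kp (line F K e) g ≠ line F K e) : ∃ j : V ≃ₗ[F] V, IsJ K X e h j := by
  have := D.fd
  have R := D.R
  obtain ⟨n, hn, n0⟩ := Submodule.exists_mem_ne_zero_of_ne_bot h1
  obtain ⟨w, hw, hw'⟩ := exists_moved (g := g⁻¹) fun h0 => h2 (by simpa using kp_inv_eq h0)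
  obtain ⟨v, hv, hq⟩ : ∃ v, g v ∈ line F K e ∧ h.q v ≠ 0 := by
    by_cases h3 : h.q (g⁻¹ w) = 0
    · refine ⟨n + g⁻¹ w, by rw [map_add, app_inv]; exact Submodule.add_mem _ hn.2 hw, ?_⟩
      obtain ⟨c, rfl⟩ := mem_line.1 hn.1
      rw [h.quad_q_add, h3, h.q_smul_eq_zero R.he, h.B_smul_left, zero_add, zero_add]
      refine mul_ne_zero (by rintro rfl; simp at n0) fun h4 => hw' (R.mem_line_of h4 ?_)
      by_contra h5
      exact R.q_perp h4 h5 h3
    · exact ⟨_, by rwa [app_inv], h3⟩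
  obtain ⟨k, hk, hkv⟩ := R.exists_neg D.hn hq
  have hk' := X.mul_mem (X.mul_mem hg (D.hX.E_le hk)) (X.inv_mem hg)
  have h3 : (g * rs F K V k * g⁻¹) (g v) = -g v := by
    rw [mul_app, mul_app, inv_app, rs_apply, hkv, map_neg]
  obtain ⟨y, hy, h4, h5⟩ := R.exists_fix_stab D.hX hv hk' (by
    rw [inv_app_eq (v := -g v) (by rw [map_neg, h3, neg_neg])]; exact Submodule.neg_mem _ hv)
  refine D.exists_J hb (X.mul_mem hy hk') h5 hv (fun h0 => hq ?_) (by rw [mul_app, h3, map_neg, h4])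
  rw [g.map_eq_zero_iff.1 h0, h.q_zero]

end O3

end CL.ExtF
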