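/-
Extension-field subgroups of type `O_3(q^r)` are maximal.
-/
import Mathlib
import Cfsg.Agent.CLAS.ExtO6

set_option autoImplicit false
set_option linter.unusedSectionVars false

namespace CL.ExtF

open Module CL.Witt CL.Witt.Form CL.Root

attribute [-simp] LinearEquiv.coe_inv

variable {F K : Type*} [Field F] [Field K] [Algebra F K] {V : Type*} [AddCommGroup V] [Module F V]
  [Module K V] [IsScalarTower F K V] {X : Subgroup (V ≃ₗ[F] V)} {e e' a : V} {g j : V ≃ₗ[F] V}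
  {f : Form (FormType.quad F) V} {h : Form (FormType.quad K) V}

variable (X e h) in
/-- There is an optimal pair that is not perfect. -/
def NP : Prop := ∃ g, Opt X (line F K e) g ∧ kp (line F K e) g ≠ ⊥ ∧
  ∃ x, g x ∈ line F K e ∧ x ∉ line F K e ∧ h.B e x = 0

theorem opt_of_pair [FiniteDimensional F V] {W : Submodule F V} (ho : Opt X W g)
    (hb : kp W g ≠ ⊥) {k l : V ≃ₗ[F] V} (hk : k ∈ X) (hl : l ∈ X)
    (h1 : kp W g ≤ W.map (k : V →ₗ[F] V)) (h2 : kp W g ≤ W.map (l : V →ₗ[F] V))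
    (hne : W.map (k : V →ₗ[F] V) ≠ W.map (l : V →ₗ[F] V)) :
    Opt X W (l⁻¹ * k) ∧ kp W (l⁻¹ * k) ≠ ⊥ := by
  have h3 : kp W (l⁻¹ * k) ≠ W := fun h0 => hne (Submodule.eq_of_le_of_finrank_eq
    (by rintro _ ⟨w, hw, rfl⟩; exact mem_map_iff.2 (mem_of_kp_eq h0 hw))
    (by rw [LinearEquiv.finrank_map_eq, LinearEquiv.finrank_map_eq]))
  have h4 : (kp W g).map ((k⁻¹ : V ≃ₗ[F] V) : V →ₗ[F] V) ≤ kp W (l⁻¹ * k) := by
    rintro _ ⟨n, hn, rfl⟩
    exact mem_kp.2 ⟨mem_map_iff.1 (h1 hn), by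
      rw [LinearEquiv.coe_coe, mul_app, app_inv]; exact mem_map_iff.1 (h2 hn)⟩
  have h5 : Opt X W (l⁻¹ * k) := ⟨X.mul_mem (X.inv_mem hl) hk, h3, fun m hm hm' =>
    (ho.max m hm hm').trans ((LinearEquiv.finrank_map_eq k⁻¹ _).ge.trans (Submodule.finrank_mono h4))⟩
  exact ⟨h5, h5.ne_bot ho.mem ho.ne hb⟩

namespace O3

variable [Finite K] [FiniteDimensional K V] (D : O3 f h X e e' a)
include D

theorem np_of (ho : Opt X (line F K e) g) (hb : kp (line F K e) g ≠ ⊥) {k : V ≃ₗ[F] V} (hk : k ∈ X)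
    (fix : ∀ w ∈ line F K e, k w = w) {x : V} (hx : g x ∈ line F K e) (h1 : g (k x) ∉ line F K e)
    (H : ∀ y, g y ∈ line F K e → f.B y (k x) = 0) : NP X e h := by
  have := D.fd
  have hk' := X.mul_mem (X.mul_mem ho.mem hk) (X.inv_mem ho.mem)
  have hne : kp (line F K e) (g * k * g⁻¹) ≠ line F K e := fun h0 =>
    h1 (by simpa only [mul_app, inv_app] using mem_of_kp_eq h0 hx)
  have h4 := ho.of_le hk' hne fun w hw => mem_kp.2 ⟨hw.1, by
    rw [mul_app, mul_app, fix _ (mem_kp.1 hw).2, app_inv]; exact hw.1⟩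
  refine ⟨_, h4.inv, h4.inv.ne_bot ho.mem ho.ne hb, g (k x), ?_, h1,
    D.toTExt.perp_of_line fun w hw => ?_⟩
  · rwa [inv_app_eq (v := g x) (by rw [mul_app, mul_app, inv_app])]
  · rw [← app_inv g w, mem_O_B (D.hXO ho.mem)]
    exact H _ (by rwa [app_inv])

theorem perf (hnp : ¬ NP X e h) (ho : Opt X (line F K e) g) (hb : kp (line F K e) g ≠ ⊥) {y : V}
    (hy : g y ∈ line F K e) (h0 : h.B e y = 0) : y ∈ line F K e := by
  by_contra h1
  exact hnp ⟨g, ho, hb, y, hy, h1, h0⟩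

theorem eq_zero_of_perf (hnp : ¬ NP X e h) (ho : Opt X (line F K e) g)
    (hb : kp (line F K e) g ≠ ⊥) {x : V} (hx : g x ∈ line F K e) (hx' : x ∉ line F K e) {t c : K}
    (H : g (uu F e a h t x + c • e) ∈ line F K e) : t = 0 := by
  have R := D.R
  have h1 := R.Ba_line (D.perf hnp ho hb (y := uu F e a h t x + c • e - x)
    (by rw [map_sub]; exact Submodule.sub_mem _ H hx) (by simp [R.Be_u, R.ee]))
  simp only [map_sub, map_add, R.Ba_u, map_smul, R.ae, smul_zero, add_zero, add_sub_cancel_left,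
    mul_eq_zero_iff_right R.k2] at h1
  exact (mul_eq_zero.1 h1).resolve_left fun h0 => hx' (D.perf hnp ho hb hx h0)

omit D in
theorem exists_out [FiniteDimensional F V] (ho : Opt X (line F K e) g) :
    ∃ x, g x ∈ line F K e ∧ x ∉ line F K e := by
  obtain ⟨w, hw, hw'⟩ := exists_moved ho.inv.ne
  exact ⟨_, by rwa [app_inv], hw'⟩

/-- An element inverting the root group fixes only one block through an optimal intersection. -/
theorem not_fix (hb : lv h X D.R.he = ⊥) (hnp : ¬ NP X e h) (hj : IsJ K X e h j)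
    (ho : Opt X (line F K e) g) (hk : kp (line F K e) g ≠ ⊥)
    (H : ∀ y, g y ∈ line F K e → g (j y) ∈ line F K e) : False := by
  have := D.fd
  have R := D.R
  obtain ⟨n, hn, n0⟩ := Submodule.exists_mem_ne_zero_of_ne_bot hk
  have hn2 : g n ∈ line F K e := hn.2
  have hj' := D.isJ_of_sq hb (X.mul_mem (X.mul_mem ho.mem hj.mem) (X.inv_mem ho.mem))
    (fun w hw => H (g⁻¹ w) (by rwa [app_inv]))
    (by rw [conj_mul, hj.sq D hb, mul_one, mul_inv_cancel]) hn2 (by simpa using n0)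
    (by rw [mul_app, mul_app, inv_app, hj.neg n hn.1, map_neg])
  have h1 : ∀ y, g y ∈ line F K e → j y = -y := fun y hy => g.injective (by
    have := hj'.neg _ hy
    rwa [mul_app, mul_app, inv_app, ← map_neg] at this)
  obtain ⟨x, hx, hx'⟩ := exists_out ho
  have hγ : h.B e x ≠ 0 := fun h0 => hx' (D.perf hnp ho hk hx h0)
  obtain ⟨ν, rfl⟩ := mem_line.1 hn.1
  have ν0 : ν ≠ 0 := by rintro rfl; simp at n0
  obtain ⟨s, t, -, t0, hst⟩ := exists_eq_mul_sq D.two D.odd_r
    (div_ne_zero (mul_ne_zero R.ha hγ) ν0)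
  refine hnp (D.np_of ho hk (D.hX.uu t) (fun w hw => R.u_fix t hw) hx
    (fun h2 => t0 (D.eq_zero_of_perf hnp ho hk hx hx' (c := 0) (by simpa using h2))) fun y hy => ?_)
  have h2 : f.B y (uu F e a h t x) = f.B y (uu F e a h (-t) x) := by
    have h3 := LinearEquiv.congr_fun (hj.conj D hb t) (j x)
    rw [mul_app, mul_app, inv_app, h1 x hx, map_neg] at h3
    rw [← mem_O_B (D.hXO hj.mem), h3, h1 y hy]; simp
  have h3 : uu F e a h t x + uu F e a h (-t) x = x + x - (s • ν • e + s • ν • e) := by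
    rw [R.u_apply, R.u_apply, ← algebraMap_smul K s, ← hst, smul_smul]
    match_scalars
    · ring
    · ring
    · field_simp; ring
  refine eq_zero_of_add_self (V := F) D.two ?_
  nth_rewrite 2 [h2]
  rw [← map_add, h3]
  simp [D.toTExt.f_block (D.hXO ho.mem) R.he hy hx, D.toTExt.f_block (D.hXO ho.mem) R.he hy hn2]

theorem not_fix' (hb : lv h X D.R.he = ⊥) (hnp : ¬ NP X e h) (hj : IsJ K X e h j)
    (ho : Opt X (line F K e) g) (hg : kp (line F K e) g ≠ ⊥) {k l : V ≃ₗ[F] V} (hk : k ∈ X)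
    (hl : l ∈ X) (h1 : kp (line F K e) g ≤ (line F K e).map (k : V →ₗ[F] V))
    (h2 : kp (line F K e) g ≤ (line F K e).map (l : V →ₗ[F] V))
    (H : ∀ y ∈ (line F K e).map (l : V →ₗ[F] V),
      (k * j * k⁻¹) y ∈ (line F K e).map (l : V →ₗ[F] V)) :
    (line F K e).map (k : V →ₗ[F] V) = (line F K e).map (l : V →ₗ[F] V) := by
  have := D.fd
  by_contra hne
  obtain ⟨h3, h4⟩ := opt_of_pair ho hg hk hl h1 h2 hne
  refine D.not_fix hb hnp hj h3 h4 fun y hy => ?_
  have := mem_map_iff.1 (H (k y) (mem_map_iff.2 hy))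
  rwa [mul_app, mul_app, inv_app] at this

/-- Counting involutions: with trivial level not all optimal pairs are perfect. -/
theorem np_of_lv_bot (hb : lv h X D.R.he = ⊥) (ho : Opt X (line F K e) g)
    (hg : kp (line F K e) g ≠ ⊥) : NP X e h := by
  by_contra hnp
  have := D.fd
  have := D.fdK
  have R := D.R
  have : Finite V := Module.finite_of_finite K
  have : Finite (Submodule F V) := Finite.of_injective _ SetLike.coe_injective
  obtain ⟨j, hj⟩ := D.exists_J_of_kp hb ho.mem hg ho.ne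
  obtain ⟨n, hn, n0⟩ := Submodule.exists_mem_ne_zero_of_ne_bot hg
  let Ω := {M : Submodule F V // (∃ k ∈ X, (line F K e).map (k : V →ₗ[F] V) = M) ∧
    kp (line F K e) g ≤ M ∧ M ≠ line F K e}
  choose κ hκ hκ' using fun M : Ω => M.2.1
  let ι : Ω × K → V ≃ₗ[F] V := fun z => κ z.1 * (uu F e a h z.2 * j) * (κ z.1)⁻¹
  have ι1 : ∀ z, ι z ∈ X := fun z =>
    X.mul_mem (X.mul_mem (hκ _) (hj.u_mul D _).mem) (X.inv_mem (hκ _))
  have ι2 : ∀ z, ι z * ι z = 1 := fun z => by
    rw [conj_mul, (hj.u_mul D _).sq D hb, mul_one, mul_inv_cancel]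
  have ι2' : ∀ z v, ι z (ι z v) = v := fun z v => LinearEquiv.congr_fun (ι2 z) v
  have ι3 : ∀ z, ∀ w ∈ z.1.1, ι z w = -w := fun z w hw => by
    rw [← hκ'] at hw
    rw [mul_app, mul_app, (hj.u_mul D _).neg _ (mem_map_iff.1 hw), map_neg, app_inv]
  have one : (line F K e).map ((1 : V ≃ₗ[F] V) : V →ₗ[F] V) = line F K e := Submodule.map_id _
  let Φ : Ω × K → Ω := fun z => ⟨(line F K e).map (ι z : V →ₗ[F] V), ⟨_, ι1 z, rfl⟩,
    fun w hw => ⟨-w, Submodule.neg_mem _ hw.1, by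
      rw [LinearEquiv.coe_coe, map_neg, ι3 z w (z.1.2.2.1 hw), neg_neg]⟩,
    fun h0 => z.1.2.2.2 (by
      rw [← hκ', D.not_fix' hb hnp (hj.u_mul D z.2) ho hg (hκ z.1) X.one_mem
        (by rw [hκ']; exact z.1.2.2.1) (by rw [one]; exact kp_le _ _) (by
          rw [one]; intro y hy; rw [← h0]; exact ⟨y, hy, rfl⟩), one])⟩
  have hst : ∀ z, ∀ w ∈ line F K e, ((κ (Φ z))⁻¹ * ι z) w ∈ line F K e := fun z w hw => by
    rw [mul_app, ← mem_map_iff, hκ']; exact ⟨w, hw, rfl⟩
  choose σ c hσ _ using fun z => D.exists_semi hb (X.mul_mem (X.inv_mem (hκ (Φ z))) (ι1 z)) (hst z)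
  have hinj : Function.Injective fun z => (Φ z, σ z) := by
    intro z z' hz
    obtain ⟨e1, e2⟩ := Prod.mk.inj hz
    have e3 : (line F K e).map (ι z : V →ₗ[F] V) = (line F K e).map (ι z' : V →ₗ[F] V) :=
      congrArg Subtype.val e1
    have hzz := X.mul_mem (ι1 z) (ι1 z')
    have hW : ∀ w ∈ line F K e, (ι z * ι z') w ∈ line F K e := fun w hw => by
      obtain ⟨w', hw', h1⟩ : ι z' w ∈ (line F K e).map (ι z : V →ₗ[F] V) := e3 ▸ ⟨w, hw, rfl⟩
      rwa [mul_app, ← h1, LinearEquiv.coe_coe, ι2']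
    have hnn : (ι z * ι z') n = n := by
      rw [mul_app, ι3 _ _ (z'.1.2.2.1 hn), map_neg, ι3 _ _ (z.1.2.2.1 hn), neg_neg]
    have hlin : ∀ s : K, (ι z * ι z') (s • n) = s • n := fun s => by
      have h1 := hσ z s n hn.1
      have h2 := hσ z' s n hn.1
      rw [← e1, ← e2, mul_app, mul_app _ (ι z') n, ι3 _ _ (z'.1.2.2.1 hn)] at h2
      rw [mul_app, mul_app _ (ι z) n, ι3 _ _ (z.1.2.2.1 hn), ← h2] at h1
      rw [mul_app, ← (κ (Φ z))⁻¹.injective h1, ι2']
    have hfix : ∀ w ∈ line F K e, (ι z * ι z') w = w := fun w hw => by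
      rw [← line_eq_of_mem hn.1 n0] at hw
      obtain ⟨s, rfl⟩ := mem_line.1 hw
      exact hlin s
    rcases D.mid_cases hb hzz hW hn.1 n0 (fun s => by rw [hlin, hnn]) with h1 | h1
    swap
    · refine (D.not_neg_mid hb (X.mul_mem hj.mem hzz)
        (fun w hw => by rw [mul_app, hfix w hw, hj.neg w hw]) fun y hy => ?_).elim
      have h2 := hj.neg _ (h1 y hy)
      have := Submodule.sub_mem _ (Submodule.neg_mem _ (h1 y hy)) (hj.mid y hy)
      convert this using 1
      rw [map_add] at h2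
      rw [mul_app]
      linear_combination (norm := module) h2
    obtain ⟨t, ht⟩ := D.rad_eq_u hb hzz hfix h1
    obtain ⟨h2, h3⟩ := opt_of_pair ho hg X.one_mem (ι1 z) (by rw [one]; exact kp_le _ _)
      (Φ z).2.2.1 (by rw [one]; exact (Φ z).2.2.2.symm)
    rw [mul_one] at h2 h3
    obtain ⟨x, hx, hx'⟩ := exists_out h2
    have t0 : t = 0 := D.eq_zero_of_perf hnp h2 h3 hx hx' (c := 0) (by
      obtain ⟨w, hw, rfl⟩ : x ∈ (line F K e).map (ι z' : V →ₗ[F] V) := e3 ▸ mem_map_iff.2 hx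
      rwa [zero_smul, add_zero, ← ht, mul_app, inv_app, LinearEquiv.coe_coe, ι2'])
    rw [t0, R.u_zero, ← ι2 z] at ht
    have h4 : ι z = ι z' := (mul_left_cancel ht).symm
    have h5 : z.1 = z'.1 := Subtype.ext (by
      rw [← hκ', ← hκ']
      refine D.not_fix' hb hnp (hj.u_mul D z.2) ho hg (hκ z.1) (hκ z'.1)
        (by rw [hκ']; exact z.1.2.2.1) (by rw [hκ']; exact z'.1.2.2.1) fun y hy => ?_
      rw [hκ'] at hy ⊢
      change ι z y ∈ _
      rw [h4, ι3 _ _ hy]; exact Submodule.neg_mem _ hy)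
    refine Prod.ext h5 (R.u_inj (F := F) ?_)
    simpa only [ι, h5, mul_left_inj, mul_right_inj] using h4
  have h1 := Nat.card_le_card_of_injective _ hinj
  have : Finite F := Finite.of_injective _ (algebraMap F K).injective
  have : Nonempty Ω := ⟨⟨(line F K e).map ((g⁻¹ : V ≃ₗ[F] V) : V →ₗ[F] V), ⟨_, X.inv_mem ho.mem, rfl⟩,
    fun w hw => mem_map_iff.2 (by rw [inv_inv]; exact hw.2), fun h0 => by
      obtain ⟨x, hx, hx'⟩ := exists_out ho
      exact hx' (h0 ▸ mem_map_iff.2 (by rwa [inv_inv]))⟩⟩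
  rw [Nat.card_prod, Nat.card_prod, IsGalois.card_aut_eq_finrank,
    Module.natCard_eq_pow_finrank (K := F) (V := K)] at h1
  exact (Nat.lt_pow_self (Finite.one_lt_card (α := F))).not_ge
    (Nat.le_of_mul_le_mul_left h1 Nat.card_pos)

/-- With trivial level all optimal pairs are perfect. -/
theorem not_np_of_lv_bot (hb : lv h X D.R.he = ⊥) : ¬ NP X e h := by
  rintro ⟨g, ho, hg, x, hx, hx', hex⟩
  have := D.fd
  have := D.fdK
  have R := D.R
  obtain ⟨j, hj⟩ := D.exists_J_of_kp hb ho.mem hg ho.ne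
  obtain ⟨n, hn, n0⟩ := Submodule.exists_mem_ne_zero_of_ne_bot hg
  have hn2 : g n ∈ line F K e := hn.2
  have hax : h.B a x ≠ 0 := fun h0 => hx' (R.mem_line_of hex h0)
  obtain ⟨ν, hν⟩ := mem_line.1 hn.1
  have t0 : -(ν / h.B a x) ≠ 0 := by
    rw [neg_ne_zero, div_ne_zero_iff]
    exact ⟨by rintro rfl; exact n0 (by simpa using hν.symm), hax⟩
  set t := -(ν / h.B a x) with ht
  have hux : uu F e a h t x = x + n := by
    rw [R.u_perp _ hex, ht, neg_mul, div_mul_cancel₀ _ hax, neg_smul, hν, sub_neg_eq_add]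
  set z := g * uu F e a h t * g⁻¹ with hz
  have hzX : z ∈ X := X.mul_mem (X.mul_mem ho.mem (D.hX.uu t)) (X.inv_mem ho.mem)
  have hzg : ∀ v, z (g v) = g (uu F e a h t v) := fun v => by rw [hz, mul_app, mul_app, inv_app]
  have hW : ∀ w ∈ line F K e, z w ∈ line F K e :=
    ho.step (D.hX.uu t) (fun w hw => by rw [R.u_fix _ hw.1]; exact hw.2) hx (by rwa [inv_app])
      (by rw [inv_app, hux, map_add]; exact Submodule.add_mem _ hx hn2)
  obtain ⟨σ, c, h1, -, h2⟩ := D.exists_semi hb hzX hW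
  have gn0 : g n ≠ 0 := by simpa using n0
  have hzn : z (g n) = g n := by rw [hzg, R.u_fix _ hn.1]
  have hs : ∀ s : K, z (s • g n) = σ s • g n := fun s => by rw [h1 s _ hn2, hzn]
  have hσ : σ ≠ 1 := fun h0 => by
    obtain ⟨s, hs'⟩ := mem_line.1 (show g x ∈ line F K (g n) by rwa [line_eq_of_mem hn2 gn0])
    have := hs s
    rw [h0, AlgEquiv.one_apply, hs', hzg, hux, map_add, add_eq_left] at this
    exact gn0 this
  have hcube : ∀ s : K, σ (σ (σ s)) - 3 * σ (σ s) + 3 * σ s - s = 0 := fun s => by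
    obtain ⟨v, hv⟩ := g.surjective (s • g n)
    have h3 := congrArg g (R.u_sub_cube (F := F) t v)
    have h4 : ∀ w : V, (3 : K) • w = (3 : F) • w := fun w => by
      rw [← algebraMap_smul K (3 : F), map_ofNat]
    rw [h4, h4] at h3
    simp only [map_sub, map_add, map_smul, ← hzg, hv, hs, map_zero] at h3
    refine smul_left_injective K gn0 ?_
    simp only [← h4] at h3
    linear_combination (norm := module) h3
  have hr3 : finrank F K = 3 := by
    let M : K →ₗ[F] K := σ.toLinearMap - LinearMap.id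
    have h3 := finrank_ker_semi D.hr hσ 1 (M := M) (by simp [M])
    have h4 := finrank_ker_comp_le M M
    have h5 := finrank_ker_comp_le M (M ∘ₗ M)
    rw [show M ∘ₗ M ∘ₗ M = 0 from LinearMap.ext fun s => by
      simp only [M, LinearMap.comp_apply, LinearMap.sub_apply, AlgEquiv.toLinearMap_apply,
        LinearMap.id_apply, map_sub, LinearMap.zero_apply]
      linear_combination hcube s, LinearMap.ker_zero, finrank_top] at h5
    have := D.hr3
    omega
  have hσ3 : ∀ s, σ (σ (σ s)) = s := fun s => by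
    have := AlgEquiv.congr_fun (aut_pow_finrank σ) s
    rwa [hr3] at this
  have h3K : (3 : K) = 0 := by
    by_contra h3
    refine hσ (AlgEquiv.ext fun s => ?_)
    have := hcube s
    rw [hσ3] at this
    exact σ.injective (mul_left_cancel₀ h3 (by simp only [AlgEquiv.one_apply]; linear_combination -this))
  have hz3 : z * z * z = 1 := by
    rw [hz, conj_mul, conj_mul, ← R.u_add, ← R.u_add, show t + t + t = 0 by linear_combination t * h3K,
      R.u_zero, mul_one, mul_inv_cancel]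
  let L : K → K := fun s => c * σ s
  have hL : ∀ s, z * uu F e a h s * z⁻¹ = uu F e a h (L s) := h2
  have hL3 : ∀ s, L (L (L s)) = s := fun s => R.u_inj (F := F) (by
    rw [← hL, ← hL, ← hL, show z * (z * (z * uu F e a h s * z⁻¹) * z⁻¹) * z⁻¹ =
      (z * z * z) * uu F e a h s * (z * z * z)⁻¹ by group, hz3]; simp)
  obtain ⟨b, hb'⟩ := (hj.conj_stab D hb hzX hW).rad D hb hj
  have hzj : z * j * z⁻¹ = uu F e a h b * j := by
    rw [← hb', mul_assoc _ j j, hj.sq D hb, mul_one]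
  have hzj' : ∀ s, z * (uu F e a h s * j) * z⁻¹ = uu F e a h (L s + b) * j := fun s => by
    rw [R.u_add, ← hL, mul_assoc _ _ j, ← hzj]; group
  have hb0 : L (L b + b) + b = 0 := R.u_inj (F := F) (by
    refine mul_right_cancel (b := j) ?_
    rw [← hzj', ← hzj', ← hzj, show z * (z * (z * j * z⁻¹) * z⁻¹) * z⁻¹ =
      (z * z * z) * j * (z * z * z)⁻¹ by group, hz3, R.u_zero]; simp)
  obtain ⟨s, hs'⟩ : ∃ s, L s + b = s := by
    let M : K →ₗ[F] K := LinearMap.mulLeft F c ∘ₗ σ.toLinearMap - LinearMap.id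
    have hM : ∀ s, M s = L s - s := fun s => rfl
    have hLs : ∀ s s', L (s - s') = L s - L s' := fun s s' => by simp only [L, map_sub, mul_sub]
    have hLa : ∀ s s', L (s + s') = L s + L s' := fun s s' => by simp only [L, map_add, mul_add]
    have h3 := finrank_ker_semi D.hr hσ c (M := M) hM
    have h4 := finrank_ker_comp_le M M
    have h5 := M.finrank_range_add_finrank_ker
    have h6 : LinearMap.range M = LinearMap.ker (M ∘ₗ M) := by
      refine Submodule.eq_of_le_of_finrank_le ?_ (by omega)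
      rintro _ ⟨s, rfl⟩
      simp only [LinearMap.mem_ker, LinearMap.comp_apply, hM, hLs, hL3]
      linear_combination (L s - L (L s)) * h3K
    obtain ⟨s, hs'⟩ : b ∈ LinearMap.range M := by
      rw [h6]
      rw [hLa] at hb0
      simp only [LinearMap.mem_ker, LinearMap.comp_apply, hM, hLs]
      linear_combination hb0 - L b * h3K
    refine ⟨-s, ?_⟩
    rw [← hs', hM]
    simp only [L, map_neg]; ring
  have hj1 := hj.u_mul D s
  have hc : z * (uu F e a h s * j) = uu F e a h s * j * z :=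
    mul_inv_eq_iff_eq_mul.1 (by rw [hzj', hs'])
  generalize uu F e a h s * j = j1 at hj1 hc
  have hc' : ∀ v, uu F e a h t ((g⁻¹ * j1 * g) v) = (g⁻¹ * j1 * g) (uu F e a h t v) := fun v => by
    refine g.injective ?_
    rw [← hzg]
    simp only [mul_app _ g, mul_app _ j1, app_inv]
    rw [← hzg, ← mul_app, hc, mul_app]
  have hj2 := D.isJ_of_sq hb (X.mul_mem (X.mul_mem (X.inv_mem ho.mem) hj1.mem) ho.mem)
    (fun w hw => R.mem_line_of_fix t0 (by rw [hc', R.u_fix _ hw]))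
    (by rw [show g⁻¹ * j1 * g * (g⁻¹ * j1 * g) = g⁻¹ * (j1 * j1) * g by group, hj1.sq D hb]; simp)
    hn.1 n0 (by rw [mul_app, mul_app, hj1.neg _ hn2, map_neg, inv_app])
  have h3 := hj2.conj D hb t
  rw [show g⁻¹ * j1 * g * uu F e a h t = uu F e a h t * (g⁻¹ * j1 * g) from
    LinearEquiv.ext fun v => (hc' v).symm, mul_inv_cancel_right] at h3
  exact t0 (eq_zero_of_add_self (V := K) D.two (eq_neg_iff_add_eq_zero.1 (R.u_inj h3)))

theorem exists_lv_apply (hb : lv h X D.R.he ≠ ⊥) {γ δ : K} (hγ : γ ≠ 0) (hδ : D.τ (δ * γ) = 0) :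
    ∃ z ∈ X, ∃ ξ : K →ₗ[F] K, ξ γ = δ ∧ ∀ x, z x = x + ξ (h.B e x) • e := by
  have R := D.R
  obtain ⟨ξ, ⟨z, hz, h1⟩, h2⟩ := exists_skew_apply D.two D.hr D.τ_ne _ hb (fun ξ hξ x y => by
      obtain ⟨z, hz, h1⟩ := hξ
      have h2 := mem_O_B (D.hXO hz) (x • e') (y • e')
      rw [h1, h1, D.hB, D.hB] at h2
      simp only [map_add, map_smul, LinearMap.add_apply, h.B_smul_left, FormType.quad_σ,
        smul_eq_mul, R.ee, R.ee', R.hee, R.e'e, mul_zero, mul_one, map_zero, zero_add,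
        add_zero] at h2
      rw [mul_comm x]
      linear_combination h2)
    (fun ξ hξ l => by
      rcases eq_or_ne l 0 with rfl | l0
      · exact ⟨0, AddSubgroup.zero_mem _, fun x => by simp⟩
      obtain ⟨k, hk, hke⟩ := exists_scale_sq R.nondeg D.hn.ge R.he R.ne l0
      refine ⟨LinearMap.mulLeft F (l * l) ∘ₗ ξ ∘ₗ LinearMap.mulLeft F (l * l),
        (lv_conj R.he hξ (E_le_O hk) (D.hX.E_le hk)).congr fun v => ?_, fun x => rfl⟩
      rw [hke, h.B_smul_left, smul_smul, mul_comm]; rfl) hγ hδ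
  exact ⟨z, hz, ξ, h2, h1⟩

theorem np_of_lv_ne_bot (hb : lv h X D.R.he ≠ ⊥) (ho : Opt X (line F K e) g)
    (hg : kp (line F K e) g ≠ ⊥) : NP X e h := by
  by_contra hnp
  have := D.fd
  have := D.fdK
  have R := D.R
  obtain ⟨x, hx, hx'⟩ := exists_out ho
  have hγ : h.B e x ≠ 0 := fun h0 => hx' (D.perf hnp ho hg hx h0)
  have : Finite F := Finite.of_injective _ (algebraMap F K).injective
  obtain ⟨w, hw, w0, hq⟩ := f.quad_iso3 (line F K a) (by
    have : finrank F (line F K a) = finrank F K := (LinearEquiv.finrank_eq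
      ((LinearEquiv.toSpanNonzeroSingleton K V a (by rintro rfl; exact R.ha h.q_zero)).restrictScalars
        F)).symm
    rw [this]; exact D.hr3)
  obtain ⟨s, rfl⟩ := mem_line.1 hw
  have t0 : s / h.B e x ≠ 0 := div_ne_zero (by rintro rfl; simp at w0) hγ
  set t := s / h.B e x with ht
  let W' : Submodule F V := (line F K e).comap (g : V →ₗ[F] V)
  let G : W' →ₗ[F] K := (h.B e).restrictScalars F ∘ₗ W'.subtype
  let φ : Dual F W' := f.B (uu F e a h t x) ∘ₗ W'.subtype
  obtain ⟨θ, hθ⟩ : φ ∈ LinearMap.range G.dualMap := by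
    rw [LinearMap.range_dualMap_eq_dualAnnihilator_ker, Submodule.mem_dualAnnihilator]
    intro y hy
    change f.B (uu F e a h t x) y = 0
    rw [← R.u_fix t (D.perf hnp ho hg y.2 hy), mem_O_B (D.hXO (D.hX.uu t))]
    exact D.toTExt.f_block (D.hXO ho.mem) R.he hx y.2
  obtain ⟨ψ, hψ⟩ := exists_dual_comp (V := K) D.τ_ne θ
  have h1 : ∀ y, g y ∈ line F K e → f.B (uu F e a h t x) y = D.τ (ψ 1 * h.B e y) := fun y hy => by
    have := LinearMap.congr_fun hθ ⟨y, hy⟩
    rw [LinearMap.dualMap_apply, hψ] at this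
    rw [mul_comm, ← smul_eq_mul, ← map_smul, smul_eq_mul, mul_one]
    exact this.symm
  obtain ⟨z, hz, ξ, h2, h3⟩ := D.exists_lv_apply hb hγ (δ := -ψ 1) (by
    rw [neg_mul, map_neg, ← h1 x hx, R.u_apply, f.B_sub_left, f.B_add_left,
      D.toTExt.f_block (D.hXO ho.mem) R.he hx hx, zero_add, D.hB, D.hB, ← map_sub, ← map_neg, ← hq,
      D.hq, quad_q_smul', h.B_smul_left, h.B_smul_left, FormType.quad_σ, FormType.quad_σ, ht]
    congr 1
    field_simp; ring)
  refine hnp (D.np_of ho hg (X.mul_mem hz (D.hX.uu (e := e) (a := a) t)) (fun w hw => ?_) hx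
    (fun h4 => t0 ?_)
    fun y hy => ?_)
  · rw [mul_app, R.u_fix _ hw, h3, B_line R.he hw]; simp
  · rw [mul_app, h3] at h4
    exact D.eq_zero_of_perf hnp ho hg hx hx' h4
  · rw [mul_app, h3, R.Be_u, h2, f.quad_symm, f.B_add_left, h1 y hy, D.hB, h.B_smul_left]
    simp [FormType.quad_σ]

theorem perp_of_lv_ne_bot (hb : lv h X D.R.he ≠ ⊥) (ho : Opt X (line F K e) g) {x : V}
    (hx : g x ∈ line F K e) (hx' : x ∉ line F K e) (hex : h.B e x = 0) {y : V}
    (hy : g y ∈ line F K e) : h.B e y = 0 := by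
  have := D.fd
  have := D.fdK
  have R := D.R
  by_contra hγ
  have h1 : ∀ δ, D.τ (δ * h.B e y) = 0 → g (δ • e) ∈ line F K e := fun δ hδ => by
    obtain ⟨z, hz, ξ, h2, h3⟩ := D.exists_lv_apply hb hγ hδ
    have h4 := ho.step hz (fun w hw => by rw [h3, B_line R.he hw.1]; simpa using hw.2) hx
      (by rwa [inv_app]) (by rw [inv_app, h3, hex]; simpa using hx) _ hy
    rwa [inv_app, h3, h2, map_add, Submodule.add_mem_iff_right _ hy] at h4
  obtain ⟨d, hd⟩ : ∃ d, D.τ (d * h.B e y) = 1 := by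
    by_contra! H
    refine hγ (eq_zero_of_forall_mul D.τ_ne fun c => ?_)
    by_contra h0
    exact H ((D.τ (c * h.B e y))⁻¹ • c)
      (by rw [smul_mul_assoc, map_smul, smul_eq_mul, inv_mul_cancel₀ h0])
  have hax : h.B a x ≠ 0 := fun h0 => hx' (R.mem_line_of hex h0)
  let Φ : K → K := fun c => h.B e' (g ((c - D.τ (c * h.B e y) • d) • e + D.τ (c * h.B e y) • x))
  have hmem : ∀ c, g ((c - D.τ (c * h.B e y) • d) • e + D.τ (c * h.B e y) • x) ∈ line F K e :=
    fun c => by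
      rw [map_add, map_smul g _ x]
      exact Submodule.add_mem _ (h1 _ (by simp [sub_mul, hd])) (Submodule.smul_mem _ _ hx)
  have hrep : ∀ w ∈ line F K e, w = h.B e' w • e := fun w hw =>
    R.eq_smul (B_line R.he hw) (R.Ba_line hw)
  have hinj : Function.Injective Φ := fun c c' H => by
    have h2 := hrep _ (hmem c)
    have h3 := hrep _ (hmem c')
    rw [show h.B e' _ = h.B e' _ from H, ← h3] at h2
    have h4 := g.injective h2
    have h5 := congrArg (h.B a) h4
    rw [← algebraMap_smul K _ x, ← algebraMap_smul K (D.τ (c' * _)) x] at h5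
    simp only [map_add, map_smul, R.ae, mul_zero, zero_add, smul_eq_mul] at h5
    have h6 := (algebraMap F K).injective (mul_right_cancel₀ hax h5)
    rw [h6, add_left_inj] at h4
    exact sub_left_injective (smul_left_injective K R.ne h4)
  obtain ⟨c, hc⟩ := Finite.surjective_of_injective hinj (h.B e' (g y))
  have h2 := hrep _ (hmem c)
  rw [show h.B e' _ = h.B e' _ from hc, ← hrep _ hy] at h2
  rw [← g.injective h2] at hγ
  rw [← algebraMap_smul K _ x, map_add, map_smul, map_smul, R.ee, hex] at hγ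
  simp at hγ

theorem main : X ≤ Gam F K V ∨ f.E ≤ X := by
  have := D.fd
  have := D.fdK
  have R := D.R
  by_cases hd : ∀ g ∈ X, kp (line F K e) g = ⊥ ∨ kp (line F K e) g = line F K e
  · exact Or.inl (D.toTExt.le_Gam_of_sing D.hX D.hXO R.nondeg D.hn.ge R.he R.ne
      (sing_lines_of_dich D.hX R.nondeg (big_of_three D.hn.ge) R.he R.ne hd fun g hg =>
        D.sing_of_dich hd hg))
  right
  push Not at hd
  obtain ⟨k, hk, k1, k2⟩ := hd
  obtain ⟨g0, ho0⟩ := exists_opt ⟨k, hk, k2⟩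
  have hb : lv h X D.R.he ≠ ⊥ := fun hb =>
    D.not_np_of_lv_bot hb (D.np_of_lv_bot hb ho0 (ho0.ne_bot hk k2 k1))
  obtain ⟨g, ho, hg, x, hx1, hx2, hx3⟩ := D.np_of_lv_ne_bot hb ho0 (ho0.ne_bot hk k2 k1)
  exact D.toTExt.E_le_of_three R.nondeg D.hr3 R.he R.ne fun w hw =>
    D.toTExt.rad_of_perp D.two D.hr D.hX D.hXO R.nondeg D.hn.ge R.he R.ne ho hg
      (fun y => D.perp_of_lv_ne_bot hb ho hx1 hx2 hx3) hw

end O3

open Matrix Cfsg Cfsg.Geo CL.Tv in
/-- Extension-field subgroups of type `O_3(q^r)` are maximal in `Ω_{3r}(q)`, `q` and `r` odd. -/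
theorem omega_ext_maximal_three {F : Type*} [Field F] [Finite F] {ι : Type} [Fintype ι]
    [DecidableEq ι] {Q : (ι → F) → F} (hQ : IsNondegenerateQuadraticForm Q) (h2 : (2 : F) ≠ 0)
    {r : ℕ} (hr : r.Prime) (hr3 : 3 ≤ r) (hn : 3 * r = Fintype.card ι)
    {A : Subalgebra F (Matrix ι ι F)} (hA : IsFieldSubalgebra r A)
    (hsa : IsSelfAdjointFor (QuadraticMap.polar Q) A) :
    IsMaximalIn (omegaGL Q) (subalgebraNormalizer A ⊓ omegaGL Q) := by
  have : Nonempty ι := Fintype.card_pos_iff.1 (by omega)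
  obtain ⟨K, _, _, _, _, _, _, h1, h3, h4, -, h5⟩ := exists_ext_model hA
  obtain ⟨h, ⟨U⟩⟩ := exists_quad_model hQ h2 hsa h4
  have h2K : (2 : K) ≠ 0 := by rwa [← map_ofNat (algebraMap F K) 2, _root_.map_ne_zero]
  have hf := quadOfGeo_nondeg hQ
  have hm : finrank K (ι → F) = 3 :=
    Nat.eq_of_mul_eq_mul_left hr.pos (by rw [h3, ← hn, mul_comm])
  have h7 : 5 ≤ finrank F (ι → F) := by rw [finrank_fintype_fun_eq_card]; omega
  obtain ⟨e, he0, he⟩ := (quadOfGeo hQ).quad_iso3.exists_singular (by omega)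
  obtain ⟨e1, he1, he2⟩ := h.quad_iso3.exists_singular hm.ge
  obtain ⟨e', a, R⟩ := exists_fr3 h2K (U.nondeg hf) hm he2 he1
  refine isMaximalIn_of_act (mem_omegaGL_iff_E hf (by omega)) h5
    (U.not_E_le_Gam' hf (big_of_three (by omega)) he he0 (by omega) (h1 ▸ hr.two_le))
    fun X hX hXE ⟨g, hg, hg'⟩ => ?_
  refine (O3.main ⟨U, R, fun u v a => hX ⟨(kl_rs _).mem_Gam,
    U.rs_mem_E h2K hf ((quadOfGeo hQ).quad_iso3.idx2 hf h7) u v a⟩, hXE.trans E_le_O, hm, h1 ▸ hr,
    h1 ▸ hr3, h2, fun k hk H => ?_⟩).resolve_left fun hle => hg' (hle hg)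
  have h8 := det_of_mem_E (hXE hk)
  rw [show (k : (ι → F) →ₗ[F] (ι → F)) = (-1 : F) • LinearMap.id from
    LinearMap.ext fun v => by simp [H], LinearMap.det_smul, LinearMap.det_id, mul_one,
    finrank_fintype_fun_eq_card, ← hn,
    (Odd.mul (by decide) (hr.odd_of_ne_two (by omega))).neg_one_pow] at h8
  exact h2 (by linear_combination -h8)

end CL.ExtF
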