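/-
Extension-field subgroups of unitary groups: algebraic lemmas.
-/
import Cfsg.Agent.CLAS.ExtGam
import Cfsg.Agent.CLAS.TvHerm

set_option autoImplicit false

namespace CL.ExtF

open Module CL.Witt

section CW

variable {F : Type*} [Field F] [Finite F] {σ : F →+* F}

open MvPolynomial in
/-- Chevalley–Warning over the fixed field of an involution. -/
theorem exists_real_zero (hσ : σ ≠ RingHom.id F) (hσ2 : ∀ a, σ (σ a) = a) {ι J : Type}
    [Fintype ι] [Fintype J] (D : J → MvPolynomial ι F)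
    (hdeg : ∑ j, (D j).totalDegree < Fintype.card ι)
    (hre : ∀ x : ι → F, (∀ i, σ (x i) = x i) → ∀ j, σ (eval x (D j)) = eval x (D j))
    (h0 : ∀ j, eval 0 (D j) = 0) :
    ∃ x : ι → F, (∀ i, σ (x i) = x i) ∧ x ≠ 0 ∧ ∀ j, eval x (D j) = 0 := by
  classical
  let F₀ := σ.eqLocusField (RingHom.id F)
  obtain ⟨s, hs⟩ := FormType.exists_add_σ_eq_one hσ hσ2
  let π : F →+ F₀ :=
    { toFun := fun y => ⟨s * y + σ (s * y), by
        change σ _ = _
        rw [map_add, hσ2, add_comm]; rfl⟩
      map_zero' := Subtype.ext (by simp)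
      map_add' := fun x y => Subtype.ext (by
        change s * (x + y) + σ (s * (x + y)) = (s * x + σ (s * x)) + (s * y + σ (s * y))
        simp only [mul_add, map_add]; ring) }
  have hπ : ∀ (y : F) (c : F₀), π (y * c) = π y * c := fun y c => Subtype.ext (by
    have hc : σ c = c := c.2
    change s * (y * c) + σ (s * (y * c)) = (s * y + σ (s * y)) * c
    simp only [map_mul, hc]; ring)
  let D' : J → MvPolynomial ι F₀ := fun j => ∑ m ∈ (D j).support, monomial m (π ((D j).coeff m))
  have hev : ∀ (x : ι → F₀) j, eval x (D' j) = π (eval (fun i => (x i : F)) (D j)) := by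
    intro x j
    rw [eval_eq' _ (D j), map_sum, map_sum]
    refine Finset.sum_congr rfl fun m _ => ?_
    rw [eval_monomial, Finsupp.prod_fintype _ _ (by simp), ← hπ]
    simp
  have hdeg' : ∀ j, (D' j).totalDegree ≤ (D j).totalDegree := fun j => by
    refine totalDegree_finsetSum_le fun m hm => ?_
    exact (totalDegree_monomial_le _ _).trans (le_totalDegree hm)
  have := Fintype.ofFinite F₀
  obtain ⟨p, hp⟩ := CharP.exists F₀
  have hpp := CharP.char_is_prime F₀ p
  have hdvd := char_dvd_card_solutions_of_fintype_sum_lt p (f := D')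
    ((Finset.sum_le_sum fun j _ => hdeg' j).trans_lt hdeg)
  by_contra! H
  have : Fintype.card {x : ι → F₀ // ∀ j, eval x (D' j) = 0} = 1 := by
    rw [Fintype.card_eq_one_iff]
    refine ⟨⟨0, fun j => ?_⟩, fun ⟨x, hx⟩ => Subtype.ext ?_⟩
    · rw [hev]
      have : (fun i => ((0 : ι → F₀) i : F)) = 0 := rfl
      rw [this, h0, map_zero]
    · by_contra hx0
      obtain ⟨j, hj⟩ := H (fun i => (x i : F)) (fun i => (x i).2)
        (fun e => hx0 (funext fun i => Subtype.ext (congrFun e i)))
      have h1 := congrArg Subtype.val ((hev x j).symm.trans (hx j))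
      change s * _ + σ (s * _) = 0 at h1
      rw [map_mul, hre _ (fun i => (x i).2), ← add_mul, hs, one_mul] at h1
      exact hj h1
  rw [this, Nat.dvd_one] at hdvd
  exact hpp.one_lt.ne' hdvd

open MvPolynomial in
/-- More than `k` hermitian `k × k` matrices have a singular real combination. -/
theorem exists_det_eq_zero (hσ : σ ≠ RingHom.id F) (hσ2 : ∀ a, σ (σ a) = a) {n k : ℕ} (hk : 0 < k)
    (hn : k < n) (M : Fin n → Matrix (Fin k) (Fin k) F) (hM : ∀ i a b, σ (M i a b) = M i b a) :
    ∃ x : Fin n → F, (∀ i, σ (x i) = x i) ∧ x ≠ 0 ∧ (∑ i, x i • M i).det = 0 := by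
  let A : Matrix (Fin k) (Fin k) (MvPolynomial (Fin n) F) := fun a b => ∑ i, X i * C (M i a b)
  have hev : ∀ x : Fin n → F, eval x A.det = (∑ i, x i • M i).det := fun x => by
    rw [RingHom.map_det]
    congr 1
    ext a b
    rw [RingHom.mapMatrix_apply, Matrix.map_apply]
    simp [A, Matrix.sum_apply]
  obtain ⟨x, h1, h2, h3⟩ := exists_real_zero hσ hσ2 (J := Unit) (fun _ => A.det) (by
    simp only [Finset.univ_unique, Finset.sum_singleton, Fintype.card_fin]
    refine lt_of_le_of_lt ?_ hn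
    rw [Matrix.det_apply]
    refine totalDegree_finsetSum_le fun g _ => (totalDegree_smul_le _ _).trans ?_
    refine (totalDegree_finsetProd _ _).trans ?_
    refine (Finset.sum_le_card_nsmul _ _ 1 fun a _ => ?_).trans (by simp)
    refine totalDegree_finsetSum_le fun i _ => (totalDegree_mul _ _).trans ?_
    rw [totalDegree_C, totalDegree_X])
    (fun x hx _ => by
      rw [hev, RingHom.map_det, ← Matrix.det_transpose]
      congr 1
      ext a b
      simp [Matrix.sum_apply, hx, hM])
    (fun _ => by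
      have : Nonempty (Fin k) := ⟨⟨0, hk⟩⟩
      rw [hev]; simp)
  exact ⟨x, h1, h2, (hev x).symm.trans (h3 ())⟩

end CW

variable {F K : Type*} [Field F] [Field K] [Algebra F K]

local notation "ι₀" => algebraMap F K

/-- Compatible involutions on `F` and `K` and a compatible trace functional. -/
structure HD (σ : F →+* F) (τ : K →+* K) (t : Dual F K) : Prop where
  σσ : ∀ a, σ (σ a) = a
  ττ : ∀ a, τ (τ a) = a
  σ_ne : σ ≠ RingHom.id F
  alg : ∀ c, τ (ι₀ c) = ι₀ (σ c)
  t_ne : t ≠ 0
  t_τ : ∀ y, t (τ y) = σ (t y)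

namespace HD

variable {σ : F →+* F} {τ : K →+* K} {t : Dual F K} (H : HD σ τ t)
include H

theorem τ_smul (c : F) (y : K) : τ (c • y) = σ c • τ y := by
  rw [Algebra.smul_def, Algebra.smul_def, map_mul, H.alg]

theorem exists_ne : ∃ θ, σ θ ≠ θ := by
  by_contra! h; exact H.σ_ne (RingHom.ext h)

theorem τ_ne : τ ≠ RingHom.id K := fun h => by
  obtain ⟨θ, hθ⟩ := H.exists_ne
  have := H.alg θ
  rw [h] at this
  exact hθ ((algebraMap F K).injective this.symm)

theorem exists_add {θ : F} (hθ : σ θ ≠ θ) (k : K) :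
    ∃ x y : K, τ x = x ∧ τ y = y ∧ k = x + θ • y := by
  have h0 : ι₀ θ - ι₀ (σ θ) ≠ 0 := by
    rw [← map_sub]; exact (map_ne_zero ι₀).2 (sub_ne_zero.2 hθ.symm)
  have h0' : ι₀ (σ θ) - ι₀ θ ≠ 0 := by
    rw [← map_sub]; exact (map_ne_zero ι₀).2 (sub_ne_zero.2 hθ)
  refine ⟨k - θ • ((k - τ k) / (ι₀ θ - ι₀ (σ θ))), (k - τ k) / (ι₀ θ - ι₀ (σ θ)), ?_, ?_, by abel⟩ <;>
  · simp only [Algebra.smul_def, map_sub, map_mul, map_div₀, H.alg, H.σσ, H.ττ]
    field_simp
    ring

theorem t_real {y : K} (hy : τ y = y) : σ (t y) = t y := by rw [← H.t_τ, hy]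

/-- A real functional with prescribed values. -/
theorem exists_real_dual [FiniteDimensional F K] {μ κ ρ : K} (hμ : τ μ = μ) (hκ : τ κ = κ)
    (hρ : τ ρ = ρ) (h : ρ ∉ Submodule.span F {μ, κ}) :
    ∃ ν, τ ν = ν ∧ t (ν * μ) = 0 ∧ t (ν * κ) = 0 ∧ t (ν * ρ) = 1 := by
  obtain ⟨φ, h1, h2⟩ := CL.Tv.exists_dual_one _ h
  obtain ⟨c, hc⟩ := exists_rep_mul H.t_ne φ
  obtain ⟨s, hs⟩ := FormType.exists_add_σ_eq_one H.σ_ne H.σσ
  have key : ∀ y, τ y = y → t ((s • c + τ (s • c)) * y) = s * φ y + σ (s * φ y) := fun y hy => by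
    rw [add_mul, map_add, ← hy, ← map_mul τ, H.t_τ, hy, smul_mul_assoc, map_smul, hc, smul_eq_mul]
  refine ⟨s • c + τ (s • c), by rw [map_add, H.ττ, add_comm], ?_, ?_, ?_⟩
  · rw [key μ hμ, h2 μ (Submodule.subset_span (by simp))]; simp
  · rw [key κ hκ, h2 κ (Submodule.subset_span (by simp))]; simp
  · rw [key ρ hρ, h1, mul_one, hs]

theorem exists_real_notMem {Z : Submodule F K} (hZ : Z ≠ ⊤) : ∃ ρ, τ ρ = ρ ∧ ρ ∉ Z := by
  by_contra! h
  obtain ⟨θ, hθ⟩ := H.exists_ne
  refine hZ (eq_top_iff.2 fun k _ => ?_)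
  obtain ⟨x, y, hx, hy, rfl⟩ := H.exists_add hθ k
  exact Z.add_mem (h x hx) (Z.smul_mem _ (h y hy))

/-- A real basis modulo a subspace. -/
theorem exists_real_basis [FiniteDimensional F K] (Z : Submodule F K) :
    ∃ (n : ℕ) (a : Fin n → K), (∀ i, τ (a i) = a i) ∧ n + finrank F Z = finrank F K ∧
      (∀ c : Fin n → F, ∑ i, c i • a i ∈ Z → c = 0) ∧
      Z ⊔ Submodule.span F (Set.range a) = ⊤ := by
  obtain ⟨b, hb1, hb2, hb3⟩ := exists_linearIndependent F (Z.mkQ '' {y | τ y = y})
  have htop : Submodule.span F b = ⊤ := by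
    have : Submodule.span F {y | τ y = y} = ⊤ := by
      by_contra h
      obtain ⟨ρ, h1, h2⟩ := H.exists_real_notMem h
      exact h2 (Submodule.subset_span h1)
    rw [hb2, Submodule.span_image, this, Submodule.map_top, Submodule.range_mkQ]
  let B := Basis.mk hb3 (by rw [Subtype.range_coe, htop])
  have : Fintype b := FiniteDimensional.fintypeBasisIndex B
  let e := Fintype.equivFin b
  choose a ha ha' using fun i : b => hb1 i.2
  refine ⟨Fintype.card b, fun i => a (e.symm i), fun i => ha _, ?_, fun c hc => ?_, ?_⟩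
  · rw [← finrank_eq_card_basis B, Submodule.finrank_quotient_add_finrank]
  · have h1 := (Submodule.Quotient.mk_eq_zero Z).2 hc
    rw [← Submodule.mkQ_apply, map_sum] at h1
    simp only [map_smul, ha'] at h1
    exact funext (Fintype.linearIndependent_iff.1 (hb3.comp _ e.symm.injective) c h1)
  · rw [← Submodule.map_mkQ_eq_top, Submodule.map_span, ← Set.range_comp, ← htop]
    congr 1
    ext y
    constructor
    · rintro ⟨i, rfl⟩; rw [Function.comp_apply, ha']; exact (e.symm i).2
    · intro hy; exact ⟨e ⟨y, hy⟩, by simp [ha']⟩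

/-- A space of hermitian forms whose non-zero real members are non-singular is small. -/
theorem le_finrank_ker [Finite F] [FiniteDimensional F K] {k : ℕ} (hk : 0 < k)
    (M : K →ₗ[F] Matrix (Fin k) (Fin k) F) (h1 : ∀ y, τ y = y → ∀ a b, σ (M y a b) = M y b a)
    (h2 : ∀ y, τ y = y → (M y).det = 0 → M y = 0) :
    finrank F K ≤ finrank F (LinearMap.ker M) + k := by
  obtain ⟨n, a, ha, hn, hli, -⟩ := H.exists_real_basis (LinearMap.ker M)
  by_contra! hlt
  obtain ⟨x, x1, x2, x3⟩ := exists_det_eq_zero H.σ_ne H.σσ hk (n := n) (by omega)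
    (fun i => M (a i)) fun i => h1 _ (ha i)
  refine x2 (hli x (h2 _ ?_ (by simpa using x3)))
  simp only [map_sum, H.τ_smul, x1, ha]

open MvPolynomial in
/-- A family of `r` vectors on which the trace form vanishes has a singular combination. -/
theorem exists_singular [Finite F] [FiniteDimensional F K] {V : Type*} [AddCommGroup V]
    [Module F V] [Module K V] [IsScalarTower F K V] (h : Form (FormType.herm τ H.ττ) V)
    {W : Submodule F V} (hW : finrank F W = finrank F K) (h0 : ∀ x ∈ W, t (h.q x) = 0) :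
    ∃ x ∈ W, x ≠ 0 ∧ h.q x = 0 := by
  have : FiniteDimensional F W := Module.finite_of_finrank_pos (by rw [hW]; exact finrank_pos)
  obtain ⟨n, a, ha, hn, -, hsp⟩ := H.exists_real_basis (F ∙ (1 : K))
  rw [finrank_span_singleton one_ne_zero] at hn
  obtain ⟨θ, hθ⟩ := H.exists_ne
  let b := Module.finBasisOfFinrankEq F W hW
  let z : Fin (finrank F K) ⊕ Fin (finrank F K) → V := Sum.elim (fun i => b i) fun i => θ • (b i : V)
  have hz : ∀ s, z s ∈ W := by
    rintro (i | i)
    exacts [(b i).2, W.smul_mem _ (b i).2]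
  let D : Fin n → MvPolynomial (Fin (finrank F K) ⊕ Fin (finrank F K)) F := fun j =>
    ∑ s, ∑ s', X s * X s' * C (t (a j * h.B (z s) (z s')))
  have hev : ∀ x : _ → F, (∀ i, σ (x i) = x i) → ∀ j,
      eval x (D j) = t (a j * h.q (∑ s, x s • z s)) := fun x hx j => by
    simp only [D, map_sum, map_mul, eval_X, eval_C, Form.herm_q, LinearMap.sum_apply,
      Finset.mul_sum]
    rw [Finset.sum_comm]
    refine Finset.sum_congr rfl fun s _ => Finset.sum_congr rfl fun s' _ => ?_
    rw [← algebraMap_smul K (x s), ← algebraMap_smul K (x s'), h.B_smul_left, h.B_smul_right,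
      FormType.herm_σ, H.alg, hx, ← smul_eq_mul, ← map_smul]
    congr 1
    simp only [Algebra.smul_def, map_mul]
    ring
  obtain ⟨x, x1, x2, x3⟩ := exists_real_zero H.σ_ne H.σσ D (by
      refine lt_of_le_of_lt (Finset.sum_le_card_nsmul _ _ 2 fun j _ => ?_) (by simp; omega)
      refine totalDegree_finsetSum_le fun s _ => totalDegree_finsetSum_le fun s' _ => ?_
      refine (totalDegree_mul _ _).trans ?_
      rw [totalDegree_C, add_zero]
      refine (totalDegree_mul _ _).trans ?_
      rw [totalDegree_X, totalDegree_X])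
    (fun x hx j => by
      rw [hev x hx]
      exact H.t_real (by rw [map_mul, ha, CL.Tv.herm_σ_q]))
    (fun j => by rw [hev 0 (fun _ => map_zero σ)]; simp [h.q_zero])
  have hm : ∑ s, x s • z s ∈ W := W.sum_mem fun s _ => W.smul_mem _ (hz s)
  refine ⟨_, hm, fun e => x2 ?_, eq_zero_of_forall_mul H.t_ne fun c => ?_⟩
  · rw [Fintype.sum_sum_type, ← Finset.sum_add_distrib] at e
    have e' : ∑ i, (x (.inl i) + x (.inr i) * θ) • b i = 0 := Subtype.ext (by
      simpa [z, add_smul, mul_smul] using e)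
    have h1 := Fintype.linearIndependent_iff.1 b.linearIndependent _ e'
    have h2 : ∀ i, x (.inr i) = 0 := fun i => by
      have h3 := congrArg σ (h1 i)
      rw [map_add, map_mul, x1, x1, map_zero] at h3
      have : x (.inr i) * (σ θ - θ) = 0 := by linear_combination h3 - h1 i
      exact (mul_eq_zero.1 this).resolve_right (sub_ne_zero.2 hθ)
    funext s
    rcases s with i | i
    · simpa [h2 i] using h1 i
    · exact h2 i
  · obtain ⟨u, hu, v, hv, rfl⟩ := Submodule.mem_sup.1 (hsp ▸ Submodule.mem_top : c ∈ _)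
    obtain ⟨d, rfl⟩ := Submodule.mem_span_singleton.1 hu
    obtain ⟨l, rfl⟩ := (Submodule.mem_span_range_iff_exists_fun F).1 hv
    rw [add_mul, map_add, smul_mul_assoc, one_mul, map_smul, h0 _ hm, Finset.sum_mul, map_sum]
    simp only [smul_mul_assoc, map_smul, ← hev x x1, x3]
    simp

end HD

end CL.ExtF
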