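/-
Extension-field subgroups of unitary groups: optimal pairs.
-/
import Cfsg.Agent.CLAS.ExtUAlg

set_option autoImplicit false

namespace CL.ExtF

open Module CL.Witt CL.Witt.Form

attribute [-simp] LinearEquiv.coe_inv

variable {F K : Type*} [Field F] [Field K] [Algebra F K] {V : Type*} [AddCommGroup V] [Module F V]
  [Module K V] [IsScalarTower F K V] {X : Subgroup (V ≃ₗ[F] V)} {e : V} {g : V ≃ₗ[F] V}
  {σ : F →+* F} {hσ2 : ∀ a, σ (σ a) = a} {τ : K →+* K} {hτ2 : ∀ a, τ (τ a) = a}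
  {f : Form (FormType.herm σ hσ2) V} {h : Form (FormType.herm τ hτ2) V}

local notation "ι₀" => algebraMap F K

theorem HD.eq_top_of_skew {t : Dual F K} (H : HD σ τ t) {Z : Submodule F K}
    (hZ : ∀ a, a + τ a = 0 → a ∈ Z) : Z = ⊤ := by
  by_contra h
  obtain ⟨ρ, h1, h2⟩ := H.exists_real_notMem h
  obtain ⟨η, h3, h4⟩ := FormType.exists_add_σ_eq_zero H.σ_ne H.σσ
  refine h2 ((Z.smul_mem_iff h3).1 (hZ _ ?_))
  rw [H.τ_smul, h1, ← add_smul, h4, zero_smul]

omit [Module F V] [IsScalarTower F K V] in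
theorem herm_ei_zero {u : V} (hu : h.q u = 0) {a : K} (ha : a + τ a = 0) (x : V) :
    h.ei u 0 (-a) x = x + (a * h.B u x) • u := by
  rw [ei_zero_apply hu (by rw [FormType.herm_π, map_neg]; linear_combination -ha), FormType.herm_ε]
  simp

theorem Ov.tv_herm (hX : Ov F h X) {u : V} (hu : h.q u = 0) {a : K} (ha : a + τ a = 0) :
    ∃ t ∈ X, ∀ x, t x = x + (a * h.B u x) • u := ⟨_, hX u 0 (-a), herm_ei_zero hu ha⟩

theorem Opt.tv_stab [FiniteDimensional F V] (hX : Ov F h X) (he : h.q e = 0)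
    (ho : Opt X (line F K e) g) {a : K} (ha : a + τ a = 0) {x : V} (hx : g x ∈ line F K e)
    (hx' : x ∉ line F K e) (ht : g ((a * h.B e x) • e) ∈ line F K e) {y : V}
    (hy : g y ∈ line F K e) : g ((a * h.B e y) • e) ∈ line F K e := by
  obtain ⟨t, ht', h4⟩ := hX.tv_herm he ha
  have := ho.step ht' (fun w hw => by
    rw [h4, B_line he hw.1, mul_zero, zero_smul, add_zero]; exact hw.2) hx (by rwa [inv_app])
    (by rw [inv_app, h4, map_add]; exact Submodule.add_mem _ hx ht) _ hy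
  rw [inv_app, h4, map_add] at this
  exact (Submodule.add_mem_iff_right _ hy).1 this

namespace TExt

variable (U : TExt f h) (H : HD σ τ U.τ)
include U

omit [IsScalarTower F K V] in
theorem f_right (y : V) (b : K) : f.B y (b • e) = U.τ (τ (h.B e y) * b) := by
  rw [U.hB, h.B_smul_right, h.herm_symm, mul_comm]

theorem f_block' (hg : g ∈ f.O) (he : h.q e = 0) {x y : V} (hx : g x ∈ line F K e)
    (hy : g y ∈ line F K e) : f.B x y = 0 := by
  rw [← mem_O_B hg, U.f_line hx (B_line he hy)]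

include H

theorem perf [FiniteDimensional F V] (hX : Ov F h X) (he : h.q e = 0) (ho : Opt X (line F K e) g)
    {x : V} (hx : g x ∈ line F K e) (hξ : h.B e x ≠ 0) {y : V} (hy : g y ∈ line F K e)
    (h0 : h.B e y = 0) : y ∈ line F K e := by
  by_contra hn
  let Z : Submodule F K := (line F K e).comap ((g : V →ₗ[F] V) ∘ₗ
    ((LinearMap.toSpanSingleton K V (h.B e x • e)).restrictScalars F))
  have hZ : Z = ⊤ := H.eq_top_of_skew fun a ha => by
    have := ho.tv_stab hX he ha hy hn (by simp [h0]) hx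
    rwa [mul_smul] at this
  obtain ⟨w, hw, hw'⟩ := exists_moved ho.ne
  obtain ⟨a, rfl⟩ := mem_line.1 hw
  have : a / h.B e x ∈ Z := by rw [hZ]; trivial
  refine hw' ?_
  change g ((a / h.B e x) • h.B e x • e) ∈ line F K e at this
  rwa [smul_smul, div_mul_cancel₀ _ hξ] at this

theorem mem_of_perp [FiniteDimensional F V] (hX : Ov F h X) (hXO : X ≤ f.O) (he : h.q e = 0)
    (ho : Opt X (line F K e) g) {x : V} (hx : g x ∈ line F K e) (hξ : h.B e x ≠ 0) {w : V}
    (hw : w ∈ line F K e) (h0 : ∀ y, g y ∈ line F K e → f.B y w = 0) : g w ∈ line F K e := by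
  have hg := hXO ho.mem
  obtain ⟨w₁, hw₁, hw₁'⟩ : ∃ w₁ ∈ line F K e, h.B e (g w₁) ≠ 0 := by
    by_contra! H'
    refine hξ (U.perp_of_line fun w hw => ?_)
    rw [← mem_O_B hg]
    exact f.B_eq_zero_symm (U.f_line hx (H' w hw))
  refine U.perf H hX he ho.inv (x := g w₁) (by rwa [inv_app]) hw₁' (by rwa [inv_app])
    (U.perp_of_line fun w' hw' => ?_)
  rw [← app_inv g w', mem_O_B hg]
  exact h0 _ (by rwa [app_inv])

theorem rank_one_herm [Finite K] [FiniteDimensional K V] (hX : Ov F h X) (hXO : X ≤ f.O)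
    (he : h.q e = 0) (he0 : e ≠ 0) (hr : (finrank F K).Prime) (ho : Opt X (line F K e) g)
    (hb : kp (line F K e) g ≠ ⊥) {x : V} (hx : g x ∈ line F K e) (hξ : h.B e x ≠ 0) :
    ∀ w ∈ line F K e, ∃ c : F, g⁻¹ w - c • x ∈ line F K e := by
  have : Finite F := Finite.of_injective _ (algebraMap F K).injective
  have : FiniteDimensional F K := Module.Finite.of_finite
  have : FiniteDimensional F V := Module.Finite.trans K V
  have hg := hXO ho.mem
  let W' := (line F K e).comap (g : V →ₗ[F] V)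
  let φ : W' →ₗ[F] K := (h.B e).restrictScalars F ∘ₗ W'.subtype
  let A := LinearMap.range φ
  have hA : ∀ ζ, ζ ∈ A ↔ ∃ y, g y ∈ line F K e ∧ h.B e y = ζ := fun ζ =>
    ⟨fun ⟨y, hy⟩ => ⟨y, y.2, hy⟩, fun ⟨y, h1, h2⟩ => ⟨⟨y, h1⟩, h2⟩⟩
  have s1 : ∀ b : K, g (b • e) ∈ line F K e ↔ ∀ ζ ∈ A, U.τ (τ ζ * b) = 0 := fun b => by
    refine ⟨fun hb ζ hζ => ?_, fun hb => U.mem_of_perp H hX hXO he ho hx hξ (smul_mem_line _ _)
      fun y hy => ?_⟩
    · obtain ⟨y, hy, rfl⟩ := (hA ζ).1 hζ
      rw [← U.f_right, U.f_block' hg he hy hb]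
    · rw [U.f_right]; exact hb _ ((hA _).2 ⟨y, hy, rfl⟩)
  let β := Module.finBasis F A
  have s2 : ∀ b : K, (∀ i, U.τ (τ (β i) * b) = 0) → ∀ ζ ∈ A, U.τ (τ ζ * b) = 0 := by
    intro b hb ζ hζ
    have := congrArg Subtype.val (β.sum_repr ⟨ζ, hζ⟩)
    simp only [AddSubmonoidClass.coe_finsetSum, SetLike.val_smul] at this
    rw [← this]
    simp [map_sum, H.τ_smul, Finset.sum_mul, hb]
  let M : K →ₗ[F] Matrix (Fin (finrank F A)) (Fin (finrank F A)) F :=
    { toFun := fun a => Matrix.of fun i j => U.τ (τ (β i) * (a * β j))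
      map_add' := fun a b => by ext i j; simp [add_mul, mul_add]
      map_smul' := fun c a => by ext i j; simp }
  have hM : ∀ a i j, M a i j = U.τ (τ (β i) * (a * β j)) := fun _ _ _ => rfl
  have s3 : ∀ a, M a = 0 → ∀ ζ ∈ A, g ((a * ζ) • e) ∈ line F K e := by
    intro a ha ζ hζ
    refine (s1 _).2 (s2 _ fun i => ?_)
    have := congrArg Subtype.val (β.sum_repr ⟨ζ, hζ⟩)
    simp only [AddSubmonoidClass.coe_finsetSum, SetLike.val_smul] at this
    rw [← this]
    simp [Finset.mul_sum, ← hM, ha]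
  have hξA : h.B e x ∈ A := (hA _).2 ⟨x, hx, rfl⟩
  have hk : 0 < finrank F A := finrank_pos_iff_exists_ne_zero.2 ⟨⟨_, hξA⟩, by simpa using hξ⟩
  have d1 := H.le_finrank_ker hk M (fun y hy a b => by
    rw [hM, hM, ← H.t_τ, map_mul τ, map_mul τ, hτ2, hy]; congr 1; ring) fun y hy hd => by
    obtain ⟨c, c0, hc⟩ := Matrix.exists_mulVec_eq_zero_iff.2 hd
    obtain ⟨η, η0, hη⟩ := FormType.exists_add_σ_eq_zero H.σ_ne hσ2
    have ha : η • y + τ (η • y) = 0 := by rw [H.τ_smul, hy, ← add_smul, hη, zero_smul]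
    obtain ⟨y₁, h1, h2⟩ := (hA _).1 (∑ j, c j • β j).2
    have h3 : y₁ ∉ line F K e := fun hm => c0 (funext (Fintype.linearIndependent_iff.1
      β.linearIndependent c (Subtype.ext (h2.symm.trans (B_line he hm)))))
    have h4 : g ((η • y * h.B e y₁) • e) ∈ line F K e := (s1 _).2 (s2 _ fun i => by
      have := congrFun hc i
      simp only [Matrix.mulVec, dotProduct, hM, Pi.zero_apply] at this
      rw [h2, smul_mul_assoc, mul_smul_comm, map_smul]
      simp only [AddSubmonoidClass.coe_finsetSum, SetLike.val_smul, Finset.mul_sum,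
        mul_smul_comm, map_sum, map_smul, smul_eq_mul]
      rw [← Finset.mul_sum, mul_eq_zero_iff_left η0, ← this]
      exact Finset.sum_congr rfl fun j _ => mul_comm _ _)
    ext i j
    obtain ⟨y₂, h5, h6⟩ := (hA _).1 (β j).2
    have := (s1 _).1 (ho.tv_stab hX he ha h1 h3 h4 h5) _ (β i).2
    rw [h6, smul_mul_assoc, mul_smul_comm, map_smul, smul_eq_mul, mul_eq_zero_iff_left η0] at this
    exact this
  let B : Submodule F K := W'.comap ((LinearMap.toSpanSingleton K V e).restrictScalars F)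
  have hB : ∀ b, b ∈ B ↔ g (b • e) ∈ line F K e := fun b => Iff.rfl
  have d2 : finrank F B + finrank F A ≤ finrank F K := by
    let ψ : B →ₗ[F] LinearMap.ker φ :=
      { toFun := fun b => ⟨⟨(b : K) • e, b.2⟩, B_line (F := F) he (smul_mem_line _ _)⟩
        map_add' := fun a b => by ext; simp [add_smul]
        map_smul' := fun c a => by ext; simp }
    have h1 := LinearMap.finrank_le_finrank_of_injective (f := ψ) fun a b hab =>
      Subtype.ext (smul_left_injective K he0 (congrArg (fun z => (z.1 : V)) hab))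
    have h2 := LinearMap.finrank_range_add_finrank_ker φ
    have h3 : finrank F W' = finrank F (line F K e) := by
      rw [← LinearEquiv.finrank_map_eq g W', Submodule.map_comap_eq_of_surjective g.surjective]
    have h4 : finrank F (line F K e) ≤ finrank F K := by
      have : line F K e = LinearMap.range ((LinearMap.toSpanSingleton K V e).restrictScalars F) := by
        ext w; rw [mem_line]; rfl
      rw [this]; exact LinearMap.finrank_range_le _
    change finrank F B + finrank F (LinearMap.range φ) ≤ _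
    omega
  have d3 : (LinearMap.ker M).map (LinearMap.mulRight F (h.B e x)) = B := by
    refine Submodule.eq_of_le_of_finrank_le ?_ ?_
    · rintro _ ⟨a, ha, rfl⟩
      exact s3 a ha _ hξA
    · rw [← LinearEquiv.finrank_eq (Submodule.equivMapOfInjective _
        (mul_left_injective₀ hξ) (LinearMap.ker M))]
      omega
  intro w hw
  obtain ⟨c, hc⟩ := mem_range_of_stab hr (kp_le _ g) hb ho.ne
    (a := h.B e (g⁻¹ w) / h.B e x) fun y hy => by
      obtain ⟨b, rfl⟩ := mem_line.1 hy.1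
      obtain ⟨a, ha, rfl⟩ : b ∈ (LinearMap.ker M).map (LinearMap.mulRight F (h.B e x)) := by
        rw [d3]; exact hy.2
      refine mem_kp.2 ⟨line_smul _ hy.1, ?_⟩
      convert s3 a ha _ ((hA _).2 ⟨g⁻¹ w, by rwa [app_inv], rfl⟩) using 2
      rw [smul_smul, LinearMap.mulRight_apply]
      congr 1
      field_simp
  refine ⟨c, U.perf H hX he ho hx hξ ?_ ?_⟩
  · rw [map_sub, app_inv, map_smul]
    exact Submodule.sub_mem _ hw (Submodule.smul_mem _ _ hx)
  · rw [map_sub, ← algebraMap_smul K c, h.B_smul_right, hc, div_mul_cancel₀ _ hξ, sub_self]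

end TExt

end CL.ExtF
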