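/-
Extension-field subgroups of unitary groups: producing a transvection.
-/
import Cfsg.Agent.CLAS.ExtU

set_option autoImplicit false

namespace CL.ExtF

open Module CL.Witt CL.Witt.Form

attribute [-simp] LinearEquiv.coe_inv

variable {F K : Type*} [Field F] [Field K] [Algebra F K] {V : Type*} [AddCommGroup V] [Module F V]
  [Module K V] [IsScalarTower F K V] {X : Subgroup (V ≃ₗ[F] V)} {e : V} {g : V ≃ₗ[F] V}
  {σ : F →+* F} {hσ2 : ∀ a, σ (σ a) = a} {τ : K →+* K} {hτ2 : ∀ a, τ (τ a) = a}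
  {f : Form (FormType.herm σ hσ2) V} {h : Form (FormType.herm τ hτ2) V}

local notation "ι₀" => algebraMap F K

variable (h X) in
/-- `l` is the multiplier on `e` of a `K`-linear isometry in `X`. -/
def Lam (e : V) (l : K) : Prop := ∃ k ∈ h.O, rs F K V k ∈ X ∧ k e = l • e

theorem Lam.mul {l m : K} (h1 : Lam X h e l) (h2 : Lam X h e m) : Lam X h e (l * m) := by
  obtain ⟨k, a1, a2, a3⟩ := h1
  obtain ⟨k', b1, b2, b3⟩ := h2
  refine ⟨k' * k, h.O.mul_mem b1 a1, by rw [map_mul]; exact X.mul_mem b2 a2, ?_⟩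
  rw [LinearEquiv.mul_apply, a3, map_smul, b3, mul_smul]

theorem Lam.smul {l : K} (h1 : Lam X h e l) (m : K) : Lam X h (m • e) l := by
  obtain ⟨k, a1, a2, a3⟩ := h1
  exact ⟨k, a1, a2, by rw [map_smul, a3, smul_comm]⟩

omit [Module F V] [IsScalarTower F K V] in
theorem exists_weyl {e' : V} (he : h.q e = 0) (he' : h.q e' = 0) (hee : h.B e e' = 1) {a : K}
    (a0 : a ≠ 0) (ha : a + τ a = 0) : ∃ k ∈ h.E, k e = a • e' := by
  have ha' : -a⁻¹ + τ (-a⁻¹) = 0 := by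
    rw [map_neg, map_inv₀, eq_neg_of_add_eq_zero_right ha, inv_neg]; simp
  refine ⟨h.ei e 0 (-(-a⁻¹)) * h.ei e' 0 (-a), h.E.mul_mem (ei_mem_E _ _ _) (ei_mem_E _ _ _), ?_⟩
  rw [LinearEquiv.mul_apply, herm_ei_zero he' ha, herm_ei_zero he ha', hyp_B_swap hee,
    FormType.herm_ε]
  simp [h.B_self_eq_zero he, hee, a0]

theorem lam_real [FiniteDimensional K V] (hτ : τ ≠ RingHom.id K) (hX : Ov F h X) (hh : h.Nondeg)
    (he : h.q e = 0) (he0 : e ≠ 0) {a : K} (a0 : a ≠ 0) (ha : τ a = a) : Lam X h e a := by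
  obtain ⟨e', he', hee⟩ := hh.exists_partner' he he0
  obtain ⟨b, b0, hb⟩ := FormType.exists_add_σ_eq_zero hτ hτ2
  obtain ⟨k, hk, h1⟩ := exists_weyl he he' hee b0 hb
  obtain ⟨k', hk', h2⟩ := exists_weyl he he' hee (mul_ne_zero a0 b0)
    (by rw [map_mul, ha, ← mul_add, hb, mul_zero])
  have hm := h.E.mul_mem (h.E.inv_mem hk) hk'
  refine ⟨k⁻¹ * k', E_le_O hm, hX.E_le hm, inv_app_eq ?_⟩
  rw [map_smul, h1, LinearEquiv.coe_coe, h2, mul_smul]

theorem mul_mem_lv (hX : Ov F h X) (he : h.q e = 0) {a : K} (ha : a + τ a = 0) :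
    LinearMap.mulLeft F a ∈ lv h X he :=
  Has.congr (hX.tv_herm he ha) fun v => by simp

theorem Lam.sand_mem (he : h.q e = 0) {l : K} (hl : Lam X h e l) {β : K →ₗ[F] K}
    (hβ : β ∈ lv h X he) :
    LinearMap.mulLeft F l ∘ₗ β ∘ₗ LinearMap.mulLeft F (τ l) ∈ lv h X he := by
  obtain ⟨k, a1, a2, a3⟩ := hl
  refine (lv_conj he hβ a1 a2).congr fun v => ?_
  rw [a3, h.B_smul_left, FormType.herm_σ, smul_smul, mul_comm]
  rfl

namespace TExt

variable (U : TExt f h) (H : HD σ τ U.τ)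
include U

theorem tv_of_lv (he : h.q e = 0) {n : K} {κ : F} (hκ : κ + σ κ = 0)
    (hl : κ • tn U.τ n (τ n) ∈ lv h X he) : f.ei (n • e) 0 (-κ) ∈ X := by
  obtain ⟨t, ht, h1⟩ := hl
  convert ht using 1
  ext x
  rw [h1, herm_ei_zero (by rw [U.hq, h.q_smul_eq_zero he, map_zero]) hκ, U.f_smul]
  simp [mul_smul, FormType.herm_σ]

omit [IsScalarTower F K V] in
theorem lv_skew [FiniteDimensional K V] (hXO : X ≤ f.O) (hh : h.Nondeg) (he : h.q e = 0)
    (he0 : e ≠ 0) {β : K →ₗ[F] K} (hβ : β ∈ lv h X he) (y y' : K) :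
    U.τ (τ y * β y') + U.τ (τ (β y) * y') = 0 := by
  obtain ⟨t, ht, h1⟩ := hβ
  obtain ⟨x, rfl⟩ := hh.exists_B_eq he0 y
  obtain ⟨x', rfl⟩ := hh.exists_B_eq he0 y'
  have := mem_O_B (hXO ht) x x'
  rw [h1, h1, f.B_add_left, f.B_add_right, f.B_add_right, U.f_right, U.f_smul, U.f_smul,
    h.B_smul_right, h.B_self_eq_zero he] at this
  simp only [FormType.herm_σ, mul_zero, map_zero] at this
  linear_combination this

/-- The data attached to a pair of lines meeting in codimension one. -/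
theorem exists_xi' [FiniteDimensional K V] (hh : h.Nondeg) (hg : g ∈ f.O) {x : V}
    (hx : x ∉ line F K e) (hgx : g x ∈ line F K e)
    (h1 : ∀ w ∈ line F K e, ∃ c : F, g⁻¹ w - c • x ∈ line F K e) :
    ∃ ξ : K, ξ ≠ 0 ∧ (∀ y, h.B e y = 0 → h.B e (g y) = f.B x y • ξ) ∧
      ∀ b : K, U.τ (τ ξ * b) = 0 ↔ g⁻¹ (b • e) ∈ line F K e := by
  obtain ⟨ξ, hξ⟩ := U.exists_xi hh hg hx h1
  obtain ⟨y, hy, hxy⟩ := U.exists_f_eq_one hh hx
  refine ⟨ξ, ?_, hξ, fun b => ?_⟩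
  · rintro rfl
    rw [← mem_O_B hg, U.f_line hgx (by simpa using hξ y hy)] at hxy
    exact zero_ne_one hxy
  have e1 : U.τ (τ ξ * b) = f.B y (g⁻¹ (b • e)) := by
    rw [← mem_O_B hg, app_inv, U.f_right, hξ y hy, hxy, one_smul]
  rw [e1]
  refine ⟨fun h0 => ?_, fun h0 => f.B_eq_zero_symm (U.f_line h0 hy)⟩
  obtain ⟨c, hc⟩ := h1 _ (smul_mem_line b e)
  have := f.B_eq_zero_symm (U.f_line hc hy)
  rw [f.B_sub_right, h0, f.B_smul_right, hyp_B_swap hxy, FormType.herm_ε] at this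
  have hc0 : c = 0 := by simpa using this
  simpa [hc0] using hc

omit U in
theorem exists_z (hX : Ov F h X) (he : h.q e = 0) (hg : g ∈ X) {x : V} {ξ : K}
    (hξ : ∀ y, h.B e y = 0 → h.B e (g y) = f.B x y • ξ) {a n : K} (ha : a + τ a = 0)
    (hn : g (n • e) = (a * ξ) • e) : ∃ z ∈ X, ∀ y, h.B e y = 0 → z y = y + f.B x y • n • e := by
  obtain ⟨t, ht, h2⟩ := hX.tv_herm he ha
  refine ⟨g⁻¹ * t * g, X.mul_mem (X.mul_mem (X.inv_mem hg) ht) hg, fun y hy => ?_⟩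
  rw [mul_app, mul_app, h2, map_add, inv_app, hξ y hy, ← inv_app_eq hn, ← map_smul,
    mul_smul_comm, smul_assoc]

include H

theorem exists_n [FiniteDimensional F K] (hr : 2 ≤ finrank F K) (he0 : e ≠ 0) {ξ : K} (ξ0 : ξ ≠ 0)
    (hξ : ∀ b : K, U.τ (τ ξ * b) = 0 ↔ g⁻¹ (b • e) ∈ line F K e) :
    ∃ a n : K, a + τ a = 0 ∧ n ≠ 0 ∧ g (n • e) = (a * ξ) • e := by
  obtain ⟨ρ, h1, h2⟩ := H.exists_real_notMem (Z := Submodule.span F {τ ξ * ξ, 0}) fun e => by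
    have h3 := finrank_span_le_card (R := F) ({τ ξ * ξ} : Set K)
    rw [Set.pair_comm, Submodule.span_insert_zero] at e
    rw [e, finrank_top] at h3
    simp at h3
    omega
  obtain ⟨ν, n1, n2, -, n3⟩ := H.exists_real_dual (by rw [map_mul, hτ2, mul_comm]) (map_zero τ) h1 h2
  obtain ⟨η, η0, hη⟩ := FormType.exists_add_σ_eq_zero H.σ_ne hσ2
  obtain ⟨n, hn⟩ := mem_line.1 ((hξ (η • ν * ξ)).1 (by
    rw [smul_mul_assoc, mul_smul_comm, map_smul, mul_left_comm, n2, smul_zero]))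
  refine ⟨η • ν, n, by rw [H.τ_smul, n1, ← add_smul, hη, zero_smul], ?_, by rw [hn, app_inv]⟩
  rintro rfl
  have := congrArg g hn
  rw [app_inv, zero_smul, map_zero, eq_comm] at this
  have ν0 : ν ≠ 0 := by rintro rfl; simp at n3
  simp [η0, ν0, ξ0, he0] at this

theorem tv_of_perp [FiniteDimensional F K] [FiniteDimensional K V] (hX : Ov F h X) (hXO : X ≤ f.O)
    (hh : h.Nondeg) (hr : 2 ≤ finrank F K) (he : h.q e = 0) (he0 : e ≠ 0) (hg : g ∈ X) {x : V}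
    (hx : x ∉ line F K e) (hgx : g x ∈ line F K e)
    (h1 : ∀ w ∈ line F K e, ∃ c : F, g⁻¹ w - c • x ∈ line F K e) (hex : h.B e x = 0) :
    ∃ (n : K) (κ : F), n ≠ 0 ∧ κ ≠ 0 ∧ κ + σ κ = 0 ∧ f.ei (n • e) 0 κ ∈ X := by
  obtain ⟨ξ, ξ0, h2, h3⟩ := U.exists_xi' hh (hXO hg) hx hgx h1
  obtain ⟨a, n, ha, n0, hn⟩ := U.exists_n H hr he0 ξ0 h3
  obtain ⟨z, hz, hz1⟩ := exists_z hX he hg h2 ha hn
  obtain ⟨θ, hθ⟩ := H.exists_ne
  obtain ⟨v, hv, hv'⟩ := hh.exists_perp_eq (H := K ∙ e) hx (θ • n)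
  have := U.lv_of_rk1 hh hXO hX he hz hex hz1
    (h.B_eq_zero_symm (hv e (Submodule.mem_span_singleton_self e)))
  have hκ : σ θ - θ + σ (σ θ - θ) = 0 := by rw [map_sub, hσ2]; ring
  refine ⟨n, _, n0, neg_ne_zero.2 (sub_ne_zero.2 hθ), by rw [map_neg, ← neg_add, hκ, neg_zero],
    U.tv_of_lv he hκ ?_⟩
  convert this using 1
  ext y
  rw [h.herm_symm v x, hv', H.τ_smul]
  simp [sub_smul, smul_smul, mul_comm, FormType.herm_σ, sub_mul]

/-- Conjugating the level by an element acting as a transvection on the line. -/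
theorem D_mem [FiniteDimensional K V] (hXO : X ≤ f.O) (he : h.q e = 0) {x : V}
    (hex : h.B e x = 1) {z : V ≃ₗ[F] V} (hz : z ∈ X) {n : K}
    (hz1 : ∀ y, h.B e y = 0 → z y = y + f.B x y • n • e) {β : K →ₗ[F] K} (hβ : β ∈ lv h X he) :
    tn U.τ (β 1) (τ n) + tn U.τ n 1 ∘ₗ β + U.τ (β 1) • tn U.τ n (τ n) ∈ lv h X he := by
  have hD : ∀ a : K, z (a • e) = (a + U.τ a • n) • e := fun a => by
    rw [hz1 _ (B_line (F := F) he (smul_mem_line _ _)), U.f_right, hex, map_one, one_mul, add_smul,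
      smul_assoc]
  have h4 : ∀ y, h.B e (z⁻¹ y) = h.B e y + U.τ (τ n * h.B e y) • 1 := fun y =>
    sub_eq_zero.1 (eq_zero_of_forall_mul U.τ_ne fun a => by
      obtain ⟨a, rfl⟩ := (FormType.herm τ hτ2).σ_surjective a
      have h5 := U.f_smul a e (z⁻¹ y)
      rw [← mem_O_B (hXO hz), app_inv, hD, U.f_smul] at h5
      rw [mul_sub, map_sub, ← h5]
      simp only [FormType.herm_σ, map_add, H.τ_smul, add_mul, mul_add, smul_mul_assoc,
        mul_smul_comm, map_smul, smul_eq_mul, mul_one, H.t_τ]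
      ring)
  have h5 : (LinearMap.id + tn U.τ n 1) ∘ₗ β ∘ₗ (LinearMap.id + tn U.τ 1 (τ n)) ∈ lv h X he :=
    (Has.conj hβ hz).congr fun y => by rw [hD, h4]; simp
  convert (lv h X he).sub_mem h5 hβ using 1
  ext y
  simp only [LinearMap.add_apply, tn_apply, LinearMap.comp_apply, LinearMap.smul_apply,
    LinearMap.sub_apply, LinearMap.id_apply, map_add, map_smul, one_mul]
  module

theorem tv_of_one [FiniteDimensional F K] [FiniteDimensional K V] (hX : Ov F h X) (hXO : X ≤ f.O)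
    (hh : h.Nondeg) (hr : 3 ≤ finrank F K) (he : h.q e = 0) (he0 : e ≠ 0) (hg : g ∈ X) {x : V}
    (hx : x ∉ line F K e) (hgx : g x ∈ line F K e)
    (h1 : ∀ w ∈ line F K e, ∃ c : F, g⁻¹ w - c • x ∈ line F K e) (hex : h.B e x = 1)
    (hp : ∀ n : K, U.τ n = 0 → g (n • e) ∈ line F K e) {θ : F} (hθ : σ θ ≠ θ) {ρ : K}
    (hρ : τ ρ = ρ) (hρ' : ρ ∉ F ∙ (1 : K)) (hl : Lam X h e (1 + θ • ρ)) :
    ∃ (n : K) (κ : F), n ≠ 0 ∧ κ ≠ 0 ∧ κ + σ κ = 0 ∧ f.ei (n • e) 0 κ ∈ X := by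
  obtain ⟨ξ, ξ0, h2, h3⟩ := U.exists_xi' hh (hXO hg) hx hgx h1
  by_contra! hcon
  -- the set `N₀`
  let N : K → Prop := fun n => ∃ a, a + τ a = 0 ∧ g (n • e) = (a * ξ) • e
  have N1 : ∀ n, N n → U.τ n = 0 := fun n ⟨a, _, hn⟩ => by
    have := U.f_block' (hXO hg) he hgx (y := n • e) (by rw [hn]; exact smul_mem_line _ _)
    rwa [U.f_right, hex, map_one, one_mul] at this
  have N2 : ∀ n, N n → ∀ β ∈ lv h X he,
      tn U.τ (β 1) (τ n) + tn U.τ n 1 ∘ₗ β + U.τ (β 1) • tn U.τ n (τ n) ∈ lv h X he :=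
    fun n ⟨a, ha, hn⟩ β hβ =>
      let ⟨z, hz, hz1⟩ := exists_z hX he hg h2 ha hn
      U.D_mem H hXO he hex hz hz1 hβ
  have N3 : ∀ n, N n → n ≠ 0 → ∀ c : F, σ c ≠ c → ∀ β ∈ lv h X he, β 1 ≠ c • n := by
    intro n hn n0 c hc β hβ e1
    have hκ : c - σ c + σ (c - σ c) = 0 := by rw [map_sub, hσ2]; ring
    refine hcon n _ n0 (neg_ne_zero.2 (sub_ne_zero.2 hc.symm))
      (by rw [map_neg, ← neg_add, hκ, neg_zero]) (U.tv_of_lv he hκ ?_)
    convert N2 n hn β hβ using 1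
    ext y
    have := U.lv_skew hXO hh he he0 hβ 1 y
    rw [map_one, one_mul, e1, H.τ_smul, smul_mul_assoc, map_smul] at this
    simp only [LinearMap.add_apply, tn_apply, LinearMap.comp_apply, LinearMap.smul_apply, e1,
      map_smul, N1 n hn, one_mul, eq_neg_of_add_eq_zero_left this, smul_eq_mul]
    module
  obtain ⟨η, η0, hη⟩ := FormType.exists_add_σ_eq_zero H.σ_ne hσ2
  obtain ⟨ν₀, m1, -, -, m2⟩ := H.exists_real_dual (map_zero τ) (map_zero τ) (map_one τ) (by simp)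
  have N4 : ∀ n, N n → ∃ β ∈ lv h X he, β 1 = η • n := fun n hn => by
    refine ⟨_, N2 n hn _ (mul_mem_lv hX he (a := η • ν₀)
      (by rw [H.τ_smul, m1, ← add_smul, hη, zero_smul])), ?_⟩
    rw [mul_one] at m2
    simp [H.t_τ, N1 n hn, m2]
  obtain ⟨a₀, n₀, ha₀, n₀0, hn₀⟩ := U.exists_n H (by omega) he0 ξ0 h3
  have hση : σ η = η := by
    by_contra hc
    obtain ⟨β, hβ, e1⟩ := N4 n₀ ⟨a₀, ha₀, hn₀⟩
    exact N3 n₀ ⟨a₀, ha₀, hn₀⟩ n₀0 η hc β hβ e1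
  have h2F : (2 : F) = 0 := by
    rw [hση, ← two_mul] at hη
    exact (mul_eq_zero.1 hη).resolve_right η0
  have h2K : (2 : K) = 0 := by rw [← map_ofNat ι₀ 2, h2F, map_zero]
  have sk : ∀ a : K, τ a = a → a + τ a = 0 := fun a ha => by rw [ha, ← two_mul, h2K, zero_mul]
  have N5 : ∀ b, τ b = b → U.τ b = 0 → N b := by
    intro b hb hb0
    obtain ⟨b', hb'⟩ := mem_line.1 (hp _ (show U.τ (η • b) = 0 by simp [hb0]))
    have t0 := (h3 b').2 (by rw [inv_app_eq hb'.symm]; exact smul_mem_line _ _)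
    obtain ⟨a₁, a₂, r1, r2, e1⟩ := H.exists_add hθ (b' / (η • ξ))
    have e2 : b' = η • (a₁ * ξ) + (η * θ) • (a₂ * ξ) := by
      rw [div_eq_iff (smul_ne_zero η0 ξ0)] at e1
      rw [e1]; simp only [Algebra.smul_def, map_mul]; ring
    have re : ∀ a, τ a = a → σ (U.τ (τ ξ * (a * ξ))) = U.τ (τ ξ * (a * ξ)) := fun a ha =>
      H.t_real (by rw [map_mul, map_mul, hτ2, ha]; ring)
    rw [e2, mul_add, mul_smul_comm, mul_smul_comm, map_add, map_smul, map_smul, smul_eq_mul,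
      smul_eq_mul, mul_assoc, ← mul_add, mul_eq_zero_iff_left η0] at t0
    have t2 : U.τ (τ ξ * (a₂ * ξ)) = 0 := by
      have := congrArg σ t0
      rw [map_add, map_mul σ, re a₁ r1, re a₂ r2, map_zero] at this
      have h4 : (σ θ - θ) * U.τ (τ ξ * (a₂ * ξ)) = 0 := by linear_combination this - t0
      exact (mul_eq_zero.1 h4).resolve_left (sub_ne_zero.2 hθ)
    have t1 : U.τ (τ ξ * (a₁ * ξ)) = 0 := by simpa [t2] using t0
    obtain ⟨n₁, hn₁⟩ := mem_line.1 ((h3 _).1 t1)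
    obtain ⟨n₂, hn₂⟩ := mem_line.1 ((h3 _).1 t2)
    have q1 : g (n₁ • e) = (a₁ * ξ) • e := by rw [hn₁, app_inv]
    have q2 : g (n₂ • e) = (a₂ * ξ) • e := by rw [hn₂, app_inv]
    have e3 : b = n₁ + θ • n₂ := by
      apply smul_right_injective K η0
      apply smul_left_injective K he0
      apply g.injective
      dsimp only
      rw [← hb', e2, smul_add, add_smul, add_smul, map_add, smul_smul η θ]
      simp only [smul_assoc, map_smul, q1, q2]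
    by_cases n0 : n₂ = 0
    · rw [e3, n0, smul_zero, add_zero]; exact ⟨a₁, sk a₁ r1, q1⟩
    obtain ⟨β, hβ, e4⟩ := N4 n₁ ⟨a₁, sk a₁ r1, q1⟩
    refine absurd ?_ (N3 n₂ ⟨a₂, sk a₂ r2, q2⟩ n0 (η * θ) (by
      rw [map_mul, hση, ne_eq, mul_right_inj' η0]; exact hθ) _ ((lv h X he).sub_mem
      (mul_mem_lv hX he (sk (η • b) (by rw [H.τ_smul, hση, hb]))) hβ))
    rw [LinearMap.sub_apply, e4, LinearMap.mulLeft_apply, mul_one, e3, mul_smul]
    module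
  obtain ⟨ρ', r1, r2⟩ := H.exists_real_notMem (Z := Submodule.span F {1, ρ}) fun e => by
    have := CL.Tv.finrank_span_pair_le (F := F) (1 : K) ρ
    rw [e, finrank_top] at this
    omega
  obtain ⟨n, n1, n2, n3, n4⟩ := H.exists_real_dual (map_one τ) hρ r1 r2
  obtain ⟨a, a1, a2, -, a3⟩ := H.exists_real_dual hρ (map_zero τ) (map_one τ) (fun hm => by
    rw [Set.pair_comm, Submodule.span_insert_zero] at hm
    obtain ⟨c, hc⟩ := Submodule.mem_span_singleton.1 hm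
    have c0 : c ≠ 0 := by rintro rfl; simp at hc
    exact hρ' (Submodule.mem_span_singleton.2 ⟨c⁻¹, by rw [← hc, inv_smul_smul₀ c0]⟩))
  rw [mul_one] at n2 a3
  have n0 : n ≠ 0 := by rintro rfl; simp at n4
  have ρ0 : ρ ≠ 0 := by rintro rfl; exact hρ' (Submodule.zero_mem _)
  have hβ := hl.sand_mem he (N2 n (N5 n n1 n2) _ (mul_mem_lv hX he (sk a a1)))
  refine N3 (n * ρ) (N5 _ (by rw [map_mul, n1, hρ]) n3) (mul_ne_zero n0 ρ0) θ hθ _
    ((lv h X he).sub_mem hβ (mul_mem_lv hX he (sk n n1))) ?_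
  simp [H.τ_smul, hρ, n1, mul_add, n2, n3, a2, a3, add_mul, mul_comm ρ n]

end TExt

end CL.ExtF
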