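/-
Extension-field subgroups of unitary groups: from one transvection to all, and the main theorem.
-/
import Cfsg.Agent.CLAS.ExtU2
import Cfsg.Agent.CLAS.ExtO2
import Cfsg.Agent.CLAS.UniGen

set_option autoImplicit false

namespace CL.ExtF

open Module CL.Witt CL.Witt.Form

attribute [-simp] LinearEquiv.coe_inv

variable {F K : Type*} [Field F] [Field K] [Algebra F K] {V : Type*} [AddCommGroup V] [Module F V]
  [Module K V] [IsScalarTower F K V] {X : Subgroup (V ≃ₗ[F] V)} {e : V} {g : V ≃ₗ[F] V}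
  {σ : F →+* F} {hσ2 : ∀ a, σ (σ a) = a} {τ : K →+* K} {hτ2 : ∀ a, τ (τ a) = a}
  {f : Form (FormType.herm σ hσ2) V} {h : Form (FormType.herm τ hτ2) V}

local notation "ι₀" => algebraMap F K

variable (f X) in
/-- All transvections with centre `v` lie in `X`. -/
def AllTv (v : V) : Prop := f.q v = 0 ∧ ∀ κ, κ + σ κ = 0 → f.ei v 0 (-κ) ∈ X

theorem AllTv.conj {v : V} (hv : AllTv X f v) (hXO : X ≤ f.O) (hg : g ∈ X) : AllTv X f (g v) :=
  ⟨by rw [mem_O_q (hXO hg), hv.1], fun κ hκ => by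
    have := (eichOK_zero hv.1 (a := -κ) (by
      rw [map_neg, FormType.herm_π, hκ, neg_zero])).conj_ei (hXO hg)
    rw [map_zero] at this
    rw [← this]
    exact X.mul_mem (X.mul_mem hg (hv.2 κ hκ)) (X.inv_mem hg)⟩

theorem ei_smul_eq {v : V} (hv : f.q v = 0) (c : F) {κ : F} (hκ : κ + σ κ = 0) :
    f.ei (c • v) 0 (-κ) = f.ei v 0 (-(κ * (σ c * c))) := by
  ext x
  rw [herm_ei_zero (f.q_smul_eq_zero hv c) hκ, herm_ei_zero hv (by
    rw [map_mul, map_mul, hσ2]; linear_combination (σ c * c) * hκ), f.B_smul_left,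
    FormType.herm_σ, smul_smul]
  congr 2; ring

theorem AllTv.smul {v : V} (hv : AllTv X f v) (c : F) : AllTv X f (c • v) :=
  ⟨f.q_smul_eq_zero hv.1 c, fun κ hκ => by
    rw [ei_smul_eq hv.1 c hκ]
    exact hv.2 _ (by rw [map_mul, map_mul, hσ2]; linear_combination (σ c * c) * hκ)⟩

theorem AllTv.move {u v : V} (hXO : X ≤ f.O) (hu : AllTv X f u) (hv : AllTv X f v) {κ : F}
    (hκ : κ + σ κ = 0) : AllTv X f (v + (κ * f.B u v) • u) := by
  rw [← herm_ei_zero hu.1 hκ]
  exact hv.conj hXO (hu.2 κ hκ)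

theorem AllTv.lam (hXO : X ≤ f.O) {l n : K} (hl : Lam X h e l) (hv : AllTv X f (n • e)) :
    AllTv X f ((l * n) • e) := by
  obtain ⟨k, -, a2, a3⟩ := hl
  have := hv.conj hXO a2
  rwa [rs_apply, map_smul, a3, smul_smul, mul_comm] at this

theorem finrank_line' (he0 : e ≠ 0) : finrank F (line F K e) = finrank F K := by
  have : line F K e = LinearMap.range ((LinearMap.toSpanSingleton K V e).restrictScalars F) := by
    ext w; rw [mem_line]; rfl
  rw [this]
  exact LinearMap.finrank_range_of_inj (smul_left_injective K he0)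

namespace TExt

variable (U : TExt f h) (H : HD σ τ U.τ)
include U H

theorem allTv_of_one [Finite K] [FiniteDimensional K V] (hX : Ov F h X) (hXO : X ≤ f.O)
    (hh : h.Nondeg) (he : h.q e = 0) (he0 : e ≠ 0) {κ : F} (κ0 : κ ≠ 0) (hκ : κ + σ κ = 0)
    (ht : f.ei e 0 κ ∈ X) : AllTv X f e := by
  have : Finite F := Finite.of_injective _ (algebraMap F K).injective
  have hq : f.q e = 0 := by rw [U.hq, he, map_zero]
  have hκ' : -κ + σ (-κ) = 0 := by rw [map_neg, ← neg_add, hκ, neg_zero]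
  have key : ∀ a : F, σ a = a → f.ei e 0 (κ * (a * a)) ∈ X := fun a ha => by
    rcases eq_or_ne a 0 with rfl | a0
    · rw [mul_zero, mul_zero, ei_zero]; exact X.one_mem
    obtain ⟨k, -, a2, a3⟩ := lam_real H.τ_ne hX hh he he0 (a := ι₀ a) (by simpa using a0)
      (by rw [H.alg, ha])
    have h1 := (eichOK_zero hq (a := κ) hκ).conj_ei (hXO a2)
    have h2 := ei_smul_eq hq a hκ'
    rw [neg_neg, ha, neg_mul, neg_neg] at h2
    rw [← h2, ← algebraMap_smul K, ← a3, ← rs_apply (F := F), ← map_zero (rs F K V k), ← h1]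
    exact X.mul_mem (X.mul_mem a2 ht) (X.inv_mem a2)
  refine ⟨hq, fun κ' h1 => ?_⟩
  obtain ⟨a, b, hab⟩ := exists_mul_self_add (F := σ.eqLocusField (RingHom.id F)) ⟨-κ' / κ, by
    change σ _ = _
    rw [map_div₀, map_neg, eq_neg_of_add_eq_zero_right h1, eq_neg_of_add_eq_zero_right hκ]
    simp [div_neg, neg_div]⟩
  have h2 : (a : F) * a + b * b = -κ' / κ := congrArg Subtype.val hab
  have sk : ∀ a : F, σ a = a → (FormType.herm σ hσ2).π (κ * (a * a)) = 0 := fun a ha => by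
    rw [FormType.herm_π, map_mul, map_mul, ha]; linear_combination (a * a) * hκ
  have := X.mul_mem (key a a.2) (key b b.2)
  rwa [ei_zero_mul_ei_zero hq (sk a a.2) (sk b b.2), ← mul_add, h2, mul_div_cancel₀ _ κ0] at this

theorem allTv_add [FiniteDimensional K V] (hX : Ov F h X) (hXO : X ≤ f.O) (hh : h.Nondeg)
    (he : h.q e = 0) (he0 : e ≠ 0) (h1 : AllTv X f e) {w ν κ : K} (hw : AllTv X f (w • e))
    (hν : τ ν = ν) (hκ : τ κ = κ) (h0 : U.τ (ν * κ) = 0) :
    AllTv X f ((w + U.τ (ν * w) • κ) • e) := by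
  rcases eq_or_ne ν 0 with rfl | ν0
  · simpa using hw
  rcases eq_or_ne κ 0 with rfl | κ0
  · simpa using hw
  obtain ⟨e', he', hee⟩ := hh.exists_partner' he he0
  obtain ⟨η, η0, hη⟩ := FormType.exists_add_σ_eq_zero H.σ_ne hσ2
  have hση : σ η = -η := eq_neg_of_add_eq_zero_right hη
  have hu : AllTv X f (κ • e) := by
    have := AllTv.lam hXO (lam_real H.τ_ne hX hh he he0 κ0 hκ) (n := 1) (by rwa [one_smul])
    rwa [mul_one] at this
  have ην : η • ν ≠ 0 := smul_ne_zero η0 ν0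
  have hv : AllTv X f ((η • ν) • e') := by
    obtain ⟨k, hk, h2⟩ := exists_weyl he he' hee ην (by rw [H.τ_smul, hν, hση]; simp)
    rw [← h2]; exact h1.conj hXO (hX.E_le hk)
  have huv : AllTv X f (κ • e + (η • ν) • e') := by
    obtain ⟨t, ht, h2⟩ := hX.tv_herm he (a := κ / (η • ν)) (by
      rw [map_div₀, hκ, H.τ_smul, hν, hση, neg_smul, div_neg, add_neg_cancel])
    have := hv.conj hXO ht
    rwa [h2, h.B_smul_right, hee, mul_one, div_mul_cancel₀ _ ην, add_comm] at this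
  have hB : f.B (κ • e) ((η • ν) • e') = 0 := by
    rw [U.f_smul, h.B_smul_right, hee, FormType.herm_σ, hκ, mul_one, mul_smul_comm, map_smul,
      mul_comm, h0, smul_zero]
  have ha : η⁻¹ + σ η⁻¹ = 0 := by rw [map_inv₀, hση, inv_neg, add_neg_cancel]
  have ha' : (FormType.herm σ hσ2).π (- -η⁻¹) = 0 := by rw [neg_neg]; exact ha
  have ha'' : -η⁻¹ + σ (-η⁻¹) = 0 := by rw [map_neg, ← neg_add, ha, neg_zero]
  have h3 := ei_eq_tv_mul hu.1 hv.1 hB ha'
  have h4 := X.mul_mem (X.mul_mem (huv.2 _ ha'') (X.inv_mem (hu.2 _ ha'')))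
    (X.inv_mem (hv.2 _ ha''))
  rw [← h3] at h4
  have h5 := hw.conj hXO h4
  rw [EichOK.ei_apply_of_perp ⟨hu.1, by rw [f.B_smul_right, hB, mul_zero],
    by rw [map_zero, f.q_smul_eq_zero hv.1]⟩ (U.f_line (smul_mem_line _ _)
      (B_line (F := F) he (smul_mem_line _ _)))] at h5
  convert h5 using 1
  rw [f.B_smul_left, U.f_smul, h.B_smul_right, hyp_B_swap hee]
  simp only [FormType.herm_ε, FormType.herm_σ, H.τ_smul, hν, hση, map_neg,
    map_inv₀, mul_one, one_mul, smul_mul_assoc, map_smul, smul_eq_mul, neg_neg, inv_neg]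
  rw [add_smul, smul_assoc, neg_mul, mul_neg, inv_mul_cancel_left₀ η0]
  simp

theorem allTv_line [FiniteDimensional F K] [FiniteDimensional K V] (hX : Ov F h X) (hXO : X ≤ f.O)
    (hh : h.Nondeg) (hr : 3 ≤ finrank F K) (he : h.q e = 0) (he0 : e ≠ 0) (h1 : AllTv X f e)
    {θ : F} (hθ : σ θ ≠ θ) {ρ : K} (hρ : τ ρ = ρ) (hρ' : ρ ∉ F ∙ (1 : K))
    (hl : Lam X h e (1 + θ • ρ)) (w : K) : AllTv X f (w • e) := by
  have real : ∀ a w : K, τ a = a → AllTv X f (w • e) → AllTv X f ((a * w) • e) := by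
    intro a w ha hw
    rcases eq_or_ne a 0 with rfl | a0
    · simpa using hw.smul 0
    exact hw.lam hXO (lam_real H.τ_ne hX hh he he0 a0 ha)
  have step : ∀ ρ ρ' : K, τ ρ = ρ → τ ρ' = ρ' → ρ ∉ F ∙ (1 : K) → ρ' ∉ Submodule.span F {1, ρ} →
      AllTv X f ((1 + θ • ρ) • e) → AllTv X f ((1 + θ • ρ') • e) := by
    intro ρ ρ' r1 r2 r3 r4 hw
    have r5 : τ (ρ' - ρ) = ρ' - ρ := by rw [map_sub, r1, r2]
    obtain ⟨ν, n1, n2, n3, n4⟩ := H.exists_real_dual (map_one τ) r5 r1 fun hm => by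
      obtain ⟨a, b, hab⟩ := Submodule.mem_span_pair.1 hm
      rcases eq_or_ne b 0 with rfl | b0
      · exact r3 (Submodule.mem_span_singleton.2 ⟨a, by simpa using hab⟩)
      · refine r4 (Submodule.mem_span_pair.2 ⟨-(b⁻¹ * a), b⁻¹ + 1, ?_⟩)
        apply smul_right_injective K b0
        dsimp only
        rw [smul_add, smul_smul, smul_smul, mul_neg, mul_inv_cancel_left₀ b0, mul_add,
          mul_inv_cancel₀ b0]
        linear_combination (norm := module) -hab
    have := U.allTv_add H hX hXO hh he he0 h1 hw n1 r5 n3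
    rw [mul_add, mul_smul_comm, map_add, map_smul, n2, n4] at this
    convert this using 2
    simp [smul_sub]
  have h2 : AllTv X f ((1 + θ • ρ) • e) := by
    have := AllTv.lam hXO hl (n := 1) (by rwa [one_smul])
    rwa [mul_one] at this
  have h3 : ∀ ρ' : K, τ ρ' = ρ' → AllTv X f ((1 + θ • ρ') • e) := by
    intro ρ' r1
    by_cases r2 : ρ' ∈ F ∙ (1 : K)
    · obtain ⟨c, rfl⟩ := Submodule.mem_span_singleton.1 r2
      convert h1.smul (1 + θ * c) using 1
      simp [add_smul, mul_smul]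
    by_cases r3 : ρ' ∈ Submodule.span F {1, ρ}
    swap
    · exact step ρ ρ' hρ r1 hρ' r3 h2
    obtain ⟨ρ'', s1, s2⟩ := H.exists_real_notMem (Z := Submodule.span F {1, ρ}) fun e => by
      have := CL.Tv.finrank_span_pair_le (F := F) (1 : K) ρ
      rw [e, finrank_top] at this
      omega
    have o1 : (1 : K) ∈ Submodule.span F {1, ρ} := Submodule.subset_span (by simp)
    refine step ρ'' ρ' s1 r1 (fun hm => s2 ((Submodule.span_singleton_le_iff_mem _ _).2 o1 hm))
      (fun hm => ?_) (step ρ ρ'' hρ s1 hρ' s2 h2)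
    obtain ⟨a, b, hab⟩ := Submodule.mem_span_pair.1 hm
    rcases eq_or_ne b 0 with rfl | b0
    · exact r2 (Submodule.mem_span_singleton.2 ⟨a, by simpa using hab⟩)
    · refine s2 ((Submodule.smul_mem_iff _ b0).1 ?_)
      rw [eq_sub_iff_add_eq'.2 hab]
      exact Submodule.sub_mem _ r3 (Submodule.smul_mem _ _ o1)
  obtain ⟨x, y, hx, hy, rfl⟩ := H.exists_add hθ w
  rcases eq_or_ne x 0 with rfl | x0
  · have := (real y 1 hy (by rwa [one_smul])).smul θ
    rwa [mul_one, ← smul_assoc, ← zero_add (θ • y)] at this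
  · have := real x _ hx (h3 (y / x) (by rw [map_div₀, hx, hy]))
    rwa [mul_add, mul_one, mul_smul_comm, mul_div_cancel₀ _ x0] at this

theorem E_le_of_line [Finite K] [FiniteDimensional K V] (hX : Ov F h X) (hXO : X ≤ f.O)
    (hh : h.Nondeg) (hn : 4 ≤ finrank F V) (he : h.q e = 0) (he0 : e ≠ 0)
    (h1 : ∀ w : K, AllTv X f (w • e)) : f.E ≤ X := by
  have : Finite F := Finite.of_injective _ (algebraMap F K).injective
  have : FiniteDimensional F K := Module.Finite.of_finite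
  have : FiniteDimensional F V := Module.Finite.trans K V
  have h2 : ∀ y, h.q y = 0 → AllTv X f y := fun y hy => by
    rcases eq_or_ne y 0 with rfl | y0
    · simpa using h1 0
    obtain ⟨k, hk, c, c0, h3⟩ := hh.exists_mem_E_apply_eq_smul (CL.Uni.herm_big H.τ_ne 0) he he0 hy y0
    have := (h1 c⁻¹).conj hXO (hX.E_le hk)
    rwa [rs_apply, map_smul, h3, inv_smul_smul₀ c0] at this
  obtain ⟨η, η0, hη⟩ := FormType.exists_add_σ_eq_zero H.σ_ne hσ2
  refine (CL.Uni.idx2 H.σ_ne (U.nondeg' hh) hn).E_le_of_tv (U.nondeg' hh) η0 hη fun x a hx ha => ?_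
  suffices AllTv X f x by
    have := this.2 (-a) (by rw [map_neg, ← neg_add]; exact neg_eq_zero.2 ha)
    rwa [neg_neg] at this
  rcases eq_or_ne x 0 with rfl | x0
  · exact h2 0 h.q_zero
  obtain ⟨u, hu, hux⟩ := hh.exists_singular_B_ne he he0 x0
  obtain ⟨u, hu, hux⟩ : ∃ u, h.q u = 0 ∧ h.B u x = 1 :=
    ⟨τ (h.B u x)⁻¹ • u, h.q_smul_eq_zero hu _, by
      rw [h.B_smul_left, FormType.herm_σ, hτ2, inv_mul_cancel₀ hux]⟩
  obtain ⟨c, hc⟩ := h.exists_q_add_smul_eq_zero (y := x) hu (by simp [hux])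
  have mv : ∀ y, h.B u y = 1 → AllTv X f y → ∀ d : K, U.τ d ≠ 0 → U.τ d + σ (U.τ d) = 0 →
      AllTv X f (y + d • u) := fun y hy h3 d d0 hd => by
    have := (h2 _ (h.q_smul_eq_zero hu d)).move hXO h3 (κ := (σ (U.τ d))⁻¹) (by
      rw [map_inv₀, hσ2, eq_neg_of_add_eq_zero_right hd, inv_neg, neg_add_cancel])
    rwa [U.f_smul, hy, FormType.herm_σ, mul_one, H.t_τ, inv_mul_cancel₀ (by simpa using d0),
      one_smul] at this
  have hy : h.B u (x + c • u) = 1 := by simp [hux, h.B_self_eq_zero hu]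
  have hd : U.τ (-c) + σ (U.τ (-c)) = 0 := by
    have h3 := congrArg U.τ hc
    rw [add_comm, ← one_smul K x, h.q_add_smul, h.q_smul_eq_zero hu, h.B_smul_left, hux,
      FormType.herm_π, FormType.herm_σ, FormType.herm_σ] at h3
    simp only [map_one, one_mul, mul_one, zero_add, map_add, ← U.hq, hx, hτ2, H.t_τ, map_zero] at h3
    rw [map_neg, map_neg]; linear_combination -h3
  by_cases d0 : U.τ (-c) = 0
  · obtain ⟨d, hd⟩ : ∃ d, U.τ d = η := LinearMap.surjective_of_ne_zero U.τ_ne η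
    have := mv _ (by simp [hux, h.B_self_eq_zero hu]) (mv _ hy (h2 _ hc) d (by rwa [hd])
      (by rwa [hd])) (-c - d) (by rw [map_sub, d0, hd]; simpa)
      (by rw [map_sub, d0, hd, zero_sub, map_neg, ← neg_add, hη, neg_zero])
    convert this using 1
    module
  · simpa using mv _ hy (h2 _ hc) _ d0 hd

theorem submodule_eq_top [FiniteDimensional K V] (hh : h.Nondeg) (he : h.q e = 0) (he0 : e ≠ 0)
    {D : Submodule F V} (hD : ∀ u v a, h.EichOK u v a → ∀ d ∈ D, h.ei u v a d ∈ D) (heD : e ∈ D)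
    (v : V) : v ∈ D := by
  have hE : ∀ g ∈ h.E, ∀ d ∈ D, g d ∈ D := by
    let S : Subgroup (V ≃ₗ[K] V) :=
      { carrier := {g | ∀ d, d ∈ D ↔ g d ∈ D}
        mul_mem' := fun ha hb d => (hb d).trans (ha _)
        one_mem' := fun _ => Iff.rfl
        inv_mem' := fun {a} ha d => by simpa [app_inv] using (ha (a⁻¹ d)).symm }
    have : h.E ≤ S := E_le_iff'.2 fun u v a h d => ⟨hD u v a h d, fun h' => by
      have := hD _ _ _ h.neg _ h'
      rwa [← h.ei_inv, ← LinearEquiv.mul_apply, inv_mul_cancel] at this⟩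
    exact fun g hg d hd => (this hg d).1 hd
  obtain ⟨e', he', hee⟩ := hh.exists_partner' he he0
  have key : ∀ x y, h.q x = 0 → h.q y = 0 → h.B x y = 1 → (∃ c : K, c ≠ 0 ∧ c • x ∈ D) →
      ∀ a : K, a • y ∈ D := by
    rintro x y hx hy hxy ⟨c, c0, hc⟩ a
    have : D.comap ((LinearMap.toSpanSingleton K V y ∘ₗ LinearMap.mulLeft K c).restrictScalars F) =
        ⊤ := H.eq_top_of_skew fun b hb => by
      rcases eq_or_ne b 0 with rfl | b0
      · exact Submodule.zero_mem _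
      obtain ⟨k, hk, h1⟩ := exists_weyl hx hy hxy b0 hb
      have := hE k hk _ hc
      rwa [map_smul, h1, smul_smul] at this
    have h2 : c⁻¹ * a ∈ D.comap ((LinearMap.toSpanSingleton K V y ∘ₗ
      LinearMap.mulLeft K c).restrictScalars F) := by rw [this]; trivial
    simpa [c0] using h2
  have h1 := key e' e he' he (by rw [hyp_B_swap hee]; rfl) ⟨1, one_ne_zero,
    key e e' he he' hee ⟨1, one_ne_zero, by rwa [one_smul]⟩ 1⟩
  refine hh.mem_of_singular he he0 (A := D.toAddSubgroup) (fun z hz => ?_) v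
  rcases eq_or_ne z 0 with rfl | z0
  · exact D.zero_mem
  obtain ⟨g, hg, c, hc, hgu⟩ := hh.exists_mem_E_apply_eq_smul (CL.Uni.herm_big H.τ_ne 0) he he0 hz z0
  have := hE g hg _ (h1 c⁻¹)
  rwa [map_smul, hgu, inv_smul_smul₀ hc] at this

/-- A group that permutes the singular lines over `K` is semilinear. -/
theorem le_Gam_herm [Finite K] [FiniteDimensional K V] (hX : Ov F h X) (hXO : X ≤ f.O)
    (hh : h.Nondeg) (he : h.q e = 0) (he0 : e ≠ 0)
    (P : ∀ g ∈ X, ∀ x, h.q x = 0 → h.q (g x) = 0 ∧ ∀ a : K, ∃ b : K, g (a • x) = b • g x) :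
    X ≤ Gam F K V := by
  have : Nontrivial V := ⟨⟨e, 0, he0⟩⟩
  have : FiniteDimensional F K := Module.Finite.of_finite
  have : FiniteDimensional F V := Module.Finite.trans K V
  have key : ∀ g ∈ X, ∀ u v a, h.EichOK u v a → KL K (g * rs F K V (h.ei u v a) * g⁻¹) := by
    intro g hg u v a ha
    rcases eq_or_ne u 0 with rfl | hu
    · have : h.ei 0 v a = 1 := by simpa [U_zero] using ei_mem_U (f := h) 0 v a
      rw [this, map_one, mul_one, mul_inv_cancel]
      exact fun _ _ => rfl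
    have hz := X.mul_mem (X.mul_mem hg (hX u v a)) (X.inv_mem hg)
    have hl : ∀ w ∈ line F K u, g w ∈ line F K (g u) := fun w hw => by
      obtain ⟨c, rfl⟩ := mem_line.1 hw
      obtain ⟨b, hb⟩ := (P g hg u ha.hu).2 c
      rw [hb]; exact smul_mem_line _ _
    refine U.kl_of_Q hh (P g hg u ha.hu).1 (by simpa using hu) (hXO hz) (fun c => ?_)
      (fun y hy => ?_) (P _ hz)
    · obtain ⟨b, hb⟩ := (P _ (X.inv_mem hg) _ (P g hg u ha.hu).1).2 c
      rw [mul_app, mul_app, hb, inv_app, rs_apply, map_smul, ha.ei_apply_u, ← inv_app g u, ← hb,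
        app_inv, inv_app]
    · have h1 : h.B u (g⁻¹ y) = 0 := U.perp_of_line fun w hw => by
        rw [← mem_O_B (hXO hg), app_inv]; exact U.f_line (hl w hw) hy
      rw [mul_app, mul_app, rs_apply, ha.ei_apply_of_perp h1, map_sub, app_inv, sub_sub_cancel_left]
      exact Submodule.neg_mem _ (hl _ (smul_mem_line _ _))
  intro g hg
  rw [← (Gam F K V).inv_mem_iff]
  refine mem_Gam_of fun c => ?_
  obtain ⟨b, hb⟩ := (P _ (X.inv_mem hg) _ (P g hg e he).1).2 c
  let D : Submodule F V :=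
    { carrier := {y | g⁻¹ (c • g y) = b • y}
      zero_mem' := by simp
      add_mem' := fun {x y} hx hy => by
        simp only [Set.mem_ofPred_eq, map_add, smul_add] at *
        rw [hx, hy]
      smul_mem' := fun s x hx => by
        simp only [Set.mem_ofPred_eq, map_smul] at *
        rw [smul_comm, map_smul, hx, smul_comm] }
  have hD := U.submodule_eq_top H hh he he0 (D := D) (fun u v a ha d hd => by
    have h1 := key g hg u v a ha c (g d)
    have h2 : g⁻¹ (c • g d) = b • d := hd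
    rw [mul_app, mul_app, mul_app, mul_app, inv_app, h2, rs_apply, rs_apply, map_smul] at h1
    change g⁻¹ _ = _
    rw [← h1, inv_app]) (by change g⁻¹ _ = _; rw [hb, inv_app])
  refine ⟨b, fun v => ?_⟩
  have h2 : g⁻¹ (c • g (g⁻¹ v)) = b • g⁻¹ v := hD _
  rwa [app_inv] at h2

theorem not_E_le_Gam_herm [FiniteDimensional F V] (hf : f.Nondeg) (he : h.q e = 0) (he0 : e ≠ 0)
    (hr : 2 ≤ finrank F K) : ¬ f.E ≤ Gam F K V := fun hle => by
  obtain ⟨η, η0, hη⟩ := FormType.exists_add_σ_eq_zero H.σ_ne hσ2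
  have hq : f.q e = 0 := by rw [U.hq, he, map_zero]
  have kl := kl_of_fix (hle (ei_mem_E e 0 (-η))) he0 fun a => by
    rw [herm_ei_zero hq hη, U.hB, h.B_smul_right, h.B_self_eq_zero he]; simp
  obtain ⟨v, hv⟩ := hf.exists_B_eq he0 η⁻¹
  have : finrank F K = 1 := (finrank_eq_one_iff_of_nonzero' (1 : K) one_ne_zero).2 fun a => by
    have h1 := kl a v
    rw [herm_ei_zero hq hη, herm_ei_zero hq hη, hv, smul_add, add_right_inj, mul_inv_cancel₀ η0,
      one_smul, ← algebraMap_smul K] at h1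
    exact ⟨_, by rw [← smul_left_injective K he0 h1, Algebra.algebraMap_eq_smul_one]⟩
  omega

/-- Overgroups of `SU_m(K)` in `SU_{mr}(F)`. -/
theorem su_main [Finite K] [FiniteDimensional K V] (hX : Ov F h X) (hXO : X ≤ f.O)
    (hh : h.Nondeg) (hr : (finrank F K).Prime) (hr3 : 3 ≤ finrank F K) (hn : 4 ≤ finrank F V)
    (he : h.q e = 0) (he0 : e ≠ 0) {l : K} (hl : Lam X h e l)
    (hl' : ∀ (c : F) (y : K), τ y = y → l ≠ c • y) : X ≤ Gam F K V ∨ f.E ≤ X := by
  have : Finite F := Finite.of_injective _ (algebraMap F K).injective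
  have : FiniteDimensional F K := Module.Finite.of_finite
  have : FiniteDimensional F V := Module.Finite.trans K V
  by_cases hd : ∀ g ∈ X, kp (line F K e) g = ⊥ ∨ kp (line F K e) g = line F K e
  · refine Or.inl (U.le_Gam_herm H hX hXO hh he he0 (sing_lines_of_dich hX hh
      (CL.Uni.herm_big H.τ_ne 0) he he0 hd fun g hg => ?_))
    obtain ⟨x, hx, x0, hq⟩ := H.exists_singular h (W := (line F K e).comap (g : V →ₗ[F] V))
      (by rw [Submodule.comap_equiv_eq_map_symm, LinearEquiv.finrank_map_eq, finrank_line' he0])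
      fun x hx => by rw [← U.hq, f.herm_q]; exact U.f_block' (hXO hg) he hx hx
    exact ⟨x, x0, hq, hx⟩
  right
  push Not at hd
  obtain ⟨k, hk, k1, k2⟩ := hd
  obtain ⟨g, ho⟩ := exists_opt ⟨k, hk, k2⟩
  have hb := ho.ne_bot hk k2 k1
  obtain ⟨θ, hθ⟩ := H.exists_ne
  obtain ⟨ρ, hρ, hρ', hl⟩ : ∃ ρ : K, τ ρ = ρ ∧ ρ ∉ F ∙ (1 : K) ∧ Lam X h e (1 + θ • ρ) := by
    obtain ⟨x, y, hx, hy, rfl⟩ := H.exists_add hθ l
    have x0 : x ≠ 0 := by rintro rfl; exact hl' θ y hy (zero_add _)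
    refine ⟨y / x, by rw [map_div₀, hx, hy], fun hm => ?_, ?_⟩
    · obtain ⟨c, hc⟩ := Submodule.mem_span_singleton.1 hm
      refine hl' (1 + θ * c) x hx ?_
      rw [eq_div_iff x0] at hc
      rw [← hc]; simp [add_smul, mul_smul]
    · convert (lam_real H.τ_ne hX hh he he0 (inv_ne_zero x0) (by rw [map_inv₀, hx])).mul hl using 1
      rw [mul_add, inv_mul_cancel₀ x0, mul_smul_comm, div_eq_inv_mul]
  obtain ⟨n, κ, n0, κ0, hκ, ht⟩ :
      ∃ (n : K) (κ : F), n ≠ 0 ∧ κ ≠ 0 ∧ κ + σ κ = 0 ∧ f.ei (n • e) 0 κ ∈ X := by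
    by_cases hp : ∀ w ∈ line F K e, h.B e (g⁻¹ w) = 0
    · obtain ⟨x, hx, hgx, h1⟩ := hX.rank_one_perp hh he hr ho hb hp
      exact U.tv_of_perp H hX hXO hh (by omega) he he0 ho.mem hx hgx h1
        (by simpa [inv_app] using hp _ hgx)
    push Not at hp
    obtain ⟨w0, hw0, hξ⟩ := hp
    have hgx : g (g⁻¹ w0) ∈ line F K e := by rwa [app_inv]
    have h1 := U.rank_one_herm H hX hXO he he0 hr ho hb hgx hξ
    set x := g⁻¹ w0
    have c0 : τ (h.B e x)⁻¹ ≠ 0 := by simpa using hξ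
    have hle : line F K (τ (h.B e x)⁻¹ • e) = line F K e :=
      line_eq_of_mem (smul_mem_line _ _) (smul_ne_zero c0 he0)
    have hex : h.B (τ (h.B e x)⁻¹ • e) x = 1 := by
      rw [h.B_smul_left, FormType.herm_σ, hτ2, inv_mul_cancel₀ hξ]
    obtain ⟨n, κ, n0, κ0, hκ, ht⟩ := U.tv_of_one H hX hXO hh hr3 (h.q_smul_eq_zero he _)
      (smul_ne_zero c0 he0) ho.mem (x := x) (by rw [hle]; exact fun hm => hξ (B_line he hm))
      (by rwa [hle]) (by rwa [hle]) hex (fun n hn => by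
        rw [hle]
        refine U.mem_of_perp H hX hXO he ho hgx hξ (by rw [← hle]; exact smul_mem_line _ _)
          fun y hy => ?_
        obtain ⟨c, hc⟩ := h1 _ hy
        have := U.f_line hc (B_line (F := F) he (w := n • τ (h.B e x)⁻¹ • e)
          (by rw [← hle]; exact smul_mem_line _ _))
        rwa [inv_app, f.B_sub_left, f.B_smul_left, U.f_right x, hex, map_one, one_mul, hn, mul_zero,
          sub_zero] at this) hθ hρ hρ' (hl.smul _)
    exact ⟨n * _, κ, mul_ne_zero n0 c0, κ0, hκ, by rwa [mul_smul]⟩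
  have he' := h.q_smul_eq_zero he n
  have he0' := smul_ne_zero n0 he0
  exact U.E_le_of_line H hX hXO hh hn he' he0' (U.allTv_line H hX hXO hh hr3 he' he0'
    (U.allTv_of_one H hX hXO hh he' he0' κ0 hκ ht) hθ hρ hρ' (hl.smul n))

end TExt

end CL.ExtF
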