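/-
Extension-field subgroups of special unitary groups are maximal (dimension at least two over the
extension field).
-/
import Cfsg.Agent.CLAS.ExtU3
import Cfsg.Agent.CLAS.RootGeo

set_option autoImplicit false

namespace CL.ExtF

open Module CL.Witt CL.Witt.Form

attribute [-simp] LinearEquiv.coe_inv

section

variable {F K : Type*} [Field F] [Field K] [Algebra F K] {σ : F →+* F} {τ : K →+* K}

local notation "ι₀" => algebraMap F K

theorem arith_su {q r : ℕ} (hq : 2 ≤ q) (hr : 3 ≤ r) (hex : ¬ (q = 2 ∧ r = 3)) :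
    (q + 1) * r < q ^ r + 1 := by
  have key : ∀ q k, 2 ≤ q → (q + 1) * (k + 4) < q ^ (k + 4) + 1 := by
    intro q k hq
    induction k with
    | zero =>
      have : q ^ 4 = q * (q * (q * q)) := by ring
      have h1 : 4 ≤ q * q := Nat.mul_le_mul hq hq
      have h2 : 8 ≤ q * (q * q) := Nat.mul_le_mul hq h1
      have h3 : q * 8 ≤ q * (q * (q * q)) := Nat.mul_le_mul_left q h2
      simp only [zero_add]; omega
    | succ k ih =>
      have : q ^ (k + 1 + 4) = q * q ^ (k + 4) := by ring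
      have h1 : 2 * q ^ (k + 4) ≤ q * q ^ (k + 4) := Nat.mul_le_mul_right _ hq
      nlinarith
  rcases hr.eq_or_lt with rfl | hr
  · have h3 : 3 ≤ q := by omega
    have : q ^ 3 = q * (q * q) := by ring
    have h1 : 9 ≤ q * q := Nat.mul_le_mul h3 h3
    have h2 : q * 9 ≤ q * (q * q) := Nat.mul_le_mul_left q h1
    omega
  · obtain ⟨k, rfl⟩ := Nat.exists_eq_add_of_le' (show 4 ≤ r from hr)
    exact key q k hq

theorem HD.exists_lam_norm [Finite K] {t : Dual F K} (H : HD σ τ t) {q : ℕ}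
    (hF : Nat.card F = q ^ 2) (hσ : ∀ c, σ c = c ^ q) (hr : 3 ≤ finrank F K)
    (hex : ¬ (q = 2 ∧ finrank F K = 3)) :
    ∃ l : K, l ≠ 0 ∧ Algebra.norm F (l * (τ l)⁻¹) = 1 ∧ ∀ (c : F) (y : K), τ y = y → l ≠ c • y := by
  have : Finite F := Finite.of_injective _ (algebraMap F K).injective
  have : FiniteDimensional F K := Module.Finite.of_finite
  have := Fintype.ofFinite K
  by_contra! hc
  let K₀ := τ.eqLocusField (RingHom.id K)
  have := Fintype.ofFinite K₀
  have h1 : ∀ x : Kˣ, x ^ ((q + 1) * finrank F K * (Fintype.card K₀ - 1)) = 1 := by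
    intro x
    have x0 : τ x ≠ 0 := by simp
    have hN : Algebra.norm F ((x : K) ^ (q + 1) * (τ (x ^ (q + 1)))⁻¹) = 1 := by
      have h2 : ι₀ (σ (Algebra.norm F ((x : K) * (τ x)⁻¹))) * ι₀ (Algebra.norm F (x * (τ x)⁻¹)) =
          1 := by
        rw [← H.alg, FiniteField.algebraMap_norm_eq_pow, map_pow, ← mul_pow, map_mul, map_inv₀, H.ττ]
        field_simp
        simp
      rw [map_pow, ← inv_pow, ← mul_pow, map_pow, pow_succ, ← hσ]
      exact (algebraMap F K).injective (by rw [map_mul, h2, map_one])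
    obtain ⟨c, y, hy, e⟩ := hc _ (by simp) hN
    have c0 : c ≠ 0 := by rintro rfl; simp at e
    have y0 : y ≠ 0 := by rintro rfl; simp at e
    have h3 : (x : K) ^ (q + 1) * (τ (x ^ (q + 1)))⁻¹ = ι₀ (c / σ c) := by
      rw [e, H.τ_smul, hy, Algebra.smul_def, Algebra.smul_def, map_div₀]
      have : ι₀ (σ c) ≠ 0 := by simpa using c0
      field_simp
    have h4 : ((x : K) ^ (q + 1) * (τ (x ^ (q + 1)))⁻¹) ^ finrank F K = 1 := by
      rw [h3, Algebra.norm_algebraMap] at hN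
      rw [h3, ← map_pow, hN, map_one]
    have h5 : (x : K) ^ ((q + 1) * finrank F K) ∈ K₀ := by
      change τ _ = _
      rw [mul_pow, inv_pow, mul_inv_eq_one₀ (by simp)] at h4
      rw [RingHom.id_apply, pow_mul, map_pow, ← h4]
    have := congrArg Subtype.val (FiniteField.pow_card_sub_one_eq_one (⟨_, h5⟩ : K₀)
      (fun h => by simpa using congrArg Subtype.val h))
    ext
    simpa [pow_mul] using this
  have h2 := Nat.le_of_dvd (Nat.mul_pos (by positivity)
    (Nat.sub_pos_of_lt Fintype.one_lt_card)) ((FiniteField.forall_pow_eq_one_iff K _).1 h1)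
  have h3 : Fintype.card K = (q ^ finrank F K) ^ 2 := by
    rw [← Nat.card_eq_fintype_card, Module.natCard_eq_pow_finrank (K := F), hF, ← pow_mul, mul_comm,
      pow_mul]
  have h4 : Fintype.card K₀ ^ 2 ≤ Fintype.card K := by
    rw [Module.card_eq_pow_finrank (K := K₀) (V := K)]
    refine Nat.pow_le_pow_right Fintype.card_pos ?_
    by_contra hlt
    have h5 : finrank K₀ K = 1 := by have := Module.finrank_pos (R := K₀) (M := K); omega
    refine H.τ_ne (RingHom.ext fun a => ?_)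
    obtain ⟨c, rfl⟩ := (finrank_eq_one_iff_of_nonzero' (1 : K) one_ne_zero).1 h5 a
    have : τ c = c := c.2
    simpa [Subfield.smul_def] using this
  have hq : 2 ≤ q := by
    by_contra hlt
    have := Finite.one_lt_card (α := F)
    interval_cases q <;> omega
  have h5 := arith_su hq hr hex
  rw [h3] at h2 h4
  have h6 := Nat.pow_le_pow_left (Nat.le_of_lt_succ h5) 1
  have h7 := (Nat.pow_le_pow_iff_left two_ne_zero).1 h4
  have h8 : 1 < Fintype.card K₀ := Fintype.one_lt_card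
  generalize q ^ finrank F K = Q at *
  generalize (q + 1) * finrank F K = a at *
  obtain ⟨k, hk⟩ := Nat.exists_eq_add_of_le' h8.le
  rw [hk, Nat.add_sub_cancel] at h2
  obtain ⟨Q, rfl⟩ := Nat.exists_eq_add_of_le' (show 1 ≤ Q by omega)
  have : (Q + 1) ^ 2 - 1 = Q * (Q + 2) := by rw [Nat.sub_eq_of_eq_add]; ring
  have h9 : a * k ≤ (Q + 1) * Q := Nat.mul_le_mul (by omega) (by omega)
  nlinarith

theorem HD.exists_lam [FiniteDimensional F K] {t : Dual F K} (H : HD σ τ t)
    (hr : 2 ≤ finrank F K) : ∃ l : K, l ≠ 0 ∧ ∀ (c : F) (y : K), τ y = y → l ≠ c • y := by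
  obtain ⟨θ, hθ⟩ := H.exists_ne
  obtain ⟨ρ, h1, h2⟩ := H.exists_real_notMem (Z := F ∙ (1 : K)) fun e => by
    have := finrank_span_singleton (K := F) (one_ne_zero (α := K))
    rw [e, finrank_top] at this
    omega
  have key : ∀ (c : F) (y : K), τ y = y → 1 + θ • ρ ≠ c • y := fun c y hy e => by
    have e' := congrArg τ e
    rw [map_add, map_one, H.τ_smul, H.τ_smul, h1, hy] at e'
    have h3 : (σ θ * c - θ * σ c) • y = (σ θ - θ) • 1 := by
      rw [sub_smul, mul_smul, mul_smul, ← e, ← e']; module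
    have h4 : (θ - σ θ) • ρ = (c - σ c) • y := by
      rw [sub_smul c, ← e, ← e']; module
    have h5 : σ θ * c - θ * σ c ≠ 0 := fun h0 => by
      rw [h0, zero_smul, eq_comm, smul_eq_zero, sub_eq_zero] at h3
      simp [hθ] at h3
    refine h2 ((Submodule.smul_mem_iff _ (sub_ne_zero.2 hθ.symm)).1 ?_)
    rw [h4]
    refine Submodule.smul_mem _ _ ((Submodule.smul_mem_iff _ h5).1 ?_)
    rw [h3]; exact Submodule.smul_mem _ _ (Submodule.mem_span_singleton_self _)
  exact ⟨_, by simpa using key 0 0 (map_zero τ), key⟩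

variable {V : Type*} [AddCommGroup V] [Module F V] [Module K V] [IsScalarTower F K V]
  {hσ2 : ∀ a, σ (σ a) = a}

theorem exists_herm_ext [FiniteDimensional F K] [FiniteDimensional K V] [Nontrivial V]
    {f : Form (FormType.herm σ hσ2) V} (hσ : σ ≠ RingHom.id F) (hf : f.Nondeg)
    (hac : ∀ k : K, ∃ k' : K, ∀ u v, f.B (k • u) v = f.B u (k' • v)) :
    ∃ (τ : K →+* K) (hτ2 : ∀ a, τ (τ a) = a) (h : Form (FormType.herm τ hτ2) V) (U : TExt f h),
      HD σ τ U.τ := by
  choose s hs using hac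
  obtain ⟨v₀, hv₀⟩ := exists_ne (0 : V)
  have uniq : ∀ k k' : K, (∀ u, f.B u (k • v₀) = f.B u (k' • v₀)) → k = k' := fun k k' H =>
    smul_left_injective K hv₀ (hf.ext_right H)
  let τ : K →+* K :=
    { toFun := s
      map_one' := uniq _ _ fun u => by rw [← hs, one_smul, one_smul]
      map_mul' := fun a b => uniq _ _ fun u => by
        rw [← hs, mul_smul, hs, hs, smul_smul, mul_comm]
      map_zero' := uniq _ _ fun u => by rw [← hs, zero_smul, zero_smul]; simp
      map_add' := fun a b => uniq _ _ fun u => by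
        rw [← hs, add_smul, add_smul, f.B_add_left, f.B_add_right, hs, hs] }
  have hτ : ∀ (k : K) u v, f.B (k • u) v = f.B u (τ k • v) := hs
  have halg : ∀ c, τ (ι₀ c) = ι₀ (σ c) := fun c => uniq _ _ fun u => by
    rw [← hτ, algebraMap_smul, algebraMap_smul, f.B_smul_left, f.B_smul_right, FormType.herm_σ]
  have hτ2 : ∀ a, τ (τ a) = a := fun a => uniq _ _ fun u => by
    rw [← hτ, f.symm v₀, ← hτ, f.symm (a • v₀)]
  obtain ⟨t, ht, ht'⟩ : ∃ t : Dual F K, t ≠ 0 ∧ ∀ y, t (τ y) = σ (t y) := by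
    obtain ⟨t₀, h0⟩ := Module.Projective.exists_dual_eq_one F (one_ne_zero (α := K))
    obtain ⟨c, hc⟩ := FormType.exists_add_σ_eq_one hσ hσ2
    refine ⟨⟨⟨fun y => c * t₀ y + σ (c * t₀ (τ y)), fun x y => by simp; ring⟩, fun a y => ?_⟩,
      fun e => ?_, fun y => by simp [hτ2, hσ2, add_comm]⟩
    · have : τ (a • y) = σ a • τ y := by rw [Algebra.smul_def, map_mul, halg, Algebra.smul_def]
      simp [this, hσ2]; ring
    · simpa [h0, hc] using congrArg (fun t : Dual F K => t 1) e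
  have H : HD σ τ t := ⟨hσ2, hτ2, hσ, halg, ht, ht'⟩
  obtain ⟨B, hB⟩ := exists_trace_form ht f hτ
  have hS : B.IsSymm := ⟨fun x y => sub_eq_zero.1 (eq_zero_of_forall_mul ht fun a => by
    have h1 := hB x (τ a • y)
    have h2 := hB y (a • x)
    rw [map_smul (B _), smul_eq_mul] at h1 h2
    rw [mul_sub, map_sub, ← h2, f.herm_symm, hτ, h1, ← ht', map_mul τ, hτ2, sub_self])⟩
  exact ⟨τ, hτ2, Form.ofHerm H.τ_ne hτ2 B hS, ⟨t, ht, hB, fun x => by rw [f.herm_q, hB]; rfl, halg,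
    by simp [FormType.herm_ε]⟩, H⟩

end

open Matrix Cfsg Cfsg.Geo CL.Tv CL.Root in
/-- Extension-field subgroups `GU_{n/r}(q^r).r ∩ SU_n(q)`, `r < n`, are maximal in `SU_n(q)`,
except in `SU₆(2)`. -/
theorem su_ext_maximal {F : Type*} [Field F] [Fintype F] {n q r : ℕ} (hF : Fintype.card F = q ^ 2)
    (hr : r.Prime) (hro : Odd r) (hlt : r < n) (hex : ¬ (q = 2 ∧ n = 6))
    {A : Subalgebra F (Matrix (Fin n) (Fin n) F)} (hA : IsFieldSubalgebra r A)
    (hac : IsAdjointClosedFor (hermForm n F q) A) :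
    IsMaximalIn (GU n F q ⊓ specialLinear (Fin n) F)
      (subalgebraNormalizer A ⊓ (GU n F q ⊓ specialLinear (Fin n) F)) := by
  have hr3 : 3 ≤ r := by
    have := hr.two_le
    obtain ⟨k, rfl⟩ := hro
    omega
  have : Nonempty (Fin n) := ⟨⟨0, by omega⟩⟩
  obtain ⟨K, _, _, _, _, _, _, h1, h2, h3, h3', h4⟩ := exists_ext_model hA
  have : FiniteDimensional F K := Module.Finite.of_finite
  have hf := hermStd_nondeg hF n
  have hσ := hermStd_ne_id hF
  obtain ⟨τ, hτ2, h, U, H⟩ := exists_herm_ext (K := K) hσ hf fun a => by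
    obtain ⟨k, hk, h5⟩ := h3 a
    obtain ⟨k', hk', h6⟩ := hac k hk
    obtain ⟨a', h7⟩ := h3' k' hk'
    refine ⟨a', fun u v => ?_⟩
    rw [(hermStd hF n).herm_symm, (hermStd hF n).herm_symm (a' • v), hermStd_B, hermStd_B, h5, h7,
      h6]
  have hh := U.nondeg hf
  rw [Fintype.card_fin] at h2
  have hm : 2 ≤ finrank K (Fin n → F) := by
    by_contra hc
    have : r * finrank K (Fin n → F) ≤ r * 1 := Nat.mul_le_mul_left _ (by omega)
    omega
  have hn : 6 ≤ n := h2 ▸ Nat.mul_le_mul hr3 hm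
  obtain ⟨e, he0, he⟩ := CL.Uni.exists_isotropic H.τ_ne hh hm
  obtain ⟨e', he', hee⟩ := hh.exists_partner' he he0
  have hE : ∀ k ∈ h.O, Algebra.norm F (LinearMap.det (k : (Fin n → F) →ₗ[K] (Fin n → F))) = 1 →
      rs F K _ k ∈ Gam F K (Fin n → F) ⊓ (hermStd hF n).E := fun k hk hd =>
    ⟨(kl_rs _).mem_Gam, (hf.herm_mem_E_iff hσ (by rw [U.hq, he, map_zero]) he0).2
      ⟨U.rs_mem_O hk, by rw [← hd, ← LinearMap.det_restrictScalars]; rfl⟩⟩
  obtain ⟨l, k, hk, hd, hke, hl⟩ : ∃ (l : K) (k : _), k ∈ h.O ∧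
      Algebra.norm F (LinearMap.det (k : (Fin n → F) →ₗ[K] (Fin n → F))) = 1 ∧ k e = l • e ∧
      ∀ (c : F) (y : K), τ y = y → l ≠ c • y := by
    rcases hm.eq_or_lt with hm2 | hm3
    · obtain ⟨l, l0, hN, hl⟩ := H.exists_lam_norm (q := q) (by rw [Nat.card_eq_fintype_card, hF])
        (conjHom_apply hF) (h1 ▸ hr3) fun ⟨a, b⟩ => hex ⟨a, by rw [← h2, ← hm2, ← h1, b]⟩
      obtain ⟨k, hk, hke, -, -, hd⟩ := hh.exists_torus he he' hee l0
      exact ⟨l, k, hk, by rw [hd]; exact hN, hke, hl⟩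
    · obtain ⟨l, l0, hl⟩ := H.exists_lam (h1 ▸ hr.two_le)
      obtain ⟨k, hk, hke, -, -, hd⟩ := hh.exists_torus he he' hee l0
      obtain ⟨p, p1, -, p2⟩ := CL.Uni.exists_perp_pair_q_eq H.τ_ne hh hm3 he he' hee (map_one τ)
      have τl : τ l ≠ 0 := by simpa using l0
      refine ⟨l, k * h.rk1Equiv p (τ l / l - 1) (by
        simp only [p2, FormType.herm_π, FormType.herm_σ, map_sub, map_div₀, hτ2, map_one]
        field_simp
        ring), h.O.mul_mem hk (h.rk1Equiv_mem_O _ _ _), ?_, ?_, hl⟩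
      · rw [LinearEquiv.coe_toLinearMap_mul, map_mul, hd, det_rk1, ← h.herm_q, p2, FormType.herm_σ]
        convert map_one (Algebra.norm F)
        field_simp
        ring
      · rw [LinearEquiv.mul_apply, rk1Equiv_apply, h.B_eq_zero_symm p1]; simpa using hke
  refine isMaximalIn_of_act (mem_SU_iff_E hF (by omega)) h4
    (U.not_E_le_Gam_herm H hf he he0 (h1 ▸ hr.two_le)) fun X hX hXE ⟨g, hg, hg'⟩ => ?_
  exact (U.su_main H (fun u v a => hX (hE _ (ei_mem_O u v a) (by rw [det_ei, map_one])))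
    (hXE.trans E_le_O) hh (h1 ▸ hr) (h1 ▸ hr3) (by simp; omega) he he0 ⟨k, hk, hX (hE k hk hd), hke⟩
    hl).resolve_left fun hle => hg' (hle hg)

end CL.ExtF
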