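import Cfsg.Agent.CLAS.FiveDef
import Cfsg.Agent.FGS.DerLen

/-!
# Block E, part 1: five-dimensional representations in characteristic two without transvections
-/

set_option autoImplicit false

namespace CL.Five.E

open Matrix Module

variable {k : Type*} [Field k] {G : Type*} [Group G]

/-- the only element acting as a transvection or trivially is the identity -/
def Rp (ρ : G →* M5 k) : Prop :=
  ∀ g v φ, ρ g = 1 + vecMulVec v φ → φ ⬝ᵥ v = 0 → g = 1

/-- change of basis -/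
def cb (ρ : G →* M5 k) (X : (M5 k)ˣ) : G →* M5 k where
  toFun g := (X⁻¹ : (M5 k)ˣ) * ρ g * X
  map_one' := by simp
  map_mul' a b := by simp [mul_assoc]

theorem cb_apply (ρ : G →* M5 k) (X : (M5 k)ˣ) (g : G) :
    cb ρ X g = (X⁻¹ : (M5 k)ˣ) * ρ g * X := rfl

theorem cb_sub (ρ : G →* M5 k) (X : (M5 k)ˣ) (g : G) :
    cb ρ X g - 1 = (X⁻¹ : (M5 k)ˣ) * (ρ g - 1) * X := by
  rw [cb_apply, mul_sub, sub_mul, mul_one, Units.inv_mul]

theorem sub_cb (ρ : G →* M5 k) (X : (M5 k)ˣ) (g : G) :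
    ρ g - 1 = X * (cb ρ X g - 1) * (X⁻¹ : (M5 k)ˣ) := by
  rw [cb_sub]; simp [mul_assoc]

theorem Rp.cb {ρ : G →* M5 k} (h : Rp ρ) (X : (M5 k)ˣ) : Rp (cb ρ X) := fun g v φ e h0 => by
  refine h g ((X : M5 k) *ᵥ v) (φ ᵥ* ((X⁻¹ : (M5 k)ˣ) : M5 k)) ?_ ?_
  · rw [← sub_eq_iff_eq_add', sub_cb ρ X, e, add_sub_cancel_left, mul_vecMulVec, vecMulVec_mul]
  · rw [dotProduct_mulVec, vecMul_vecMul, Units.inv_mul, vecMul_one, h0]

/-- the dual representation with the order of the basis reversed -/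
def du (ρ : G →* M5 k) : G →* M5 k where
  toFun g := ((ρ g⁻¹)ᵀ).submatrix Fin.rev Fin.rev
  map_one' := by
    rw [inv_one, map_one, transpose_one]
    exact submatrix_one _ Fin.rev_injective
  map_mul' a b := by
    rw [_root_.mul_inv_rev, map_mul, transpose_mul]
    exact (submatrix_mul_equiv _ _ _ Fin.revPerm _).symm

theorem du_apply (ρ : G →* M5 k) (g : G) (i j : Fin 5) : du ρ g i j = ρ g⁻¹ j.rev i.rev := rfl

theorem Rp.du {ρ : G →* M5 k} (h : Rp ρ) : Rp (du ρ) := fun g v φ e h0 => by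
  refine inv_eq_one.1 (h g⁻¹ (φ ∘ Fin.rev) (v ∘ Fin.rev) ?_ ?_)
  · ext i j
    have := congrFun (congrFun e j.rev) i.rev
    rw [du_apply, Fin.rev_rev, Fin.rev_rev] at this
    rw [this]
    simp [one_apply, vecMulVec_apply, mul_comm, eq_comm]
  · rw [← h0, dotProduct_comm]
    exact comp_equiv_dotProduct_comp_equiv φ v Fin.revPerm

/-- the general element of a unipotent group centralising `1 + E₁₄ + E₂₅` -/
def mk (al p u r be ga w f de : k) : M5 k :=
  !![1, al, p, u, r; 0, 1, be, ga, w; 0, 0, 1, f, de; 0, 0, 0, 1, al; 0, 0, 0, 0, 1]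

/-- the nilpotent part of the standard involution -/
def n0 : M5 k := !![0, 0, 0, 1, 0; 0, 0, 0, 0, 1; 0, 0, 0, 0, 0; 0, 0, 0, 0, 0; 0, 0, 0, 0, 0]

theorem mk_z : (mk 0 0 1 0 0 0 1 0 0 : M5 k) = 1 + n0 := by
  ext i j; fin_cases i <;> fin_cases j <;> simp [mk, n0]

theorem mk_mul (al p u r be ga w f de al' p' u' r' be' ga' w' f' de' : k) :
    mk al p u r be ga w f de * mk al' p' u' r' be' ga' w' f' de' =
      mk (al + al') (p + p' + al * be') (u + u' + al * ga' + p * f')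
        (r + r' + al * w' + p * de' + u * al') (be + be') (ga + ga' + be * f')
        (w + w' + be * de' + ga * al') (f + f') (de + de' + f * al') := by
  ext i j
  fin_cases i <;> fin_cases j <;> simp [mk, mul_apply, Fin.sum_univ_five] <;> ring

theorem mk_du (ρ : G →* M5 k) {g : G} {al p u r be ga w f de : k}
    (h : ρ g⁻¹ = mk al p u r be ga w f de) : du ρ g = mk al de w r f ga u be p := by
  ext i j
  rw [du_apply, h]
  fin_cases i <;> fin_cases j <;> simp [mk, Fin.rev]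

section

variable [CharP k 2] {ρ : G →* M5 k}

theorem sq_zero {z : G} (hz : z * z = 1) : (ρ z - 1) * (ρ z - 1) = 0 := by
  have h2 : ρ z + ρ z = 1 + 1 := by
    rw [← two_smul k, ← two_smul k, CharTwo.two_eq_zero, zero_smul, zero_smul]
  calc _ = ρ (z * z) + 1 - (ρ z + ρ z) := by rw [map_mul]; noncomm_ring
    _ = 0 := by rw [hz, map_one, h2, sub_self]

theorem exists_basis [Finite G] (h : Rp ρ) {z : G} (hz : z * z = 1) (hz1 : z ≠ 1) {S : Subgroup G}
    (hS : IsPGroup 2 S) (hc : ∀ s ∈ S, s * z = z * s) :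
    ∃ X : (M5 k)ˣ, cb ρ X z = 1 + n0 ∧ ∀ s ∈ S, cb ρ X s *ᵥ Pi.single 0 1 = Pi.single 0 1 := by
  set N := ρ z - 1 with hN
  have hNN : N * N = 0 := sq_zero hz
  have hk : ∀ v, N *ᵥ N *ᵥ v = 0 := fun v => by rw [mulVec_mulVec, hNN, zero_mulVec]
  have hcN : ∀ s ∈ S, ρ s * N = N * ρ s := fun s hs => by
    rw [hN, mul_sub, sub_mul, ← map_mul, ← map_mul, hc s hs, mul_one, one_mul]
  let U := LinearMap.range (toLin' N)
  have hr : ∀ v φ, N = vecMulVec v φ → φ ⬝ᵥ v ≠ 0 := fun v φ e h0 =>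
    hz1 (h z v φ (by rw [← e, hN, add_sub_cancel]) h0)
  have : Nontrivial U := by
    rw [Submodule.nontrivial_iff_ne_bot, Ne, LinearMap.range_eq_bot, LinearEquiv.map_eq_zero_iff]
    exact fun e => hr 0 0 (by rw [e]; simp) (by simp)
  let σ : Representation k S (V5 k) := (toLinAlgEquiv' (R := k)).toMonoidHom.comp (ρ.comp S.subtype)
  have hσ : ∀ s v, σ s v = ρ s *ᵥ v := fun s v => toLinAlgEquiv'_apply _ _
  have hU : ∀ s : S, U ≤ U.comap (σ s) := by
    rintro s _ ⟨v, rfl⟩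
    exact ⟨ρ s *ᵥ v, by rw [hσ, toLin'_apply, toLin'_apply, mulVec_mulVec, mulVec_mulVec,
      hcN s s.2]⟩
  obtain ⟨⟨_, e₄, rfl⟩, h1, hf⟩ := CL.DL.exists_fixed hS (σ.subrepresentation U hU)
  have h1 : N *ᵥ e₄ ≠ 0 := fun e => h1 (Subtype.ext e)
  have hf : ∀ s ∈ S, ρ s *ᵥ N *ᵥ e₄ = N *ᵥ e₄ := fun s hs => by
    rw [← hσ ⟨s, hs⟩]; exact congrArg Subtype.val (hf ⟨s, hs⟩)
  obtain ⟨e₅, h2⟩ : ∃ e₅, ∀ c : k, c • N *ᵥ e₄ ≠ N *ᵥ e₅ := by
    by_contra hn
    push Not at hn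
    choose φ hφ using hn
    have e : N = vecMulVec (N *ᵥ e₄) fun j => φ (Pi.single j 1) := by
      ext i j
      have := congrFun (hφ (Pi.single j 1)) i
      rw [mulVec_single_one, Pi.smul_apply, smul_eq_mul, mul_comm] at this
      exact this.symm
    have := hk e₄
    generalize N *ᵥ e₄ = v at *
    rw [e, vecMulVec_mulVec, op_smul_eq_smul] at this
    exact hr _ _ e ((smul_eq_zero.1 this).resolve_right h1)
  have hli : ∀ a b : k, a • N *ᵥ e₄ + b • N *ᵥ e₅ = 0 → a = 0 ∧ b = 0 :=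
    LinearIndependent.pair_iff.1 ((LinearIndependent.pair_iff' h1).2 h2)
  obtain ⟨e₃, h3, h3'⟩ : ∃ e₃, N *ᵥ e₃ = 0 ∧ e₃ ∉ U := by
    by_contra hn
    push Not at hn
    have : U = LinearMap.ker (toLin' N) := le_antisymm (by rintro _ ⟨v, rfl⟩; exact hk v) hn
    have h5 : finrank k U + _ = _ := (toLin' N).finrank_range_add_finrank_ker
    rw [← this, finrank_fin_fun] at h5
    omega
  let X : M5 k := (of ![N *ᵥ e₄, N *ᵥ e₅, e₃, e₄, e₅])ᵀ
  have hX : ∀ c, X *ᵥ c = c 0 • N *ᵥ e₄ + c 1 • N *ᵥ e₅ + c 2 • e₃ + c 3 • e₄ + c 4 • e₅ := fun c => by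
    ext i
    simp [X, mulVec, dotProduct, Fin.sum_univ_five, mul_comm]
  have hu : IsUnit X := by
    rw [← mulVec_injective_iff_isUnit]
    refine (injective_iff_map_eq_zero (toLin' X)).2 fun c hc => ?_
    rw [toLin'_apply, hX] at hc
    have e1 := congrArg (N *ᵥ ·) hc
    simp only [mulVec_add, mulVec_smul, hk, h3, smul_zero, zero_add, mulVec_zero] at e1
    obtain ⟨a3, a4⟩ := hli _ _ e1
    rw [a3, a4, zero_smul, zero_smul, add_zero, add_zero] at hc
    have a2 : c 2 = 0 := by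
      by_contra hne
      refine h3' ((U.smul_mem_iff hne).1 ?_)
      rw [eq_neg_of_add_eq_zero_right hc]
      exact neg_mem (add_mem (U.smul_mem _ ⟨e₄, rfl⟩) (U.smul_mem _ ⟨e₅, rfl⟩))
    rw [a2, zero_smul, add_zero] at hc
    obtain ⟨a0, a1⟩ := hli _ _ hc
    ext i; fin_cases i <;> assumption
  obtain ⟨X', rfl'⟩ := hu
  refine ⟨X', ?_, fun s hs => ?_⟩
  · rw [← sub_eq_iff_eq_add', cb_sub, mul_assoc, Units.inv_mul_eq_iff_eq_mul, rfl', ← hN]
    refine ext_of_mulVec_single fun j => ?_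
    rw [← mulVec_mulVec, ← mulVec_mulVec, hX, hX]
    simp only [mulVec_add, mulVec_smul, hk, h3, smul_zero, zero_add]
    fin_cases j <;> simp [n0]
  · have : (X' : M5 k) *ᵥ Pi.single 0 1 = N *ᵥ e₄ := by rw [rfl', hX]; simp
    rw [cb_apply, ← mulVec_mulVec, ← mulVec_mulVec, this, hf s hs, ← this, mulVec_mulVec,
      Units.inv_mul, one_mulVec]

omit [CharP k 2] in
theorem shape_aux {M : M5 k} (hc : M * n0 = n0 * M) (h0 : M *ᵥ Pi.single 0 1 = Pi.single 0 1) :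
    M = !![1, M 0 1, M 0 2, M 0 3, M 0 4; 0, M 1 1, M 1 2, M 1 3, M 1 4; 0, 0, M 2 2, M 2 3, M 2 4;
      0, 0, 0, 1, M 0 1; 0, 0, 0, 0, M 1 1] := by
  have e := fun i j => congrFun (congrFun hc i) j
  have e' := fun i => congrFun h0 i
  simp only [mulVec_single_one, col_apply] at e'
  have a := e' 0; have b := e' 1; have c := e' 2; have d := e' 3; have f := e' 4
  have a0 := e 0 0; have a1 := e 0 1; have a2 := e 0 2; have a3 := e 0 3; have a4 := e 0 4
  have b0 := e 1 0; have b1 := e 1 1; have b2 := e 1 2; have b3 := e 1 3; have b4 := e 1 4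
  have c4 := e 2 4
  simp [n0, mul_apply, Fin.sum_univ_five] at a b c d f a0 a1 a2 a3 a4 b0 b1 b2 b3 b4 c4
  ext i j
  fin_cases i <;> fin_cases j <;> simp [a, b, c, d, f, ← a1, ← a2, ← a3, ← a4, ← b1, ← b2, ← b3,
    ← b4, c4]

theorem eq_one_of_hom {S : Type*} [Group S] (hS : IsPGroup 2 S) (χ : S → k) (h1 : χ 1 = 1)
    (h : ∀ a b, χ (a * b) = χ a * χ b) (s : S) : χ s = 1 := by
  obtain ⟨n, hn⟩ := hS s
  have := map_pow (MonoidHom.mk ⟨χ, h1⟩ h) s (2 ^ n)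
  rw [hn, map_one] at this
  have e : (χ s - 1) ^ 2 ^ n = 0 := by rw [sub_pow_char_pow, one_pow]; exact sub_eq_zero.2 this.symm
  exact sub_eq_zero.1 (pow_eq_zero_iff (by positivity) |>.1 e)

theorem exists_shape [Finite G] (h : Rp ρ) {z : G} (hz : z * z = 1) (hz1 : z ≠ 1) {S : Subgroup G}
    (hS : IsPGroup 2 S) (hc : ∀ s ∈ S, s * z = z * s) :
    ∃ X : (M5 k)ˣ, cb ρ X z = 1 + n0 ∧ ∀ s ∈ S, ∃ al p u r be ga w f de,
      cb ρ X s = mk al p u r be ga w f de := by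
  obtain ⟨X, h1, h2⟩ := exists_basis h hz hz1 hS hc
  refine ⟨X, h1, fun s hs => ?_⟩
  generalize cb ρ X = σ at *
  have key : ∀ s : S, σ s = _ := fun s => shape_aux (M := σ s) (by
    have := congrArg σ (hc s s.2)
    rwa [map_mul, map_mul, h1, mul_add, add_mul, mul_one, one_mul, add_right_inj] at this) (h2 s s.2)
  have k1 := eq_one_of_hom hS (fun s => σ s 1 1) (by simp) (fun a b => by
    rw [Subgroup.coe_mul, map_mul, key a, key b]; simp [mul_apply, Fin.sum_univ_five]) ⟨s, hs⟩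
  have k2 := eq_one_of_hom hS (fun s => σ s 2 2) (by simp) (fun a b => by
    rw [Subgroup.coe_mul, map_mul, key a, key b]; simp [mul_apply, Fin.sum_univ_five]) ⟨s, hs⟩
  have := key ⟨s, hs⟩
  rw [k1, k2] at this
  exact ⟨_, _, _, _, _, _, _, _, _, this⟩

/-- the nilpotent parts annihilate each other -/
def R (ρ : G →* M5 k) (x y : G) : Prop := (ρ x - 1) * (ρ y - 1) = 0 ∧ (ρ y - 1) * (ρ x - 1) = 0

omit [CharP k 2] in
theorem R.symm {x y : G} (h : R ρ x y) : R ρ y x := ⟨h.2, h.1⟩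

omit [CharP k 2] in
theorem r_cb (X : (M5 k)ˣ) {x y : G} : R (cb ρ X) x y ↔ R ρ x y := by
  have : ∀ A B : M5 k, (X⁻¹ : (M5 k)ˣ) * A * X * ((X⁻¹ : (M5 k)ˣ) * B * X) = 0 ↔ A * B = 0 :=
    fun A B => by
      rw [show (X⁻¹ : (M5 k)ˣ) * A * X * ((X⁻¹ : (M5 k)ˣ) * B * X) =
        (X⁻¹ : (M5 k)ˣ) * (A * B) * X by simp [mul_assoc], Units.mul_left_eq_zero,
        Units.mul_right_eq_zero]
  simp only [R, cb_sub, this]

omit [CharP k 2] in
theorem sub_conj (g x : G) : ρ (g * x * g⁻¹) - 1 = ρ g * (ρ x - 1) * ρ g⁻¹ := by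
  rw [mul_sub, sub_mul, mul_one, ← map_mul, ← map_mul, ← map_mul, mul_inv_cancel, map_one]

omit [CharP k 2] in
theorem mul_conj (g x y : G) : (ρ (g * x * g⁻¹) - 1) * (ρ (g * y * g⁻¹) - 1) =
    ρ g * ((ρ x - 1) * (ρ y - 1)) * ρ g⁻¹ := by
  rw [sub_conj, sub_conj]
  calc _ = ρ g * (ρ x - 1) * (ρ g⁻¹ * ρ g) * (ρ y - 1) * ρ g⁻¹ := by simp only [mul_assoc]
    _ = _ := by rw [← map_mul, inv_mul_cancel, map_one, mul_one, mul_assoc (ρ g)]

omit [CharP k 2] in
theorem R.conj {x y : G} (h : R ρ x y) (g : G) : R ρ (g * x * g⁻¹) (g * y * g⁻¹) :=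
  ⟨by rw [mul_conj, h.1, mul_zero, zero_mul], by rw [mul_conj, h.2, mul_zero, zero_mul]⟩

omit [CharP k 2] in
theorem sub_mul' (x y : G) : ρ (x * y) - 1 = (ρ x - 1) + (ρ y - 1) + (ρ x - 1) * (ρ y - 1) := by
  rw [map_mul]; noncomm_ring

omit [CharP k 2] in
theorem R.mul {x y z : G} (hx : R ρ x z) (hy : R ρ y z) : R ρ (x * y) z := by
  constructor
  · rw [sub_mul', add_mul, add_mul, mul_assoc, hx.1, hy.1]; simp
  · rw [sub_mul', mul_add, mul_add, ← mul_assoc, hx.2, hy.2]; simp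

theorem R.refl {x : G} (h : x * x = 1) : R ρ x x := ⟨sq_zero h, sq_zero h⟩

omit [CharP k 2] in
theorem R.one (x : G) : R ρ 1 x := ⟨by simp, by simp⟩

omit [CharP k 2] in
theorem Rp.inj (h : Rp ρ) {x y : G} (e : ρ x = ρ y) : x = y :=
  mul_inv_eq_one.1 (h _ 0 0 (by rw [map_mul, e, ← map_mul, mul_inv_cancel, map_one]; simp) (by simp))

omit [CharP k 2] in
theorem R.comm (h : Rp ρ) {x y : G} (e : R ρ x y) : x * y = y * x :=
  h.inj (by rw [← sub_left_inj (a := 1), sub_mul', sub_mul', e.1, e.2, add_comm (ρ x - 1)])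

/-- matrices annihilated by `n0` on both sides, nilpotent -/
def Pq (A : M5 k) : Prop := (∀ i, A i 0 = 0 ∧ A i 1 = 0 ∧ A 3 i = 0 ∧ A 4 i = 0) ∧ A 2 2 = 0

omit [CharP k 2] in
theorem Pq.mul {A B : M5 k} (hA : Pq A) (hB : Pq B) : A * B = vecMulVec (fun i => A i 2) (B 2) := by
  ext i j
  simp [mul_apply, Fin.sum_univ_five, hA.1, hB.1, vecMulVec_apply]

omit [CharP k 2] in
theorem Pq.dot {A B : M5 k} (hA : Pq A) (hB : Pq B) : B 2 ⬝ᵥ (fun i => A i 2) = 0 := by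
  simp [dotProduct, Fin.sum_univ_five, hA.1, hB.1, hA.2]

omit [CharP k 2] in
theorem Pq.mul₃ {A B C : M5 k} (hA : Pq A) (hB : Pq B) (hC : Pq C) : A * B * C = 0 := by
  rw [hA.mul hB, vecMulVec_mul]
  ext i j
  simp [vecMulVec_apply, vecMul, dotProduct, Fin.sum_univ_five, hB.1, hC.1, hB.2]

omit [CharP k 2] in
theorem pq_of {A : M5 k} (h1 : A * n0 = 0) (h2 : n0 * A = 0) (h : A * A = 0) : Pq A := by
  have h3 : ∀ i, A i 0 = 0 ∧ A i 1 = 0 ∧ A 3 i = 0 ∧ A 4 i = 0 := fun i => by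
    have a := congrFun (congrFun h1 i) 3
    have b := congrFun (congrFun h1 i) 4
    have c := congrFun (congrFun h2 0) i
    have d := congrFun (congrFun h2 1) i
    simp [n0, mul_apply, Fin.sum_univ_five] at a b c d
    exact ⟨a, b, c, d⟩
  have := congrFun (congrFun h 2) 2
  simp [mul_apply, Fin.sum_univ_five, h3] at this
  exact ⟨h3, this⟩

theorem R.trans [Finite G] (h : Rp ρ) {x y z : G} (hx : x * x = 1) (hy : y * y = 1) (hz : z * z = 1)
    (hz1 : z ≠ 1) (hxz : R ρ x z) (hyz : R ρ y z) : R ρ x y := by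
  obtain ⟨X, h1, -⟩ := exists_basis h hz hz1 (IsPGroup.of_bot (p := 2)) (by simp)
  rw [← r_cb X] at *
  replace h := h.cb X
  generalize cb ρ X = σ at *
  rw [R, h1, add_sub_cancel_left] at hxz hyz
  have hA := pq_of hxz.1 hxz.2 (sq_zero hx)
  have hB := pq_of hyz.1 hyz.2 (sq_zero hy)
  have hAA := sq_zero (ρ := σ) hx
  have hBB := sq_zero (ρ := σ) hy
  have e : σ (x * y * (x * y)) - 1 = (σ x - 1) * (σ y - 1) + (σ y - 1) * (σ x - 1) := by
    have h2 : ∀ A : M5 k, A + A = 0 := fun A => by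
      rw [← two_smul k, CharTwo.two_eq_zero, zero_smul]
    rw [sub_mul', h2, zero_add, sub_mul']
    simp only [add_mul, mul_add, ← mul_assoc, hAA, hBB, hA.mul₃ hB hA, hA.mul₃ hB hB,
      hB.mul₃ hA hB, zero_add, add_comm]
  have key : ∀ {A B : M5 k}, Pq A → Pq B → σ (x * y * (x * y)) - 1 = A * B → A * B = 0 :=
    fun hA hB e => by
      rw [← e, h (x * y * (x * y)) _ _ (by rw [← hA.mul hB, ← e, add_sub_cancel]) (hA.dot hB), map_one, sub_self]
  rw [hA.mul hA, vecMulVec_eq_zero] at hAA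
  rcases hAA with e' | e'
  · have e1 : (σ x - 1) * (σ y - 1) = 0 := by rw [hA.mul hB, e', zero_vecMulVec]
    exact ⟨e1, key hB hA (by rw [e, e1, zero_add])⟩
  · have e1 : (σ y - 1) * (σ x - 1) = 0 := by rw [hB.mul hA, e', vecMulVec_zero]
    exact ⟨key hA hB (by rw [e, e1, add_zero]), e1⟩

end

end CL.Five.E
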