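import Cfsg.Agent.CLAS.FiveE1
import Cfsg.Agent.TECH.Conj

/-!
# Block E, part 2: the partition of the involutions, coordinates on a 2-subgroup
-/

set_option autoImplicit false

namespace CL.Five.E

open Matrix Subgroup CL.MSS
open scoped commutatorElement

variable {k : Type*} [Field k] [CharP k 2] {G : Type*} [Group G] [Finite G] {ρ : G →* M5 k}

/-- the part of the involution `z` -/
def Qs (ρ : G →* M5 k) (z : G) : Subgroup G := closure {x | x * x = 1 ∧ R ρ x z}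

section

variable (h : Rp ρ) {z : G} (hz : z * z = 1) (hz1 : z ≠ 1)
include h hz hz1

theorem mem_Qs {x : G} : x ∈ Qs ρ z ↔ x * x = 1 ∧ R ρ x z := by
  refine ⟨fun hx => ?_, fun hx => subset_closure hx⟩
  induction hx using closure_induction with
  | mem x hx => exact hx
  | one => exact ⟨mul_one 1, R.one z⟩
  | mul x y _ _ hx hy =>
    have := (R.trans h hx.1 hy.1 hz hz1 hx.2 hy.2).comm h
    exact ⟨by rw [mul_assoc, ← mul_assoc y, ← this, mul_assoc x, hy.1, mul_one, hx.1], hx.2.mul hy.2⟩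
  | inv x _ hx => rwa [inv_eq_of_mul_eq_one_right hx.1]

omit [Finite G] h hz1 in
theorem self_mem_Qs : z ∈ Qs ρ z := subset_closure ⟨hz, R.refl hz⟩

theorem Qs_eq {y : G} (hy : y ∈ Qs ρ z) (hy1 : y ≠ 1) : Qs ρ y = Qs ρ z := by
  obtain ⟨h1, h2⟩ := (mem_Qs h hz hz1).1 hy
  ext x
  rw [mem_Qs h hz hz1, mem_Qs h h1 hy1]
  exact and_congr_right fun hx => ⟨fun e => R.trans h hx hz h1 hy1 e h2.symm,
    fun e => R.trans h hx h1 hz hz1 e h2⟩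

theorem Qs_el {x : G} (hx : x ∈ Qs ρ z) : x * x = 1 := ((mem_Qs h hz hz1).1 hx).1

theorem Qs_comm {x : G} (hx : x ∈ Qs ρ z) : x * z = z * x := ((mem_Qs h hz hz1).1 hx).2.comm h

theorem Qs_pgroup : IsPGroup 2 (Qs ρ z) := fun x => ⟨1, Subtype.ext (by
  simpa [sq] using Qs_el h hz hz1 x.2)⟩

end

omit [CharP k 2] [Finite G] in
theorem cj_Qs (g z : G) : g •ᶜ Qs ρ z = Qs ρ (g * z * g⁻¹) := by
  rw [Qs, cj_closure, Qs]
  congr 1
  ext x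
  constructor
  · rintro ⟨y, hy, rfl⟩
    exact ⟨by rw [conj_mul, hy.1]; group, hy.2.conj g⟩
  · intro hx
    refine ⟨g⁻¹ * x * g⁻¹⁻¹, ⟨by rw [conj_mul, hx.1]; group, ?_⟩, by group⟩
    simpa [mul_assoc] using hx.2.conj g⁻¹

omit [CharP k 2] [Finite G] in
theorem mem_normalizer_Qs {g z : G} (h : g * z = z * g) : g ∈ normalizer (Qs ρ z : Set G) := by
  rw [mem_normalizer_iff_cj, cj_Qs, h, mul_inv_cancel_right]

omit [CharP k 2] [Finite G] in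
theorem hom_dich {S : Subgroup G} (a b : G → k) (ha : ∀ s ∈ S, ∀ t ∈ S, a (s * t) = a s + a t)
    (hb : ∀ s ∈ S, ∀ t ∈ S, b (s * t) = b s + b t) (h : ∀ s ∈ S, a s * b s = 0) :
    (∀ s ∈ S, a s = 0) ∨ ∀ s ∈ S, b s = 0 := by
  by_contra hn
  push Not at hn
  obtain ⟨⟨s, hs, h1⟩, t, ht, h2⟩ := hn
  have := h _ (S.mul_mem hs ht)
  rw [ha s hs t ht, hb s hs t ht, (mul_eq_zero.1 (h s hs)).resolve_left h1,
    (mul_eq_zero.1 (h t ht)).resolve_right h2, add_zero, zero_add] at this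
  exact mul_ne_zero h1 h2 this

omit [CharP k 2] [Finite G] in
theorem mk_eta {M : M5 k} {al p u r be ga w f de : k} (h : M = mk al p u r be ga w f de) :
    M 0 1 = al ∧ M 0 2 = p ∧ M 0 3 = u ∧ M 0 4 = r ∧ M 1 2 = be ∧ M 1 3 = ga ∧ M 1 4 = w ∧
      M 2 3 = f ∧ M 2 4 = de := by
  subst h; simp [mk]

omit [CharP k 2] [Finite G] in
theorem Rp.rk (h : Rp ρ) {s : G} {a b c d u r ga w : k} (e : ρ s = mk 0 0 u r 0 ga w 0 0)
    (hu : u = a * c) (hr : r = a * d) (hg : ga = b * c) (hw : w = b * d) : s = 1 := by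
  refine h s ![a, b, 0, 0, 0] ![0, 0, 0, c, d] ?_ (by simp [dotProduct, Fin.sum_univ_five])
  rw [e, hu, hr, hg, hw]
  ext i j; fin_cases i <;> fin_cases j <;> simp [mk]

/-- coordinates on a 2-subgroup `S` centralising the involution `z` -/
structure Dat (ρ : G →* M5 k) (S : Subgroup G) (z : G) : Prop where
  rp : Rp ρ
  hz : ρ z = 1 + n0
  sh : ∀ s ∈ S, ρ s =
    mk (ρ s 0 1) (ρ s 0 2) (ρ s 0 3) (ρ s 0 4) (ρ s 1 2) (ρ s 1 3) (ρ s 1 4) 0 (ρ s 2 4)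

theorem exists_dat (h : Rp ρ) {z : G} (hz : z * z = 1) (hz1 : z ≠ 1) {S : Subgroup G}
    (hS : IsPGroup 2 S) (hc : ∀ s ∈ S, s * z = z * s) : ∃ σ : G →* M5 k, Dat σ S z := by
  obtain ⟨X, h1, h2⟩ := exists_shape h hz hz1 hS hc
  replace h := h.cb X
  generalize cb ρ X = σ at *
  have key : ∀ s ∈ S, σ s 1 2 * σ s 2 3 = 0 := fun s hs => by
    obtain ⟨al, p, u, r, be, ga, w, f, de, e⟩ := h2 s hs
    obtain ⟨-, -, -, -, e1, -, -, e2, -⟩ := mk_eta e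
    rw [e1, e2]
    have e2 := map_mul σ s s
    rw [e, mk_mul] at e2
    by_cases ha : al = 0
    · have := h.rk (a := p) (b := be) (c := f) (d := de) (s := s * s) (u := p * f) (r := p * de)
        (ga := be * f) (w := be * de) (by rw [e2]; congr 1 <;> grind) rfl rfl rfl rfl
      rw [this, map_one] at e2
      have := (mk_eta e2).2.2.2.2.2.1
      simp only [ne_eq, Fin.reduceEq, not_false_eq_true, one_apply_ne] at this
      grind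
    · have e4 := map_mul σ (s * s) (s * s)
      rw [e2, mk_mul] at e4
      have := h.rk (a := 1) (b := 0) (c := 0) (d := al * be * (f * al)) (s := s * s * (s * s)) (u := 0)
        (r := al * be * (f * al)) (ga := 0) (w := 0) (by rw [e4]; congr 1 <;> grind) (by simp)
        (by simp) (by simp) (by simp)
      rw [this, map_one] at e4
      have := (mk_eta e4).2.2.2.1
      simp only [ne_eq, Fin.reduceEq, not_false_eq_true, one_apply_ne] at this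
      grind
  have hm : ∀ s ∈ S, ∀ t ∈ S, σ (s * t) 1 2 = σ s 1 2 + σ t 1 2 ∧
      σ (s * t) 2 3 = σ s 2 3 + σ t 2 3 := fun s hs t ht => by
    obtain ⟨al, p, u, r, be, ga, w, f, de, e⟩ := h2 s hs
    obtain ⟨al', p', u', r', be', ga', w', f', de', e'⟩ := h2 t ht
    rw [map_mul, e, e', mk_mul]; simp [mk]
  rcases hom_dich _ _ (fun s hs t ht => (hm s hs t ht).1) (fun s hs t ht => (hm s hs t ht).2) key
    with h3 | h3
  · refine ⟨du σ, h.du, ?_, fun s hs => ?_⟩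
    · rw [← mk_z] at h1 ⊢
      exact mk_du σ (by rwa [inv_eq_of_mul_eq_one_right hz])
    · obtain ⟨al, p, u, r, be, ga, w, f, de, e⟩ := h2 _ (S.inv_mem hs)
      have := h3 _ (S.inv_mem hs)
      rw [(mk_eta e).2.2.2.2.1] at this
      rw [mk_du σ e, this]; simp [mk]
  · refine ⟨σ, h, h1, fun s hs => ?_⟩
    obtain ⟨al, p, u, r, be, ga, w, f, de, e⟩ := h2 s hs
    have := h3 _ hs
    rw [(mk_eta e).2.2.2.2.2.2.2.1] at this
    rw [e, this]; simp [mk]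

omit [Finite G] in
theorem cmem {S : Subgroup G} {s t : G} (hs : s ∈ S) (ht : t ∈ S) : ⁅s, t⁆ ∈ S :=
  mul_mem (mul_mem (mul_mem hs ht) (inv_mem hs)) (inv_mem ht)

namespace Dat

variable {S : Subgroup G} {z : G} (D : Dat ρ S z)
include D

omit [CharP k 2] [Finite G] in
theorem mul {s t : G} (hs : s ∈ S) (ht : t ∈ S) :
    ρ (s * t) 0 1 = ρ s 0 1 + ρ t 0 1 ∧ ρ (s * t) 0 2 = ρ s 0 2 + ρ t 0 2 + ρ s 0 1 * ρ t 1 2 ∧
    ρ (s * t) 0 3 = ρ s 0 3 + ρ t 0 3 + ρ s 0 1 * ρ t 1 3 ∧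
    ρ (s * t) 0 4 = ρ s 0 4 + ρ t 0 4 + ρ s 0 1 * ρ t 1 4 + ρ s 0 2 * ρ t 2 4 + ρ s 0 3 * ρ t 0 1 ∧
    ρ (s * t) 1 2 = ρ s 1 2 + ρ t 1 2 ∧ ρ (s * t) 1 3 = ρ s 1 3 + ρ t 1 3 ∧
    ρ (s * t) 1 4 = ρ s 1 4 + ρ t 1 4 + ρ s 1 2 * ρ t 2 4 + ρ s 1 3 * ρ t 0 1 ∧
    ρ (s * t) 2 4 = ρ s 2 4 + ρ t 2 4 := by
  have e := map_mul ρ s t
  rw [D.sh s hs, D.sh t ht, mk_mul] at e
  obtain ⟨a, b, c, d, e, f, g, -, h⟩ := mk_eta e
  exact ⟨a, b, by simpa using c, d, e, by simpa using f, g, by simpa using h⟩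

omit [CharP k 2] [Finite G] in
theorem row {s : G} (hs : s ∈ S) (h1 : ρ s 0 1 = 0) (h2 : ρ s 1 2 = 0) (h3 : ρ s 1 3 = 0)
    (h4 : ρ s 2 4 = 0) (h5 : ρ s 1 4 = 0) : s = 1 := by
  refine D.rp s (Pi.single 0 1) ![0, 0, ρ s 0 2, ρ s 0 3, ρ s 0 4] ?_ (by simp)
  conv_lhs => rw [D.sh s hs, h1, h2, h3, h4, h5]
  ext i j; fin_cases i <;> fin_cases j <;> simp [E.mk]

omit [CharP k 2] [Finite G] in
theorem z_eq : ρ z 0 1 = 0 ∧ ρ z 0 2 = 0 ∧ ρ z 0 3 = 1 ∧ ρ z 0 4 = 0 ∧ ρ z 1 2 = 0 ∧ ρ z 1 3 = 0 ∧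
    ρ z 1 4 = 1 ∧ ρ z 2 3 = 0 ∧ ρ z 2 4 = 0 := mk_eta (D.hz.trans mk_z.symm)

omit [CharP k 2] [Finite G] in
theorem ne_one : z ≠ 1 := fun e => by simpa [e] using D.z_eq.2.2.1

omit [Finite G] in
theorem sq_z : z * z = 1 := D.rp.inj (by
  rw [map_mul, D.hz, ← mk_z, mk_mul, map_one]
  ext i j; fin_cases i <;> fin_cases j <;> simp [E.mk, CharTwo.add_self_eq_zero])

omit [Finite G] in
theorem comm {s t : G} (hs : s ∈ S) (ht : t ∈ S) :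
    ρ ⁅s, t⁆ 0 1 = 0 ∧ ρ ⁅s, t⁆ 1 2 = 0 ∧ ρ ⁅s, t⁆ 1 3 = 0 ∧ ρ ⁅s, t⁆ 2 4 = 0 ∧
    ρ ⁅s, t⁆ 0 2 = ρ s 0 1 * ρ t 1 2 + ρ t 0 1 * ρ s 1 2 ∧
    ρ ⁅s, t⁆ 0 3 = ρ s 0 1 * ρ t 1 3 + ρ t 0 1 * ρ s 1 3 ∧
    ρ ⁅s, t⁆ 1 4 = ρ s 1 2 * ρ t 2 4 + ρ s 1 3 * ρ t 0 1 + ρ t 1 2 * ρ s 2 4 + ρ t 1 3 * ρ s 0 1 ∧
    ρ ⁅s, t⁆ 0 4 = ρ s 0 1 * ρ t 1 4 + ρ s 0 2 * ρ t 2 4 + ρ s 0 3 * ρ t 0 1 + ρ t 0 1 * ρ s 1 4 +
      ρ t 0 2 * ρ s 2 4 + ρ t 0 3 * ρ s 0 1 + ρ ⁅s, t⁆ 0 2 * (ρ s 2 4 + ρ t 2 4) +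
      ρ ⁅s, t⁆ 0 3 * (ρ s 0 1 + ρ t 0 1) := by
  have h1 := D.mul (cmem hs ht) (S.mul_mem ht hs)
  rw [show ⁅s, t⁆ * (t * s) = s * t by rw [commutatorElement_def]; group] at h1
  simp only [D.mul hs ht, D.mul ht hs] at h1
  generalize ⁅s, t⁆ = c at *
  obtain ⟨a1, a2, a3, a4, a5, a6, a7, a8⟩ := h1
  have b1 : ρ c 0 1 = 0 := by linear_combination -a1
  have b2 : ρ c 1 2 = 0 := by linear_combination -a5
  have b3 : ρ c 1 3 = 0 := by linear_combination -a6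
  rw [b1] at a2 a3 a4
  rw [b2, b3] at a7
  exact ⟨b1, b2, b3, by linear_combination -a8, by grind, by grind, by grind, by grind⟩

end Dat

end CL.Five.E
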