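import Cfsg.Agent.CLAS.FiveE2
import Cfsg.Agent.TECH.SylIn

/-!
# Block E, part 3: the structure of a Sylow 2-subgroup
-/

set_option autoImplicit false

namespace CL.Five.E

open Matrix Subgroup CL.MSS
open scoped commutatorElement

variable {k : Type*} [Field k] [CharP k 2] {G : Type*} [Group G] {ρ : G →* M5 k}
  {S : Subgroup G} {z : G} {κ : k}

/-- the second character -/
def gg (ρ : G →* M5 k) (κ : k) (s : G) : k := ρ s 1 3 + κ * ρ s 1 2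

namespace Dat

variable (D : Dat ρ S z)
include D

omit [CharP k 2] in
theorem col {s : G} (hs : s ∈ S) (h1 : ρ s 0 1 = 0) (h2 : ρ s 1 2 = 0) (h3 : ρ s 1 3 = 0)
    (h4 : ρ s 2 4 = 0) (h5 : ρ s 0 2 = 0) (h6 : ρ s 0 3 = 0) : s = 1 :=
  D.rp.rk (a := ρ s 0 4) (b := ρ s 1 4) (c := 0) (d := 1) (u := 0) (ga := 0)
    (by conv_lhs => rw [D.sh s hs, h1, h2, h3, h4, h5, h6]) (by simp) (by simp) (by simp) (by simp)

theorem sq {s : G} (hs : s ∈ S) : ρ (s * s) 0 1 = 0 ∧ ρ (s * s) 1 2 = 0 ∧ ρ (s * s) 1 3 = 0 ∧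
    ρ (s * s) 2 4 = 0 ∧ ρ (s * s) 0 2 = ρ s 0 1 * ρ s 1 2 ∧ ρ (s * s) 0 3 = ρ s 0 1 * ρ s 1 3 ∧
    ρ (s * s) 1 4 = ρ s 1 2 * ρ s 2 4 + ρ s 1 3 * ρ s 0 1 := by
  simp [D.mul hs hs, CharTwo.add_self_eq_zero]

theorem mem_Q [Finite G] {s : G} (hs : s ∈ S) : s ∈ Qs ρ z ↔ ρ s 0 1 = 0 := by
  rw [mem_Qs D.rp D.sq_z D.ne_one, R, D.hz, add_sub_cancel_left]
  constructor
  · rintro ⟨-, h, -⟩
    simpa [n0, mul_apply, Fin.sum_univ_five] using congrFun (congrFun h 0) 4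
  · intro h
    obtain ⟨a, b, c, d, e, f, -⟩ := D.sq hs
    refine ⟨D.col (S.mul_mem hs hs) a b c d (by rw [e, h, zero_mul]) (by rw [f, h, zero_mul]), ?_, ?_⟩
    all_goals
      rw [D.sh s hs, h]
      ext i j; fin_cases i <;> fin_cases j <;> simp [E.mk, n0, mul_apply, Fin.sum_univ_five]

theorem rel {x s : G} (hx : x ∈ S) (h1 : ρ x 0 1 = 0) (h2 : ρ x 1 2 = 0) (h3 : ρ x 1 3 = 0)
    (h4 : ρ x 2 4 = 0) (hs : s ∈ S) : ρ x 0 2 * ρ s 2 4 = (ρ x 0 3 + ρ x 1 4) * ρ s 0 1 := by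
  obtain ⟨a, b, c, d, -, -, e, f⟩ := D.comm hx hs
  rw [D.row (cmem hx hs) a b c d (by simp [e, h1, h2, h3, h4])] at f
  simp only [map_one, h1, h4, ne_eq, Fin.reduceEq, not_false_eq_true, one_apply_ne] at f
  grind

omit [CharP k 2] in
theorem gg_mul {s t : G} (hs : s ∈ S) (ht : t ∈ S) : gg ρ κ (s * t) = gg ρ κ s + gg ρ κ t := by
  simp only [gg, D.mul hs ht]; ring

/-- the kernel of the second character -/
def Es (κ : k) : Subgroup G where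
  carrier := {s | s ∈ S ∧ gg ρ κ s = 0}
  one_mem' := ⟨S.one_mem, by simp [gg]⟩
  mul_mem' ha hb := ⟨S.mul_mem ha.1 hb.1, by rw [D.gg_mul ha.1 hb.1, ha.2, hb.2, add_zero]⟩
  inv_mem' {a} ha := ⟨S.inv_mem ha.1, by
    have := D.gg_mul (κ := κ) ha.1 (S.inv_mem ha.1)
    rw [ha.2, zero_add, mul_inv_cancel] at this
    rw [← this]; simp [gg]⟩

omit [CharP k 2] in
theorem mem_E {s : G} : s ∈ D.Es κ ↔ s ∈ S ∧ gg ρ κ s = 0 := Iff.rfl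

end Dat

/-- squares and commutators are given by two characters -/
structure Dk (ρ : G →* M5 k) (S : Subgroup G) (z : G) (κ : k) : Prop extends Dat ρ S z where
  mem : z ∈ S
  wsq : ∀ s ∈ S, ρ (s * s) 1 4 = ρ s 0 1 * gg ρ κ s
  wcm : ∀ s ∈ S, ∀ t ∈ S, ρ ⁅s, t⁆ 1 4 = ρ s 0 1 * gg ρ κ t + ρ t 0 1 * gg ρ κ s

theorem Dat.exists_dk (D : Dat ρ S z) (hz : z ∈ S) (h : ∃ s ∈ S, ρ s 0 1 ≠ 0) : ∃ κ, Dk ρ S z κ := by
  by_cases hp : ∃ s ∈ S, ρ s 0 1 * ρ s 1 2 ≠ 0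
  · obtain ⟨x, hx, hp⟩ := hp
    obtain ⟨a, b, c, d, e, -, -⟩ := D.sq hx
    rw [← e] at hp
    have key : ∀ s ∈ S, ρ s 2 4 = (ρ (x * x) 0 3 + ρ (x * x) 1 4) / ρ (x * x) 0 2 * ρ s 0 1 :=
      fun s hs => by
        rw [div_mul_eq_mul_div, ← D.rel (S.mul_mem hx hx) a b c d hs, mul_div_cancel_left₀ _ hp]
    generalize (ρ (x * x) 0 3 + ρ (x * x) 1 4) / ρ (x * x) 0 2 = κ at key
    refine ⟨κ, D, hz, fun s hs => ?_, fun s hs t ht => ?_⟩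
    · rw [(D.sq hs).2.2.2.2.2.2, key s hs, gg]; ring
    · rw [(D.comm hs ht).2.2.2.2.2.2.1, key s hs, key t ht, gg, gg]; ring
  · push Not at hp
    have key := (hom_dich _ _ (fun s hs t ht => (D.mul hs ht).1)
      (fun s hs t ht => (D.mul hs ht).2.2.2.2.1) hp).resolve_left (by simpa using h)
    refine ⟨0, D, hz, fun s hs => ?_, fun s hs t ht => ?_⟩
    · rw [(D.sq hs).2.2.2.2.2.2, key s hs, gg]; ring
    · rw [(D.comm hs ht).2.2.2.2.2.2.1, key s hs, key t ht, gg, gg]; ring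

namespace Dk

variable (D : Dk ρ S z κ)
include D

theorem sq_iff {s : G} (hs : s ∈ S) : s * s = 1 ↔ ρ s 0 1 * gg ρ κ s = 0 := by
  rw [← D.wsq s hs]
  obtain ⟨a, b, c, d, -⟩ := D.sq hs
  exact ⟨fun h => by simp [h], D.row (S.mul_mem hs hs) a b c d⟩

theorem comm_iff {s t : G} (hs : s ∈ S) (ht : t ∈ S) :
    s * t = t * s ↔ ρ s 0 1 * gg ρ κ t + ρ t 0 1 * gg ρ κ s = 0 := by
  rw [← D.wcm s hs t ht, ← commutatorElement_eq_one_iff_mul_comm]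
  obtain ⟨a, b, c, d, -⟩ := D.comm hs ht
  exact ⟨fun h => by simp [h], D.row (cmem hs ht) a b c d⟩

theorem elE {s : G} (hs : s ∈ D.Es κ) : s * s = 1 := by rw [D.sq_iff hs.1, hs.2, mul_zero]

theorem commE {s t : G} (hs : s ∈ D.Es κ) (ht : t ∈ D.Es κ) : s * t = t * s := by
  rw [D.comm_iff hs.1 ht.1, hs.2, ht.2]; simp

omit [CharP k 2] in
theorem z_mem : z ∈ D.Es κ := ⟨D.mem, by simp [gg, D.z_eq]⟩

theorem cent {s : G} (hs : s ∈ S) : s * z = z * s := by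
  rw [D.comm_iff hs D.mem, D.z_mem.2, D.z_eq.1]; simp

variable [Finite G]

theorem comm_mem {s t : G} (hs : s ∈ S) (ht : t ∈ S) : ⁅s, t⁆ ∈ Qs ρ z ⊓ D.Es κ := by
  obtain ⟨a, b, c, -⟩ := D.comm hs ht
  exact ⟨(D.mem_Q (cmem hs ht)).2 a, cmem hs ht, by simp [gg, b, c]⟩

theorem sq_mem {s : G} (hs : s ∈ S) : s * s ∈ Qs ρ z ⊓ D.Es κ := by
  obtain ⟨a, b, c, -⟩ := D.sq hs
  exact ⟨(D.mem_Q (S.mul_mem hs hs)).2 a, S.mul_mem hs hs, by simp [gg, b, c]⟩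

omit [Finite G] in
theorem le_norm : S ≤ normalizer (Qs ρ z : Set G) := fun _ hs => mem_normalizer_Qs (D.cent hs)

theorem Q_le (hS : SylIn 2 S ⊤) : Qs ρ z ≤ S :=
  hS.le_of_normalized (Qs_pgroup D.rp D.sq_z D.ne_one) le_top D.le_norm

theorem exists_m (hS : SylIn 2 S ⊤) {y g : G} (hy : y ∈ Qs ρ z) (ht : g * y * g⁻¹ ∈ S)
    (hn : g * y * g⁻¹ ∉ Qs ρ z) : ∃ m ∈ normalizer (D.Es κ : Set G),
      ∀ x ∈ Qs ρ z, m * x * m⁻¹ ∈ Qs ρ z → x = 1 := by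
  have h := D.rp
  have hz := D.sq_z
  have hz1 := D.ne_one
  have hy1 : y ≠ 1 := by rintro rfl; exact hn (by simp)
  have hQ : g •ᶜ Qs ρ z = Qs ρ (g * y * g⁻¹) := by rw [← cj_Qs, Qs_eq h hz hz1 hy hy1]
  have h2 : g * y * g⁻¹ * (g * y * g⁻¹) = 1 := by rw [conj_mul, Qs_el h hz hz1 hy]; group
  generalize g * y * g⁻¹ = t at *
  have ht1 : t ≠ 1 := by rintro rfl; exact hn (one_mem _)
  have htE : t ∈ D.Es κ :=
    ⟨ht, (mul_eq_zero.1 ((D.sq_iff ht).1 h2)).resolve_left fun e => hn ((D.mem_Q ht).2 e)⟩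
  have hti : ∀ x ∈ Qs ρ z, x ∈ Qs ρ t → x = 1 := fun x h3 h4 => by
    by_contra h5
    exact hn (by rw [← Qs_eq h hz hz1 h3 h5, Qs_eq h h2 ht1 h4 h5]; exact self_mem_Qs h2)
  have h3 : SylIn 2 (g •ᶜ S) (normalizer (Qs ρ t : Set G)) := by
    refine (hS.cj g).of_le ?_ (by rw [cj_top]; exact le_top)
    rw [← hQ, ← cj_normalizer]
    exact cj_mono g D.le_norm
  obtain ⟨x, hx, h4⟩ := h3.exists_le_conj (hS.pgroup.to_le (H := D.Es κ) fun _ h => h.1)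
    fun e he => mem_normalizer_Qs (D.commE he htE)
  rw [← cj_mul, le_cj_iff] at h4
  have h5 : (x * g) •ᶜ Qs ρ z = Qs ρ t := by rw [cj_mul, hQ, cj_eq_of_mem_normalizer hx]
  refine ⟨x * g, ?_, fun a ha e => ?_⟩
  · rcases hom_dich (S := (x * g)⁻¹ •ᶜ D.Es κ) _ _ (fun s hs t ht => (D.mul (h4 hs) (h4 ht)).1)
      (fun s hs t ht => D.gg_mul (κ := κ) (h4 hs) (h4 ht)) (fun s hs => (D.sq_iff (h4 hs)).1 (by
        obtain ⟨e, he, rfl⟩ := mem_cj'.1 hs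
        rw [conj_mul, D.elE he]; group)) with h6 | h6
    · have : D.Es κ ≤ Qs ρ t := by
        rw [← h5, le_cj_iff]
        exact fun s hs => (D.mem_Q (h4 hs)).2 (h6 s hs)
      exact absurd (hti z (self_mem_Qs hz) (this D.z_mem)) hz1
    · exact inv_mem_iff.1 (mem_normalizer_of_cj_le fun s hs => ⟨h4 hs, h6 s hs⟩)
  · exact conj_eq_one_iff.1 (hti _ e (h5 ▸ conj_mem_cj ha))

end Dk

end CL.Five.E
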