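import Cfsg.Agent.KSG.SpURegular
import Cfsg.Agent.KSG.SpUReal
import Cfsg.Agent.PERM.CGAff
import Cfsg.Agent.CLAS.SpCenter

/-!
# Block P: conjugacy in four-dimensional symplectic groups
-/

set_option autoImplicit false

namespace CL.Five.P

open Matrix Polynomial CL.GLn CL.SpU

variable {K : Type*} [Field K]

/-- the four-dimensional symplectic group -/
abbrev Sp (K : Type*) [Field K] := symplecticGroup (Fin 2) K

/-- the projection to `PSp₄` -/
abbrev π (K : Type*) [Field K] : Sp K →* Cfsg.PSp 2 K := QuotientGroup.mk' _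

theorem π_eq_one {g : Sp K} : π K g = 1 ↔ g.1 = 1 ∨ g.1 = -1 :=
  (QuotientGroup.eq_one_iff g).trans SpCenter.mem_center_iff

theorem ss {g : Sp K} {n : ℕ} (hn : (n : K) ≠ 0) (h : g ^ n = 1) :
    Module.End.IsSemisimple (toLin' g.1) := isSemisimple_of_pow_eq_one hn (by
  rw [← toLin'_pow, ← SubmonoidClass.coe_pow, h, OneMemClass.coe_one, toLin'_one]; rfl)

theorem real [Finite K] {g : Sp K} {n : ℕ} (hn : (n : K) ≠ 0) (h : g ^ n = 1) : IsConj g g⁻¹ :=
  isConj_sp_of_isSemisimple (ss hn h) ((isConj_iff_simil _ _).2 ((isReal_sp g).simil_inv (by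
    rw [Module.End.mul_eq_comp, ← toLin'_mul, ← Submonoid.coe_mul, inv_mul_cancel,
      OneMemClass.coe_one, toLin'_one]; rfl)))

/-- elements of the Siegel parabolic -/
def pb (A B D : Matrix (Fin 2) (Fin 2) K) (h1 : A * Dᵀ = 1) (h2 : A * Bᵀ = B * Aᵀ) : Sp K :=
  ⟨fromBlocks A B 0 D, by
    have h3 : D * Aᵀ = 1 := by simpa using congrArg transpose h1
    simp [SymplecticGroup.mem_iff, J, fromBlocks_multiply, fromBlocks_transpose, h1, h2, h3]⟩

/-- long root elements -/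
def zz (c : K) : Sp K := pb 1 !![c, 0; 0, 0] 1 (by simp) (by ext i j; fin_cases i <;> fin_cases j <;> simp)

/-- short root elements -/
def xx (a : K) : Sp K := pb 1 !![0, a; a, 0] 1 (by simp) (by ext i j; fin_cases i <;> fin_cases j <;> simp)

/-- short root elements of the Levi factor -/
def yy : Sp K := pb !![1, 1; 0, 1] 0 !![1, 0; -1, 1]
  (by ext i j; fin_cases i <;> fin_cases j <;> simp [Matrix.mul_apply]) (by simp)

/-- the torus -/
def dd (t : K) (ht : t ≠ 0) : Sp K := pb !![t, 0; 0, 1] 0 !![t⁻¹, 0; 0, 1]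
  (by ext i j; fin_cases i <;> fin_cases j <;> simp [Matrix.mul_apply, ht]) (by simp)

theorem zz_add (a b : K) : zz (a + b) = zz a * zz b := Subtype.ext (by
  simp [zz, pb, fromBlocks_multiply, add_comm])

theorem zz_zero : zz (0 : K) = 1 := Subtype.ext (by
  simp only [zz, pb, OneMemClass.coe_one, ← fromBlocks_one, fromBlocks_inj, true_and, and_true]
  ext i j; fin_cases i <;> fin_cases j <;> simp)

theorem zz_pow (c : K) (n : ℕ) : zz c ^ n = zz (n * c) := by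
  induction n with
  | zero => simp [zz_zero]
  | succ n ih => rw [pow_succ, ih, ← zz_add]; congr 1; push_cast; ring

theorem π_zz {c : K} (h : π K (zz c) = 1) : c = 0 := by
  rcases π_eq_one.1 h with h | h <;> simpa [zz, pb] using congrFun (congrFun h (.inl 0)) (.inr 0)

theorem xx_zz (a c : K) : xx a * zz c = zz c * xx a := Subtype.ext (by
  simp [zz, xx, pb, fromBlocks_multiply])

theorem yy_zz (c : K) : yy * zz c = zz c * yy := Subtype.ext (by
  simp [zz, yy, pb, fromBlocks_multiply])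

theorem yy_xx (a : K) : yy * xx a = xx a * yy * zz (2 * a) := Subtype.ext (by
  simp [zz, xx, yy, pb, fromBlocks_multiply]; ring)

theorem dd_zz (t : K) (ht : t ≠ 0) (c : K) : zz (t ^ 2 * c) * dd t ht = dd t ht * zz c := Subtype.ext (by
  simp [zz, dd, pb, fromBlocks_multiply]; field_simp; exact ⟨trivial, by ext i; fin_cases i <;> rfl⟩)

/-- the element types of `PSp₄(3)` -/
def Ty {G : Type*} [Group G] (g : G) : Prop :=
  (g ^ 12 = 1 ∧ IsConj g (g ^ 7)) ∨ (g ^ 9 = 1 ∧ IsConj g (g ^ 4)) ∨ (g ^ 5 = 1 ∧ IsConj g (g ^ 3))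

section Three

variable [Fintype K] (hK : Fintype.card K = 3)
include hK

theorem three : (3 : K) = 0 := by exact_mod_cast hK ▸ FiniteField.cast_card_eq_zero K

theorem two : (2 : K) ≠ 0 := fun h => one_ne_zero (α := K) (by linear_combination three hK - h)

theorem cases (a : K) : a = 0 ∨ a = 1 ∨ a = -1 := by
  have h := FiniteField.pow_card a
  rw [hK] at h
  have : a * ((a - 1) * (a + 1)) = 0 := by linear_combination h
  simpa [sub_eq_zero, add_eq_zero_iff_eq_neg] using this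

theorem unip {g : Sp K} (h : (g.1 - 1) ^ 4 = 0) : g ^ 9 = 1 ∧ IsConj g (g ^ 4) := by
  have : CharP K 3 := (CharP.charP_iff_prime_eq_zero Nat.prime_three).2 (three hK)
  have : Fact (Nat.Prime 3) := ⟨Nat.prime_three⟩
  have h3 : g.1 ^ 3 = 1 + (g.1 - 1) ^ 3 := by
    rw [sub_pow_char_of_commute 3 (Commute.one_right _), one_pow, add_sub_cancel]
  refine ⟨Subtype.ext ?_, ?_⟩
  · have := sub_pow_char_pow_of_commute 3 2 (Commute.one_right g.1)
    rw [pow_eq_zero_of_le (by norm_num) h, one_pow, eq_comm, sub_eq_zero] at this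
    exact this
  by_cases h0 : (g.1 - 1) ^ 3 = 0
  · rw [h0, add_zero] at h3
    rw [pow_succ, show g ^ 3 = 1 from Subtype.ext h3, one_mul]
  have e : ((g ^ 4).1 - 1) = (g.1 - 1) * (1 + (g.1 - 1) ^ 2) := by
    rw [SubmonoidClass.coe_pow, pow_succ, h3]
    generalize hN : g.1 - 1 = N at h
    rw [eq_add_of_sub_eq hN]
    have : N ^ 3 * N = 0 := by rw [← pow_succ, h]
    rw [mul_add, add_mul, this]; noncomm_ring
  have cm : Commute (g.1 - 1) (1 + (g.1 - 1) ^ 2) :=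
    (Commute.one_right _).add_right (Commute.self_pow _ _)
  have e3 : ((g ^ 4).1 - 1) ^ 3 = (g.1 - 1) ^ 3 := by
    rw [e, cm.mul_pow]
    generalize g.1 - 1 = N at h
    have : N ^ 3 * (1 + N ^ 2) ^ 3 = N ^ 3 + N ^ 4 * (3 * N + 3 * N ^ 3 + N ^ 5) := by noncomm_ring
    rw [this, h, zero_mul, add_zero]
  have tl : ∀ (A : Matrix (Fin 2 ⊕ Fin 2) (Fin 2 ⊕ Fin 2) K) (n : ℕ),
      (toLin' A - 1) ^ n = toLin' ((A - 1) ^ n) := fun A n => by
    rw [toLin'_pow, map_sub, toLin'_one]; rfl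
  have jt : ∀ A : Matrix (Fin 2 ⊕ Fin 2) (Fin 2 ⊕ Fin 2) K, (A - 1) ^ 4 = 0 → (A - 1) ^ 3 ≠ 0 →
      HasJT (toLin' A) 1 {3 + 1} := fun A h1 h2 => by
    obtain ⟨μ, hμ⟩ := exists_hasJT (A := toLin' A) (a := 1) ⟨4, by rw [map_one, tl, h1, map_zero]⟩
    have := hμ.eq_singleton_of_pow_ne_zero (by
      rw [map_one, tl, LinearEquiv.map_ne_zero_iff]; simpa using h2)
    rwa [this, show Module.finrank K (Fin 2 ⊕ Fin 2 → K) = 3 + 1 by simp] at hμ
  exact (isConj_sp_iff _ _).2 (isomConj_regular (CL.Sp.spForm_nondeg 2 K) (isIsom_sp g) (jt _ h h0) (two hK)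
    (CL.Sp.spForm_nondeg 2 K) (isIsom_sp _) (jt _ (by rw [e, cm.mul_pow, h, zero_mul]) (by rwa [e3]))
    (by rw [tl, tl, e3]))

theorem twelve {g : Sp K} (h : g.1 ^ 12 = 1) (h' : (g.1 ^ 4 - 1) * (g.1 ^ 6 - 1) = 0) :
    IsConj g (g ^ 7) := by
  have h12 : g ^ 12 = 1 := Subtype.ext h
  obtain ⟨C, hC⟩ := isConj_iff.1 (real (g := g ^ 9) (n := 4) (fun e => two hK (by
    push_cast at e; linear_combination 2 * e - 2 * three hK)) (by
      rw [← pow_mul, show 9 * 4 = 12 * 3 from rfl, pow_mul, h12, one_pow]))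
  rw [show (g ^ 9)⁻¹ = g ^ 3 from inv_eq_of_mul_eq_one_right (by rw [← pow_add, h12]),
    mul_inv_eq_iff_eq_mul] at hC
  have hC' : C * g ^ 6 = g ^ 6 * C := by
    rw [show g ^ 6 = g ^ 9 * g ^ 9 by rw [← pow_add, pow_add g 6 12, h12, mul_one], ← mul_assoc, hC,
      mul_assoc, hC, ← mul_assoc, ← pow_add, ← pow_add, pow_add g 6 12, h12, mul_one]
  have k1 : C.1 * g.1 ^ 9 = g.1 ^ 3 * C.1 := congrArg Subtype.val hC
  have k2 : C.1 * g.1 ^ 6 = g.1 ^ 6 * C.1 := congrArg Subtype.val hC'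
  have k3 : g.1 ^ 6 * J (Fin 2) K * (g.1 ^ 6)ᵀ = J (Fin 2) K := by
    rw [← SubmonoidClass.coe_pow]; exact (g ^ 6).2
  have k4 : C.1 * J (Fin 2) K * C.1ᵀ = J (Fin 2) K := C.2
  have k5 : g.1 ^ 6 * g.1 ^ 6 = 1 := by rw [← pow_add, h]
  have k6 : J (Fin 2) K * (g.1 ^ 6)ᵀ = g.1 ^ 6 * J (Fin 2) K := by
    conv_rhs => rw [← k3, ← mul_assoc, ← mul_assoc, k5, one_mul]
  have h3 : ∀ x : Matrix (Fin 2 ⊕ Fin 2) (Fin 2 ⊕ Fin 2) K, x + x + x = 0 := fun x => by
    rw [show x + x + x = (3 : K) • x by module, three hK, zero_smul]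
  obtain ⟨q, hq⟩ : ∃ q, q = 1 - g.1 ^ 6 := ⟨_, rfl⟩
  have q1 : q * q = -q := by
    rw [eq_neg_iff_add_eq_zero, ← h3 q, hq, mul_sub, sub_mul, sub_mul, k5]; noncomm_ring
  have q2 : J (Fin 2) K * qᵀ = q * J (Fin 2) K := by
    rw [hq, transpose_sub, transpose_one, mul_sub, sub_mul, k6, mul_one, one_mul]
  have q3 : C.1 * q = q * C.1 := by rw [hq, mul_sub, sub_mul, k2, mul_one, one_mul]
  have q4 : g.1 ^ 4 * q = q := by
    rw [← sub_eq_zero, ← neg_eq_zero, ← h', hq]; noncomm_ring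
  have q5 : q * g.1 = g.1 * q := by rw [hq]; noncomm_ring
  have q6 : g.1 ^ 6 * (1 + q) = 1 + q := by
    rw [show g.1 ^ 6 = 1 - q by rw [hq, sub_sub_cancel], sub_mul, one_mul, mul_add, q1]; noncomm_ring
  have hc : 1 + q - C.1 * q ∈ symplecticGroup (Fin 2) K := by
    rw [SymplecticGroup.mem_iff, transpose_sub, transpose_add, transpose_one, transpose_mul, mul_assoc,
      mul_sub, mul_add, ← mul_assoc, q2]
    calc _ = (1 + (q + q * q) + q - C.1 * (q + q * q)) * J (Fin 2) K -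
          (q + q * q) * J (Fin 2) K * C.1ᵀ + C.1 * (q * q) * J (Fin 2) K * C.1ᵀ := by noncomm_ring
      _ = _ := by
        rw [q1, mul_neg, q3, neg_mul, neg_mul, mul_assoc q, mul_assoc q, k4]; noncomm_ring
  refine isConj_iff.2 ⟨⟨_, hc⟩, mul_inv_eq_iff_eq_mul.2 (Subtype.ext ?_)⟩
  change (1 + q - C.1 * q) * g.1 = g.1 ^ 7 * (1 + q - C.1 * q)
  have r1 : g.1 ^ 7 * (1 + q) = (1 + q) * g.1 := by
    rw [pow_succ', mul_assoc, q6, mul_add, add_mul, q5, mul_one, one_mul]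
  have r2 : g.1 ^ 9 * q = g.1 * q := by
    rw [show g.1 ^ 9 = g.1 * (g.1 ^ 4 * g.1 ^ 4) by noncomm_ring, mul_assoc, mul_assoc, q4, q4]
  have r3 : g.1 ^ 7 * q = g.1 ^ 3 * q := by rw [pow_add g.1 3 4, mul_assoc, q4]
  rw [mul_sub, r1, sub_mul, mul_assoc, q5, ← r2, ← mul_assoc, k1, mul_assoc, q3, ← mul_assoc, ← mul_assoc,
    r3]

theorem ty (g : Sp K) : Ty (π K g) := by
  have hd : g.1.charpoly.natDegree = 4 := charpoly_natDegree_eq_dim _
  have h4 : g.1.charpoly.coeff 4 = 1 := hd ▸ g.1.charpoly_monic.coeff_natDegree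
  have h0 : g.1.charpoly.coeff 4 = g.1.charpoly.coeff 0 :=
    CG.coeff_charpoly_symplectic g.2 (i := 0) (by simp)
  have h3 : g.1.charpoly.coeff 3 = g.1.charpoly.coeff 1 :=
    CG.coeff_charpoly_symplectic g.2 (i := 1) (by simp)
  have e : g.1.charpoly = X ^ 4 + C (g.1.charpoly.coeff 1) * X ^ 3 + C (g.1.charpoly.coeff 2) * X ^ 2 +
      C (g.1.charpoly.coeff 1) * X + 1 := by
    conv_lhs => rw [g.1.charpoly.as_sum_range' 5 (by omega)]
    simp only [Finset.sum_range_succ, Finset.sum_range_zero, ← C_mul_X_pow_eq_monomial, h3, ← h0, h4,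
      map_one]
    ring
  have z : (3 : K[X]) = 0 := by rw [← map_ofNat C, three hK, map_zero]
  have key : ∀ f q : K[X], f = g.1.charpoly * q → aeval g.1 f = 0 := fun f q h => by
    rw [h, map_mul, aeval_self_charpoly, zero_mul]
  have k1 : ∀ (n : ℕ) (q : K[X]), X ^ n - 1 = g.1.charpoly * q → g.1 ^ n = 1 := fun n q h => by
    have := key _ q h
    rwa [map_sub, map_pow, aeval_X, map_one, sub_eq_zero] at this
  have k2 : ∀ (n : ℕ) (q : K[X]), X ^ n + 1 = g.1.charpoly * q → g.1 ^ n = -1 := fun n q h => by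
    have := key _ q h
    rwa [map_add, map_pow, aeval_X, map_one, add_eq_zero_iff_eq_neg] at this
  have k3 : ∀ q : K[X], (X ^ 4 - 1) * (X ^ 6 - 1) = g.1.charpoly * q →
      (g.1 ^ 4 - 1) * (g.1 ^ 6 - 1) = 0 := fun q h => by
    have := key _ q h
    rwa [map_mul, map_sub, map_sub, map_pow, map_pow, aeval_X, map_one] at this
  have pw : ∀ {n : ℕ}, g.1 ^ n = 1 ∨ g.1 ^ n = -1 → π K g ^ n = 1 ∧ g ^ (n * 2) = 1 := fun {n} h =>
    ⟨by rw [← map_pow]; exact π_eq_one.2 h, Subtype.ext (by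
      rw [pow_mul, SubmonoidClass.coe_pow, SubmonoidClass.coe_pow]
      rcases h with h | h <;> simp [h])⟩
  have cj : ∀ {x : Sp K} {n : ℕ}, IsConj x (x ^ n) → IsConj (π K x) (π K x ^ n) := fun h =>
    map_pow (π K) _ _ ▸ (π K).map_isConj h
  have six : g.1 ^ 6 = 1 ∨ g.1 ^ 6 = -1 → Ty (π K g) := fun h => .inl ⟨by
    rw [pow_mul _ 6 2, (pw h).1, one_pow], by rw [pow_succ, (pw h).1, one_mul]⟩
  have five : g.1 ^ 5 = 1 ∨ g.1 ^ 5 = -1 → Ty (π K g) := fun h => by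
    have hn : ((5 * 2 : ℕ) : K) ≠ 0 := fun e => one_ne_zero (α := K) (by
      push_cast at e; linear_combination e - 3 * three hK)
    refine .inr (.inr ⟨(pw h).1, cj (isConj_sp_of_isSemisimple (ss hn (pw h).2)
      (isConj_of_isSemisimple_of_charpoly_eq (ss hn (pw h).2) (ss hn (by
        rw [← pow_mul, mul_comm, pow_mul, (pw h).2, one_pow])) ?_))⟩)
    rw [SubmonoidClass.coe_pow, ← hK, FiniteField.Matrix.charpoly_pow_card]
  have tw : g.1 ^ 12 = 1 → (g.1 ^ 4 - 1) * (g.1 ^ 6 - 1) = 0 → Ty (π K g) := fun h h' =>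
    .inl ⟨(pw (.inl h)).1, cj (twelve hK h h')⟩
  generalize g.1.charpoly.coeff 1 = a, g.1.charpoly.coeff 2 = b at e
  rcases cases hK a with rfl | rfl | rfl <;> rcases cases hK b with rfl | rfl | rfl <;>
    simp only [map_zero, map_one, map_neg] at e
  · have h := pw (.inr (k2 4 1 (by rw [e]; ring)))
    refine .inl ⟨by rw [pow_mul _ 4 3, h.1, one_pow], cj ?_⟩
    rw [show g ^ 7 = g⁻¹ from eq_inv_of_mul_eq_one_left (by rw [← pow_succ, h.2])]
    exact real (fun e => two hK (by push_cast at e; linear_combination e - 2 * three hK)) h.2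
  · exact six (.inl (k1 6 (X ^ 2 - 1) (by rw [e]; ring)))
  · exact six (.inr (k2 6 (X ^ 2 + 1) (by rw [e]; ring)))
  · have h := unip hK (g := ⟨-g.1, SymplecticGroup.neg_mem g.2⟩) (by
      have := key ((X + 1) ^ 4) 1 (by rw [e]; linear_combination (X + 2 * X ^ 2 + X ^ 3) * z)
      rw [← neg_add', Even.neg_pow (by decide)]
      rwa [map_pow, map_add, aeval_X, map_one] at this)
    have e' : π K ⟨-g.1, SymplecticGroup.neg_mem g.2⟩ = π K g := by
      rw [← mul_inv_eq_one, ← map_inv, ← map_mul, π_eq_one]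
      right
      rw [Submonoid.coe_mul, neg_mul, ← Submonoid.coe_mul, mul_inv_cancel]; rfl
    exact .inr (.inl (e' ▸ ⟨by rw [← map_pow, h.1, map_one], cj h.2⟩))
  · exact five (.inl (k1 5 (X - 1) (by rw [e]; ring)))
  · exact tw (k1 12 (-1 + X + X ^ 2 + X ^ 3 - X ^ 5 - X ^ 6 - X ^ 7 + X ^ 8)
      (by rw [e]; linear_combination (X ^ 10 - X ^ 2) * z))
      (k3 (1 - X - X ^ 2 - X ^ 3 - X ^ 4 - X ^ 5 + X ^ 6)
        (by rw [e]; linear_combination (X ^ 2 + X ^ 5 + X ^ 8) * z))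
  · have h := unip hK (g := g) (by
      have := key ((X - 1) ^ 4) 1 (by rw [e]; linear_combination (-X + 2 * X ^ 2 - X ^ 3) * z)
      rwa [map_pow, map_sub, aeval_X, map_one] at this)
    exact .inr (.inl ⟨by rw [← map_pow, h.1, map_one], cj h.2⟩)
  · exact five (.inr (k2 5 (X + 1) (by rw [e]; ring)))
  · exact tw (k1 12 (-1 - X + X ^ 2 - X ^ 3 + X ^ 5 - X ^ 6 + X ^ 7 + X ^ 8)
      (by rw [e]; linear_combination (X ^ 10 - X ^ 2) * z))
      (k3 (1 + X - X ^ 2 + X ^ 3 - X ^ 4 + X ^ 5 + X ^ 6)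
        (by rw [e]; linear_combination (X ^ 2 - X ^ 5 + X ^ 8) * z))

end Three

theorem Ty.pow {G : Type*} [Group G] {g : G} (h : Ty g) : g ^ 180 = 1 := by
  rcases h with h | h | h
  · rw [pow_mul g 12 15, h.1, one_pow]
  · rw [pow_mul g 9 20, h.1, one_pow]
  · rw [pow_mul g 5 36, h.1, one_pow]

theorem Ty.conj {G : Type*} [Group G] {g : G} (h : Ty g) {a b : ℕ} (ha : a % 6 = 1) (hb : b % 6 = 1)
    (h5 : a % 5 = 0 ↔ b % 5 = 0) : IsConj (g ^ a) (g ^ b) := by
  have it : ∀ {m : ℕ}, IsConj g (g ^ m) → ∀ j, IsConj g (g ^ m ^ j) := fun {m} e j => by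
    induction j with
    | zero => rw [pow_zero, pow_one]
    | succ j ih => rw [pow_succ', pow_mul]; exact ih.trans (e.pow _)
  rcases h with ⟨h, e⟩ | ⟨h, e⟩ | ⟨h, e⟩
  · have key : ∀ c, c % 6 = 1 → IsConj g (g ^ c) := fun c hc => by
      rw [pow_eq_pow_mod c h]
      rcases (by omega : c % 12 = 1 ∨ c % 12 = 7) with k | k <;> rw [k]
      exacts [by rw [pow_one], e]
    exact (key a ha).symm.trans (key b hb)
  · have key : ∀ c, c % 6 = 1 → IsConj g (g ^ c) := fun c hc => by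
      rw [pow_eq_pow_mod c h]
      rcases (by omega : c % 9 = 1 ∨ c % 9 = 4 ∨ c % 9 = 7) with k | k | k <;> rw [k]
      exacts [by rw [pow_one], e, by simpa only [pow_eq_pow_mod (4 ^ 2) h] using! it e 2]
    exact (key a ha).symm.trans (key b hb)
  · have key : ∀ c, c % 5 ≠ 0 → IsConj g (g ^ c) := fun c hc => by
      rw [pow_eq_pow_mod c h]
      rcases (by omega : c % 5 = 1 ∨ c % 5 = 2 ∨ c % 5 = 3 ∨ c % 5 = 4) with k | k | k | k <;> rw [k]
      exacts [by rw [pow_one], by simpa only [pow_eq_pow_mod (3 ^ 3) h] using! it e 3, e,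
        by simpa only [pow_eq_pow_mod (3 ^ 2) h] using! it e 2]
    by_cases h0 : a % 5 = 0
    · rw [pow_eq_pow_mod a h, pow_eq_pow_mod b h, h0, h5.1 h0]
    · exact (key a h0).symm.trans (key b (mt h5.2 h0))

end CL.Five.P
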