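import Mathlib
import Cfsg.Prelude.Def_TwoFusion

/-!
# Groups in dimension five containing the negative of a reflection: the vocabulary

A root is a vector `v` with a form `φ`, `φ v = 2`, such that `w ↦ φ w • v - w` (minus a reflection)
is induced by the group.
-/

set_option autoImplicit false
set_option linter.unusedSectionVars false

namespace CL.FR

open Module

/-- the standing hypotheses -/
structure Ctx (k W G : Type*) [Field k] [AddCommGroup W] [Module k W] [Group G]
    [DistribMulAction G W] [SMulCommClass G k W] : Prop where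
  two : (2 : k) ≠ 0
  dim : finrank k W = 5
  faith : ∀ g : G, (∀ w : W, g • w = w) → g = 1
  det : ∀ g : G, LinearMap.det (DistribSMul.toLinearMap k W g) = 1
  noTv : ∀ (g : G) (v : W) (φ : W →ₗ[k] k), φ v = 0 → (∀ w, g • w = w + φ w • v) → g = 1
  perf : commutator G = ⊤
  zs : ∀ z : G, z * z = 1 → z ≠ 1 → ∃ g : G, Commute z (g * z * g⁻¹) ∧ g * z * g⁻¹ ≠ z
  gold : ∀ (S : Sylow 2 G) (A : Subgroup G), A ≠ ⊥ → IsMulCommutative A →
    Cfsg.IsStronglyClosed A S → 16 ∣ Nat.card G →
      ∀ x y : G, orderOf x = 2 → orderOf y = 2 → IsConj x y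

/-- a root -/
structure Rt (k W G : Type*) [Field k] [AddCommGroup W] [Module k W] [Group G]
    [DistribMulAction G W] where
  g : G
  v : W
  φ : W →ₗ[k] k
  two : φ v = 2
  act : ∀ w, g • w = φ w • v - w

variable {k W G : Type*} [Field k] [AddCommGroup W] [Module k W] [Group G] [DistribMulAction G W]
  [SMulCommClass G k W]

theorem smul_sm (g : G) (a : k) (w : W) : g • a • w = a • g • w := smul_comm g a w

/-- the conjugate of a root -/
def Rt.conj (h : G) (r : Rt k W G) : Rt k W G where
  g := h * r.g * h⁻¹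
  v := h • r.v
  φ := r.φ ∘ₗ DistribSMul.toLinearMap k W h⁻¹
  two := by simp [r.two]
  act w := by simp [mul_smul, r.act, smul_sub, smul_sm]

/-- the same root with a rescaled vector -/
def Rt.sc (r : Rt k W G) (a : k) (ha : a ≠ 0) : Rt k W G where
  g := r.g
  v := a • r.v
  φ := a⁻¹ • r.φ
  two := by simp [r.two, ha]
  act w := by simp [r.act, smul_smul, mul_right_comm, ha]

@[simp] theorem Rt.conj_g (h : G) (r : Rt k W G) : (r.conj h).g = h * r.g * h⁻¹ := rfl
@[simp] theorem Rt.conj_v (h : G) (r : Rt k W G) : (r.conj h).v = h • r.v := rfl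
@[simp] theorem Rt.conj_φ (h : G) (r : Rt k W G) (w : W) : (r.conj h).φ w = r.φ (h⁻¹ • w) := rfl
@[simp] theorem Rt.sc_g (r : Rt k W G) (a : k) (ha : a ≠ 0) : (r.sc a ha).g = r.g := rfl
@[simp] theorem Rt.sc_v (r : Rt k W G) (a : k) (ha : a ≠ 0) : (r.sc a ha).v = a • r.v := rfl
@[simp] theorem Rt.sc_φ (r : Rt k W G) (a : k) (ha : a ≠ 0) (w : W) :
    (r.sc a ha).φ w = a⁻¹ * r.φ w := rfl

/-- four times the squared cosine of the angle -/
def mu (a b : Rt k W G) : k := a.φ b.v * b.φ a.v

/-- a frame: five orthogonal roots -/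
def Fr (e : Fin 5 → Rt k W G) : Prop := ∀ a b, a ≠ b → (e a).φ (e b).v = 0

/-- some root interchanges `a` and `b` -/
def Ed (a b : Rt k W G) : Prop := ∃ c : Rt k W G, c.g * a.g * c.g⁻¹ = b.g

variable (k W G) in
/-- all orthogonal pairs are edges -/
def Full : Prop := ∀ a b : Rt k W G, a.φ b.v = 0 → Ed a b

variable (k W G) in
/-- no orthogonal pair is an edge -/
def NoEd : Prop := ∀ a b : Rt k W G, a.φ b.v = 0 → ¬ Ed a b

/-- a half-sum of the members of the frame other than `e m` is a root -/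
def Hf (e : Fin 5 → Rt k W G) (m : Fin 5) : Prop :=
  ∃ w : Rt k W G, (e m).φ w.v = 0 ∧ ∀ l, l ≠ m → mu (e l) w = 1

/-- `g` is diagonal with entries `d` -/
def Dg (e : Fin 5 → Rt k W G) (g : G) (d : Fin 5 → k) : Prop := ∀ a, g • (e a).v = d a • (e a).v

/-- diagonal elements are scalars up to signs -/
def TL (e : Fin 5 → Rt k W G) : Prop := ∀ g d, Dg e g d → ∀ a b, d a ^ 2 = d b ^ 2

/-- the diagonal elements with entries `±1` -/
def Eg (e : Fin 5 → Rt k W G) : Subgroup G where
  carrier := {g | ∀ a, g • (e a).v = (e a).v ∨ g • (e a).v = -(e a).v}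
  one_mem' a := .inl (one_smul _ _)
  mul_mem' {g h} hg hh a := by
    rcases hg a with x | x <;> rcases hh a with y | y <;> simp [mul_smul, x, y]
  inv_mem' {g} hg a := (hg a).imp (fun x => by rw [inv_smul_eq_iff, x])
    fun x => by rw [inv_smul_eq_iff, smul_neg, x, neg_neg]

variable (k W) in
/-- the eigenspace of `g` for `a` -/
def eig (g : G) (a : k) : Submodule k W where
  carrier := {w | g • w = a • w}
  zero_mem' := by simp
  add_mem' {x y} hx hy := by
    simp only [Set.mem_ofPred_eq] at hx hy ⊢; rw [smul_add, hx, hy, smul_add]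
  smul_mem' b x hx := by
    simp only [Set.mem_ofPred_eq] at hx ⊢; rw [smul_sm, hx, smul_comm]

theorem mem_eig {g : G} {a : k} {w : W} : w ∈ eig k W g a ↔ g • w = a • w := Iff.rfl

variable (k W) in
/-- an involution which is `-1` on a plane -/
def Pl (g : G) : Prop := g * g = 1 ∧ finrank k (eig k W g (-1)) = 2

/-- a Sylow `2`-subgroup with its central root and its pair of planes -/
structure Su (S : Sylow 2 G) (t : Rt k W G) (i j : G) : Prop where
  cen : ∀ s ∈ S, s * t.g = t.g * s
  iS : i ∈ S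
  jS : j ∈ S
  ij : i * j = t.g
  it : i • t.v = t.v
  jt : j • t.v = t.v
  pi : Pl k W i
  pj : Pl k W j
  cj : ∀ x ∈ S, x * i = i * x ∨ x * i = j * x

end CL.FR
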