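import Cfsg.Agent.CLAS.FiveR0

/-!
# Roots, planes and frames: the basic facts
-/

set_option autoImplicit false
set_option linter.unusedSectionVars false

namespace CL.FR

open Module

variable {k W G : Type*} [Field k] [AddCommGroup W] [Module k W] [Group G] [DistribMulAction G W]
  [SMulCommClass G k W]

theorem conj_smul (g x : G) (w : W) : (g * x * g⁻¹) • g • w = g • x • w := by simp [mul_smul]

theorem mem_neg {g : G} {w : W} : w ∈ eig k W g (-1) ↔ g • w = -w := by rw [mem_eig, neg_one_smul]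

theorem mem_fix {g : G} {w : W} : w ∈ eig k W g 1 ↔ g • w = w := by rw [mem_eig, one_smul]

namespace Ctx

variable (c : Ctx k W G)
include c

theorem fd : FiniteDimensional k W := .of_finrank_pos (by rw [c.dim]; norm_num)

theorem zero_of_neg {w : W} (h : w = -w) : w = 0 := by
  have : (2 : k) • w = 0 := by rw [two_smul]; exact add_eq_zero_iff_eq_neg.2 h
  exact (smul_eq_zero.1 this).resolve_left c.two

theorem ext {g h : G} (e : ∀ w : W, g • w = h • w) : g = h :=
  (inv_mul_eq_one.1 (c.faith (h⁻¹ * g) fun w => by rw [mul_smul, e, inv_smul_smul])).symm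

theorem compl {z : G} (hz : z * z = 1) : IsCompl (eig k W z 1) (eig k W z (-1)) := by
  have z2 : ∀ w : W, z • z • w = w := fun w => by rw [← mul_smul, hz, one_smul]
  refine ⟨Submodule.disjoint_def.2 fun w h1 h2 => c.zero_of_neg ((mem_fix.1 h1).symm.trans
    (mem_neg.1 h2)), codisjoint_iff.2 (top_unique fun w _ => Submodule.mem_sup.2
      ⟨(2 : k)⁻¹ • (w + z • w), Submodule.smul_mem _ _ (mem_fix.2 ?_), (2 : k)⁻¹ • (w - z • w),
        Submodule.smul_mem _ _ (mem_neg.2 ?_), ?_⟩)⟩
  · rw [smul_add, z2, add_comm]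
  · rw [smul_sub, z2, neg_sub]
  · rw [← smul_add, add_add_sub_cancel, ← two_smul k, smul_smul, inv_mul_cancel₀ c.two, one_smul]

theorem rank_add {z : G} (hz : z * z = 1) :
    finrank k (eig k W z 1) + finrank k (eig k W z (-1)) = 5 :=
  have := c.fd
  (Submodule.finrank_add_eq_of_isCompl (c.compl hz)).trans c.dim

/-- the determinant in a basis -/
theorem det_eq {ι : Type*} [Fintype ι] [DecidableEq ι] (b : Basis ι k W) (g : G) (M : Matrix ι ι k)
    (h : ∀ a, g • b a = ∑ x, M x a • b x) : M.det = 1 := by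
  rw [← c.det g, ← LinearMap.det_toMatrix b]
  congr 1
  ext x a
  simp [LinearMap.toMatrix_apply, h, Finsupp.single_apply]

theorem even_neg {z : G} (hz : z * z = 1) : Even (finrank k (eig k W z (-1))) := by
  classical
  have := c.fd
  let b := ((finBasis k (eig k W z 1)).prod (finBasis k (eig k W z (-1)))).map
    (Submodule.prodEquivOfIsCompl _ _ (c.compl hz))
  have h := c.det_eq b z (Matrix.diagonal (Sum.elim (fun _ => 1) fun _ => -1)) fun a => by
    rw [Finset.sum_eq_single a (fun x _ hx => by simp [Matrix.diagonal_apply_ne _ hx]) (by simp)]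
    rcases a with a | a
    · simpa [b] using mem_fix.1 (finBasis k (eig k W z 1) a).2
    · simpa [b] using mem_neg.1 (finBasis k (eig k W z (-1)) a).2
  rw [Matrix.det_diagonal, Fintype.prod_sum_type] at h
  simp only [Sum.elim_inl, Sum.elim_inr, Finset.prod_const, one_pow, one_mul, Finset.card_univ,
    Fintype.card_fin] at h
  exact (neg_one_pow_eq_one_iff_even fun e => c.two (by linear_combination -e)).1 h

/-- the two kinds of involutions -/
theorem invol {z : G} (hz : z * z = 1) (h1 : z ≠ 1) : (∃ r : Rt k W G, r.g = z) ∨ Pl k W z := by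
  have := c.fd
  have h2 := c.rank_add hz
  obtain ⟨n, hn⟩ := c.even_neg hz
  have h3 : finrank k (eig k W z 1) ≠ 5 := fun e => h1 (c.faith z fun w => mem_fix.1
    ((Submodule.eq_top_of_finrank_eq (e.trans c.dim.symm)).ge Submodule.mem_top))
  by_cases h4 : n = 1
  · exact .inr ⟨hz, by omega⟩
  have h5 : finrank k (eig k W z 1) = 1 := by omega
  obtain ⟨v, hv, h6⟩ := finrank_eq_one_iff'.1 h5
  let L : W →ₗ[k] eig k W z 1 := (LinearMap.id + DistribSMul.toLinearMap k W z).codRestrict _
    fun w => mem_fix.2 (by simp [smul_add, ← mul_smul, hz, add_comm])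
  let e := LinearEquiv.toSpanNonzeroSingleton k _ v hv
  have h7 : Submodule.span k {v} = ⊤ := top_unique fun w _ => Submodule.mem_span_singleton.2 (h6 w)
  let φ : W →ₗ[k] k := e.symm.toLinearMap ∘ₗ (LinearMap.codRestrict _ L fun w => h7.ge trivial)
  have key : ∀ w, φ w • (v : W) = w + z • w := fun w =>
    congrArg (fun x : Submodule.span k {v} => ((x : eig k W z 1) : W))
      (e.apply_symm_apply ⟨L w, h7.ge trivial⟩)
  refine .inl ⟨⟨z, v, φ, ?_, fun w => by rw [key, add_sub_cancel_left]⟩, rfl⟩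
  refine smul_left_injective k (fun e => hv (Subtype.ext e) : (v : W) ≠ 0) ?_
  simp only [key, mem_fix.1 v.2, two_smul]

end Ctx

namespace Rt

variable (c : Ctx k W G) (r s : Rt k W G) {h : G} {w : W} {a : k}

theorem self : r.g • r.v = r.v := by rw [r.act, r.two, two_smul, add_sub_cancel_right]

theorem perp (hw : r.φ w = 0) : r.g • w = -w := by simp [r.act, hw]

theorem φ_act (w : W) : r.φ (r.g • w) = r.φ w := by simp [r.act, r.two]; ring

include c

theorem ne : r.v ≠ 0 := fun h => c.two (by rw [← r.two, h, map_zero])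

theorem sq : r.g * r.g = 1 := c.faith _ fun w => by
  rw [mul_smul, r.act (_ • _), r.φ_act, r.act]; abel

theorem inv : r.g⁻¹ = r.g := inv_eq_of_mul_eq_one_right (r.sq c)

theorem of_fix (hw : r.g • w = w) : w = (r.φ w / 2) • r.v := by
  rw [r.act, sub_eq_iff_eq_add, ← two_smul k] at hw
  rw [div_eq_inv_mul, mul_smul, hw, smul_smul, inv_mul_cancel₀ c.two, one_smul]

theorem of_neg (hw : r.g • w = -w) : r.φ w = 0 := by
  rw [r.act, sub_eq_iff_eq_add, neg_add_cancel] at hw
  exact (smul_eq_zero.1 hw).resolve_right (r.ne c)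

theorem rank_fix : finrank k (eig k W r.g 1) = 1 :=
  finrank_eq_one_iff'.2 ⟨⟨r.v, mem_fix.2 r.self⟩, fun e => r.ne c (congrArg Subtype.val e),
    fun w => ⟨_, Subtype.ext (r.of_fix c (mem_fix.1 w.2)).symm⟩⟩

theorem not_pl : ¬ Pl k W r.g := fun p => by
  have := c.rank_add p.1; rw [r.rank_fix c, p.2] at this; omega

theorem ne_one : r.g ≠ 1 := fun e => by
  have := c.fd
  have h := r.rank_fix c
  rw [show eig k W r.g 1 = ⊤ from top_unique fun w _ => mem_fix.2 (by rw [e, one_smul]), finrank_top,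
    c.dim] at h
  omega

theorem orderOf_eq : orderOf r.g = 2 := orderOf_eq_prime (by rw [pow_two, r.sq c]) (r.ne_one c)

variable {r s}

/-- a root is determined by its centre -/
theorem eq_of_line (e : s.v = a • r.v) : s.g = r.g := by
  have h := c.noTv (r.g * s.g) r.v (a • s.φ - r.φ) (by
    have := s.two; rw [e, map_smul] at this; simp [r.two]; linear_combination this) fun w => by
    rw [mul_smul, s.act, smul_sub, smul_sm, e, smul_sm, r.self, r.act]
    simp only [LinearMap.sub_apply, LinearMap.smul_apply, smul_eq_mul]; module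
  rw [← r.inv c, inv_mul_eq_one] at h
  exact h.symm

theorem line_of_eq (e : s.g = r.g) : ∃ a : k, a ≠ 0 ∧ s.v = a • r.v ∧ ∀ w, r.φ w = a * s.φ w := by
  have h := r.of_fix c (e ▸ s.self)
  refine ⟨_, fun h0 => s.ne c (by rw [h, h0, zero_smul]), h, fun w => ?_⟩
  have h1 := s.act w
  rw [e, r.act, sub_left_inj, h, smul_smul] at h1
  rw [smul_left_injective k (r.ne c) h1, mul_comm]

theorem comm_iff : h * r.g = r.g * h ↔ ∃ a : k, h • r.v = a • r.v :=
  ⟨fun e => ⟨_, r.of_fix c (by rw [← mul_smul, ← e, mul_smul, r.self])⟩,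
    fun ⟨_, e⟩ => mul_inv_eq_iff_eq_mul.1 (eq_of_line c (s := r.conj h) e)⟩

theorem φ_smul (e : h • r.v = a • r.v) (w : W) : r.φ (h • w) = a * r.φ w := by
  have h1 := congrArg (· • w) ((comm_iff c).2 ⟨a, e⟩)
  simp only [mul_smul h, mul_smul r.g, r.act, smul_sub, smul_sm, e, sub_left_inj] at h1
  rw [smul_smul] at h1
  rw [← smul_left_injective k (r.ne c) h1, mul_comm]

theorem comm_of_perp (e : r.φ s.v = 0) : r.g * s.g = s.g * r.g :=
  (comm_iff c).2 ⟨-1, by rw [r.perp e, neg_one_smul]⟩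

theorem ne_of_perp (e : r.φ s.v = 0) : r.g ≠ s.g := fun h =>
  s.ne c (c.zero_of_neg ((h ▸ s.self : r.g • s.v = s.v).symm.trans (r.perp e)))

theorem pm_of_comm (h2 : h * h = 1) (e : h * r.g = r.g * h) : h • r.v = r.v ∨ h • r.v = -r.v := by
  obtain ⟨a, ha⟩ := (comm_iff c).1 e
  have : (a * a) • r.v = (1 : k) • r.v := by
    rw [mul_smul, ← ha, ← smul_sm, ← ha, ← mul_smul, h2, one_smul, one_smul]
  rcases mul_self_eq_one_iff.1 (smul_left_injective k (r.ne c) this) with rfl | rfl
  exacts [.inl (by simpa using ha), .inr (by simpa using ha)]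

theorem perp_of_comm (e : r.g * s.g = s.g * r.g) (hn : r.g ≠ s.g) : r.φ s.v = 0 :=
  r.of_neg c ((pm_of_comm c (r.sq c) e).resolve_left fun h => hn (eq_of_line c (r.of_fix c h)).symm)

/-- orthogonality is symmetric -/
theorem symm (e : r.φ s.v = 0) : s.φ r.v = 0 :=
  perp_of_comm c (comm_of_perp c e).symm (ne_of_perp c e).symm

omit c in
theorem mul_fix (h1 : r.φ w = 0) (h2 : s.φ w = 0) : (r.g * s.g) • w = w := by
  rw [mul_smul, s.perp h2, smul_neg, r.perp h1, neg_neg]

theorem mul_left (e : r.φ s.v = 0) : (r.g * s.g) • r.v = -r.v := by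
  rw [mul_smul, s.perp (symm c e), smul_neg, r.self]

theorem mul_right (e : r.φ s.v = 0) : (r.g * s.g) • s.v = -s.v := by
  rw [mul_smul, s.self, r.perp e]

theorem li (e : r.φ s.v = 0) {x y : k} (h : x • r.v + y • s.v = 0) : x = 0 ∧ y = 0 := by
  have h1 := congrArg r.φ h
  have h2 := congrArg s.φ h
  simp only [map_add, map_smul, r.two, s.two, e, symm c e, smul_eq_mul, mul_zero, add_zero, zero_add,
    map_zero, mul_eq_zero, c.two, or_false] at h1 h2
  exact ⟨h1, h2⟩

theorem pl_mul (e : r.φ s.v = 0) : Pl k W (r.g * s.g) := by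
  have h2 : r.g * s.g * (r.g * s.g) = 1 := by
    rw [mul_assoc, ← mul_assoc s.g, ← comm_of_perp c e, mul_assoc, s.sq c, mul_one, r.sq c]
  refine (c.invol h2 fun h => ne_of_perp c e (by rw [← s.inv c]; exact eq_inv_of_mul_eq_one_left h)
    ).resolve_left ?_
  rintro ⟨t, ht⟩
  have := c.fd
  have h3 := (r.φ.prod s.φ).finrank_range_add_finrank_ker
  have h4 : finrank k (LinearMap.range (r.φ.prod s.φ)) ≤ 2 := (Submodule.finrank_le _).trans (by simp)
  have h5 := Submodule.finrank_mono (show LinearMap.ker (r.φ.prod s.φ) ≤ eig k W t.g 1 from fun w hw =>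
    mem_fix.2 (ht ▸ mul_fix (congrArg Prod.fst hw) (congrArg Prod.snd hw)))
  rw [t.rank_fix c] at h5
  rw [c.dim] at h3
  omega

end Rt

theorem mu_symm (a b : Rt k W G) : mu a b = mu b a := mul_comm _ _

theorem mu_conj (h : G) (a b : Rt k W G) : mu (a.conj h) (b.conj h) = mu a b := by simp [mu]

theorem mu_sc (a b : Rt k W G) (x : k) (hx : x ≠ 0) : mu (a.sc x hx) b = mu a b := by
  simp only [mu, Rt.sc_φ, Rt.sc_v, map_smul, smul_eq_mul]; field_simp

theorem mu_congr (c : Ctx k W G) {a a' : Rt k W G} (h : a'.g = a.g) (b : Rt k W G) :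
    mu a' b = mu a b := by
  obtain ⟨x, -, h1, h2⟩ := Rt.line_of_eq c h
  simp only [mu, h1, h2, map_smul, smul_eq_mul]; ring

theorem Ed.symm (c : Ctx k W G) {a b : Rt k W G} (h : Ed a b) : Ed b a :=
  h.imp fun x e => by rw [← e, x.inv c]; simp [mul_assoc, x.sq c, ← mul_assoc x.g x.g]

theorem Ed.conj {a b : Rt k W G} (h : Ed a b) (g : G) : Ed (a.conj g) (b.conj g) :=
  h.elim fun x e => ⟨x.conj g, by simp [← e, mul_assoc]⟩

theorem Ed.congr {a b a' b' : Rt k W G} (h : Ed a b) (h1 : a'.g = a.g) (h2 : b'.g = b.g) :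
    Ed a' b' := h.imp fun _ e => by rw [h1, h2, e]

/-- the root which interchanges two orthogonal roots -/
theorem Ed.swap (c : Ctx k W G) {a b x : Rt k W G} (h : a.φ b.v = 0) (e : x.g * a.g * x.g⁻¹ = b.g) :
    ∃ y : k, y ≠ 0 ∧ x.g • a.v = y • b.v ∧ x.g • b.v = y⁻¹ • a.v ∧ x.φ a.v ≠ 0 ∧
      ∀ w, a.φ w = 0 → b.φ w = 0 → x.φ w = 0 := by
  obtain ⟨y, hy, h1, h2⟩ := Rt.line_of_eq c (s := a.conj x.g) (r := b) e
  have h1 : x.g • a.v = y • b.v := h1
  have h3 : x.φ a.v ≠ 0 := fun h0 => by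
    have := congrArg a.φ h1
    rw [x.perp h0, map_neg, map_smul, h, a.two, smul_zero, neg_eq_zero] at this
    exact c.two this
  refine ⟨y, hy, h1, ?_, h3, fun w ha hb => ?_⟩
  · rw [eq_inv_smul_iff₀ hy, ← smul_sm, ← h1, ← mul_smul, x.sq c, one_smul]
  · have h4 := h2 w
    rw [hb, Rt.conj_φ, x.inv c, x.act, map_sub, ha, map_smul, sub_zero, smul_eq_mul, eq_comm] at h4
    exact (mul_eq_zero.1 ((mul_eq_zero.1 h4).resolve_left hy)).resolve_right
      fun h0 => h3 (Rt.symm c h0)

namespace Pl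

variable (c : Ctx k W G) {i z : G} (p : Pl k W i) {a b : Rt k W G} {w : W}
include c p

theorem inv : i⁻¹ = i := inv_eq_of_mul_eq_one_right p.1

theorem rank_fix : finrank k (eig k W i 1) = 3 := by
  have := c.rank_add p.1; rw [p.2] at this; omega

theorem ne_one : i ≠ 1 := fun e => by
  have h := p.2
  rw [show eig k W i (-1) = ⊥ from bot_unique fun w hw => c.zero_of_neg (by
    simpa [e] using mem_neg.1 hw), finrank_bot] at h
  omega

theorem conj (g : G) : Pl k W (g * i * g⁻¹) := by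
  refine ⟨by rw [conj_mul, p.1, mul_one, mul_inv_cancel], ?_⟩
  rw [← p.2, ← LinearEquiv.finrank_map_eq (DistribMulAction.toLinearEquiv k W g) (eig k W i (-1))]
  refine congrArg (fun X : Submodule k W => finrank k X) (Submodule.ext fun w => ?_)
  rw [Submodule.mem_map_equiv, mem_neg, mem_neg, mul_smul, mul_smul, smul_eq_iff_eq_inv_smul, smul_neg]
  rfl

theorem not_conj (r : Rt k W G) : ¬ IsConj i r.g := fun h => by
  obtain ⟨x, hx⟩ := isConj_iff.1 h
  exact r.not_pl c (hx ▸ p.conj c x)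

theorem comm (h : i • a.v = -a.v) : i * a.g = a.g * i :=
  (Rt.comm_iff c).2 ⟨-1, by rw [h, neg_one_smul]⟩

/-- a root in the plane has an orthogonal partner in the plane -/
theorem root (h : i • a.v = -a.v) :
    ∃ b : Rt k W G, b.g = a.g * i ∧ i • b.v = -b.v ∧ a.φ b.v = 0 := by
  have := c.fd
  have hc := p.comm c h
  have key : ∀ w : W, (a.g * i) • w = w → i • w = -w := fun w hw => by
    have h1 : i • w = a.g • w := by
      conv_rhs => rw [← hw, ← mul_smul, ← mul_assoc, a.sq c, one_mul]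
    have h2 := a.of_fix c (w := w + i • w) (by rw [smul_add, ← h1, ← mul_smul, hw, add_comm])
    have h3 : i • (w + i • w) = w + i • w := by rw [smul_add, ← mul_smul, p.1, one_smul, add_comm]
    rw [h2, smul_sm, h, smul_neg, ← h2] at h3
    exact eq_neg_of_add_eq_zero_right (c.zero_of_neg h3.symm)
  rcases c.invol (z := a.g * i) (by
    rw [mul_assoc, ← mul_assoc i, hc, mul_assoc, p.1, mul_one, a.sq c]) (fun e => a.not_pl c (by
      rwa [eq_inv_of_mul_eq_one_left e, p.inv c])) with ⟨b, hb⟩ | q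
  · have h1 := key _ (hb ▸ b.self)
    refine ⟨b, hb, h1, a.of_neg c ?_⟩
    have h2 := b.self
    rw [hb, mul_smul, h1, smul_neg] at h2
    exact neg_eq_iff_eq_neg.1 h2
  · have h1 := Submodule.finrank_mono (show eig k W (a.g * i) 1 ≤ eig k W i (-1) from
      fun w hw => mem_neg.2 (key w (mem_fix.1 hw)))
    rw [q.rank_fix c, p.2] at h1
    omega

/-- two independent vectors span the plane -/
theorem span {u v : W} (hu : i • u = -u) (hv : i • v = -v)
    (h : ∀ x y : k, x • u + y • v = 0 → x = 0 ∧ y = 0) (hw : i • w = -w) :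
    ∃ x y : k, w = x • u + y • v := by
  have := c.fd
  have h1 : Submodule.span k (Set.range ![u, v]) = eig k W i (-1) :=
    Submodule.eq_of_le_of_finrank_eq (Submodule.span_le.2 (by
      rintro _ ⟨x, rfl⟩; fin_cases x <;> exact mem_neg.2 ‹_›)) (by
        rw [finrank_span_eq_card (LinearIndependent.pair_iff.2 h), p.2]; simp)
  obtain ⟨y, x, e⟩ := Submodule.mem_span_pair.1 (by simpa using h1.ge (mem_neg.2 hw))
  exact ⟨x, y, e.symm.trans (add_comm _ _)⟩

variable (ha : i • a.v = -a.v) (hb : i • b.v = -b.v) (h : a.φ b.v = 0)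
include ha hb h

theorem exp (hw : i • w = -w) : w = (a.φ w / 2) • a.v + (b.φ w / 2) • b.v := by
  obtain ⟨x, y, rfl⟩ := p.span c ha hb (fun _ _ => Rt.li c h) hw
  simp [a.two, b.two, h, Rt.symm c h, c.two]

theorem eq_mul : i = a.g * b.g := by
  have key : ∀ {a : Rt k W G} {w : W}, i • a.v = -a.v → i • w = w → a.φ w = 0 := fun {a w} ha hw => by
    have := Rt.φ_smul c (a := -1) (ha.trans (neg_one_smul k _).symm) w
    rw [hw] at this
    exact (mul_eq_zero.1 (by linear_combination this : 2 * a.φ w = 0)).resolve_left c.two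
  refine c.ext fun w => ?_
  obtain ⟨x, hx, y, hy, rfl⟩ := Submodule.mem_sup.1 ((c.compl p.1).sup_eq_top.ge (Submodule.mem_top (x := w)))
  rw [smul_add, smul_add, mem_fix.1 hx, Rt.mul_fix (key ha (mem_fix.1 hx)) (key hb (mem_fix.1 hx)),
    p.exp c ha hb h (mem_neg.1 hy)]
  simp only [smul_add, smul_sm, ha, hb, Rt.mul_left c h, Rt.mul_right c h]

theorem fix_iff : i • w = w ↔ a.φ w = 0 ∧ b.φ w = 0 := by
  refine ⟨fun hw => ?_, fun e => p.eq_mul c ha hb h ▸ Rt.mul_fix e.1 e.2⟩
  have h1 := Rt.φ_smul c (a := -1) (ha.trans (neg_one_smul k _).symm) w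
  have h2 := Rt.φ_smul c (a := -1) (hb.trans (neg_one_smul k _).symm) w
  rw [hw] at h1 h2
  exact ⟨(mul_eq_zero.1 (by linear_combination h1 : 2 * a.φ w = 0)).resolve_left c.two,
    (mul_eq_zero.1 (by linear_combination h2 : 2 * b.φ w = 0)).resolve_left c.two⟩

/-- a root of the plane commuting with `a` is `a` or `b` -/
theorem root_eq {r : Rt k W G} (hr : i • r.v = -r.v) (e : a.g * r.g = r.g * a.g) :
    r.g = a.g ∨ r.g = b.g := by
  refine or_iff_not_imp_left.2 fun hn => Rt.eq_of_line c (a := b.φ r.v / 2) ?_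
  simpa [Rt.perp_of_comm c e (Ne.symm hn)] using p.exp c ha hb h hr

omit ha hb h in
/-- the only involution commuting with `i` and trivial on the fixed space of `i` -/
theorem uniq (hz : z * z = 1) (h1 : z ≠ 1) (hc : z * i = i * z) (hf : ∀ w : W, i • w = w → z • w = w) :
    z = i := by
  have := c.fd
  have h2 := Submodule.finrank_mono (show eig k W i 1 ≤ eig k W z 1 from fun w hw =>
    mem_fix.2 (hf w (mem_fix.1 hw)))
  have q := (c.invol hz h1).resolve_left (by
    rintro ⟨r, rfl⟩; rw [r.rank_fix c, p.rank_fix c] at h2; omega)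
  have h3 : eig k W i 1 = eig k W z 1 := Submodule.eq_of_le_of_finrank_eq
    (fun w hw => mem_fix.2 (hf w (mem_fix.1 hw))) ((p.rank_fix c).trans (q.rank_fix c).symm)
  refine c.ext fun w => ?_
  obtain ⟨x, hx, y, hy, rfl⟩ := Submodule.mem_sup.1 ((c.compl p.1).sup_eq_top.ge (Submodule.mem_top (x := w)))
  have h4 : i • (y + z • y) = y + z • y := mem_fix.1 (h3.ge (mem_fix.2 (by
    rw [smul_add, ← mul_smul, hz, one_smul, add_comm])))
  rw [smul_add, ← mul_smul, ← hc, mul_smul, mem_neg.1 hy, smul_neg, ← neg_add] at h4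
  rw [smul_add, smul_add, mem_fix.1 hx, hf x (mem_fix.1 hx), mem_neg.1 hy,
    eq_neg_of_add_eq_zero_right (c.zero_of_neg h4.symm)]

end Pl

namespace Fr

variable (c : Ctx k W G) {e : Fin 5 → Rt k W G} (f : Fr e) {g h : G} {d d' : Fin 5 → k}
include f

theorem conj (g : G) : Fr fun a => (e a).conj g := fun a b hab => by simpa using f a b hab

theorem comp {π : Fin 5 → Fin 5} (hπ : Function.Injective π) : Fr (e ∘ π) :=
  fun _ _ hab => f _ _ (hπ.ne hab)

theorem sc (x : Fin 5 → k) (hx : ∀ a, x a ≠ 0) : Fr fun a => (e a).sc (x a) (hx a) :=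
  fun a b hab => by simp [f a b hab]

theorem φ_eq (a b : Fin 5) : (e a).φ (e b).v = if a = b then 2 else 0 := by
  split_ifs with h
  exacts [h ▸ (e a).two, f a b h]

theorem act (a b : Fin 5) : (e a).g • (e b).v = if a = b then (e b).v else -(e b).v := by
  split_ifs with h
  exacts [h ▸ (e a).self, (e a).perp (f a b h)]

theorem mem (a : Fin 5) : (e a).g ∈ Eg e := fun b => by
  rw [f.act]; split_ifs <;> simp

include c

theorem li : LinearIndependent k fun a => (e a).v := Fintype.linearIndependent_iff.2 fun x hx a => by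
  have := congrArg (e a).φ hx
  simpa [f.φ_eq, c.two] using this

/-- the basis given by a frame -/
noncomputable def basis : Basis (Fin 5) k W :=
  basisOfLinearIndependentOfCardEqFinrank (f.li c) (by simp [c.dim])

@[simp] theorem basis_apply (a : Fin 5) : f.basis c a = (e a).v := by simp [basis]

theorem exp (w : W) : w = ∑ a, ((e a).φ w / 2) • (e a).v := by
  have h := (f.basis c).sum_repr w
  generalize (f.basis c).repr w = x at h
  subst h
  simp [f.φ_eq, c.two]

theorem zero {w : W} (h : ∀ a, (e a).φ w = 0) : w = 0 := by rw [f.exp c w]; simp [h]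

theorem lin {L : W →ₗ[k] W} (hg : ∀ a, g • (e a).v = L (e a).v) (w : W) : g • w = L w := by
  rw [f.exp c w, Finset.smul_sum, map_sum]
  exact Finset.sum_congr rfl fun a _ => by rw [smul_sm, hg, map_smul]

theorem ext (hg : ∀ a, g • (e a).v = h • (e a).v) : g = h :=
  c.ext (f.lin c (L := DistribSMul.toLinearMap k W h) hg)

theorem det (g : G) (M : Matrix (Fin 5) (Fin 5) k)
    (h : ∀ a, g • (e a).v = ∑ x, M x a • (e x).v) : M.det = 1 :=
  c.det_eq (f.basis c) g M (by simpa using h)

theorem prod (h : Dg e g d) : ∏ a, d a = 1 := by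
  rw [← Matrix.det_diagonal]
  exact f.det c g _ fun a => by simp [Matrix.diagonal_apply, h a]

theorem inj : Function.Injective fun a => (e a).g := fun a b hab =>
  by_contra fun hn => Rt.ne_of_perp c (f a b hn) hab

theorem sq (hg : g ∈ Eg e) : g * g = 1 := f.ext c fun a => by
  rcases hg a with h | h <;> simp [mul_smul, h]

theorem isP : IsPGroup 2 (Eg e) := fun g => ⟨1, Subtype.ext (by simpa [pow_two] using f.sq c g.2)⟩

theorem comm (hg : g ∈ Eg e) (hh : h ∈ Eg e) : g * h = h * g := f.ext c fun a => by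
  rcases hg a with x | x <;> rcases hh a with y | y <;> simp [mul_smul, x, y]

theorem dg_iff : (∃ d, Dg e g d) ↔ ∀ a, g * (e a).g = (e a).g * g :=
  ⟨fun ⟨_, h⟩ a => (Rt.comm_iff c).2 ⟨_, h a⟩, fun h => by
    choose d hd using fun a => (Rt.comm_iff c).1 (h a); exact ⟨d, hd⟩⟩

theorem mem_iff : g ∈ Eg e ↔ g * g = 1 ∧ ∀ a, g * (e a).g = (e a).g * g :=
  ⟨fun h => ⟨f.sq c h, fun a => f.comm c h (f.mem a)⟩, fun h a => Rt.pm_of_comm c h.1 (h.2 a)⟩

/-- a root of `Eg e` is a member of the frame -/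
theorem root_eq {r : Rt k W G} (hr : r.g ∈ Eg e) : ∃ a, r.g = (e a).g := by
  by_contra! h
  exact r.ne c (f.zero c fun a => Rt.perp_of_comm c (f.comm c (f.mem a) hr) (h a).symm)

/-- arbitrary signs outside one position -/
theorem signs (m : Fin 5) (s : Finset (Fin 5)) : ∃ g ∈ Eg e, ∀ l, l ≠ m →
    g • (e l).v = if l ∈ s then -(e l).v else (e l).v := by
  induction s using Finset.induction_on with
  | empty => exact ⟨1, one_mem _, by simp⟩
  | insert a s ha ih =>
    obtain ⟨g, hg, h⟩ := ih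
    by_cases ham : a = m
    · exact ⟨g, hg, fun l hl => by simp [h l hl, ham, hl]⟩
    refine ⟨g * ((e a).g * (e m).g), mul_mem hg (mul_mem (f.mem a) (f.mem m)), fun l hl => ?_⟩
    by_cases hla : l = a
    · subst hla; simp [mul_smul, f.act, h l hl, ha, hl.symm]
    · simp [mul_smul, f.act, h l hl, hla, hl.symm, Ne.symm hla]

end Fr

theorem Eg_conj {e : Fin 5 → Rt k W G} {g : G} (h : G) :
    h * g * h⁻¹ ∈ Eg (fun a => (e a).conj h) ↔ g ∈ Eg e := forall_congr' fun a => by
  simp [mul_smul, ← smul_neg]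

theorem fr_of (c : Ctx k W G) {a b d e f : Rt k W G} (h1 : a.φ b.v = 0) (h2 : a.φ d.v = 0)
    (h3 : a.φ e.v = 0) (h4 : a.φ f.v = 0) (h5 : b.φ d.v = 0) (h6 : b.φ e.v = 0) (h7 : b.φ f.v = 0)
    (h8 : d.φ e.v = 0) (h9 : d.φ f.v = 0) (h10 : e.φ f.v = 0) : Fr ![a, b, d, e, f] := fun i j hij => by
  fin_cases i <;> fin_cases j <;> first | exact absurd rfl hij | assumption | exact Rt.symm c ‹_›

namespace Dg

variable {e : Fin 5 → Rt k W G} {g h : G} {d d' : Fin 5 → k}

theorem mul (p : Dg e g d) (q : Dg e h d') : Dg e (g * h) (d * d') := fun a => by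
  rw [mul_smul, q, smul_sm, p, smul_smul, mul_comm]; rfl

theorem ne (c : Ctx k W G) (p : Dg e g d) (a : Fin 5) : d a ≠ 0 := fun h0 =>
  (e a).ne c ((smul_eq_zero_iff_eq g).1 (by rw [p, h0, zero_smul]))

theorem inv (c : Ctx k W G) (p : Dg e g d) : Dg e g⁻¹ d⁻¹ := fun a => by
  rw [inv_smul_eq_iff, smul_sm, p, smul_smul, Pi.inv_apply, inv_mul_cancel₀ (p.ne c a), one_smul]

end Dg

namespace Su

variable (c : Ctx k W G) {S : Sylow 2 G} {t : Rt k W G} {i j g x : G} {w : W} (s : Su S t i j)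
include c s

theorem tS : t.g ∈ S := s.ij ▸ mul_mem s.iS s.jS

theorem it' : i * t.g = j := by rw [← s.ij, ← mul_assoc, s.pi.1, one_mul]

theorem ji : j * i = t.g := by rw [← s.it' c, s.cen _ s.iS, mul_assoc, s.pi.1, mul_one]

theorem symm : Su S t j i :=
  ⟨s.cen, s.jS, s.iS, s.ji c, s.jt, s.it, s.pj, s.pi, fun x hx => by
    rcases s.cj x hx with h | h
    · left; rw [← s.it' c, ← mul_assoc, h, mul_assoc, s.cen _ hx, mul_assoc]
    · right
      rw [← s.it' c, ← mul_assoc, h, mul_assoc, s.cen _ hx, ← mul_assoc, ← s.ji c, ← mul_assoc,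
        s.pj.1, one_mul]⟩

theorem perp (h : i • w = -w) : t.φ w = 0 := by
  have := Rt.φ_smul c (a := 1) (s.it.trans (one_smul k _).symm) w
  rw [h, map_neg] at this
  exact (mul_eq_zero.1 (by linear_combination -this : 2 * t.φ w = 0)).resolve_left c.two

theorem fix_j (h : i • w = -w) : j • w = w := by
  rw [← s.it' c, mul_smul, t.perp (s.perp c h), smul_neg, h, neg_neg]

theorem neg_j (h : i • w = w) (h' : t.φ w = 0) : j • w = -w := by
  rw [← s.it' c, mul_smul, t.perp h', smul_neg, h]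

theorem comm_j (h : x * i = i * x) (hx : x * t.g = t.g * x) : x * j = j * x := by
  rw [← s.it' c, ← mul_assoc, h, mul_assoc, hx, mul_assoc]

/-- roots in different planes are orthogonal -/
theorem cross {a b : Rt k W G} (ha : i • a.v = -a.v) (hb : j • b.v = -b.v) : a.φ b.v = 0 := by
  have := Rt.φ_smul c (a := -1) (ha.trans (neg_one_smul k _).symm) b.v
  rw [(s.symm c).fix_j c hb] at this
  exact (mul_eq_zero.1 (by linear_combination this : 2 * a.φ b.v = 0)).resolve_left c.two

/-- the roots in `S` -/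
theorem root {r : Rt k W G} (hr : r.g ∈ S) : r.g = t.g ∨ i • r.v = -r.v ∨ j • r.v = -r.v := by
  by_cases h : r.g = t.g
  · exact .inl h
  have h1 := Rt.perp_of_comm c (s.cen _ hr) h
  have h2 : i * r.g = r.g * i := by
    refine ((s.cj _ hr).resolve_right fun e => ?_).symm
    refine (r.conj i).not_pl c ?_
    have : r.g * t.g = i * r.g * i⁻¹ := by
      rw [eq_mul_inv_iff_mul_eq, s.cen _ hr, mul_assoc, e, ← mul_assoc, ← s.ij, mul_assoc i,
        s.pj.1, mul_one]
    exact (show (r.conj i).g = r.g * t.g from this.symm) ▸ Rt.pl_mul c h1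
  exact .inr ((Rt.pm_of_comm c s.pi.1 h2).symm.imp_right fun e => s.neg_j c e (Rt.symm c h1))

end Su

end CL.FR
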