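import Cfsg.Agent.CLAS.FiveR1
import Cfsg.Agent.INV.SylowAux
import Cfsg.Agent.FGS.SylowTI
import Cfsg.Agent.PLOC.Critical

/-!
# Block RA: the Sylow 2-subgroup, its central root and its pair of planes
-/

set_option autoImplicit false
set_option linter.unusedSectionVars false

namespace CL.FR

open Module

variable {k W G : Type*} [Field k] [AddCommGroup W] [Module k W] [Group G] [DistribMulAction G W]
  [SMulCommClass G k W] [Finite G] [IsAlgClosed k]

namespace RA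

/-- `x` preserves `U` -/
def Pr (x : G) (U : Submodule k W) : Prop := ∀ w ∈ U, x • w ∈ U

/-- `x` interchanges `U` and `V` -/
def Sw (x : G) (U V : Submodule k W) : Prop := (∀ w ∈ U, x • w ∈ V) ∧ ∀ w ∈ V, x • w ∈ U

theorem rank_le (c : Ctx k W G) {x : G} {U V : Submodule k W} (h : ∀ w ∈ U, x • w ∈ V) :
    finrank k U ≤ finrank k V := by
  have := c.fd
  rw [← LinearEquiv.finrank_map_eq (DistribMulAction.toLinearEquiv k W x) U]
  exact Submodule.finrank_mono (by rintro _ ⟨w, hw, rfl⟩; exact h w hw)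

/-- a `2`-group is scalar on an invariant subspace or permutes the two parts of a decomposition -/
theorem split (c : Ctx k W G) {S : Subgroup G} (hS : IsPGroup 2 S) {U : Submodule k W}
    (hU : ∀ s ∈ S, Pr s U) : (∀ s ∈ S, ∃ a : k, ∀ w ∈ U, s • w = a • w) ∨
      ∃ U₁ U₂ : Submodule k W, U₁ ≠ ⊥ ∧ U₂ ≠ ⊥ ∧ Disjoint U₁ U₂ ∧ U₁ ⊔ U₂ = U ∧
        ∀ s ∈ S, Pr s U₁ ∧ Pr s U₂ ∨ Sw s U₁ U₂ := by
  let N : Subgroup S :=
    { carrier := {s | ∃ a : k, ∀ w ∈ U, (s : G) • w = a • w}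
      one_mem' := ⟨1, by simp⟩
      mul_mem' := by
        rintro x y ⟨a, ha⟩ ⟨b, hb⟩
        exact ⟨b * a, fun w hw => by
          rw [Subgroup.coe_mul, mul_smul, hb w hw, smul_sm, ha w hw, smul_smul]⟩
      inv_mem' := by
        rintro x ⟨a, ha⟩
        refine ⟨a⁻¹, fun w hw => ?_⟩
        by_cases h : a = 0
        · rw [(smul_eq_zero_iff_eq (x : G)).1 (by rw [ha w hw, h, zero_smul] : (x : G) • w = 0)]
          simp
        · rw [Subgroup.coe_inv, inv_smul_eq_iff, smul_sm, ha w hw, smul_smul, inv_mul_cancel₀ h,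
            one_smul] }
  have : N.Normal := ⟨by
    rintro x ⟨a, ha⟩ g
    exact ⟨a, fun w hw => by
      simp only [Subgroup.coe_mul, Subgroup.coe_inv, mul_smul]
      rw [ha _ (hU _ (inv_mem g.2) w hw), smul_sm, smul_inv_smul]⟩⟩
  by_cases hN : ⊤ ≤ N
  · exact .inl fun s hs => hN (Subgroup.mem_top ⟨s, hs⟩)
  obtain ⟨y, -, h1, h2, ⟨a, ha⟩, -⟩ := CL.PG.exists_mem_omegaCenterOver hS N ⊤ hN
  obtain ⟨b, rfl⟩ := IsAlgClosed.exists_eq_mul_self a
  have y2 : ∀ w ∈ U, (y : G) • (y : G) • w = (b * b) • w := fun w hw => by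
    simpa [pow_two, mul_smul] using ha w hw
  have hb : b ≠ 0 := fun h => h1 ⟨0, fun w hw => by
    simpa [h] using (smul_eq_zero_iff_eq (y : G)).1 (y2 w hw ▸ by simp [h])⟩
  have dec : ∀ w ∈ U, ∃ x ∈ U ⊓ eig k W (y : G) b, ∃ z ∈ U ⊓ eig k W (y : G) (-b), x + z = w :=
    fun w hw => by
      have h := hU _ y.2 w hw
      have := c.two
      refine ⟨(2 : k)⁻¹ • (w + b⁻¹ • (y : G) • w), ⟨U.smul_mem _ (U.add_mem hw (U.smul_mem _ h)),
        Submodule.smul_mem _ _ (mem_eig.2 ?_)⟩, (2 : k)⁻¹ • (w - b⁻¹ • (y : G) • w),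
        ⟨U.smul_mem _ (U.sub_mem hw (U.smul_mem _ h)), Submodule.smul_mem _ _ (mem_eig.2 ?_)⟩, ?_⟩
      · rw [smul_add, smul_sm, y2 w hw]; generalize (y : G) • w = z; match_scalars <;> field_simp
      · rw [smul_sub, smul_sm, y2 w hw]; generalize (y : G) • w = z; match_scalars <;> field_simp
      · generalize (y : G) • w = z; match_scalars <;> field_simp <;> norm_num
  refine .inr ⟨U ⊓ eig k W (y : G) b, U ⊓ eig k W (y : G) (-b), fun h => h1 ⟨-b, fun w hw => ?_⟩,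
    fun h => h1 ⟨b, fun w hw => ?_⟩, Submodule.disjoint_def.2 fun w h1 h2 => ?_,
    le_antisymm (sup_le inf_le_left inf_le_left) fun w hw => Submodule.mem_sup.2 (dec w hw),
    fun s hs => ?_⟩
  · obtain ⟨x, hx, z, hz, rfl⟩ := dec w hw
    rw [h, Submodule.mem_bot] at hx
    rw [hx, zero_add]; exact hz.2
  · obtain ⟨x, hx, z, hz, rfl⟩ := dec w hw
    rw [h, Submodule.mem_bot] at hz
    rw [hz, add_zero]; exact hx.2
  · have := (mem_eig.1 h1.2).symm.trans (mem_eig.1 h2.2)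
    rw [neg_smul] at this
    exact (smul_eq_zero.1 (c.zero_of_neg this)).resolve_left hb
  obtain ⟨d, hd⟩ := (h2 ⟨s, hs⟩).1
  have e : ∀ w ∈ U, (y : G) • s • w = d • s • (y : G) • w := fun w hw => by
    simpa [commutatorElement_def, mul_smul] using hd _ (hU s hs _ (hU _ y.2 w hw))
  have e' : ∀ (a : k) (w : W), w ∈ U ⊓ eig k W (y : G) a → s • w ∈ U ⊓ eig k W (y : G) (d * a) :=
    fun a w hw => ⟨hU s hs w hw.1, mem_eig.2 (by rw [e w hw.1, mem_eig.1 hw.2, smul_sm, smul_smul])⟩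
  obtain ⟨w, hw, hw0⟩ := (Submodule.ne_bot_iff U).1 fun h => h1 ⟨0, fun w hw => by
    rw [h, Submodule.mem_bot] at hw; simp [hw]⟩
  have h3 : ((b * b) * (d * d - 1)) • s • w = 0 := by
    have := y2 _ (hU s hs w hw)
    rw [e w hw, smul_sm, e _ (hU _ y.2 w hw), y2 w hw, smul_sm] at this
    generalize s • w = z at this ⊢
    linear_combination (norm := module) this
  have h4 : d * d = 1 := sub_eq_zero.1 ((mul_eq_zero.1 ((smul_eq_zero.1 h3).resolve_right
    fun h => hw0 ((smul_eq_zero_iff_eq s).1 h))).resolve_left (mul_ne_zero hb hb))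
  rcases mul_self_eq_one_iff.1 h4 with rfl | rfl
  · exact .inl ⟨fun w hw => by simpa using e' _ w hw, fun w hw => by simpa using e' _ w hw⟩
  · exact .inr ⟨fun w hw => by simpa using e' _ w hw, fun w hw => by simpa using e' _ w hw⟩

/-- a `2`-group fixes a line in every invariant subspace of odd dimension -/
theorem line_in (c : Ctx k W G) {S : Subgroup G} (hS : IsPGroup 2 S) {U : Submodule k W}
    (hU : ∀ s ∈ S, Pr s U) (ho : Odd (finrank k U)) :
    ∃ v ∈ U, v ≠ 0 ∧ ∀ s ∈ S, ∃ a : k, s • v = a • v := by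
  have := c.fd
  induction hn : finrank k U using Nat.strong_induction_on generalizing U with
  | _ n ih =>
  rcases split c hS hU with h | ⟨U₁, U₂, h1, h2, h3, rfl, h4⟩
  · obtain ⟨v, hv, h0⟩ := (Submodule.ne_bot_iff U).1 (by rintro rfl; simp at ho)
    exact ⟨v, hv, h0, fun s hs => (h s hs).imp fun a ha => ha v hv⟩
  have e := Submodule.finrank_sup_add_finrank_inf_eq U₁ U₂
  rw [h3.eq_bot, finrank_bot, add_zero] at e
  have p1 := Nat.pos_of_ne_zero (mt Submodule.finrank_eq_zero.1 h1)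
  have p2 := Nat.pos_of_ne_zero (mt Submodule.finrank_eq_zero.1 h2)
  have h5 : ∀ s ∈ S, Pr s U₁ ∧ Pr s U₂ := fun s hs => (h4 s hs).resolve_right fun h => by
    have := rank_le c h.1
    have := rank_le c h.2
    obtain ⟨m, hm⟩ := ho
    omega
  rcases Nat.even_or_odd (finrank k U₁) with h | h
  · obtain ⟨v, hv, h⟩ := ih _ (by omega) (fun s hs => (h5 s hs).2) (by grind) rfl
    exact ⟨v, Submodule.mem_sup_right hv, h⟩
  · obtain ⟨v, hv, h⟩ := ih _ (by omega) (fun s hs => (h5 s hs).1) h rfl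
    exact ⟨v, Submodule.mem_sup_left hv, h⟩

/-- transfer of an involution into an abelian group -/
theorem transfer {A : Type*} [CommGroup A] (hG : commutator G = ⊤) (S : Sylow 2 G) (χ : S →* A) {u : G}
    (hu : u * u = 1) {ε : A} (hε : ε * ε = 1) (h : ∀ (g : G) (hg : g⁻¹ * u * g ∈ S), χ ⟨_, hg⟩ = ε) :
    ε = 1 := by
  have := Fintype.ofFinite (Quotient (MulAction.orbitRel (Subgroup.zpowers u) (G ⧸ (S : Subgroup G))))
  have h1 : MonoidHom.transfer χ u = 1 :=
    Abelianization.commutator_subset_ker _ (hG.ge (Subgroup.mem_top u))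
  have key : ∀ (n : ℕ) (g : G) (hg : g⁻¹ * u ^ n * g ∈ S), χ ⟨_, hg⟩ = ε ^ n := fun n g hg => by
    rcases Nat.even_or_odd' n with ⟨m, rfl | rfl⟩
    · simp only [pow_mul, pow_two, hu, hε, one_pow, mul_one, inv_mul_cancel]
      exact map_one χ
    · simp only [pow_succ, pow_mul, pow_zero, one_mul, hu, hε, one_pow] at hg ⊢
      exact h g hg
  rw [MonoidHom.transfer_eq_prod_quotient_orbitRel_zpowers_quot,
    Finset.prod_congr rfl fun q _ => key _ _ _, Finset.prod_pow_eq_pow_sum,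
    ← Subgroup.index_eq_sum_minimalPeriod] at h1
  obtain ⟨m, hm⟩ : Odd (S : Subgroup G).index :=
    Nat.not_even_iff_odd.1 fun h => S.not_dvd_index (even_iff_two_dvd.1 h)
  rwa [hm, pow_succ, pow_mul, pow_two, hε, one_pow, one_mul] at h1

theorem exists_conj_into (S : Sylow 2 G) {z : G} (hz : ∀ s ∈ S, s * z = z * s)
    {Q : Subgroup G} (hQ : IsPGroup 2 Q) (h : ∀ x ∈ Q, x * z = z * x) :
    ∃ g : G, g * z = z * g ∧ ∀ x ∈ Q, g * x * g⁻¹ ∈ S := by
  obtain ⟨g, hg, h1⟩ := CL.exists_mem_smul_sylow_of_le S (H := Subgroup.centralizer {z})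
    (fun s hs => Subgroup.mem_centralizer_singleton_iff.2 (hz s hs)) hQ
    fun x hx => Subgroup.mem_centralizer_singleton_iff.2 (h x hx)
  exact ⟨g⁻¹, Subgroup.mem_centralizer_singleton_iff.1 (inv_mem hg), fun x hx => by
    simpa using (CL.SylowAux.mem_smul_sylow_iff S g x).1 (h1 hx)⟩

/-- a central involution of `S` has another conjugate in `S` -/
theorem zstar (c : Ctx k W G) (S : Sylow 2 G) {z : G} (h2 : z * z = 1) (h1 : z ≠ 1)
    (hz : ∀ s ∈ S, s * z = z * s) : ∃ g : G, g * z * g⁻¹ ∈ S ∧ g * z * g⁻¹ ≠ z := by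
  obtain ⟨g, hg, hne⟩ := c.zs z h2 h1
  obtain ⟨h, hh, h3⟩ := exists_conj_into S hz (Q := Subgroup.zpowers (g * z * g⁻¹))
    (CL.SylowAux.isPGroup_zpowers_two (by rw [conj_mul, h2]; group)) (by
      rintro _ ⟨k, rfl⟩; exact (hg.zpow_right k).symm)
  refine ⟨h * g, by simpa [mul_assoc] using h3 _ (Subgroup.mem_zpowers _), fun e => hne ?_⟩
  calc g * z * g⁻¹ = h⁻¹ * (h * g * z * (h * g)⁻¹) * h := by group
    _ = z := by rw [e, mul_assoc, ← hh]; group

theorem exists_pow {S : Sylow 2 G} {x : G} (hx : x ∈ S) : ∃ n : ℕ, x ^ 2 ^ n = 1 :=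
  (S.isPGroup' ⟨x, hx⟩).imp fun _ h => congrArg Subtype.val h

/-- a nontrivial `2`-element has a power which is an involution -/
theorem inv_pow {x : G} (n : ℕ) (hx : x ^ 2 ^ n = 1) (h1 : x ≠ 1) :
    ∃ m : ℕ, x ^ m * x ^ m = 1 ∧ x ^ m ≠ 1 := by
  induction n generalizing x with
  | zero => exact absurd (by simpa using hx) h1
  | succ n ih =>
    by_cases h2 : x * x = 1
    · exact ⟨1, by simpa using h2, by simpa using h1⟩
    obtain ⟨m, hm⟩ := ih (x := x * x) (by rw [← pow_two, ← pow_mul, ← pow_succ', hx]) h2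
    exact ⟨2 * m, by rwa [pow_mul, pow_two]⟩

theorem mem_of_cen (c : Ctx k W G) {S : Sylow 2 G} {r : Rt k W G} (h : ∀ s ∈ S, s * r.g = r.g * s) :
    r.g ∈ S :=
  CL.SylowAux.mem_sylow_of_forall_commute S (n := 1) (by rw [pow_one, pow_two, r.sq c]) h

/-- an involution which fixes `t.v` -/
theorem pl_of (c : Ctx k W G) {i : G} {t : Rt k W G} (h2 : i * i = 1) (h1 : i ≠ 1)
    (h : i • t.v = t.v) (hi : i ≠ t.g) : Pl k W i :=
  (c.invol h2 h1).resolve_left (by
    rintro ⟨r, rfl⟩; exact hi (Rt.eq_of_line c (r.of_fix c h)).symm)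

theorem su_of (c : Ctx k W G) {S : Sylow 2 G} {t : Rt k W G} {i : G} (ht : ∀ s ∈ S, s * t.g = t.g * s)
    (hi : i ∈ S) (p : Pl k W i) (h : i • t.v = t.v)
    (h' : ∀ x ∈ S, x * i = i * x ∨ x * i = i * t.g * x) : Su S t i (i * t.g) := by
  have h1 : (i * t.g) • t.v = t.v := by rw [mul_smul, t.self, h]
  refine ⟨ht, hi, mul_mem hi (mem_of_cen c ht), by rw [← mul_assoc, p.1, one_mul], h, h1, p,
    pl_of c ?_ (fun e => t.not_pl c ?_) h1 fun e => p.ne_one c (by simpa using e), h'⟩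
  · rw [mul_assoc, ← mul_assoc t.g, ← ht i hi, mul_assoc, t.sq c, mul_one, p.1]
  · rwa [eq_inv_of_mul_eq_one_right e, p.inv c]

end RA

open RA

/-- Port of `Sp4O3`. A `2`-group fixes a line (induction on invariant subspaces `U` of odd dimension: `K` the
elements which are scalar on `U`, `y` central of order two modulo `K`; the two eigenspaces of `y` on `U` are
swapped (then `dim U` is even) or invariant). -/
theorem exists_line (c : Ctx k W G) {S : Subgroup G} (hS : IsPGroup 2 S) :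
    ∃ v : W, v ≠ 0 ∧ ∀ s ∈ S, ∃ a : k, s • v = a • v := by
  obtain ⟨v, -, h⟩ := line_in c hS (U := ⊤) (fun _ _ _ _ => trivial) (by rw [finrank_top, c.dim]; decide)
  exact ⟨v, h⟩

/-- Every line fixed by `S` is the centre of a conjugate of `u`: transfer of the character `χ : S →* kˣ` of the
line; if no conjugate of `u.g` lies in `ker χ`, every fixed coset contributes `-1`, and their number is odd. -/
theorem line_root (c : Ctx k W G) (S : Sylow 2 G) (u : Rt k W G) {v : W} (hv : v ≠ 0)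
    (h : ∀ s ∈ S, ∃ a : k, s • v = a • v) : ∃ (g : G) (a : k), g • u.v = a • v := by
  choose χ hχ using h
  have inj := smul_left_injective k hv
  let f : S →* k :=
    { toFun := fun s => χ s s.2
      map_one' := inj (by simpa using (hχ 1 (one_mem _)).symm)
      map_mul' := fun x y => inj (by
        simp only
        rw [← hχ, Subgroup.coe_mul, mul_smul, hχ _ y.2, smul_sm, hχ _ x.2, smul_smul, mul_comm]) }
  by_contra! hn
  refine c.two ?_
  have := transfer c.perf S f.toHomUnits (u.sq c) (ε := -1) (by simp) fun g hg => Units.ext (inj ?_)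
  · have h : (-1 : k) = 1 := by simpa using congrArg Units.val this
    linear_combination -h
  have h1 := hχ _ hg
  have h2 : (χ _ hg * χ _ hg) • v = (1 : k) • v := by
    rw [mul_smul, ← h1, ← smul_sm, ← h1, ← mul_smul, one_smul]
    simp only [mul_assoc, mul_inv_cancel_left, ← mul_assoc u.g u.g, u.sq c, one_mul, inv_mul_cancel,
      one_smul]
  refine congrArg (· • v) ((mul_self_eq_one_iff.1 (inj h2)).resolve_left fun h3 => ?_)
  rw [h3, one_smul, mul_smul, mul_smul, inv_smul_eq_iff] at h1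
  have h4 := u.of_fix c h1
  have h5 : u.φ (g • v) / 2 ≠ 0 := fun h => hv ((smul_eq_zero_iff_eq g).1 (by rw [h4, h, zero_smul]))
  exact hn g⁻¹ (u.φ (g • v) / 2)⁻¹ (by rw [inv_smul_eq_iff, smul_sm, eq_inv_smul_iff₀ h5, ← h4])

/-- a line fixed by `S` is the centre of a central root -/
theorem RA.root_of_line (c : Ctx k W G) (S : Sylow 2 G) (u : Rt k W G) {v : W} (hv : v ≠ 0)
    (h : ∀ s ∈ S, ∃ a : k, s • v = a • v) :
    ∃ r : Rt k W G, (∃ a : k, r.v = a • v) ∧ ∀ s ∈ S, s * r.g = r.g * s := by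
  obtain ⟨g, a, ha⟩ := line_root c S u hv h
  exact ⟨u.conj g, ⟨a, ha⟩, fun s hs => (Rt.comm_iff c).2 ((h s hs).imp fun b hb => by
    rw [Rt.conj_v, ha, smul_sm, hb, smul_comm])⟩

/-- two central roots -/
theorem RA.su_of_cen (c : Ctx k W G) {S : Sylow 2 G} {t y : Rt k W G} (ht : ∀ s ∈ S, s * t.g = t.g * s)
    (hy : ∀ s ∈ S, s * y.g = y.g * s) (h : y.φ t.v = 0) : ∃ i j : G, Su S t i j := by
  have p := Rt.pl_mul c h
  obtain ⟨v, hv, h0, h1⟩ := line_in c S.isPGroup' (U := eig k W (y.g * t.g) 1) (fun s hs w hw =>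
    mem_fix.2 (by rw [← mul_smul, mul_assoc, ← ht s hs, ← mul_assoc, ← hy s hs, mul_assoc, mul_smul,
      mem_fix.1 hw])) (by rw [p.rank_fix c]; decide)
  obtain ⟨r, ⟨a, ha⟩, hr⟩ := root_of_line c S t h0 h1
  obtain ⟨h2, h3⟩ := (p.fix_iff c (Rt.mul_left c h) (Rt.mul_right c h) h (w := r.v)).1
    (by rw [ha, smul_sm, mem_fix.1 hv])
  exact ⟨_, _, su_of c ht (mul_mem (mem_of_cen c hy) (mem_of_cen c hr)) (Rt.pl_mul c h2)
    (Rt.mul_fix h (Rt.symm c h3)) fun x hx => .inl (by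
      rw [← mul_assoc, hy x hx, mul_assoc, hr x hx, mul_assoc])⟩

/-- the case of two planes -/
theorem RA.su_of_planes (c : Ctx k W G) {S : Sylow 2 G} {t s : Rt k W G} {U V : Submodule k W}
    (ht : ∀ s ∈ S, s * t.g = t.g * s) (hU : finrank k U = 2) (hV : finrank k V = 2) (hd : Disjoint U V)
    (hs : U ⊔ V = LinearMap.ker t.φ) (h : ∀ x ∈ S, Pr x U ∧ Pr x V ∨ Sw x U V) (sS : s.g ∈ S)
    (sU : s.v ∈ U) : ∃ i j : G, Su S t i j := by
  have := c.fd
  have tU : ∀ w ∈ U, t.φ w = 0 := fun w hw => hs.le (Submodule.mem_sup_left hw)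
  have tV : ∀ w ∈ V, t.φ w = 0 := fun w hw => hs.le (Submodule.mem_sup_right hw)
  have d := Submodule.disjoint_def.1 hd
  have cr : ∀ {U V : Submodule k W} {r : Rt k W G}, (∀ w ∈ U, w ∈ V → w = 0) → r.v ∈ U →
      (Pr r.g V ∨ ∀ w ∈ U, r.g • w ∈ V) → ∀ w ∈ V, r.φ w = 0 := fun {U V r} d hr h w hw => by
    rcases h with h | h
    · have h1 := V.add_mem (h w hw) hw
      rw [r.act, sub_add_cancel] at h1
      exact (smul_eq_zero.1 (d _ (U.smul_mem _ hr) h1)).resolve_right (r.ne c)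
    · exact absurd (d _ hr (r.self ▸ h _ hr)) (r.ne c)
  have c1 : ∀ {r : Rt k W G}, r.g ∈ S → r.v ∈ U → ∀ w ∈ V, r.φ w = 0 := fun hr h1 =>
    cr d h1 ((h _ hr).imp And.right And.left)
  by_cases h1 : ∃ r : Rt k W G, r.g ∈ S ∧ r.v ∈ U ∧ r.g ≠ s.g
  · obtain ⟨r, rS, rU, hne⟩ := h1
    obtain ⟨n, hn⟩ := exists_pow (mul_mem sS rS)
    obtain ⟨m, h2, h3⟩ := inv_pow n hn fun e => hne (by rw [eq_inv_of_mul_eq_one_right e, s.inv c])
    have f1 : ∀ w : W, s.φ w = 0 → r.φ w = 0 → (s.g * r.g) ^ m • w = w := fun w a b =>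
      (MulAction.stabilizer G w).pow_mem (Rt.mul_fix a b) m
    have it := f1 _ (Rt.symm c (tU _ sU)) (Rt.symm c (tU _ rU))
    have iV := fun w hw => f1 w (c1 sS sU w hw) (c1 rS rU w hw)
    have f2 : ∀ (m : ℕ) (w : W), w - (s.g * r.g) ^ m • w ∈ U := fun m => by
      induction m with
      | zero => simp
      | succ m ih =>
        intro w
        have e' : w - (s.g * r.g) • w ∈ U := by
          rw [mul_smul, r.act, smul_sub, smul_sm, s.act, s.act]
          convert U.add_mem (U.sub_mem (U.smul_mem (r.φ w) rU) (U.smul_mem (r.φ w * s.φ r.v) sU))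
            (U.smul_mem (s.φ w) sU) using 1
          module
        simpa [pow_succ, mul_smul] using U.add_mem e' (ih ((s.g * r.g) • w))
    have iS := pow_mem (mul_mem sS rS) m
    replace f2 := f2 m
    generalize (s.g * r.g) ^ m = i at *
    obtain ⟨v, hv, v0⟩ := (Submodule.ne_bot_iff V).1 (by rintro rfl; simp at hV)
    have p := pl_of c h2 h3 it fun e =>
      v0 (c.zero_of_neg ((iV v hv).symm.trans (e ▸ t.perp (tV v hv))))
    have iU : ∀ w ∈ U, i • w = -w := fun w hw => mem_neg.1 ((Submodule.eq_of_le_of_finrank_eq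
      (fun w hw => by
        have := U.smul_mem (2 : k)⁻¹ (f2 w)
        rwa [mem_neg.1 hw, sub_neg_eq_add, ← two_smul k, smul_smul, inv_mul_cancel₀ c.two,
          one_smul] at this) (p.2.trans hU.symm)).ge hw)
    refine ⟨_, _, su_of c ht iS p it fun x hx => ?_⟩
    obtain ⟨a, ha⟩ := (Rt.comm_iff c).1 (ht x hx)
    have ext : ∀ {g g' : G}, g • t.v = g' • t.v → (∀ w ∈ U, g • w = g' • w) →
        (∀ w ∈ V, g • w = g' • w) → g = g' := fun {g g'} h1 h2 h3 => c.ext fun w => by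
      obtain ⟨y, hy, z, hz, e⟩ := Submodule.mem_sup.1 (hs.ge (show w - (t.φ w / 2) • t.v ∈ _ from by
        simp [t.two, c.two]))
      rw [← sub_add_cancel w ((t.φ w / 2) • t.v), ← e]
      simp only [smul_add, smul_sm, h1, h2 y hy, h3 z hz]
    refine (h x hx).imp (fun q => ext ?_ (fun w hw => ?_) fun w hw => ?_)
      fun q => ext ?_ (fun w hw => ?_) fun w hw => ?_ <;> simp only [mul_smul]
    · rw [it, ha, smul_sm, it]
    · rw [iU w hw, iU _ (q.1 w hw), smul_neg]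
    · rw [iV w hw, iV _ (q.2 w hw)]
    · rw [it, ha, smul_sm, t.self, smul_sm, it]
    · rw [iU w hw, t.perp (tV _ (q.1 w hw)), smul_neg, smul_neg, iV _ (q.1 w hw)]
    · rw [iV w hw, t.perp (tU _ (q.2 w hw)), smul_neg, iU _ (q.2 w hw), neg_neg]
  push Not at h1
  have h2 : ∀ x ∈ S, x • s.v ∈ U → x * s.g * x⁻¹ = s.g := fun x hx e =>
    h1 (s.conj x) (mul_mem (mul_mem hx sS) (inv_mem hx)) e
  by_cases h3 : ∀ x ∈ S, x * s.g = s.g * x
  · exact su_of_cen c ht h3 (Rt.symm c (tU _ sU))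
  push Not at h3
  obtain ⟨z, hz, h3⟩ := h3
  have q := (h z hz).resolve_left fun q => h3 (mul_inv_eq_iff_eq_mul.1 (h2 z hz (q.1 _ sU)))
  have q' : Sw z⁻¹ U V := (h _ (inv_mem hz)).resolve_left fun q' =>
    s.ne c (d _ sU (by simpa using q'.2 _ (q.1 _ sU)))
  have h4 : ∀ x ∈ S, x • s.v ∈ V → x * s.g * x⁻¹ = z * s.g * z⁻¹ := fun x hx e => by
    conv_rhs => rw [← h2 (z⁻¹ * x) (mul_mem (inv_mem hz) hx) (mul_smul z⁻¹ x s.v ▸ q'.2 _ e)]
    group
  have e := c1 sS sU _ (q.1 _ sU)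
  refine ⟨_, _, su_of c ht (mul_mem sS (mul_mem (mul_mem hz sS) (inv_mem hz)))
    (Rt.pl_mul c (s := s.conj z) e) (Rt.mul_fix (s := s.conj z) (Rt.symm c (tU _ sU))
      (Rt.symm c (tV _ (q.1 _ sU)))) fun x hx => .inl (mul_inv_eq_iff_eq_mul.1 ?_)⟩
  have e2 : x * (z * s.g * z⁻¹) * x⁻¹ = x * z * s.g * (x * z)⁻¹ := by group
  rw [← conj_mul, e2]
  rcases h x hx with q2 | q2
  · rw [h2 x hx (q2.1 _ sU), h4 _ (mul_mem hx hz) (mul_smul x z s.v ▸ q2.2 _ (q.1 _ sU))]
  · rw [h4 x hx (q2.1 _ sU), h2 _ (mul_mem hx hz) (mul_smul x z s.v ▸ q2.2 _ (q.1 _ sU))]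
    exact (Rt.comm_of_perp c (s := s.conj z) e).symm

/-- as `Sp4O.exists_su` -/
theorem exists_su (c : Ctx k W G) (S : Sylow 2 G) (u : Rt k W G) :
    ∃ (t : Rt k W G) (i j : G), Su S t i j := by
  have := c.fd
  obtain ⟨v, hv, h⟩ := exists_line c S.isPGroup'
  obtain ⟨t, -, ht⟩ := root_of_line c S u hv h
  obtain ⟨g, sS, hne⟩ := zstar c S (t.sq c) (t.ne_one c) ht
  change (t.conj g).g ∈ S at sS
  change (t.conj g).g ≠ t.g at hne
  generalize t.conj g = s at sS hne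
  have st := Rt.symm c (Rt.perp_of_comm c (ht _ sS) hne)
  have hH : ∀ x ∈ S, Pr x (LinearMap.ker t.φ) := fun x hx w hw => by
    obtain ⟨a, ha⟩ := (Rt.comm_iff c).1 (ht x hx)
    rw [LinearMap.mem_ker, Rt.φ_smul c ha, LinearMap.mem_ker.1 hw, mul_zero]
  have h4 : finrank k (LinearMap.ker t.φ) = 4 := by
    have h1 := c.rank_add (t.sq c)
    rw [t.rank_fix c, show eig k W t.g (-1) = LinearMap.ker t.φ from Submodule.ext fun w =>
      mem_neg.trans ⟨t.of_neg c, t.perp⟩] at h1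
    omega
  refine ⟨t, ?_⟩
  have odd : ∀ {U : Submodule k W}, U ≤ LinearMap.ker t.φ → (∀ x ∈ S, Pr x U) → Odd (finrank k U) →
      ∃ i j : G, Su S t i j := fun hU h1 h2 => by
    obtain ⟨v, hv, h0, h3⟩ := line_in c S.isPGroup' h1 h2
    obtain ⟨r, ⟨a, ha⟩, hr⟩ := root_of_line c S t h0 h3
    exact su_of_cen c ht hr (Rt.symm c (by rw [ha, map_smul, LinearMap.mem_ker.1 (hU hv), smul_zero]))
  rcases split c S.isPGroup' hH with h | ⟨U, V, h1, h2, h3, h5, h6⟩
  · exact su_of_cen c ht (fun x hx => (Rt.comm_iff c).2 ((h x hx).imp fun a ha => ha _ st))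
      (Rt.symm c st)
  have e := Submodule.finrank_sup_add_finrank_inf_eq U V
  rw [h3.eq_bot, finrank_bot, add_zero, h5, h4] at e
  have p1 := Nat.pos_of_ne_zero (mt Submodule.finrank_eq_zero.1 h1)
  have p2 := Nat.pos_of_ne_zero (mt Submodule.finrank_eq_zero.1 h2)
  by_cases hU : finrank k U = 2
  swap
  · refine odd (h5 ▸ le_sup_left) (fun x hx => ((h6 x hx).resolve_right fun q => ?_).1) (by grind)
    have := rank_le c q.1
    have := rank_le c q.2
    omega
  obtain ⟨y, hy, z, hz, e'⟩ := Submodule.mem_sup.1 (h5.ge st)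
  have d := Submodule.disjoint_def.1 h3
  have q := (h6 _ sS).resolve_right fun q => by
    have h7 := Submodule.finrank_sup_add_finrank_inf_eq U (LinearMap.ker s.φ)
    have h8 := s.φ.finrank_range_add_finrank_ker
    have h9 : finrank k (LinearMap.range s.φ) ≤ 1 := (Submodule.finrank_le _).trans (by simp)
    have h10 := (U ⊔ LinearMap.ker s.φ).finrank_le
    obtain ⟨w, hw, w0⟩ := (Submodule.ne_bot_iff (U ⊓ LinearMap.ker s.φ)).1 fun h => by
      rw [h, finrank_bot] at h7; omega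
    exact w0 (d w hw.1 (by simpa [s.perp hw.2] using q.1 w hw.1))
  have h7 : s.g • y = y := sub_eq_zero.1 (d _ (U.sub_mem (q.1 y hy) hy) (by
    have := s.self
    rw [← e', smul_add] at this
    rw [show s.g • y - y = z - s.g • z by rw [sub_eq_sub_iff_add_eq_add, this, add_comm]]
    exact V.sub_mem hz (q.2 z hz)))
  by_cases h8 : s.φ y / 2 = 0
  · rw [s.of_fix c h7, h8, zero_smul, zero_add] at e'
    exact su_of_planes c ht (by omega) hU h3.symm (sup_comm U V ▸ h5)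
      (fun x hx => (h6 x hx).imp And.symm And.symm) sS (e' ▸ hz)
  · exact su_of_planes c ht hU (by omega) h3 h5 h6 sS ((U.smul_mem_iff h8).1 (s.of_fix c h7 ▸ hy))

/-- extremal conjugation, as `Sp4O.extr` -/
theorem Su.extr (c : Ctx k W G) {S : Sylow 2 G} {t : Rt k W G} {i j : G} (s : Su S t i j) (u : Rt k W G)
    {Q : Subgroup G} (hQ : IsPGroup 2 Q) (h : ∀ x ∈ Q, x * u.g = u.g * x) :
    ∃ g : G, g * u.g * g⁻¹ = t.g ∧ ∀ x ∈ Q, g * x * g⁻¹ ∈ S := by
  obtain ⟨g, a, ha⟩ := line_root c S u (t.ne c) fun x hx => (Rt.comm_iff c).1 (s.cen x hx)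
  have e : g * u.g * g⁻¹ = t.g := Rt.eq_of_line c (s := u.conj g) ha
  obtain ⟨y, hy, h1⟩ := exists_conj_into S s.cen (hQ.map (MulAut.conj g).toMonoidHom) (by
    rintro _ ⟨x, hx, rfl⟩
    change g * x * g⁻¹ * t.g = t.g * (g * x * g⁻¹)
    rw [← e, conj_mul, conj_mul, h x hx])
  refine ⟨y * g, ?_, fun x hx => by simpa [mul_assoc] using h1 _ ⟨x, hx, rfl⟩⟩
  rw [show y * g * u.g * (y * g)⁻¹ = y * (g * u.g * g⁻¹) * y⁻¹ by group, e, hy, mul_inv_cancel_right]

end CL.FR
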