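import Cfsg.Agent.CLAS.FiveRA

/-!
# Block RB, first part: planes without roots
-/

set_option autoImplicit false
set_option linter.unusedSectionVars false

namespace CL.FR

open Module

variable {k W G : Type*} [Field k] [AddCommGroup W] [Module k W] [Group G] [DistribMulAction G W]
  [SMulCommClass G k W] [Finite G] [IsAlgClosed k]

namespace RB

variable (k W) in
/-- no root is negated -/
def NR (x : G) : Prop := ∀ r : Rt k W G, x • r.v ≠ -r.v

theorem NR.conj {x : G} (h : NR k W x) (g : G) : NR k W (g * x * g⁻¹) := fun r e =>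
  h (r.conj g⁻¹) (by
    rw [Rt.conj_v, ← smul_neg, ← e, mul_smul, mul_smul, inv_smul_smul])

theorem NR.of_conj {x : G} (g : G) (h : NR k W (g * x * g⁻¹)) : NR k W x := by
  simpa [mul_assoc] using h.conj g⁻¹

theorem fix_comm {g j : G} {w : W} (h : g * j = j * g) (hw : j • w = w) : j • g • w = g • w := by
  rw [← mul_smul, ← h, mul_smul, hw]

theorem neg_comm {g j : G} {w : W} (h : g * j = j * g) (hw : j • w = -w) :
    j • g • w = -(g • w) := by
  rw [← mul_smul, ← h, mul_smul, hw, smul_neg]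

variable (c : Ctx k W G)
include c

theorem phi_fix {j : G} {a : Rt k W G} {w : W} (ha : j • a.v = -a.v) (hw : j • w = w) :
    a.φ w = 0 := by
  have := Rt.φ_smul c (a := -1) (ha.trans (neg_one_smul k _).symm) w
  rw [hw] at this
  exact (mul_eq_zero.1 (by linear_combination this : 2 * a.φ w = 0)).resolve_left c.two

theorem phi_neg {j : G} {a : Rt k W G} {w : W} (ha : j • a.v = a.v) (hw : j • w = -w) :
    a.φ w = 0 := by
  have := Rt.φ_smul c (a := 1) (ha.trans (one_smul k _).symm) w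
  rw [hw, map_neg] at this
  exact (mul_eq_zero.1 (by linear_combination -this : 2 * a.φ w = 0)).resolve_left c.two

theorem dec {j : G} (hj : j * j = 1) (w : W) : ∃ x y : W, j • x = x ∧ j • y = -y ∧ w = x + y := by
  obtain ⟨x, hx, y, hy, rfl⟩ :=
    Submodule.mem_sup.1 ((c.compl hj).sup_eq_top.ge (Submodule.mem_top (x := w)))
  exact ⟨x, y, mem_fix.1 hx, mem_neg.1 hy, rfl⟩

/-- two independent vectors of the plane of `j` -/
structure Bs (k : Type*) [Field k] [Module k W] (j : G) (u v : W) : Prop where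
  hu : j • u = -u
  hv : j • v = -v
  li : ∀ x y : k, x • u + y • v = 0 → x = 0 ∧ y = 0

theorem lin2 {j g h : G} {u v w : W} (p : Pl k W j) (b : Bs k j u v) (hu : g • u = h • u)
    (hv : g • v = h • v) (hw : j • w = -w) : g • w = h • w := by
  obtain ⟨x, y, rfl⟩ := p.span c b.hu b.hv b.li hw
  simp only [smul_add, smul_sm, hu, hv]

theorem ext2 {j g h : G} {u v : W} (p : Pl k W j) (b : Bs k j u v)
    (h0 : ∀ w : W, j • w = w → g • w = h • w) (hu : g • u = h • u) (hv : g • v = h • v) : g = h :=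
  c.ext fun w => by
    obtain ⟨x, y, hx, hy, rfl⟩ := dec c p.1 w
    rw [smul_add, smul_add, h0 x hx, lin2 c p b hu hv hy]

omit c in
theorem Bs.ne_u {j : G} {u v : W} (b : Bs k j u v) : u ≠ 0 := fun e =>
  one_ne_zero (b.li 1 0 (by simp [e])).1

omit c in
theorem Bs.swap {j : G} {u v : W} (b : Bs k j u v) : Bs k j v u :=
  ⟨b.hv, b.hu, fun x y e => (b.li y x (by rw [add_comm, e])).symm⟩

omit c in
theorem Bs.sc {j : G} {u v : W} (b : Bs k j u v) {a : k} (ha : a ≠ 0) : Bs k j u (a • v) :=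
  ⟨b.hu, by rw [smul_sm, b.hv, smul_neg], fun x y e => by
    have := b.li x (y * a) (by rw [mul_smul, e])
    exact ⟨this.1, (mul_eq_zero.1 this.2).resolve_right ha⟩⟩

variable (k) in
/-- diagonal -/
def Dg2 (g : G) (u v : W) : Prop := ∃ a b : k, g • u = a • u ∧ g • v = b • v

variable (k) in
/-- antidiagonal -/
def Ad2 (g : G) (u v : W) : Prop := ∃ a b : k, g • u = a • v ∧ g • v = b • u

theorem two_lines (S : Sylow 2 G) {j : G} (p : Pl k W j) (hS : ∀ s ∈ S, s * j = j * s) :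
    (∀ s ∈ S, ∃ a : k, ∀ w : W, j • w = -w → s • w = a • w) ∨
      ∃ u v : W, Bs k j u v ∧ ∀ g ∈ S, Dg2 k g u v ∨ Ad2 k g u v := by
  rcases RA.split c S.isPGroup' (U := eig k W j (-1))
    (fun s hs w hw => mem_neg.2 (neg_comm (hS s hs) (mem_neg.1 hw))) with h | ⟨U, V, hU, hV, hd, hs, h⟩
  · exact .inl fun s hs => (h s hs).imp fun a ha w hw => ha w (mem_neg.2 hw)
  obtain ⟨u, hu, u0⟩ := (Submodule.ne_bot_iff U).1 hU
  obtain ⟨v, hv, v0⟩ := (Submodule.ne_bot_iff V).1 hV
  have key : ∀ {x y : W}, x ∈ U → y ∈ V → x + y = 0 → x = 0 ∧ y = 0 := fun {x y} hx hy e => by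
    have h1 : x = -y := eq_neg_of_add_eq_zero_left e
    have h2 := Submodule.disjoint_def.1 hd x hx (h1 ▸ V.neg_mem hy)
    exact ⟨h2, by simpa [h2] using e⟩
  have b : Bs k j u v := ⟨mem_neg.1 (hs.le (Submodule.mem_sup_left hu)),
    mem_neg.1 (hs.le (Submodule.mem_sup_right hv)), fun x y e => by
      have := key (U.smul_mem x hu) (V.smul_mem y hv) e
      exact ⟨(smul_eq_zero.1 this.1).resolve_right u0, (smul_eq_zero.1 this.2).resolve_right v0⟩⟩
  have l1 : ∀ w ∈ U, ∃ a : k, w = a • u := fun w hw => by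
    obtain ⟨x, y, e⟩ := p.span c b.hu b.hv b.li (mem_neg.1 (hs.le (Submodule.mem_sup_left hw)))
    have := key (U.sub_mem (U.smul_mem x hu) hw) (V.smul_mem y hv) (by rw [e]; abel)
    exact ⟨x, (sub_eq_zero.1 this.1).symm⟩
  have l2 : ∀ w ∈ V, ∃ a : k, w = a • v := fun w hw => by
    obtain ⟨x, y, e⟩ := p.span c b.hu b.hv b.li (mem_neg.1 (hs.le (Submodule.mem_sup_right hw)))
    have := key (U.smul_mem x hu) (V.sub_mem (V.smul_mem y hv) hw) (by rw [e]; abel)
    exact ⟨y, (sub_eq_zero.1 this.2).symm⟩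
  refine .inr ⟨u, v, b, fun g hg => (h g hg).imp (fun h => ?_) fun h => ?_⟩
  · obtain ⟨x, hx⟩ := l1 _ (h.1 u hu)
    obtain ⟨y, hy⟩ := l2 _ (h.2 v hv)
    exact ⟨x, y, hx, hy⟩
  · obtain ⟨x, hx⟩ := l2 _ (h.1 u hu)
    obtain ⟨y, hy⟩ := l1 _ (h.2 v hv)
    exact ⟨x, y, hx, hy⟩

omit c in
theorem eig_ne {g : G} {u v : W} {a : k} (hu : u ≠ 0) (h : g • u = a • v) : a ≠ 0 := by
  rintro rfl
  rw [zero_smul, smul_eq_zero_iff_eq] at h
  exact hu h

omit c in
theorem eig_pow {g : G} {u : W} {a : k} (h : g • u = a • u) (n : ℕ) : (g ^ n) • u = a ^ n • u := by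
  induction n with
  | zero => simp
  | succ n ih => rw [pow_succ, mul_smul, h, smul_sm, ih, smul_smul, pow_succ']

omit c in
theorem eig_inv {g : G} {u v : W} {a : k} (ha : a ≠ 0) (h : g • u = a • v) :
    g⁻¹ • v = a⁻¹ • u := by
  rw [inv_smul_eq_iff, smul_sm, h, smul_smul, inv_mul_cancel₀ ha, one_smul]

omit c in
theorem pm_of_sq {g : G} {u : W} {a : k} (hg : g * g = 1) (hu : u ≠ 0) (h : g • u = a • u) :
    a = 1 ∨ a = -1 := by
  have h1 : (a * a) • u = (1 : k) • u := by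
    rw [mul_smul, ← h, ← smul_sm, ← h, ← mul_smul, hg, one_smul, one_smul]
  exact mul_self_eq_one_iff.1 (smul_left_injective k hu h1)

omit c in
theorem neg_one_pow {a : k} (n : ℕ) (h : a ^ 2 ^ n = 1) (h1 : a ≠ 1) : ∃ m : ℕ, a ^ m = -1 := by
  induction n generalizing a with
  | zero => exact absurd (by simpa using h) h1
  | succ n ih =>
    by_cases h2 : a ^ 2 = 1
    · exact ⟨1, by simpa using (sq_eq_one_iff.1 h2).resolve_left h1⟩
    obtain ⟨m, hm⟩ := ih (a := a ^ 2) (by rw [← pow_mul, ← pow_succ', h]) h2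
    exact ⟨2 * m, by rw [pow_mul, hm]⟩

/-- a non-scalar involution is conjugate to its negative on a plane without invariant lines -/
theorem exists_neg (S : Sylow 2 G) {i x : G} (p : Pl k W i) (hS : ∀ s ∈ S, s * i = i * s)
    (hl : ∀ v : W, v ≠ 0 → i • v = -v → ¬ ∀ s ∈ S, ∃ a : k, s • v = a • v) (hx : x ∈ S)
    (x2 : x * x = 1) (h1 : ¬ ∀ w : W, i • w = -w → x • w = w)
    (h2 : ¬ ∀ w : W, i • w = -w → x • w = -w) :
    ∃ a ∈ S, ∀ w : W, i • w = -w → (a * x * a⁻¹) • w = -(x • w) := by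
  have := c.fd
  rcases two_lines c S p hS with h | ⟨u, v, b, h⟩
  · obtain ⟨v, hv, v0⟩ := (Submodule.ne_bot_iff (eig k W i (-1))).1 (fun e => by
      have := p.2; rw [e, finrank_bot] at this; omega)
    exact (hl v v0 (mem_neg.1 hv) fun s hs => (h s hs).imp fun a ha => ha v (mem_neg.1 hv)).elim
  have u0 := b.ne_u
  have v0 := b.swap.ne_u
  have fin : ∀ {g : G}, g • u = -(x • u) → g • v = -(x • v) → ∀ w : W, i • w = -w →
      g • w = -(x • w) := fun {g} e1 e2 w hw => by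
    obtain ⟨y, z, rfl⟩ := p.span c b.hu b.hv b.li hw
    simp only [smul_add, smul_sm, e1, e2, smul_neg, neg_add]
  rcases h x hx with ⟨α, β, e1, e2⟩ | ⟨α, β, e1, e2⟩
  · obtain ⟨a, ha, γ, δ, e3, e4⟩ : ∃ a ∈ S, Ad2 k a u v := by
      by_contra! h3
      exact hl u u0 b.hu fun s hs => ((h s hs).resolve_right (h3 s hs)).imp fun _ ⟨_, e, _⟩ => e
    have hβ : β = -α := by
      rcases pm_of_sq x2 u0 e1 with rfl | rfl <;> rcases pm_of_sq x2 v0 e2 with rfl | rfl
      · exact (h1 fun w hw => by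
          simpa using lin2 c p b (g := x) (h := 1) (by simpa using e1) (by simpa using e2) hw).elim
      · rfl
      · simp
      · exact (h2 fun w hw => by
          rw [lin2 c p b (g := x) (h := i) (by simpa [b.hu] using e1) (by simpa [b.hv] using e2) hw,
            hw]).elim
    have γ0 := eig_ne u0 e3
    have δ0 := eig_ne v0 e4
    refine ⟨a, ha, fin ?_ ?_⟩
    · rw [mul_smul, mul_smul, eig_inv δ0 e4, smul_sm, smul_sm, e2, smul_sm, e4, e1, hβ]
      match_scalars; field_simp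
    · rw [mul_smul, mul_smul, eig_inv γ0 e3, smul_sm, smul_sm, e1, smul_sm, e3, e2, hβ]
      match_scalars; field_simp
  have α0 := eig_ne u0 e1
  have hαβ : β = α⁻¹ := by
    have h3 : (α * β) • u = (1 : k) • u := by
      rw [mul_smul, ← e2, ← smul_sm, ← e1, ← mul_smul, x2, one_smul, one_smul]
    exact eq_inv_of_mul_eq_one_right (smul_left_injective k u0 h3)
  subst hαβ
  have xf : x • (u + α • v) = u + α • v := by
    rw [smul_add, smul_sm, e1, e2, smul_smul, mul_inv_cancel₀ α0, one_smul, add_comm]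
  obtain ⟨a, ha, γ, δ, e3, e4, hn⟩ : ∃ a ∈ S, ∃ γ δ : k, a • u = γ • u ∧ a • v = δ • v ∧ γ ≠ δ := by
    by_contra! h3
    refine hl (u + α • v) (fun e => one_ne_zero (b.li 1 α (by simpa using e)).1)
      (by rw [smul_add, smul_sm, b.hu, b.hv, smul_neg, neg_add]) fun s hs => ?_
    rcases h s hs with ⟨γ, δ, e3, e4⟩ | ⟨γ, δ, e3, e4⟩
    · obtain rfl := h3 s hs γ δ e3 e4
      exact ⟨γ, by rw [smul_add, smul_sm, e3, e4, smul_add, smul_comm α γ]⟩
    · have e5 : (s * x) • u = (α * δ) • u := by rw [mul_smul, e1, smul_sm, e4, smul_smul]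
      have e6 : (s * x) • v = (α⁻¹ * γ) • v := by rw [mul_smul, e2, smul_sm, e3, smul_smul]
      have e7 := h3 _ (mul_mem hs hx) _ _ e5 e6
      exact ⟨α * δ, by
        rw [← xf, ← mul_smul, xf, smul_add, smul_sm, e5, e6, ← e7, smul_add, smul_comm α (α * δ)]⟩
  obtain ⟨n, hn'⟩ := RA.exists_pow ha
  have γ0 := eig_ne u0 e3
  have δ0 := eig_ne v0 e4
  have p1 : γ ^ 2 ^ n = 1 := smul_left_injective k u0 (by
    simp only; rw [← eig_pow e3, hn', one_smul, one_smul])
  have p2 : δ ^ 2 ^ n = 1 := smul_left_injective k v0 (by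
    simp only; rw [← eig_pow e4, hn', one_smul, one_smul])
  obtain ⟨m, hm⟩ := neg_one_pow (a := γ / δ) n (by rw [div_pow, p1, p2, div_one])
    fun e => hn ((div_eq_one_iff_eq δ0).1 e)
  rw [div_pow, div_eq_iff (pow_ne_zero _ δ0)] at hm
  have q1 := eig_pow e3 m
  have q2 := eig_pow e4 m
  have δ1 := pow_ne_zero m δ0
  rw [hm] at q1
  generalize δ ^ m = ε at q1 q2 δ1
  refine ⟨a ^ m, pow_mem ha m, fin ?_ ?_⟩
  · rw [mul_smul, mul_smul, eig_inv (by simpa) q1, smul_sm, smul_sm, e1, smul_sm, q2]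
    match_scalars; field_simp
  · rw [mul_smul, mul_smul, eig_inv δ1 q2, smul_sm, smul_sm, e2, smul_sm, q1]
    match_scalars; field_simp

end RB

end CL.FR
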