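import Cfsg.Agent.CLAS.FiveRB1

/-!
# Block RB, second part: the class of `i` when there is no frame
-/

set_option autoImplicit false
set_option linter.unusedSectionVars false

namespace CL.FR

open Module

variable {k W G : Type*} [Field k] [AddCommGroup W] [Module k W] [Group G] [DistribMulAction G W]
  [SMulCommClass G k W] [Finite G] [IsAlgClosed k]

namespace RB

/-- the situation without frames -/
structure Nf (S : Sylow 2 G) (t s e : Rt k W G) (i j : G) : Prop where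
  u : Su S t i j
  sS : s.g ∈ S
  hs : j • s.v = -s.v
  he : j • e.v = -e.v
  eg : e.g = s.g * j
  se : s.φ e.v = 0
  H : ¬ ∃ f : Fin 5 → Rt k W G, Fr f

namespace Nf

variable (c : Ctx k W G) {S : Sylow 2 G} {t s e : Rt k W G} {i j x g : G} {w : W}
  (N : Nf S t s e i j)
include c N

theorem nr : NR k W i := fun r h => by
  obtain ⟨r', -, h1, h2⟩ := N.u.pi.root c h
  have f1 := (N.u.symm c).fix_j c N.hs
  have f2 := (N.u.symm c).fix_j c N.he
  exact N.H ⟨_, fr_of c h2 (phi_fix c h N.u.it) (phi_fix c h f1) (phi_fix c h f2)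
    (phi_fix c h1 N.u.it) (phi_fix c h1 f1) (phi_fix c h1 f2) ((N.u.symm c).perp c N.hs)
    ((N.u.symm c).perp c N.he) N.se⟩

theorem ci (hx : x ∈ S) : x * i = i * x :=
  (N.u.cj x hx).resolve_right fun h => N.nr c (s.conj x⁻¹) (by
    rw [Rt.conj_v, ← smul_neg, eq_inv_smul_iff, ← mul_smul, h, mul_smul, smul_inv_smul, N.hs])

theorem cj (hx : x ∈ S) : x * j = j * x := N.u.comm_j c (N.ci c hx) (N.u.cen x hx)

theorem eS : e.g ∈ S := N.eg ▸ mul_mem N.sS N.u.jS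

theorem root {r : Rt k W G} (hr : r.g ∈ S) (h : r.g ≠ t.g) : j • r.v = -r.v :=
  ((N.u.root c hr).resolve_left h).resolve_left (N.nr c r)

theorem cen_trans (r : Rt k W G) (h : i • r.v = r.v) :
    ∃ g : G, g * i = i * g ∧ g * r.g * g⁻¹ = t.g := by
  have hc : i * r.g = r.g * i := (Rt.comm_iff c).2 ⟨1, by rw [h, one_smul]⟩
  obtain ⟨g, hg, h1⟩ := RA.exists_conj_into S (fun x hx => N.ci c hx)
    (CL.SylowAux.isPGroup_zpowers_two (r.sq c)) (by
      rintro _ ⟨n, rfl⟩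
      exact (Commute.zpow_right hc n).symm)
  replace h1 : (r.conj g).g ∈ S := h1 _ (Subgroup.mem_zpowers _)
  suffices ∃ g' : G, g' * i = i * g' ∧ g' * (r.conj g).g * g'⁻¹ = t.g by
    obtain ⟨g', h2, h3⟩ := this
    exact ⟨g' * g, by rw [mul_assoc, hg, ← mul_assoc, h2, mul_assoc], by
      rw [← h3, Rt.conj_g]; group⟩
  generalize r.conj g = r at h1
  by_cases h2 : r.g = t.g
  · exact ⟨1, by simp, by simpa using h2⟩
  replace h2 := N.root c h1 h2
  obtain ⟨e', he', q1, q2⟩ := N.u.pj.root c h2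
  obtain ⟨g, h3, h4⟩ := N.u.extr c r (Q := (S : Subgroup G) ⊓ Subgroup.centralizer {r.g})
    S.isPGroup'.to_inf_left fun x hx => Subgroup.mem_centralizer_singleton_iff.1 hx.2
  have key : ∀ y : Rt k W G, y.g ∈ S → r.φ y.v = 0 → j • (y.conj g).v = -(y.conj g).v :=
    fun y hy h5 => N.root c (h4 _ ⟨hy, Subgroup.mem_centralizer_singleton_iff.2
      (Rt.comm_of_perp c h5).symm⟩) fun e => Rt.ne_of_perp c h5 (by
        have := h3.trans e.symm
        simpa using this)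
  have te : t.φ e'.v = 0 := (N.u.symm c).perp c q1
  have e1 := N.u.pj.eq_mul c (key t (N.u.tS c) (phi_fix c h2 N.u.jt))
    (key e' (he' ▸ mul_mem h1 N.u.jS) q2) (by simpa using te)
  refine ⟨g, mul_inv_eq_iff_eq_mul.1 ?_, h3⟩
  have e2 : t.g * j = i := by rw [← N.u.cen _ N.u.jS, (N.u.symm c).it' c]
  have e3 : i = r.g * t.g * e'.g := by
    rw [he', N.u.cen _ h1, mul_assoc, ← mul_assoc r.g, r.sq c, one_mul, e2]
  calc g * i * g⁻¹ = (g * r.g * g⁻¹) * ((t.conj g).g * (e'.conj g).g) := by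
        conv_lhs => rw [e3]
        simp only [Rt.conj_g]; group
    _ = i := by rw [← e1, h3, e2]

theorem exists_h : ∃ h : G, h * t.g = t.g * h ∧ h * i * h⁻¹ ∈ S ∧ h * i * h⁻¹ ≠ i ∧
    h⁻¹ * i * h ∈ S := by
  obtain ⟨g, h1, h2⟩ := RA.zstar c S N.u.pi.1 (N.u.pi.ne_one c) fun x hx => N.ci c hx
  have h3 := (Rt.pm_of_comm c (N.u.pi.conj c g).1 (N.u.cen _ h1)).resolve_right
    ((N.nr c).conj g t)
  obtain ⟨a, h4, h5⟩ := N.cen_trans c (t.conj g⁻¹) (by
    rw [Rt.conj_v, eq_inv_smul_iff, ← mul_smul, ← mul_smul, h3])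
  have e1 : g * a⁻¹ * i * (g * a⁻¹)⁻¹ = g * i * g⁻¹ := by
    calc _ = g * a⁻¹ * (i * a) * g⁻¹ := by group
      _ = _ := by rw [← h4]; group
  have e2 : g * a⁻¹ * t.g = t.g * (g * a⁻¹) := by
    conv_lhs => rw [← h5, Rt.conj_g]
    group
  rw [← e1] at h1 h2
  generalize g * a⁻¹ = h at h1 h2 e2
  have hi : (h⁻¹ * i * h) * i = i * (h⁻¹ * i * h) := by
    calc _ = h⁻¹ * (i * (h * i * h⁻¹)) * h := by group
      _ = _ := by rw [← N.ci c h1]; group
  have ht : (h⁻¹ * i * h) * t.g = t.g * (h⁻¹ * i * h) := by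
    rw [mul_assoc, e2, ← mul_assoc, mul_assoc h⁻¹, N.u.cen _ N.u.iS, ← mul_assoc,
      (Commute.inv_left e2).eq]; group
  obtain ⟨b, hb, h6⟩ := CL.exists_mem_smul_sylow_of_le S
    (H := Subgroup.centralizer {i} ⊓ Subgroup.centralizer {t.g})
    (fun x hx => ⟨Subgroup.mem_centralizer_singleton_iff.2 (N.ci c hx),
      Subgroup.mem_centralizer_singleton_iff.2 (N.u.cen x hx)⟩)
    (CL.SylowAux.isPGroup_zpowers_two (x := h⁻¹ * i * h) (by
      simpa using (N.u.pi.conj c h⁻¹).1)) (Subgroup.zpowers_le.2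
      ⟨Subgroup.mem_centralizer_singleton_iff.2 hi, Subgroup.mem_centralizer_singleton_iff.2 ht⟩)
  have b1 := Subgroup.mem_centralizer_singleton_iff.1 hb.1
  have b2 := Subgroup.mem_centralizer_singleton_iff.1 hb.2
  have e3 : h * b * i * (h * b)⁻¹ = h * i * h⁻¹ := by rw [mul_assoc h, b1]; group
  refine ⟨h * b, by rw [mul_assoc, b2, ← mul_assoc, e2, mul_assoc], e3 ▸ h1, e3 ▸ h2, ?_⟩
  simpa [mul_assoc] using (CL.SylowAux.mem_smul_sylow_iff S b _).1 (h6 (Subgroup.mem_zpowers _))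

theorem dec_t (h : i • w = w) : ∃ (a : k) (y : W), j • y = -y ∧ w = a • t.v + y :=
  ⟨t.φ w / 2, w - (t.φ w / 2) • t.v, N.u.neg_j c (by rw [smul_sub, smul_sm, h, N.u.it])
    (by simp [t.two, c.two]), by abel⟩

theorem dec_t' (h : j • w = w) : ∃ (a : k) (y : W), i • y = -y ∧ w = a • t.v + y :=
  ⟨t.φ w / 2, w - (t.φ w / 2) • t.v, (N.u.symm c).neg_j c (by rw [smul_sub, smul_sm, h, N.u.jt])
    (by simp [t.two, c.two]), by abel⟩

theorem not_nr_j : ¬ NR k W j := fun h => h s N.hs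

/-- a `2`-element which is trivial on the fixed space of `j` has `j` as a power -/
theorem pow_j (hg : g ∈ S) (h1 : g ≠ 1) (h : ∀ w : W, j • w = w → g • w = w) :
    ∃ m : ℕ, g ^ m = j := by
  obtain ⟨n, hn⟩ := RA.exists_pow hg
  obtain ⟨m, h2, h3⟩ := RA.inv_pow n hn h1
  exact ⟨m, N.u.pj.uniq c h2 h3 (N.cj c (pow_mem hg m))
    fun w hw => (MulAction.stabilizer G w).pow_mem (h w hw) m⟩

variable (hx : x ∈ S) (px : Pl k W x) (nx : NR k W x) (xi : x ≠ i)
include hx px nx xi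

theorem x_t : x • t.v = t.v :=
  (Rt.pm_of_comm c px.1 (N.u.cen _ hx)).resolve_right (nx t)

theorem x_root {r : Rt k W G} (hr : j • r.v = -r.v) : x * r.g ≠ r.g * x := fun h => by
  obtain ⟨r', h1, h2, h3⟩ := N.u.pj.root c hr
  have f1 := (Rt.pm_of_comm c px.1 h).resolve_right (nx r)
  have f2 := (Rt.pm_of_comm c px.1 (r := r') (by
    rw [h1, ← mul_assoc, h, mul_assoc, N.cj c hx, mul_assoc])).resolve_right (nx r')
  refine xi (N.u.pi.uniq c px.1 (px.ne_one c) (N.ci c hx) fun w hw => ?_)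
  obtain ⟨a, y, hy, rfl⟩ := N.dec_t c hw
  rw [N.u.pj.exp c hr h2 h3 hy]
  simp only [smul_add, smul_sm, f1, f2, N.x_t c hx px nx xi]

theorem sq_fix {r : Rt k W G} (hr : j • r.v = -r.v) (hw : j • w = w) :
    (x * r.g * (x * r.g)) • w = w := by
  have h1 : (x * r.g) • w = -(x • w) := by rw [mul_smul, r.perp (phi_fix c hr hw), smul_neg]
  rw [mul_smul, h1, smul_neg, mul_smul, r.perp (phi_fix c hr (fix_comm (N.cj c hx) hw)), smul_neg,
    neg_neg, ← mul_smul, px.1, one_smul]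

theorem conj_xj : ∃ a ∈ S, a * x * a⁻¹ = x * j := by
  have hρ := mul_mem hx N.sS
  obtain ⟨m, hm⟩ := N.pow_j c (mul_mem hρ hρ) (fun e => N.x_root c hx px nx xi N.hs (by
    rw [eq_inv_of_mul_eq_one_left e, mul_inv_rev, s.inv c, px.inv c]))
    fun w hw => N.sq_fix c hx px nx xi N.hs hw
  refine ⟨((x * s.g) ^ m)⁻¹, inv_mem (pow_mem hρ m), ?_⟩
  have e1 : (x * s.g)⁻¹ = x * (x * s.g) * x⁻¹ := by
    rw [mul_inv_rev, s.inv c, ← mul_assoc, px.1, one_mul]
  rw [← hm, inv_inv, ← inv_pow, e1, conj_pow, ← pow_two, ← pow_mul, two_mul, pow_add]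
  group

theorem exists_x' : ∃ a ∈ S, ∀ w : W, i • w = -w → (a * x * a⁻¹) • w = -(x • w) := by
  have xt := N.x_t c hx px nx xi
  refine exists_neg c S N.u.pi (fun s hs => N.ci c hs) (fun v v0 hv h => ?_) hx px.1
    (fun h => ?_) fun h => ?_
  · obtain ⟨g, a, ha⟩ := line_root c S t v0 h
    exact N.nr c (t.conj g) (by rw [Rt.conj_v, ha, smul_sm, hv, smul_neg])
  · refine N.not_nr_j c (N.u.pj.uniq c px.1 (px.ne_one c) (N.cj c hx) (fun w hw => ?_) ▸ nx)
    obtain ⟨a, y, hy, rfl⟩ := N.dec_t' c hw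
    rw [smul_add, smul_sm, xt, h y hy]
  · have e1 : x * i * (x * i) = 1 := by
      rw [mul_assoc, ← mul_assoc i, ← N.ci c hx, mul_assoc, N.u.pi.1, mul_one, px.1]
    have e2 := N.u.pj.uniq c e1 (fun e => xi (by rw [eq_inv_of_mul_eq_one_left e, N.u.pi.inv c]))
      (N.cj c (mul_mem hx N.u.iS)) fun w hw => by
        obtain ⟨a, y, hy, rfl⟩ := N.dec_t' c hw
        simp only [mul_smul, smul_add, smul_sm, N.u.it, xt, hy, smul_neg, h y hy, neg_neg]
    refine t.not_pl c ?_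
    rwa [← N.u.ji c, ← e2, mul_assoc, N.u.pi.1, mul_one]

end Nf

end RB

end CL.FR
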