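import Cfsg.Agent.CLAS.FiveR1
import Cfsg.Agent.CLAS.MHPoly

/-!
# Block RH: no homologies of large order
-/

set_option autoImplicit false
set_option maxHeartbeats 200000
set_option linter.unusedSectionVars false

namespace CL.FR

open Module CL.Dk CL.PGL2 CL.MH
open scoped MatrixGroups

variable {k W G : Type*} [Field k] [AddCommGroup W] [Module k W] [Group G] [DistribMulAction G W]
  [SMulCommClass G k W] [Finite G] [IsAlgClosed k]

/-- `g` is diagonal on the two roots and trivial on their common kernel -/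
structure Hm (t y : Rt k W G) (g : G) (γ δ : k) : Prop where
  ty : t.φ y.v = 0
  gt : g • t.v = δ • t.v
  gy : g • y.v = γ • y.v
  gf : ∀ x : W, t.φ x = 0 → y.φ x = 0 → g • x = x

namespace Hm

variable (c : Ctx k W G) {t y y' w : Rt k W G} {g g' : G} {γ δ δ' : k} (h : Hm t y g γ δ)
include c h

theorem act (x : W) :
    g • x = x + ((γ - 1) / 2 * y.φ x) • y.v + ((δ - 1) / 2 * t.φ x) • t.v := by
  have h2 := c.two
  have e := h.gf (x - (y.φ x / 2) • y.v - (t.φ x / 2) • t.v)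
    (by simp [h.ty, t.two, h2]) (by simp [Rt.symm c h.ty, y.two, h2])
  rw [smul_sub, smul_sub, smul_sm, smul_sm, h.gt, h.gy] at e
  generalize g • x = X at e ⊢
  have : X = X - (y.φ x / 2) • γ • y.v - (t.φ x / 2) • δ • t.v + (y.φ x / 2) • γ • y.v +
    (t.φ x / 2) • δ • t.v := by module
  rw [this, e]
  match_scalars <;> ring

theorem ne : γ ≠ 0 := by
  rintro rfl
  have := h.gy
  rw [zero_smul, smul_eq_zero_iff_eq] at this
  exact y.ne c this

theorem conj (tw : t.φ w.v = 0) : Hm t (y.conj w.g) (w.g * g * w.g⁻¹) γ δ := by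
  have e := w.perp (Rt.symm c tw)
  refine ⟨by simp [w.act, tw, h.ty], ?_, by rw [Rt.conj_v, conj_smul, h.gy, smul_sm],
    fun x h1 h2 => ?_⟩
  · rw [w.inv c, mul_smul, mul_smul, e, smul_neg, h.gt, smul_neg, smul_sm, e, smul_neg, neg_neg]
  · rw [mul_smul, mul_smul, h.gf (w.g⁻¹ • x) (by rw [w.inv c]; simp [w.act, tw, h1]) h2,
      smul_inv_smul]

theorem neg : Hm t y (g * (t.g * y.g)) (-γ) (-δ) :=
  ⟨h.ty, by rw [mul_smul, Rt.mul_left c h.ty, smul_neg, h.gt, neg_smul],
    by rw [mul_smul, Rt.mul_right c h.ty, smul_neg, h.gy, neg_smul],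
    fun x h1 h2 => by rw [mul_smul, Rt.mul_fix h1 h2, h.gf x h1 h2]⟩

theorem inv : Hm t y g⁻¹ γ⁻¹ δ⁻¹ := by
  have h0 : δ ≠ 0 := by
    rintro rfl
    have := h.gt
    rw [zero_smul, smul_eq_zero_iff_eq] at this
    exact t.ne c this
  refine ⟨h.ty, ?_, ?_, fun x h1 h2 => by rw [inv_smul_eq_iff, h.gf x h1 h2]⟩
  · rw [inv_smul_eq_iff, smul_sm, h.gt, smul_smul, inv_mul_cancel₀ h0, one_smul]
  · rw [inv_smul_eq_iff, smul_sm, h.gy, smul_smul, inv_mul_cancel₀ (h.ne c), one_smul]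

end Hm

/-- action on a plane spanned by two roots -/
structure Ac (t y y' : Rt k W G) (h : G) (m : Matrix (Fin 2) (Fin 2) k) : Prop where
  ht : ∃ d : k, d ≠ 0 ∧ h • t.v = d • t.v
  hz : ∀ z, t.φ z = 0 → y.φ z = 0 → y'.φ z = 0 → h • z = z
  h0 : h • y.v = m 0 0 • y.v + m 1 0 • y'.v
  h1 : h • y'.v = m 0 1 • y.v + m 1 1 • y'.v

namespace Ac

variable {t y y' : Rt k W G} {g h : G} {m n : Matrix (Fin 2) (Fin 2) k}

theorem one : Ac t y y' 1 1 := ⟨⟨1, one_ne_zero, by simp⟩, by simp, by simp, by simp⟩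

theorem mul (a : Ac t y y' g m) (b : Ac t y y' h n) : Ac t y y' (g * h) (m * n) := by
  obtain ⟨d, d0, hd⟩ := a.ht
  obtain ⟨e, e0, he⟩ := b.ht
  refine ⟨⟨e * d, mul_ne_zero e0 d0, by rw [mul_smul, he, smul_sm, hd, smul_smul]⟩,
    fun z h1 h2 h3 => by rw [mul_smul, b.hz z h1 h2 h3, a.hz z h1 h2 h3], ?_, ?_⟩
  · rw [mul_smul, b.h0, smul_add, smul_sm, smul_sm, a.h0, a.h1]
    simp only [Matrix.mul_apply, Fin.sum_univ_two]
    module
  · rw [mul_smul, b.h1, smul_add, smul_sm, smul_sm, a.h0, a.h1]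
    simp only [Matrix.mul_apply, Fin.sum_univ_two]
    module

theorem pow (a : Ac t y y' g m) (i : ℕ) : Ac t y y' (g ^ i) (m ^ i) := by
  induction i with
  | zero => simpa using one
  | succ i ih => rw [pow_succ, pow_succ]; exact ih.mul a

theorem inv (a : Ac t y y' g m) (e : m * n = 1) : Ac t y y' g⁻¹ n := by
  obtain ⟨d, d0, hd⟩ := a.ht
  have q : ∀ i j, m i 0 * n 0 j + m i 1 * n 1 j = (1 : Matrix (Fin 2) (Fin 2) k) i j := fun i j => by
    rw [← e, Matrix.mul_apply, Fin.sum_univ_two]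
  refine ⟨⟨d⁻¹, inv_ne_zero d0, by
      rw [inv_smul_eq_iff, smul_sm, hd, smul_smul, inv_mul_cancel₀ d0, one_smul]⟩,
    fun z h1 h2 h3 => by rw [inv_smul_eq_iff, a.hz z h1 h2 h3], ?_, ?_⟩
  · rw [inv_smul_eq_iff, smul_add, smul_sm, smul_sm, a.h0, a.h1]
    have q1 := q 0 0
    have q2 := q 1 0
    simp at q1 q2
    linear_combination (norm := module) (-q1) • y.v + (-q2) • y'.v
  · rw [inv_smul_eq_iff, smul_add, smul_sm, smul_sm, a.h0, a.h1]
    have q1 := q 0 1
    have q2 := q 1 1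
    simp at q1 q2
    linear_combination (norm := module) (-q1) • y.v + (-q2) • y'.v

theorem unique (h3 : (3 : k) ≠ 0) (hm : mu y y' = 1) (a : Ac t y y' g m) (b : Ac t y y' g n) :
    m = n := by
  have key : ∀ r s r' s' : k, r • y.v + s • y'.v = r' • y.v + s' • y'.v → r = r' ∧ s = s' := by
    intro r s r' s' e
    have e1 := congrArg y.φ e
    have e2 := congrArg y'.φ e
    simp only [map_add, map_smul, smul_eq_mul, y.two, y'.two] at e1 e2
    rw [mu] at hm
    exact ⟨mul_left_cancel₀ h3 (by linear_combination 2 * e1 - y.φ y'.v * e2 + (r - r') * hm),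
      mul_left_cancel₀ h3 (by linear_combination 2 * e2 - y'.φ y.v * e1 + (s - s') * hm)⟩
  have p := key _ _ _ _ (a.h0.symm.trans b.h0)
  have q := key _ _ _ _ (a.h1.symm.trans b.h1)
  ext i j
  fin_cases i <;> fin_cases j
  exacts [p.1, q.1, p.2, q.2]

theorem unip (c : Ctx k W G) (h3 : (3 : k) ≠ 0) (ty : t.φ y.v = 0) (ty' : t.φ y'.v = 0)
    (hm : mu y y' = 1) {r s u : k} (e : r ^ 2 + s * u = 0)
    (a : Ac t y y' g !![1 + r, s; u, 1 - r]) (ht : g • t.v = t.v) : g = 1 := by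
  have h2 := c.two
  rw [mu] at hm
  let α : W →ₗ[k] k := (3 : k)⁻¹ • ((2 : k) • y.φ - y.φ y'.v • y'.φ)
  let β : W →ₗ[k] k := (3 : k)⁻¹ • ((2 : k) • y'.φ - y'.φ y.v • y.φ)
  have a1 : α y.v = 1 := by simp [α, y.two]; field_simp; linear_combination -hm
  have a2 : α y'.v = 0 := by simp [α, y'.two]; right; ring
  have b1 : β y.v = 0 := by simp [β, y.two]; right; ring
  have b2 : β y'.v = 1 := by simp [β, y'.two]; field_simp; linear_combination -hm
  have key : ∀ x, g • x = x + α x • (r • y.v + u • y'.v) + β x • (s • y.v - r • y'.v) := fun x => by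
    have := a.hz (x - α x • y.v - β x • y'.v - (t.φ x / 2) • t.v) (by simp [ty, ty', t.two, h2])
      (by
        simp [α, β, Rt.symm c ty, y.two]
        field_simp
        linear_combination (y.φ x) * hm)
      (by
        simp [α, β, Rt.symm c ty', y'.two]
        field_simp
        linear_combination (y'.φ x) * hm)
    rw [smul_sub, smul_sub, smul_sub, smul_sm, smul_sm, smul_sm, a.h0, a.h1, ht] at this
    simp only [Matrix.of_apply, Matrix.cons_val', Matrix.cons_val_zero, Matrix.cons_val_one,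
      Matrix.cons_val_fin_one] at this
    generalize g • x = X at this ⊢
    linear_combination (norm := module) this
  clear_value α β
  by_cases hu : u = 0
  · have hr : r = 0 := by simpa [hu] using e
    exact c.noTv g (s • y.v) β (by simp [b1]) fun x => by rw [key, hu, hr]; module
  · refine c.noTv g (r • y.v + u • y'.v) (α - (r / u) • β) (by simp [a1, a2, b1, b2, hu]) fun x => ?_
    rw [key, LinearMap.sub_apply, LinearMap.smul_apply, smul_eq_mul]
    match_scalars
    · ring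
    · field_simp
      linear_combination β x * e
    · field_simp
      ring

end Ac

theorem Hm.ok (p : ℕ) [Fact p.Prime] [CharP k p] (c : Ctx k W G) {t y y' : Rt k W G} {g g' : G}
    {γ δ δ' : k} (a : Hm t y g γ δ) (b : Hm t y' g' γ δ') (h3 : (3 : k) ≠ 0) (hm : mu y y' = 1)
    (hγ : γ ^ 2 ≠ 1) : OkH γ (1 / 4) := by
  have h2 := c.two
  let K : Subgroup (GL (Fin 2) k) :=
    { carrier := {m | ∃ h : G, Ac t y y' h m}
      mul_mem' := fun ⟨g, h1⟩ ⟨h, h2⟩ => ⟨g * h, h1.mul h2⟩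
      one_mem' := ⟨1, Ac.one⟩
      inv_mem' := fun {m} ⟨g, h1⟩ => ⟨g⁻¹, h1.inv (Units.mul_inv m)⟩ }
  have : Finite K := Finite.of_injective (fun m : K => m.2.choose) fun m n e =>
    Subtype.ext (Units.ext (by
      have h1 := m.2.choose_spec
      have h2 := n.2.choose_spec
      rw [show m.2.choose = n.2.choose from e] at h1
      exact h1.unique h3 hm h2))
  have : Finite (K.map Matrix.ProjGenLinGroup.mk) :=
    Finite.of_surjective _ (Matrix.ProjGenLinGroup.mk.subgroupMap_surjective K)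
  have γ1 : γ ≠ 1 := by rintro rfl; simp at hγ
  have γ2 : γ ≠ -1 := by rintro rfl; simp at hγ
  have γ3 := sub_ne_zero.2 γ1
  have d0 : ∀ {y : Rt k W G} {g : G} {δ : k}, Hm t y g γ δ → δ ≠ 0 := fun {y g δ} h => by
    rintro rfl
    have := h.gt
    rw [zero_smul, smul_eq_zero_iff_eq] at this
    exact t.ne c this
  have := okH_of_pair p h2 (K.map Matrix.ProjGenLinGroup.mk) ?_ (r := γ)
    (s := (γ - 1) / 2 * y.φ y'.v) (t := (γ - 1) / 2 * y'.φ y.v) (a.ne c) γ1 γ2
    (fun e => by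
      rw [mu, (mul_eq_zero.1 e.1).resolve_left (div_ne_zero γ3 h2), zero_mul] at hm
      exact zero_ne_one hm)
    (da := by simpa using a.ne c) (db := by simpa using a.ne c)
    ⟨Matrix.GeneralLinearGroup.mkOfDetNeZero _ _, ⟨g, ⟨δ, d0 a, a.gt⟩,
      fun z h1 h2 _ => a.gf z h1 h2, by simp [a.gy], by
        rw [a.act c, b.ty]; simp [add_comm]⟩, rfl⟩
    ⟨Matrix.GeneralLinearGroup.mkOfDetNeZero _ _, ⟨g', ⟨δ', d0 b, b.gt⟩,
      fun z h1 _ h2 => b.gf z h1 h2, by rw [b.act c, a.ty]; simp, by simp [b.gy]⟩, rfl⟩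
  · convert this using 1
    rw [mu] at hm
    have h4 : (4 : k) ≠ 0 := by rw [show (4 : k) = 2 * 2 by norm_num]; exact mul_ne_zero h2 h2
    field_simp
    linear_combination (-4 : k) * hm
  rintro _ ⟨M, ⟨h, hA⟩, rfl⟩ ht
  have hM := M.det_ne_zero
  rw [← ofMat_coe M hM] at ht ⊢
  generalize (M : Matrix (Fin 2) (Fin 2) k) = m at hA hM ht
  rw [tau_ofMat, div_eq_iff hM, Matrix.trace_fin_two, Matrix.det_fin_two] at ht
  obtain ⟨μ, hμ⟩ : ∃ μ, μ = (m 0 0 + m 1 1) / 2 := ⟨_, rfl⟩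
  have hμ2 : μ ^ 2 = m.det := by
    rw [hμ, Matrix.det_fin_two]; field_simp; linear_combination ht
  have μ0 : μ ≠ 0 := fun e => hM (by rw [← hμ2, e]; ring)
  obtain ⟨r, s, u, e, rfl⟩ : ∃ r s u : k, r ^ 2 + s * u = 0 ∧ m = μ • !![1 + r, s; u, 1 - r] := by
    refine ⟨m 0 0 / μ - 1, m 0 1 / μ, m 1 0 / μ, ?_, ?_⟩
    · rw [Matrix.det_fin_two] at hμ2
      field_simp at hμ ⊢
      linear_combination hμ2 - m 0 0 * hμ
    · ext i j
      fin_cases i <;> fin_cases j <;> simp <;> field_simp at hμ ⊢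
      linear_combination -hμ
  have hpow : ∀ n : ℕ, (μ • !![1 + r, s; u, 1 - r]) ^ n =
      μ ^ n • !![1 + n * r, n * s; n * u, 1 - n * r] := fun n => by
    induction n with
    | zero => simp [Matrix.one_fin_two]
    | succ n ih =>
      rw [pow_succ, ih, smul_mul_smul_comm, ← pow_succ, Matrix.mul_fin_two]
      push_cast
      congr 1
      ext i j
      fin_cases i <;> fin_cases j <;> simp
      · linear_combination n * e
      · ring
      · ring
      · linear_combination n * e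
  obtain ⟨d, d0, hd⟩ := hA.ht
  have hdp : ∀ n : ℕ, h ^ n • t.v = d ^ n • t.v := fun n => by
    induction n with
    | zero => simp
    | succ n ih => rw [pow_succ', mul_smul, ih, smul_sm, hd, smul_smul, pow_succ]
  have ho := orderOf_pos h
  have h1 := (hA.pow (orderOf h)).unique h3 hm (by rw [pow_orderOf_eq_one]; exact Ac.one)
  have f1 : IsOfFinOrder μ := isOfFinOrder_iff_pow_eq_one.2 ⟨2 * orderOf h,
    Nat.mul_pos two_pos ho, by rw [pow_mul, hμ2, ← Matrix.det_pow, h1, Matrix.det_one]⟩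
  have f2 : IsOfFinOrder d := isOfFinOrder_iff_pow_eq_one.2 ⟨orderOf h, ho,
    smul_left_injective k (t.ne c) (by simpa using (hdp (orderOf h)).symm)⟩
  have : NeZero (orderOf μ) := ⟨f1.orderOf_pos.ne'⟩
  have : NeZero (orderOf d) := ⟨f2.orderOf_pos.ne'⟩
  have n0 : ((orderOf μ * orderOf d : ℕ) : k) ≠ 0 := by
    rw [Nat.cast_mul]
    exact mul_ne_zero (IsPrimitiveRoot.orderOf μ).neZero'.out (IsPrimitiveRoot.orderOf d).neZero'.out
  have h5 := hA.pow (orderOf μ * orderOf d)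
  have h6 := hdp (orderOf μ * orderOf d)
  rw [hpow, pow_mul μ, pow_orderOf_eq_one, one_pow, one_smul] at h5
  rw [mul_comm, pow_mul d, pow_orderOf_eq_one, one_pow, one_smul, mul_comm] at h6
  generalize ((orderOf μ * orderOf d : ℕ) : k) = N at n0 h5
  have h7 := h5.unip c h3 a.ty b.ty hm (by linear_combination N ^ 2 * e) h6
  rw [h7] at h5
  have h8 := h5.unique h3 hm Ac.one
  have e1 := congrFun (congrFun h8 0) 0
  have e2 := congrFun (congrFun h8 0) 1
  have e3 := congrFun (congrFun h8 1) 0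
  simp [n0] at e1 e2 e3
  simp [ofMat_eq_one_iff, e1, e2, e3]

theorem Hm.three (c : Ctx k W G) {t y y' : Rt k W G} {g g' : G} {γ δ : k} (a : Hm t y g γ δ)
    (b : Hm t y' g' γ δ) (e1 : y.φ y'.v = 2) (e2 : y'.φ y.v = 2) (hne : y'.g ≠ y.g) :
    γ ^ 2 = 1 := by
  have h2 := c.two
  have γ0 := a.ne c
  have δ0 : δ ≠ 0 := by
    rintro rfl
    have := a.gt
    rw [zero_smul, smul_eq_zero_iff_eq] at this
    exact t.ne c this
  obtain ⟨n, hn⟩ : ∃ n, n = y'.v - y.v := ⟨_, rfl⟩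
  obtain ⟨ψ, hψ⟩ : ∃ ψ, ψ = y'.φ - y.φ := ⟨_, rfl⟩
  have v' : y'.v = y.v + n := by rw [hn]; abel
  have φ' : ∀ x, y'.φ x = y.φ x + ψ x := fun x => by simp [hψ]
  have n1 : y.φ n = 0 := by simp [hn, e1, y.two]
  have n2 : ψ n = 0 := by simp [hn, hψ, e1, e2, y.two, y'.two]
  have n3 : t.φ n = 0 := by simp [hn, a.ty, b.ty]
  have p1 : ψ y.v = 0 := by simp [hψ, e2, y.two]
  have p2 : ψ t.v = 0 := by simp [hψ, Rt.symm c a.ty, Rt.symm c b.ty]
  have p3 := Rt.symm c a.ty
  have p4 := a.ty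
  have hu : ∀ x, (g * g'⁻¹) • x = x - ((γ - 1) / 2 * ψ x) • y.v +
      ((γ⁻¹ - 1) / 2 * (y.φ x + ψ x)) • n := fun x => by
    rw [mul_smul, (b.inv c).act c, a.act c, φ', v']
    simp only [map_add, map_smul, smul_eq_mul, n1, n3, p3, p4, y.two, t.two]
    match_scalars <;> field_simp <;> ring
  have hu' : ∀ x, (g * (g * g'⁻¹) * g⁻¹) • x = x - ((γ - 1) / 2 * γ * ψ x) • y.v +
      ((γ⁻¹ - 1) / 2 * (γ⁻¹ * y.φ x + ψ x)) • n := fun x => by
    rw [mul_smul, mul_smul, hu, smul_add, smul_sub, smul_inv_smul, smul_sm, smul_sm, a.gy,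
      a.gf n n3 n1, (a.inv c).act c]
    simp only [map_add, map_smul, smul_eq_mul, p1, p2, p3, y.two]
    match_scalars <;> field_simp <;> ring
  generalize g * (g * g'⁻¹) * g⁻¹ = u' at hu'
  generalize g * g'⁻¹ = u at hu
  by_contra hγ
  have key := c.noTv ((u' * u)⁻¹ * (u * u')) n
    (((γ - 1) / 2 * (γ⁻¹ - 1) * (γ⁻¹ - γ)) • ψ) (by simp [n2]) fun x => by
      rw [mul_smul, inv_smul_eq_iff, mul_smul, mul_smul, hu', hu, hu, hu']
      simp only [map_add, map_sub, map_smul, smul_eq_mul, LinearMap.smul_apply, n1, n2, p1, y.two]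
      match_scalars <;> field_simp <;> ring
  rw [inv_mul_eq_one] at key
  have γ1 : γ - 1 ≠ 0 := fun e => hγ (by rw [sub_eq_zero.1 e, one_pow])
  have γ2 : γ + 1 ≠ 0 := fun e => hγ (by linear_combination (γ - 1) * e)
  have n0 : n ≠ 0 := fun e => hne (Rt.eq_of_line c (a := 1) (by rw [v', e, add_zero, one_smul]))
  have ψ0 : ∀ x, ψ x = 0 := fun x => by
    have := congrArg (· • x) key
    simp only [mul_smul, hu, hu', map_add, map_sub, map_smul, smul_eq_mul, n1, n2, p1, y.two] at this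
    have e : ((γ - 1) / 2 * (γ⁻¹ - 1) * (γ⁻¹ - γ) * ψ x) • n = 0 := by
      linear_combination (norm := skip) -this
      match_scalars <;> field_simp <;> ring
    have e' := (smul_eq_zero.1 e).resolve_right n0
    field_simp at e'
    refine (mul_eq_zero.1 (show (γ - 1) ^ 3 * (γ + 1) * ψ x = 0 by
      linear_combination e')).resolve_left (mul_ne_zero (pow_ne_zero _ γ1) γ2)
  have key2 := c.noTv (y'.g * y.g) n y.φ n1 fun x => by
    rw [mul_smul, y.act, y'.act, φ', ψ0, v']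
    simp only [map_sub, map_smul, smul_eq_mul, y.two]
    module
  rw [mul_eq_one_iff_eq_inv, y.inv c] at key2
  exact hne key2

/-- Suppose `γ ^ 2 ≠ 1`. Put `y' = y.conj w.g`, `g' = w.g * g * w.g⁻¹` (so `mu y y' = (mu y w - 2) ^ 2 = 1`; `w.g`
commutes with `t.g`). On `H = ker t.φ` the elements `g, g'` are homologies of ratio `γ` with centres `y, y'`;
`g * (t.g * y.g)`, `g' * (t.g * y'.g)` are homologies of ratio `-γ`. If `(3 : k) ≠ 0` then `W` is the direct sum of
`t.v`, the plane `Π = ⟨y.v, y'.v⟩` and `ker t.φ ⊓ ker y.φ ⊓ ker y'.φ`; the image in `PGL(Π)` of `⟨g, g'⟩` has no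
unipotent element (the `p`-part of a preimage is a transvection: `c.noTv`), so `MH.okH_of_pair` gives
`OkH γ (1/4)` and `OkH (-γ) (1/4)`, which contradict each other. If `(3 : k) = 0` (`mu = 4`): normalise
`y.φ y'.v = 2`; `n = y'.v - y.v` is killed by `y.φ, y'.φ`, and `ψ = y'.φ - y.φ` kills `y.v, y'.v`; both are non-zero
(`Rt.eq_of_line`); `u = g * g'⁻¹` and `g * u * g⁻¹` are unitriangular and their commutator is
`1 + a • n ⊗ ψ` with `a ≠ 0` a polynomial in `γ`, a transvection. -/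
theorem homology (p : ℕ) [Fact p.Prime] [CharP k p] (c : Ctx k W G) {t y w : Rt k W G}
    (ty : t.φ y.v = 0) (tw : t.φ w.v = 0) (yw : mu y w = 1) (hne : w.g ≠ y.g) {g : G} {γ δ : k} (gt : g • t.v = δ • t.v)
    (gy : g • y.v = γ • y.v) (gf : ∀ x : W, t.φ x = 0 → y.φ x = 0 → g • x = x) : γ ^ 2 = 1 := by
  have a : Hm t y g γ δ := ⟨ty, gt, gy, gf⟩
  have b := a.conj c tw
  have h2 := c.two
  have yw' := yw
  rw [mu] at yw'
  have e1 : y.φ (y.conj w.g).v = -1 := by
    simp only [Rt.conj_v, w.act, map_sub, map_smul, smul_eq_mul, y.two]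
    linear_combination yw'
  have e2 : (y.conj w.g).φ y.v = -1 := by
    simp only [Rt.conj_φ, w.inv c, w.act, map_sub, map_smul, smul_eq_mul, y.two]
    linear_combination yw'
  by_cases h3 : (3 : k) = 0
  · refine a.three c b (by linear_combination e1 - h3) (by linear_combination e2 - h3) fun e => ?_
    rw [Rt.conj_g, mul_inv_eq_iff_eq_mul] at e
    rw [Rt.perp_of_comm c e hne, mul_zero] at yw'
    exact zero_ne_one yw'
  by_contra hγ
  have hm : mu y (y.conj w.g) = 1 := by rw [mu, e1, e2]; ring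
  have h4 : (4 : k) ≠ 0 := by rw [show (4 : k) = 2 * 2 by norm_num]; exact mul_ne_zero h2 h2
  have key : ∀ r : k, OkH r (1 / 4) → r ^ 2 + r + 1 = 0 := by
    rintro r (⟨h, -⟩ | ⟨-, h⟩ | ⟨-, h⟩)
    · exact h
    · field_simp at h
      exact absurd (by linear_combination -h) h2
    · field_simp at h
      exact absurd (by linear_combination h) (one_ne_zero (α := k))
  have k1 := key _ (a.ok p c b h3 hm hγ)
  have k2 := key _ ((a.neg c).ok p c (b.neg c) h3 hm (by rwa [neg_sq]))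
  exact mul_ne_zero h2 (a.ne c) (by linear_combination k1 - k2)

end CL.FR
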