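import Cfsg.Agent.CLAS.FiveRB2
import Cfsg.Agent.CLAS.FiveRH

/-!
# Block RB, third part: the contradiction
-/

set_option autoImplicit false
set_option linter.unusedSectionVars false

namespace CL.FR

open Module

variable {k W G : Type*} [Field k] [AddCommGroup W] [Module k W] [Group G] [DistribMulAction G W]
  [SMulCommClass G k W] [Finite G] [IsAlgClosed k]

namespace RB

theorem cyc_dich {R : Type*} [Group R] [IsCyclic R] {a : R} (ha : ∀ r : R, a ≠ r * r) (g : R) :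
    (∃ r : R, g = r * r) ∨ ∃ r : R, g = a * (r * r) := by
  obtain ⟨z, hz⟩ := IsCyclic.exists_generator (α := R)
  obtain ⟨m, rfl⟩ := hz a
  obtain ⟨n, rfl⟩ := hz g
  rcases Int.even_or_odd' m with ⟨m, rfl | rfl⟩
  · exact (ha (z ^ m) (by simp only [← zpow_add]; congr 1; ring)).elim
  rcases Int.even_or_odd' n with ⟨n, rfl | rfl⟩
  · exact .inl ⟨z ^ n, by simp only [← zpow_add]; congr 1; ring⟩
  · exact .inr ⟨z ^ (n - m), by simp only [← zpow_add]; congr 1; ring⟩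

variable (k) in
/-- the elements of `S` which are diagonal of determinant one on the plane of `j`, trivial elsewhere -/
def Rg (S : Sylow 2 G) (j : G) (u v : W) : Subgroup G where
  carrier := {g | g ∈ S ∧ (∀ w : W, j • w = w → g • w = w) ∧
    ∃ a b : k, a * b = 1 ∧ g • u = a • u ∧ g • v = b • v}
  one_mem' := ⟨one_mem _, fun _ _ => one_smul _ _, 1, 1, by simp⟩
  mul_mem' := by
    rintro g h ⟨g1, g2, a, b, g3, g4, g5⟩ ⟨h1, h2, a', b', h3, h4, h5⟩
    exact ⟨mul_mem g1 h1, fun w hw => by rw [mul_smul, h2 w hw, g2 w hw], a' * a, b' * b,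
      by linear_combination a * b * h3 + g3, by rw [mul_smul, h4, smul_sm, g4, smul_smul],
      by rw [mul_smul, h5, smul_sm, g5, smul_smul]⟩
  inv_mem' := by
    rintro g ⟨g1, g2, a, b, g3, g4, g5⟩
    exact ⟨inv_mem g1, fun w hw => by rw [inv_smul_eq_iff, g2 w hw], a⁻¹, b⁻¹,
      by rw [← mul_inv, g3, inv_one], eig_inv (left_ne_zero_of_mul_eq_one g3) g4,
      eig_inv (right_ne_zero_of_mul_eq_one g3) g5⟩

theorem Rg_cyc (c : Ctx k W G) {S : Sylow 2 G} {j : G} {u v : W} (p : Pl k W j) (b : Bs k j u v) :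
    IsCyclic (Rg k S j u v) := by
  have inj := smul_left_injective k b.ne_u
  choose χ χ' h1 h2 h3 using fun g : Rg k S j u v => g.2.2.2
  let f : Rg k S j u v →* k :=
    { toFun := χ
      map_one' := inj (by simp only; rw [← h2]; simp)
      map_mul' := fun g h => inj (by
        simp only
        rw [← h2, Subgroup.coe_mul, mul_smul, h2, smul_sm, h2, smul_smul, mul_comm]) }
  refine isCyclic_of_injective_ringHom f ((injective_iff_map_eq_one f).2 fun g hg => ?_)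
  have e1 : χ g = 1 := hg
  have e2 : χ' g = 1 := by simpa [e1] using h1 g
  exact Subtype.ext (ext2 c p b (fun w hw => by simpa using g.2.2.1 w hw) (by simp [h2, e1])
    (by simp [h3, e2]))

namespace Nf

variable (c : Ctx k W G) {S : Sylow 2 G} {t s e : Rt k W G} {i j x g : G} {w : W}
  (N : Nf S t s e i j) (hx : x ∈ S) (px : Pl k W x) (nx : NR k W x) (xi : x ≠ i)
include c N hx px nx xi

/-- the element `ρ` and the pair of lines -/
theorem exists_rho (nt : ¬ NR k W (x * t.g)) : ∃ (u v : W) (y ρ : G), Bs k j u v ∧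
    (∀ g ∈ S, Dg2 k g u v ∨ Ad2 k g u v) ∧ x • u = v ∧ x • v = u ∧ y ∈ S ∧ NR k W y ∧
    x * ρ = i * y ∧ ρ ∈ Rg k S j u v ∧ ¬ NR k W (x * ρ) ∧ ρ * ρ ≠ 1 := by
  obtain ⟨a, ha, h1⟩ := N.exists_x' c hx px nx xi
  obtain ⟨b, hb, h2⟩ := N.conj_xj c hx px nx xi
  have xt := N.x_t c hx px nx xi
  have hy : a * x * a⁻¹ ∈ S := mul_mem (mul_mem ha hx) (inv_mem ha)
  have yt : (a * x * a⁻¹) • t.v = t.v :=
    (Rt.pm_of_comm c (px.conj c a).1 (N.u.cen _ hy)).resolve_right (nx.conj a t)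
  have e1 : x * (i * x * (a * x * a⁻¹)) = i * (a * x * a⁻¹) := by
    rw [← mul_assoc x, ← mul_assoc x, N.ci c hx, mul_assoc i x, px.1, mul_one]
  have n1 : ¬ NR k W (x * (i * x * (a * x * a⁻¹))) := fun h => nt (NR.of_conj (a * b) (by
    have : a * b * (x * t.g) * (a * b)⁻¹ = i * (a * x * a⁻¹) := by
      calc _ = a * (b * x * (t.g * b⁻¹)) * a⁻¹ := by group
        _ = a * (b * x * b⁻¹ * t.g) * a⁻¹ := by rw [← N.u.cen _ (inv_mem hb)]; group
        _ = a * (x * (j * t.g)) * a⁻¹ := by rw [h2]; group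
        _ = _ := by rw [(N.u.symm c).it' c, N.ci c hx, ← mul_assoc, N.ci c ha]; group
    rwa [this, ← e1]))
  have hρ : i * x * (a * x * a⁻¹) ∈ S := mul_mem (mul_mem N.u.iS hx) hy
  have f0 : ∀ w : W, j • w = w → (i * x * (a * x * a⁻¹)) • w = w := fun w hw => by
    obtain ⟨α, z, hz, rfl⟩ := N.dec_t' c hw
    rw [mul_smul, mul_smul, smul_add, smul_sm, yt, h1 z hz, smul_add, smul_sm, xt, smul_neg,
      ← mul_smul x, px.1, one_smul, smul_add, smul_sm, N.u.it, smul_neg, hz, neg_neg]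
  have n2 : i * x * (a * x * a⁻¹) * (i * x * (a * x * a⁻¹)) ≠ 1 := fun h => n1 (by
    by_cases h3 : i * x * (a * x * a⁻¹) = 1
    · rwa [h3, mul_one]
    · rw [N.u.pj.uniq c h h3 (N.cj c hρ) f0, ← h2]; exact nx.conj b)
  have iy : ∀ w : W, j • w = -w → (i * x * (a * x * a⁻¹)) • w = x • (a * x * a⁻¹) • w :=
    fun w hw => by
      rw [mul_smul, mul_smul, (N.u.symm c).fix_j c (neg_comm (N.cj c hx) (neg_comm (N.cj c hy) hw))]
  rcases two_lines c S N.u.pj (fun s hs => N.cj c hs) with h | ⟨u, v, B, h⟩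
  · obtain ⟨α, h3⟩ := h _ N.sS
    have h4 := h3 _ N.hs
    have h5 := h3 _ N.he
    rw [s.self] at h4
    rw [s.perp N.se] at h5
    have h6 : (1 : k) = α := smul_left_injective k (s.ne c) (by simpa using h4)
    rw [← h6, one_smul] at h5
    exact (e.ne c (c.zero_of_neg h5.symm)).elim
  have u0 := B.ne_u
  have v0 := B.swap.ne_u
  rcases h x hx with ⟨α, β, e2, e3⟩ | ⟨α, β, e2, e3⟩
  · have q1 : α * α = 1 := by rcases pm_of_sq px.1 u0 e2 with rfl | rfl <;> simp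
    have q2 : β * β = 1 := by rcases pm_of_sq px.1 v0 e3 with rfl | rfl <;> simp
    obtain ⟨γ, δ, q3, q4, e4, e5⟩ : ∃ γ δ : k, γ * γ = 1 ∧ δ * δ = 1 ∧
        (a * x * a⁻¹) • u = γ • u ∧ (a * x * a⁻¹) • v = δ • v := by
      rcases h a ha with ⟨γ, δ, e4, e5⟩ | ⟨γ, δ, e4, e5⟩
      · have γ0 := eig_ne u0 e4
        have δ0 := eig_ne v0 e5
        refine ⟨α, β, q1, q2, ?_, ?_⟩
        · rw [mul_smul, mul_smul, eig_inv γ0 e4, smul_sm, smul_sm, e2, smul_sm, e4]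
          match_scalars; field_simp
        · rw [mul_smul, mul_smul, eig_inv δ0 e5, smul_sm, smul_sm, e3, smul_sm, e5]
          match_scalars; field_simp
      · have γ0 := eig_ne u0 e4
        have δ0 := eig_ne v0 e5
        refine ⟨β, α, q2, q1, ?_, ?_⟩
        · rw [mul_smul, mul_smul, eig_inv δ0 e5, smul_sm, smul_sm, e3, smul_sm, e5]
          match_scalars; field_simp
        · rw [mul_smul, mul_smul, eig_inv γ0 e4, smul_sm, smul_sm, e2, smul_sm, e4]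
          match_scalars; field_simp
    refine (n2 (ext2 c N.u.pj B (fun w hw => by rw [mul_smul, f0 w hw, f0 w hw, one_smul]) ?_ ?_)).elim
    · rw [mul_smul, iy u B.hu, e4, smul_sm, e2, smul_sm, smul_sm, iy u B.hu, e4, smul_sm, e2, one_smul]
      match_scalars; linear_combination α * α * q3 + q1
    · rw [mul_smul, iy v B.hv, e5, smul_sm, e3, smul_sm, smul_sm, iy v B.hv, e5, smul_sm, e3, one_smul]
      match_scalars; linear_combination β * β * q4 + q2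
  have α0 := eig_ne u0 e2
  have B' := B.sc α0
  have e4 : x • α • v = u := by rw [← e2, ← mul_smul, px.1, one_smul]
  have h' : ∀ g ∈ S, Dg2 k g u (α • v) ∨ Ad2 k g u (α • v) := fun g hg =>
    (h g hg).imp (fun ⟨γ, δ, q1, q2⟩ => ⟨γ, δ, q1, by rw [smul_sm, q2, smul_comm]⟩)
      fun ⟨γ, δ, q1, q2⟩ => ⟨γ / α, α * δ, by rw [q1, smul_smul, div_mul_cancel₀ _ α0], by
        rw [smul_sm, q2, smul_smul]⟩
  clear h e3 B v0
  generalize α • v = v at e2 e4 B' h'
  have v0 := B'.swap.ne_u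
  refine ⟨u, v, a * x * a⁻¹, _, B', h', e2, e4, hy, nx.conj a, e1, ⟨hρ, f0, ?_⟩, n1, n2⟩
  obtain ⟨γ, δ, q1, q2, q3⟩ : ∃ γ δ : k, γ * δ = 1 ∧ (a * x * a⁻¹) • u = γ • v ∧
      (a * x * a⁻¹) • v = δ • u := by
    rcases h' a ha with ⟨γ, δ, e5, e6⟩ | ⟨γ, δ, e5, e6⟩
    · have γ0 := eig_ne u0 e5
      have δ0 := eig_ne v0 e6
      refine ⟨γ⁻¹ * δ, δ⁻¹ * γ, by field_simp, ?_, ?_⟩
      · rw [mul_smul, mul_smul, eig_inv γ0 e5, smul_sm, smul_sm, e2, e6, smul_smul]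
      · rw [mul_smul, mul_smul, eig_inv δ0 e6, smul_sm, smul_sm, e4, e5, smul_smul]
    · have γ0 := eig_ne u0 e5
      have δ0 := eig_ne v0 e6
      refine ⟨δ⁻¹ * γ, γ⁻¹ * δ, by field_simp, ?_, ?_⟩
      · rw [mul_smul, mul_smul, eig_inv δ0 e6, smul_sm, smul_sm, e4, e5, smul_smul]
      · rw [mul_smul, mul_smul, eig_inv γ0 e5, smul_sm, smul_sm, e2, e6, smul_smul]
  exact ⟨γ, δ, q1, by rw [iy u B'.hu, q2, smul_sm, e4], by rw [iy v B'.hv, q3, smul_sm, e2]⟩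

variable {u v : W} {y ρ : G} (B : Bs k j u v) (xu : x • u = v) (xv : x • v = u)
include B xu xv

theorem x_inv {r : G} (hr : r ∈ Rg k S j u v) : r⁻¹ * x = x * r := by
  obtain ⟨-, h1, a, b, h2, h3, h4⟩ := hr
  have a0 := left_ne_zero_of_mul_eq_one h2
  have b0 := right_ne_zero_of_mul_eq_one h2
  refine ext2 c N.u.pj B (fun w hw => ?_) ?_ ?_
  · rw [mul_smul, mul_smul, h1 w hw, inv_smul_eq_iff, h1 _ (fix_comm (N.cj c hx) hw)]
  · rw [mul_smul, mul_smul, xu, eig_inv b0 h4, h3, smul_sm, xu, eq_inv_of_mul_eq_one_left h2]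
  · rw [mul_smul, mul_smul, xv, eig_inv a0 h3, h4, smul_sm, xv, eq_inv_of_mul_eq_one_right h2]

/-- no root of `S` interchanges the two lines -/
theorem not_swap (hy : y ∈ S) (ny : NR k W y) (e1 : x * ρ = i * y) (hρ : ρ ∈ Rg k S j u v)
    (n1 : ¬ NR k W (x * ρ)) {σ : Rt k W G} (σS : σ.g ∈ S) (hσ : j • σ.v = -σ.v) :
    ¬ Ad2 k σ.g u v := by
  rintro ⟨β, β', q1, q2⟩
  have := Rg_cyc c (S := S) N.u.pj B
  have xr := fun {r : G} (hr : r ∈ Rg k S j u v) => N.x_inv c hx px nx xi B xu xv hr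
  have s1 : ∀ r ∈ Rg k S j u v, x * (r * r) = r⁻¹ * x * r⁻¹⁻¹ := fun r hr => by
    rw [xr hr, inv_inv, mul_assoc]
  have s2 : ∀ r ∈ Rg k S j u v, x * (ρ * (r * r)) = r⁻¹ * (x * ρ) * r⁻¹⁻¹ := fun r hr => by
    have : ρ * r = r * ρ := congrArg Subtype.val
      (IsCyclic.commGroup.mul_comm (⟨ρ, hρ⟩ : Rg k S j u v) ⟨r, hr⟩)
    rw [← mul_assoc r⁻¹, xr hr, inv_inv, mul_assoc x r, ← this]; group
  have dich : ∀ g ∈ Rg k S j u v, (∃ r ∈ Rg k S j u v, g = r * r) ∨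
      ∃ r ∈ Rg k S j u v, g = ρ * (r * r) := fun g hg =>
    (cyc_dich (a := (⟨ρ, hρ⟩ : Rg k S j u v)) (fun r e => n1 (by
      rw [show ρ = r * r from congrArg Subtype.val e, s1 _ r.2]; exact nx.conj _)) ⟨g, hg⟩).imp
      (fun ⟨r, e⟩ => ⟨r, r.2, congrArg Subtype.val e⟩) fun ⟨r, e⟩ => ⟨r, r.2, congrArg Subtype.val e⟩
  have u0 := B.ne_u
  have ββ : β * β' = 1 := smul_left_injective k u0 (by
    simp only; rw [mul_smul, ← q2, ← smul_sm, ← q1, ← mul_smul, σ.sq c, one_smul, one_smul])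
  have p1 : (x * σ.g) • u = β • u := by rw [mul_smul, q1, smul_sm, xv]
  have p2 : (x * σ.g) • v = β' • v := by rw [mul_smul, q2, smul_sm, xu]
  have p3 : (x * σ.g * (x * σ.g)) • u = (β * β) • u := by rw [mul_smul, p1, smul_sm, p1, smul_smul]
  have hg : x * σ.g * (x * σ.g) ∈ Rg k S j u v :=
    ⟨mul_mem (mul_mem hx σS) (mul_mem hx σS), fun w hw => N.sq_fix c hx px nx xi hσ hw, β * β,
      β' * β', by linear_combination (β * β' + 1) * ββ, p3, by
        rw [mul_smul, p2, smul_sm, p2, smul_smul]⟩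
  obtain ⟨r, hr, e2⟩ := (dich _ hg).resolve_right (by
    rintro ⟨r, hr, e2⟩
    refine n1 (NR.of_conj r⁻¹ ?_)
    rw [← s2 r hr, ← e2, mul_assoc x σ.g, ← mul_assoc x x, px.1, one_mul, ← mul_assoc]
    simpa [σ.inv c] using nx.conj σ.g)
  obtain ⟨r, hr, r1, r2⟩ : ∃ r ∈ Rg k S j u v, r • u = β • u ∧ r • v = β' • v := by
    obtain ⟨a, b, h2, h3, h4⟩ := hr.2.2
    have h5 : a * a = β * β := smul_left_injective k u0 (by
      simp only; rw [← p3, e2, mul_smul r, h3, smul_sm, h3, smul_smul])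
    have β0 := left_ne_zero_of_mul_eq_one ββ
    rcases mul_self_eq_mul_self_iff.1 h5 with rfl | rfl
    · exact ⟨r, hr, h3, by rw [h4, mul_left_cancel₀ β0 (h2.trans ββ.symm)]⟩
    · have hb : b = -β' := mul_left_cancel₀ β0 (by linear_combination -h2 + ββ)
      exact ⟨r * j, mul_mem hr ⟨N.u.jS, fun w hw => hw, -1, -1, by simp, by simp [B.hu],
        by simp [B.hv]⟩, by rw [mul_smul, B.hu, smul_neg, h3, neg_smul, neg_neg], by
          rw [mul_smul, B.hv, smul_neg, h4, hb, neg_smul, neg_neg]⟩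
  obtain ⟨σ', -, t1, t2⟩ := N.u.pj.root c hσ
  have t3 : (x * r) • σ'.v = -σ'.v := by
    rw [lin2 c N.u.pj B (h := σ.g) (by rw [mul_smul, r1, smul_sm, xu, q1])
      (by rw [mul_smul, r2, smul_sm, xv, q2]) t1, σ.perp t2]
  rcases dich r hr with ⟨r', hr', rfl⟩ | ⟨r', hr', rfl⟩
  · rw [s1 r' hr'] at t3
    exact nx.conj _ σ' t3
  · refine ny.conj r'⁻¹ σ' ?_
    rw [s2 r' hr', e1] at t3
    rw [← t3]
    simp only [mul_smul, inv_inv]
    rw [(N.u.symm c).fix_j c (neg_comm (N.cj c hy) (neg_comm (N.cj c hr'.1) t1))]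

end Nf

end RB

end CL.FR
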