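import Cfsg.Agent.CLAS.FiveRC2

/-!
# Block RC: the two kinds of frames
-/

set_option autoImplicit false
set_option linter.unusedSectionVars false

namespace CL.FR

open Module

variable {k W G : Type*} [Field k] [AddCommGroup W] [Module k W] [Group G] [DistribMulAction G W]
  [SMulCommClass G k W] [Finite G] [IsAlgClosed k]

/-- Port of `Sp4O5`. With `Su S t i j` both planes contain roots of `S` (`Su.extr` applied to `Eg e`). Call a plane
rich if it contains two non-commuting roots of `S`; then every root `a` of `S` in it satisfies `Ed a (a * i)`
(`x = a.g * b.g` has order `2 ^ n ≥ 4`, `y = x ^ 2 ^ (n - 2)`, `y * y = i` by `Pl.uniq`, `a.g * y` is a root).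
An edge of a frame can be conjugated into `S` (`Eg e ⊔ ⟨edge root⟩`), so: no rich plane gives `NoEd`; two rich planes:
for each frame and each member `m` the other four split into two edges, `Ed` is transitive in a frame, so all
frames are complete, and every orthogonal pair lies in a frame. One rich plane `Π_j`: every frame is a triangle plus
two single points; for the triple `t, y₁, y₂ ∈ Π_i` the stabiliser of `{t, y₁, y₂}` is transitive, so each of the three
is the third vertex for some orthogonal pair of roots of `Π_j`, which may be conjugated into `S` by the centraliser of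
the triple. The images in `PGL(Π_j)` of three pairs of different types are non-conjugate involutions of the dihedral
`2`-group they generate, so one pair `(a, a')` (third vertex `x`) is interchanged by roots `b, d` of the two others;
`b.g * d.g` is `diag (γ, γ⁻¹)` on `(a, a')` with `γ ^ 2 ≠ 1`; conjugating by the root interchanging `x, a'` and using
the root `w` interchanging `b` with its third vertex `x'` (`x.φ w.v = 0`, `mu a w = 1`) contradicts `homology`. -/
theorem full_or_noEd (p : ℕ) [Fact p.Prime] [CharP k p] (c : Ctx k W G) {e : Fin 5 → Rt k W G} (f : Fr e) :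
    Full k W G ∨ NoEd k W G := by
  refine or_iff_not_imp_right.2 fun H => ?_
  simp only [NoEd, not_forall, not_not] at H
  obtain ⟨a, b, h, h'⟩ := H
  obtain ⟨S⟩ : Nonempty (Sylow 2 G) := inferInstance
  obtain ⟨t, i, j, s⟩ := exists_su c S a
  have := RC.not_po_of_ed c s h h'
  exact RC.full c s (fun hi => RC.one_side c p s hi (this.resolve_left fun h => h hi) f)
    (fun hj => RC.one_side c p (s.symm c) hj (this.resolve_right fun h => h hj) f) f

/-- as `Sp4O.uq` -/
theorem NoEd.uq (c : Ctx k W G) (H : NoEd k W G) {S : Sylow 2 G} {e : Fin 5 → Rt k W G} (f : Fr e)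
    (hE : Eg e ≤ S) {r : Rt k W G} (hr : r.g ∈ S) : ∃ a, r.g = (e a).g :=
  RC.uq c H f hE hr

/-- as `Sp4O.hf_all` (`c.gold` replaces `not_closed`) -/
theorem NoEd.hf (c : Ctx k W G) (H : NoEd k W G) {e : Fin 5 → Rt k W G} (f : Fr e) (m : Fin 5) :
    Hf e m :=
  RC.hf c H f m

end CL.FR
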