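import Cfsg.Agent.CLAS.FiveRA
import Cfsg.Agent.CHEV.RootInv1

/-!
# Dihedral `2`-groups generated by two roots; frames without edges
-/

set_option autoImplicit false
set_option linter.unusedSectionVars false

namespace CL.FR.RC

open Module RA

variable {k W G : Type*} [Field k] [AddCommGroup W] [Module k W] [Group G] [DistribMulAction G W]
  [SMulCommClass G k W] [Finite G] [IsAlgClosed k]

theorem rt_pow (c : Ctx k W G) (a b : Rt k W G) (n : ℕ) :
    ∃ r : Rt k W G, r.g = (a.g * b.g) ^ n * a.g := by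
  induction n using Nat.twoStepInduction with
  | zero => exact ⟨a, by simp⟩
  | one => exact ⟨b.conj a.g, by simp [a.inv c]⟩
  | more n ih _ =>
    obtain ⟨r, hr⟩ := ih
    exact ⟨r.conj (a.g * b.g), by
      rw [Rt.conj_g, hr, mul_inv_rev, a.inv c, b.inv c, pow_succ, pow_succ']; simp only [mul_assoc]⟩

/-- two non-commuting roots in a `2`-group give an edge -/
theorem ed_of_nc (c : Ctx k W G) {S : Sylow 2 G} {a b : Rt k W G} (ha : a.g ∈ S) (hb : b.g ∈ S)
    (hn : a.g * b.g ≠ b.g * a.g) : ∃ m : ℕ, a.φ (a.conj ((a.g * b.g) ^ m)).v = 0 ∧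
      Ed a (a.conj ((a.g * b.g) ^ m)) := by
  obtain ⟨n, h⟩ := exists_pow (mul_mem (mul_mem ha hb) (mul_mem ha hb))
  obtain ⟨m, h1, h2⟩ := RA.inv_pow n h fun e => hn (by
    rw [eq_inv_of_mul_eq_one_left e, mul_inv_rev, a.inv c, b.inv c])
  have h3 : a.g * (a.g * b.g) ^ m * a.g⁻¹ = ((a.g * b.g) ^ m)⁻¹ := by
    rw [← conj_pow, ← _root_.inv_pow, mul_inv_rev, b.inv c, ← mul_assoc, a.sq c, one_mul]
  obtain ⟨r, hr⟩ := rt_pow c a b m
  rw [(Commute.refl _).mul_pow] at h1 h2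
  refine ⟨m, ?_, r, by rw [hr, Rt.conj_g]; group⟩
  generalize (a.g * b.g) ^ m = y at h1 h2 h3
  have h4 : y * a.g * y⁻¹ = y * y * a.g := by
    rw [← h3, a.inv c]; simp only [mul_assoc, ← mul_assoc a.g a.g, a.sq c, one_mul]
  refine Rt.perp_of_comm c ?_ fun e => h2 ?_
  · rw [Rt.conj_g, h4, mul_assoc _ a.g, a.sq c, mul_one, ← mul_assoc]
    calc a.g * (y * y) * a.g = a.g * y * a.g⁻¹ * (a.g * y * a.g⁻¹) := by rw [conj_mul, a.inv c]
      _ = _ := by rw [h3, ← mul_inv_rev, inv_eq_of_mul_eq_one_right h1]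
  · rw [Rt.conj_g, h4] at e
    simpa using e.symm

theorem comm (c : Ctx k W G) (H : NoEd k W G) {S : Sylow 2 G} {a b : Rt k W G} (ha : a.g ∈ S)
    (hb : b.g ∈ S) : a.g * b.g = b.g * a.g :=
  by_contra fun hn => (ed_of_nc c ha hb hn).elim fun _ h => H _ _ h.1 h.2

theorem uq (c : Ctx k W G) (H : NoEd k W G) {S : Sylow 2 G} {e : Fin 5 → Rt k W G} (f : Fr e)
    (hE : Eg e ≤ S) {r : Rt k W G} (hr : r.g ∈ S) : ∃ a, r.g = (e a).g :=
  f.root_eq c ((f.mem_iff c).2 ⟨r.sq c, fun a => comm c H hr (hE (f.mem a))⟩)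

theorem two_in {x : G} {Q₁ Q₂ : Subgroup G} (h1 : IsPGroup 2 Q₁) (h2 : IsPGroup 2 Q₂)
    (a1 : ∀ y ∈ Q₁, y * x = x * y) (a2 : ∀ y ∈ Q₂, y * x = x * y) :
    ∃ (g : G) (S : Sylow 2 G), g * x = x * g ∧ Q₁ ≤ S ∧ ∀ y ∈ Q₂, g * y * g⁻¹ ∈ S := by
  obtain ⟨P, hP⟩ := (h1.comap_subtype (K := Subgroup.centralizer {x})).exists_le_sylow
  obtain ⟨g, hg⟩ := CL.SylowAux.exists_conj_mem_sylow P
    (h2.comap_subtype (K := Subgroup.centralizer {x}))
  obtain ⟨S, hS⟩ := (P.isPGroup'.map (Subgroup.centralizer {x}).subtype).exists_le_sylow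
  exact ⟨g, S, Subgroup.mem_centralizer_singleton_iff.1 g.2, fun y hy =>
    hS ⟨⟨y, Subgroup.mem_centralizer_singleton_iff.2 (a1 y hy)⟩, hP hy, rfl⟩, fun y hy =>
    hS ⟨_, hg ⟨y, Subgroup.mem_centralizer_singleton_iff.2 (a2 y hy)⟩ hy, rfl⟩⟩

theorem Eg_le {e : Fin 5 → Rt k W G} {g : G} {S : Subgroup G} (h : ∀ y ∈ Eg e, g * y * g⁻¹ ∈ S) :
    Eg (fun a => (e a).conj g) ≤ S := fun y hy => by
  simpa [mul_assoc] using h (g⁻¹ * y * g) ((Eg_conj g).1 (by simpa [mul_assoc] using hy))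

theorem sw {x : G} (hx : x * x = 1) {a b : G} (h : x * a * x⁻¹ = b) : x * b * x⁻¹ = a := by
  rw [← h, inv_eq_of_mul_eq_one_right hx]; simp [mul_assoc, hx, ← mul_assoc x x]

/-- an involution inducing a transposition of a frame gives an edge -/
theorem ed_of_swap (c : Ctx k W G) {e : Fin 5 → Rt k W G} (f : Fr e) {x : G} (hx : x * x = 1)
    (h0 : x * (e 0).g = (e 0).g * x) (h1 : x * (e 1).g * x⁻¹ = (e 2).g)
    (h3 : x * (e 3).g = (e 3).g * x) (h4 : x * (e 4).g = (e 4).g * x) : Ed (e 1) (e 2) := by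
  classical
  obtain ⟨y, hy, h5, -⟩ := Rt.line_of_eq c (s := (e 1).conj x) h1
  have h5 : x • (e 1).v = y • (e 2).v := h5
  have h6 : x • (e 2).v = y⁻¹ • (e 1).v := by
    rw [eq_inv_smul_iff₀ hy, ← smul_sm, ← h5, ← mul_smul, hx, one_smul]
  have ne : ∀ l, (e l).v ≠ -(e l).v := fun l h => (e l).ne c (c.zero_of_neg h)
  obtain ⟨g, hg, h⟩ := f.signs c 1 (Finset.univ.filter fun l => x • (e l).v = (e l).v)
  have k1 : ∀ l, l ≠ 1 → x * (e l).g = (e l).g * x → (x * g) • (e l).v = -(e l).v := fun l a b => by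
    rcases Rt.pm_of_comm c hx b with b | b <;> simp [mul_smul, h l a, b, (ne l).symm]
  have k2 : (x * g) • (e 2).v = y⁻¹ • (e 1).v := by
    have : x • (e 2).v ≠ (e 2).v := fun h => by
      have := congrArg (e 2).φ (h6.symm.trans h)
      simp [f.φ_eq, c.two.symm] at this
    rw [mul_smul, h 2 (by decide), if_neg (by simpa using this), h6]
  have k0 := k1 0 (by decide) h0
  have k3 := k1 3 (by decide) h3
  have k4 := k1 4 (by decide) h4
  have k5 : (x * g) • (e 1).v = y • (e 2).v := by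
    rcases hg 1 with h7 | h7
    · rw [mul_smul, h7, h5]
    have := f.det c (x * g) !![-1, 0, 0, 0, 0; 0, 0, y⁻¹, 0, 0; 0, -y, 0, 0, 0; 0, 0, 0, -1, 0;
      0, 0, 0, 0, -1] fun a => by
        fin_cases a <;> simp [Fin.sum_univ_five, k0, k2, k3, k4, mul_smul x g (e 1).v, h7, h5]
    simp [Matrix.det_succ_row_zero, Fin.sum_univ_succ, Fin.succAbove, hy] at this
    exact (c.two (by linear_combination -this)).elim
  generalize x * g = z at k0 k2 k3 k4 k5
  have z2 : z * z = 1 := f.ext c fun a => by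
    fin_cases a <;> simp [mul_smul, k0, k2, k3, k4, k5, smul_sm, smul_smul, hy]
  obtain ⟨r, rfl⟩ := (c.invol z2 fun h => ne 0 (by rw [← k0, h, one_smul])).resolve_right fun p =>
    ne 4 (((p.fix_iff c k0 k3 (f 0 3 (by decide))).2 ⟨f 0 4 (by decide), f 3 4 (by decide)⟩).symm.trans k4)
  exact ⟨r, Rt.eq_of_line c (s := (e 1).conj r.g) k5⟩

/-- the computation with the half-sum -/
theorem half (c : Ctx k W G) (H : NoEd k W G) {x : G} (p : Pl k W x) {a b d e w : Rt k W G}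
    (ab : a.φ b.v = 0) (ad : a.φ d.v = 0) (ae : a.φ e.v = 0) (bd : b.φ d.v = 0) (be : b.φ e.v = 0)
    (de : d.φ e.v = 0) (h1 : x * a.g * x⁻¹ = b.g) (h2 : x * d.g * x⁻¹ = e.g) (hw : x • w.v = -w.v)
    (h : a.g * b.g * w.g * (a.g * b.g)⁻¹ * w.g = w.g * (a.g * b.g * w.g * (a.g * b.g)⁻¹)) :
    (mu a w = 1 ∧ mu b w = 1 ∧ mu d w = 1 ∧ mu e w = 1) ∧
      ∀ m : Rt k W G, m.φ a.v = 0 → m.φ b.v = 0 → m.φ d.v = 0 → m.φ e.v = 0 → m.φ w.v = 0 := by
  obtain ⟨y, -, h3, -⟩ := Rt.line_of_eq c (s := a.conj x) h1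
  obtain ⟨z, -, h4, -⟩ := Rt.line_of_eq c (s := d.conj x) h2
  have h3 : x • a.v = y • b.v := h3
  have h4 : x • d.v = z • e.v := h4
  have x2 : ∀ v : W, x • (v - x • v) = -(v - x • v) := fun v => by
    rw [smul_sub, ← mul_smul, p.1, one_smul, neg_sub]
  have da := Rt.symm c ad
  have db := Rt.symm c bd
  obtain ⟨α, β, ex⟩ := p.span c (x2 a.v) (x2 d.v) (fun α β h => by
    have k1 := congrArg a.φ h
    have k2 := congrArg d.φ h
    simp [h3, h4, a.two, d.two, ab, ad, ae, da, db, de, c.two] at k1 k2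
    exact ⟨k1, k2⟩) hw
  have wx : ∀ v, w.φ (x • v) = -w.φ v := fun v => by
    simpa using Rt.φ_smul c (a := -1) (hw.trans (neg_one_smul k _).symm) v
  have n1 : α * w.φ a.v + β * w.φ d.v = 1 := by
    have := congrArg w.φ ex
    simp only [w.two, map_add, map_smul, map_sub, wx, smul_eq_mul] at this
    exact mul_left_cancel₀ c.two (by linear_combination -this)
  have j1 : (a.g * b.g) • w.v = -α • (a.v - x • a.v) + β • (d.v - x • d.v) := by
    rw [ex, h3, h4]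
    simp only [smul_add, smul_sub, smul_sm, Rt.mul_left c ab, Rt.mul_right c ab, Rt.mul_fix ad bd,
      Rt.mul_fix ae be]
    module
  have ed : ∀ {a b : Rt k W G} {α y : k}, x • a.v = y • b.v → w.v = α • (a.v - x • a.v) →
      α * w.φ a.v = 1 → Ed a b := fun {a b α y} h1 h2 h3 =>
    ⟨w, Rt.eq_of_line c (s := a.conj w.g) (a := -y) (by
      rw [Rt.conj_v, w.act, h2, smul_smul, mul_comm, h3, h1]; module)⟩
  have a1 : a.φ w.v = 2 * α := by simp [ex, h3, h4, a.two, ab, ad, ae, mul_comm]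
  have d1 : d.φ w.v = 2 * β := by simp [ex, h3, h4, d.two, da, db, de, mul_comm]
  have n2 : -α * w.φ a.v + β * w.φ d.v = 0 := by
    by_cases hne : w.g = (w.conj (a.g * b.g)).g
    · exfalso
      rcases Rt.pm_of_comm c (Rt.pl_mul c ab).1 (mul_inv_eq_iff_eq_mul.1 hne.symm) with h5 | h5
      · have := congrArg a.φ h5
        rw [j1, a1] at this
        simp only [h3, h4, map_add, map_smul, map_sub, a.two, ab, ad, ae, smul_eq_mul] at this
        have h0 : α = 0 := mul_left_cancel₀ (mul_ne_zero c.two c.two) (by linear_combination -this)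
        exact H _ _ de (ed h4 (α := β) (by simpa [h0] using ex) (by simpa [h0] using n1))
      · have := congrArg d.φ h5
        rw [j1, map_neg, d1] at this
        simp only [h3, h4, map_add, map_smul, map_sub, d.two, da, db, de, smul_eq_mul] at this
        have h0 : β = 0 := mul_left_cancel₀ (mul_ne_zero c.two c.two) (by linear_combination this)
        exact H _ _ ab (ed h3 (α := α) (by simpa [h0] using ex) (by simpa [h0] using n1))
    have := Rt.perp_of_comm c (s := w.conj (a.g * b.g)) h.symm hne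
    simp only [Rt.conj_v, j1, map_add, map_smul, map_sub, wx, smul_eq_mul] at this
    exact mul_left_cancel₀ c.two (by linear_combination this)
  have m1 : mu a w = 1 := by rw [mu, a1]; linear_combination n1 - n2
  have m2 : mu d w = 1 := by rw [mu, d1]; linear_combination n1 + n2
  have m3 : ∀ {a b : Rt k W G}, x * a.g * x⁻¹ = b.g → mu b w = mu a w := fun {a b} h => by
    rw [← mu_conj x a w, mu_congr c (a' := a.conj x) h, mu_symm b, mu_symm b, mu_congr c (a' := w.conj x)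
      (mul_inv_eq_iff_eq_mul.2 (p.comm c hw))]
  exact ⟨⟨m1, (m3 h1).trans m1, m2, (m3 h2).trans m2⟩, fun m k1 k2 k3 k4 => by
    simp [ex, h3, h4, k1, k2, k3, k4]⟩

theorem inj5 : ∀ m a b d k : Fin 5, [m, a, b, d, k].Nodup → Function.Injective ![m, a, b, d, k] := by
  decide +kernel

theorem hf_of_not_closed (c : Ctx k W G) (H : NoEd k W G) {S : Sylow 2 G} {e e' : Fin 5 → Rt k W G}
    (f : Fr e) (hE : Eg e ≤ S) (f' : Fr e') {x : G} (hx : x ∈ S) (hx' : x ∈ Eg e') (hn : x ∉ Eg e)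
    {m : Fin 5} (hm : x * (e m).g = (e m).g * x) : Hf e m := by
  have xx := f'.sq c hx'
  have p := (c.invol xx (by rintro rfl; exact hn (one_mem _))).resolve_left (by
    rintro ⟨r, rfl⟩
    obtain ⟨a, h⟩ := uq c H f hE hx
    exact hn (h ▸ f.mem a))
  have pm : ∀ a, ∃ b, x * (e a).g * x⁻¹ = (e b).g := fun a =>
    uq c H f hE (r := (e a).conj x) (mul_mem (mul_mem hx (hE (f.mem a))) (inv_mem hx))
  have inj : ∀ {a b l : Fin 5}, x * (e a).g * x⁻¹ = (e b).g → x * (e a).g * x⁻¹ = (e l).g → b = l :=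
    fun h1 h2 => f.inj c (h1.symm.trans h2)
  have hm' := mul_inv_eq_iff_eq_mul.2 hm
  obtain ⟨a, ha⟩ := not_forall.1 fun h => hn ((f.mem_iff c).2 ⟨xx, h⟩)
  obtain ⟨b, hb⟩ := pm a
  have ab : a ≠ b := by rintro rfl; exact ha (mul_inv_eq_iff_eq_mul.1 hb)
  have ma : m ≠ a := by rintro rfl; exact ha hm
  have mb : m ≠ b := by rintro rfl; exact ma (inj hm' (sw xx hb))
  obtain ⟨d, l, hn', hall⟩ := (by decide : ∀ m a b : Fin 5, a ≠ b → m ≠ a → m ≠ b → ∃ d k,
    [m, a, b, d, k].Nodup ∧ ∀ l, l = m ∨ l = a ∨ l = b ∨ l = d ∨ l = k) m a b ab ma mb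
  have hn2 := hn'
  simp only [List.nodup_cons, List.mem_cons, not_or, List.not_mem_nil, ← ne_eq] at hn2
  obtain ⟨⟨m1, m2, m3, m4, -⟩, ⟨a1, a2, a3, -⟩, ⟨b1, b2, -⟩, ⟨d1, -⟩, -⟩ := hn2
  have rest : ∀ n, n ≠ m → n ≠ a → n ≠ b → x * (e n).g * x⁻¹ = (e d).g ∨ x * (e n).g * x⁻¹ = (e l).g :=
    fun n h1 h2 h3 => by
      obtain ⟨n', h⟩ := pm n
      rcases hall n' with rfl | rfl | rfl | rfl | rfl
      exacts [(h1 (inj (sw xx h) hm')).elim, (h3 (inj (sw xx h) hb)).elim,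
        (h2 (inj (sw xx h) (sw xx hb))).elim, .inl h, .inr h]
  have hd := (rest d m3.symm a2.symm b1.symm).resolve_left fun h => H _ _ (f a b ab)
    (ed_of_swap c (f.comp (inj5 _ _ _ _ _ hn')) xx hm hb (mul_inv_eq_iff_eq_mul.1 h)
      (mul_inv_eq_iff_eq_mul.1 ((rest l m4.symm a3.symm b2.symm).resolve_left
        fun h' => d1 (inj h (sw xx h')))))
  obtain ⟨g, S', g1, g2, g3⟩ := two_in (x := x) (Q₁ := (S : Subgroup G) ⊓ Subgroup.centralizer {x})
    S.isPGroup'.to_inf_left (f'.isP c) (fun y hy => Subgroup.mem_centralizer_singleton_iff.1 hy.2)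
    fun y hy => f'.comm c hy hx'
  have fg := f'.conj g
  have hE' := Eg_le g3
  have xg : x ∈ Eg fun l => (e' l).conj g := by simpa [g1] using (Eg_conj g).2 hx'
  generalize (fun l => (e' l).conj g) = e'' at fg hE' xg
  obtain ⟨n, hl⟩ : ∃ n, x • (e'' n).v = -(e'' n).v := by
    by_contra! h
    exact p.ne_one c (fg.ext c fun l => by rw [one_smul, (xg l).resolve_right (h l)])
  have jS : (e a).g * (e b).g ∈ S' := g2 ⟨mul_mem (hE (f.mem a)) (hE (f.mem b)),
    Subgroup.mem_centralizer_singleton_iff.2 (mul_inv_eq_iff_eq_mul.1 (by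
      rw [← conj_mul, hb, sw xx hb, Rt.comm_of_perp c (f a b ab)])).symm⟩
  obtain ⟨h1, h2⟩ := half c H p (f a b a1) (f a d a2) (f a l a3) (f b d b1) (f b l b2) (f d l d1) hb hd hl
    (comm c H (a := (e'' n).conj _) (mul_mem (mul_mem jS (hE' (fg.mem n))) (inv_mem jS)) (hE' (fg.mem n)))
  refine ⟨e'' n, h2 _ (f m a m1) (f m b m2) (f m d m3) (f m l m4), fun n hn => ?_⟩
  rcases hall n with rfl | rfl | rfl | rfl | rfl
  exacts [(hn rfl).elim, h1.1, h1.2.1, h1.2.2.1, h1.2.2.2]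

theorem not_closed (c : Ctx k W G) {S : Sylow 2 G} {e : Fin 5 → Rt k W G} (f : Fr e) :
    ¬ Cfsg.IsStronglyClosed (Eg e) (S : Subgroup G) := fun h => by
  classical
  have p := Rt.pl_mul c (f 0 1 (by decide))
  refine p.not_conj c (e 0) (c.gold S _ (fun h => (e 0).ne_one c (h.le (f.mem 0)))
    ⟨⟨fun x y => Subtype.ext (f.comm c x.2 y.2)⟩⟩ h ?_ _ _
    (orderOf_eq_prime (by rw [pow_two, p.1]) (p.ne_one c)) ((e 0).orderOf_eq c))
  choose g hg h1 using fun s : Finset (Fin 4) => f.signs c 0 (s.map (Fin.succEmb 4))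
  have h2 := Nat.card_le_card_of_injective (fun s => (⟨g s, hg s⟩ : Eg e)) fun s t hst => by
    ext l
    have h3 := h1 s l.succ l.succ_ne_zero
    rw [show g s = g t from congrArg Subtype.val hst, h1 t l.succ l.succ_ne_zero] at h3
    clear h1
    have ne : (e l.succ).v ≠ -(e l.succ).v := fun h => (e _).ne c (c.zero_of_neg h)
    by_cases hs : l ∈ s <;> by_cases ht : l ∈ t <;> simp_all [eq_comm]
  obtain ⟨n, hn⟩ := IsPGroup.iff_card.1 (f.isP c)
  refine Dvd.dvd.trans ?_ (Eg e).card_subgroup_dvd_card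
  rw [hn] at h2 ⊢
  exact pow_dvd_pow 2 (m := 4) ((Nat.pow_le_pow_iff_right one_lt_two).1 (by simpa using h2))

theorem hf (c : Ctx k W G) (H : NoEd k W G) {e : Fin 5 → Rt k W G} (f : Fr e) (m : Fin 5) :
    Hf e m := by
  obtain ⟨S⟩ : Nonempty (Sylow 2 G) := inferInstance
  obtain ⟨t, i, j, u⟩ := exists_su c S (e 0)
  obtain ⟨g, g1, g2⟩ := u.extr c (e m) (f.isP c) fun x hx => f.comm c hx (f.mem m)
  have fg := f.conj g
  have hE := Eg_le g2
  have := not_closed c (S := S) fg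
  simp only [Cfsg.IsStronglyClosed, hE, true_and, not_forall] at this
  obtain ⟨x, hx, y, h1, h2⟩ := this
  obtain ⟨w, h3, h4⟩ := hf_of_not_closed c H fg hE (fg.conj y) h1 ((Eg_conj y).2 hx) h2 (m := m)
    (by rw [Rt.conj_g, g1]; exact u.cen _ h1)
  exact ⟨w.conj g⁻¹, h3, fun l hl => by simpa [mu] using h4 l hl⟩

end CL.FR.RC
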