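import Cfsg.Agent.CLAS.FiveRH

/-!
# Diagonal elements are scalars up to signs
-/

set_option autoImplicit false
set_option linter.unusedSectionVars false

namespace CL.FR

open Module Equiv

variable {k W G : Type*} [Field k] [AddCommGroup W] [Module k W] [Group G] [DistribMulAction G W]
  [SMulCommClass G k W]

/-- `g` permutes the frame as `π` -/
def Mn (e : Fin 5 → Rt k W G) (g : G) (π : Fin 5 → Fin 5) : Prop :=
  ∀ a, g * (e a).g * g⁻¹ = (e (π a)).g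

/-- all double transpositions are induced -/
def Dd (e : Fin 5 → Rt k W G) : Prop :=
  ∀ a b x y, [a, b, x, y].Nodup → ∃ g, Mn e g (swap a b * swap x y : Perm (Fin 5))

variable (c : Ctx k W G) {e : Fin 5 → Rt k W G} {g h : G} {π π' : Fin 5 → Fin 5} {d : Fin 5 → k}
  {a b r x y : Rt k W G} {w : W}

theorem Mn.mul (p : Mn e g π) (q : Mn e h π') : Mn e (g * h) (π ∘ π') := fun a => by
  rw [Function.comp, ← p, ← q]; group

include c

theorem line_of_conj (p : g * a.g * g⁻¹ = b.g) : ∃ x : k, x ≠ 0 ∧ g • a.v = x • b.v :=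
  let ⟨x, h1, h2, _⟩ := Rt.line_of_eq c (s := a.conj g) p; ⟨x, h1, h2⟩

theorem conj_of_line {x : k} (p : g • a.v = x • b.v) : g * a.g * g⁻¹ = b.g :=
  Rt.eq_of_line c (s := a.conj g) p

theorem Dg.conj (p : Dg e h d) (q : Mn e g π) : Dg e (g⁻¹ * h * g) (d ∘ π) := fun a => by
  obtain ⟨x, -, hx⟩ := line_of_conj c (q a)
  rw [mul_smul, mul_smul, inv_smul_eq_iff, smul_sm g, hx, smul_sm, p, smul_comm]; rfl

theorem Mn.mem_normalizer (f : Fr e) (p : Mn e g π) (hπ : Function.Surjective π) :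
    g ∈ Subgroup.normalizer (Eg e : Set G) := Subgroup.mem_normalizer_iff.2 fun h => by
  rw [f.mem_iff c, f.mem_iff c, conj_mul, hπ.forall (p := fun a => g * h * g⁻¹ * (e a).g = _)]
  simp only [← p _, conj_mul, mul_inv_eq_one, mul_eq_left, mul_left_inj, mul_right_inj]

theorem rt_of_fix (h : r.g • w = w) (hw : w ≠ 0) : ∃ s : Rt k W G, s.g = r.g ∧ s.v = w :=
  ⟨r.sc (r.φ w / 2) fun h0 => hw (by rw [r.of_fix c h, h0, zero_smul]), rfl, (r.of_fix c h).symm⟩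

theorem Fr.rt_of_neg (f : Fr e) (hg : g * g = 1) {a b x : Fin 5} (h : [a, b, x].Nodup)
    (ha : g • (e a).v = -(e a).v) (hb : g • (e b).v = -(e b).v) (hx : g • (e x).v = -(e x).v) :
    ∃ r : Rt k W G, r.g = g := by
  simp only [List.nodup_cons, List.mem_cons, not_or, List.not_mem_nil, ← ne_eq] at h
  refine (c.invol hg fun e1 => (e a).ne c (c.zero_of_neg (by simpa [e1] using ha))).resolve_right fun p => ?_
  rcases p.root_eq c ha hb (f a b h.1.1) hx (f.comm c (f.mem a) (f.mem x)) with e1 | e1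
  exacts [h.1.2.1 (f.inj c e1).symm, h.2.1.1 (f.inj c e1).symm]

theorem mu_swap (h : a.φ b.v = 0) (p : x.g * a.g * x.g⁻¹ = b.g) (hy : b.φ y.v = 0) :
    2 * mu y x = mu y a := by
  obtain ⟨z, -, h1, -, h3, h4⟩ := Ed.swap c h p
  have h5 := congrArg y.φ ((x.act a.v).symm.trans h1)
  have h6 := h4 (y.v - (a.φ y.v / 2) • a.v) (by simp [a.two, c.two]) (by simp [hy, Rt.symm c h])
  simp only [map_sub, map_smul, smul_eq_mul, Rt.symm c hy, mul_zero] at h5 h6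
  have := c.two
  rw [mu, mu, sub_eq_zero.1 h6, ← sub_eq_zero.1 h5]
  field_simp

/-- the permutation induced by an edge root -/
theorem Fr.mn_swap (f : Fr e) {a b : Fin 5} (hab : a ≠ b) (p : x.g * (e a).g * x.g⁻¹ = (e b).g) :
    Mn e x.g (swap a b) := fun l => by
  obtain ⟨z, -, -, h2, -, h4⟩ := Ed.swap c (f a b hab) p
  by_cases h1 : l = a
  · rw [h1, swap_apply_left, p]
  by_cases h3 : l = b
  · rw [h3, swap_apply_right, conj_of_line c h2]
  rw [swap_apply_of_ne_of_ne h1 h3,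
    Rt.comm_of_perp c (h4 _ (f _ _ (Ne.symm h1)) (f _ _ (Ne.symm h3))), mul_inv_cancel_right]

theorem Full.dd (H : Full k W G) (f : Fr e) : Dd e := fun a b x y h => by
  simp only [List.nodup_cons, List.mem_cons, not_or, List.not_mem_nil, ← ne_eq] at h
  obtain ⟨r, hr⟩ := H _ _ (f a b h.1.1)
  obtain ⟨s, hs⟩ := H _ _ (f x y h.2.2.1.1)
  exact ⟨_, (f.mn_swap c h.1.1 hr).mul (f.mn_swap c h.2.2.1.1 hs)⟩

theorem Full.half (H : Full k W G) (f : Fr e) {a b : Fin 5} (hab : a ≠ b) :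
    ∃ w : Rt k W G, (e a).φ w.v = 0 ∧ mu (e b) w = 1 ∧ w.g ≠ (e b).g := by
  obtain ⟨x, y, h1, h2, h3, h4, h5⟩ := (by decide : ∀ a b : Fin 5, ∃ x y, b ≠ x ∧ x ≠ a ∧ y ≠ a ∧ b ≠ y ∧
    x ≠ y) a b
  obtain ⟨r, hr⟩ := H _ _ (f b x h1)
  obtain ⟨-, -, -, -, -, k1⟩ := Ed.swap c (f b x h1) hr
  have k2 := k1 _ (f b y h4) (f x y h5)
  obtain ⟨s, hs⟩ := H _ _ k2
  obtain ⟨-, -, -, -, -, k3⟩ := Ed.swap c k2 hs
  refine ⟨s, Rt.symm c (k3 _ (k1 _ (f b a hab.symm) (f x a h2)) (f y a h3)), ?_, fun e1 =>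
    Rt.ne_of_perp c k2 ?_⟩
  swap
  · rw [e1, mul_inv_eq_iff_eq_mul, ← f.comm c (f.mem b) (f.mem y)] at hs
    exact mul_left_cancel hs
  have k4 := mu_swap c k2 hs (f y b h4.symm)
  have k5 := mu_swap c (f b x h1) hr (f x b h1.symm)
  rw [mu, mu, (e b).two] at k5
  exact mul_left_cancel₀ c.two (mul_left_cancel₀ c.two (by rw [k4, mu, k5, mul_one]))

/-- the double transposition given by a half-sum -/
theorem Fr.dt (f : Fr e) {m a b x y : Fin 5} (h : [m, a, b, x, y].Nodup) {w : Rt k W G}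
    (h0 : (e m).φ w.v = 0) (h1 : ∀ l, l ≠ m → (e l).φ w.v = 1 ∧ w.φ (e l).v = 1) :
    ∃ g : G, g • (e m).v = (e m).v ∧ g • (e a).v = (e b).v ∧ g • (e b).v = (e a).v ∧
      g • (e x).v = (e y).v ∧ g • (e y).v = (e x).v := by
  have hall := (by decide : ∀ m a b x y : Fin 5, [m, a, b, x, y].Nodup →
    (Finset.univ : Finset (Fin 5)) = {m, a, b, x, y}) m a b x y h
  simp only [List.nodup_cons, List.mem_cons, not_or, List.not_mem_nil, ← ne_eq] at h
  obtain ⟨⟨m1, m2, m3, m4, -⟩, ⟨a1, a2, a3, -⟩, ⟨b1, b2, -⟩, ⟨d1, -⟩, -⟩ := h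
  have hw := f.exp c w.v
  rw [hall, Finset.sum_insert (by simp [*]), Finset.sum_insert (by simp [*]), Finset.sum_insert (by simp [*]),
    Finset.sum_pair d1, h0, (h1 a m1.symm).1, (h1 b m2.symm).1, (h1 x m3.symm).1, (h1 y m4.symm).1] at hw
  have s0 := Rt.symm c h0
  have two := c.two
  have k1 := (h1 a m1.symm).2
  have k2 := (h1 b m2.symm).2
  have k3 := (h1 x m3.symm).2
  have k4 := (h1 y m4.symm).2
  refine ⟨w.g * (w.conj ((e x).g * (e y).g)).g * (e m).g, ?_, ?_, ?_, ?_, ?_⟩ <;>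
    simp only [Rt.conj_g, mul_inv_rev, Rt.inv c, mul_smul, f.act, w.act, smul_neg, smul_sub, smul_sm, map_neg,
      map_sub, map_smul, s0, k1, k2, k3, k4, ↓reduceIte, m1, m2, m3, m4, d1, m3.symm, m4.symm, a2.symm,
      a3.symm, b1.symm, b2.symm, d1.symm] <;>
    rw [hw] <;>
    simp only [smul_add, smul_sm, f.act, smul_neg, map_add, map_neg, map_smul, s0, k1, k2, k3, k4, ↓reduceIte,
      d1, m3.symm, m4.symm, a2.symm, a3.symm, b1.symm, b2.symm, d1.symm, smul_eq_mul] <;>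
    match_scalars <;> field_simp <;> ring

/-- normalisation of a frame by a half-sum -/
theorem Hf.norm {m : Fin 5} (H : Hf e m) : ∃ (x : Fin 5 → k) (hx : ∀ a, x a ≠ 0) (w : Rt k W G),
    ((e m).sc _ (hx m)).φ w.v = 0 ∧
      ∀ l, l ≠ m → ((e l).sc _ (hx l)).φ w.v = 1 ∧ w.φ ((e l).sc _ (hx l)).v = 1 := by
  obtain ⟨w, h0, h1⟩ := H
  have h2 : ∀ l, l ≠ m → (e l).φ w.v ≠ 0 := fun l hl => left_ne_zero_of_mul_eq_one (h1 l hl)
  refine ⟨fun l => if l = m then 1 else (e l).φ w.v, fun l => ?_, w, by simp [h0], fun l hl => ?_⟩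
  · by_cases hl : l = m <;> simp [hl, h2 l]
  · simpa [hl, h2 l hl, mu] using h1 l hl

theorem dd_of_hf (f : Fr e) (H : ∀ m, Hf e m) : Dd e := fun a b x y h => by
  obtain ⟨m, hm, hall⟩ := (by decide : ∀ a b x y : Fin 5, [a, b, x, y].Nodup → ∃ m, [m, a, b, x, y].Nodup ∧
    (swap a b * swap x y : Perm (Fin 5)) m = m ∧ (swap a b * swap x y : Perm (Fin 5)) a = b ∧
    (swap a b * swap x y : Perm (Fin 5)) b = a ∧ (swap a b * swap x y : Perm (Fin 5)) x = y ∧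
    (swap a b * swap x y : Perm (Fin 5)) y = x ∧ ∀ l, l = m ∨ l = a ∨ l = b ∨ l = x ∨ l = y) a b x y h
  obtain ⟨z, hz, w, h0, h1⟩ := (H m).norm c
  obtain ⟨g, g0, g1, g2, g3, g4⟩ := (f.sc z hz).dt c hm h0 h1
  have key : ∀ {l l'}, g • ((e l).sc _ (hz l)).v = ((e l').sc _ (hz l')).v → g * (e l).g * g⁻¹ = (e l').g :=
    fun h => conj_of_line c (a := (e _).sc _ _) (b := (e _).sc _ _) (h.trans (one_smul k _).symm)
  refine ⟨g, fun l => ?_⟩
  obtain ⟨k0, k1, k2, k3, k4, k5⟩ := hall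
  rcases k5 l with rfl | rfl | rfl | rfl | rfl
  exacts [k0.symm ▸ key g0, k1.symm ▸ key g1, k2.symm ▸ key g2, k3.symm ▸ key g3, k4.symm ▸ key g4]

theorem tl_of [Finite G] [IsAlgClosed k] (p : ℕ) [Fact p.Prime] [CharP k p] (f : Fr e) (hD : Dd e)
    (hH : ∀ a b, a ≠ b → ∃ w : Rt k W G, (e a).φ w.v = 0 ∧ mu (e b) w = 1 ∧ w.g ≠ (e b).g) : TL e :=
  fun g d hd a b => by
  by_cases hab : a = b
  · rw [hab]
  have key : ∀ {g : G} {d : Fin 5 → k} (a b x y z : Fin 5), [a, b, x, y, z].Nodup → Dg e g d →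
      ∃ g' d', Dg e g' d' ∧ d' a = d a / d b ∧ d' b = d b / d x ∧ d' x = d x / d a ∧ d' y = 1 ∧ d' z = 1 :=
    fun {g d} a b x y z h hd => by
    obtain ⟨n1, n2, n3⟩ := (by decide : ∀ a b x y z : Fin 5, [a, b, x, y, z].Nodup → [a, b, y, z].Nodup ∧
      [b, x, y, z].Nodup ∧ (fun π : Perm (Fin 5) => π a = b ∧ π b = x ∧ π x = a ∧ π y = y ∧ π z = z)
        (swap a b * swap y z * (swap b x * swap y z))) a b x y z h
    obtain ⟨u, hu⟩ := hD _ _ _ _ n1
    obtain ⟨v, hv⟩ := hD _ _ _ _ n2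
    refine ⟨_, _, hd.mul ((hd.conj c (hu.mul hv)).inv c), ?_⟩
    simp only [Perm.mul_apply] at n3
    simp only [Pi.mul_apply, Pi.inv_apply, Function.comp, Perm.mul_apply, n3, div_eq_mul_inv,
      mul_inv_cancel₀ (hd.ne c _), and_self]
  obtain ⟨x, y, z, n1, n2, n3, n4⟩ := (by decide : ∀ a b : Fin 5, a ≠ b → ∃ x y z, [a, b, x, y, z].Nodup ∧
    [a, y, z, b, x].Nodup ∧ z ≠ a ∧ ∀ l, l = z ∨ l = a ∨ l = y ∨ l = b ∨ l = x) a b hab
  obtain ⟨g1, d1, h1, k1, -, -, k2, k3⟩ := key _ _ _ _ _ n1 hd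
  obtain ⟨g2, d2, h2, k4, k5, -, k6, k7⟩ := key _ _ _ _ _ n2 h1
  obtain ⟨w, w1, w2, w3⟩ := hH z a n3
  have := homology p c (f z a n3) w1 w2 w3 (h2 z) (h2 a) fun v v1 v2 => by
    rw [f.exp c v, Finset.smul_sum]
    refine Finset.sum_congr rfl fun l _ => ?_
    rcases n4 l with rfl | rfl | rfl | rfl | rfl <;> simp [smul_sm, h2 _, *]
  rw [k4, k1, k2, div_one, div_pow, div_eq_one_iff_eq (pow_ne_zero 2 (hd.ne c b))] at this
  exact this

theorem Full.tl [Finite G] [IsAlgClosed k] (p : ℕ) [Fact p.Prime] [CharP k p] (H : Full k W G) (f : Fr e) :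
    TL e := tl_of c p f (H.dd c f) fun _ _ => H.half c f

theorem tl_of_hf [Finite G] [IsAlgClosed k] (p : ℕ) [Fact p.Prime] [CharP k p] (f : Fr e) (H : ∀ m, Hf e m) :
    TL e := tl_of c p f (dd_of_hf c f H) fun a b hab => (H a).imp fun w h => ⟨h.1, h.2 b hab.symm,
    fun e1 => by
      obtain ⟨l, h1, h2⟩ := (by decide : ∀ a b : Fin 5, ∃ l, l ≠ a ∧ l ≠ b) a b
      have := h.2 l h1
      rw [mu_symm, mu_congr c e1, mu, f b l h2.symm, zero_mul] at this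
      exact zero_ne_one this⟩

end CL.FR
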