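import Cfsg.Agent.CLAS.FiveRC1
import Cfsg.Agent.CLAS.FiveRM1

/-!
# Rich and poor planes
-/

set_option autoImplicit false
set_option linter.unusedSectionVars false

namespace CL.FR.RC

open Module RA

variable {k W G : Type*} [Field k] [AddCommGroup W] [Module k W] [Group G] [DistribMulAction G W]
  [SMulCommClass G k W] [Finite G] [IsAlgClosed k]

/-- a root of `S` in the plane of `i` -/
def In (S : Sylow 2 G) (i : G) (r : Rt k W G) : Prop := r.g ∈ S ∧ i • r.v = -r.v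

variable (k W) in
/-- the roots of `S` in the plane of `i` commute -/
def Po (S : Sylow 2 G) (i : G) : Prop :=
  ∀ a b : Rt k W G, In S i a → In S i b → a.g * b.g = b.g * a.g

variable (c : Ctx k W G) {S : Sylow 2 G} {i j g : G} {t a a' b d r x y : Rt k W G} {w : W}
  {e : Fin 5 → Rt k W G}
include c

theorem perp_of (ha : i • a.v = -a.v) (hw : i • w = w) : a.φ w = 0 := by
  have := Rt.φ_smul c (a := -1) (ha.trans (neg_one_smul k _).symm) w
  rw [hw] at this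
  exact (mul_eq_zero.1 (by linear_combination this : 2 * a.φ w = 0)).resolve_left c.two

theorem trans (h : Ed a b) (h' : Ed b d) (ab : b.φ a.v = 0) (ad : d.φ a.v = 0) (bd : b.φ d.v = 0) :
    Ed a d := by
  obtain ⟨z, hz⟩ := h'
  obtain ⟨-, -, -, -, -, h1⟩ := Ed.swap c bd hz
  exact (h.conj z.g).congr (mul_inv_eq_iff_eq_mul.2 (Rt.comm_of_perp c (h1 _ ab ad))).symm hz.symm

theorem two_of_comm (p : Pl k W i) (hr : i • r.v = -r.v) (ha : i • a.v = -a.v) (hb : i • b.v = -b.v)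
    (h1 : r.g * a.g = a.g * r.g) (h2 : r.g * b.g = b.g * r.g) : a.g * b.g = b.g * a.g := by
  obtain ⟨s, -, h3, h4⟩ := p.root c hr
  have := Rt.comm_of_perp c h4
  rcases p.root_eq c hr h3 h4 ha h1 with h | h <;> rcases p.root_eq c hr h3 h4 hb h2 with h' | h' <;>
    simp only [h, h', this]

theorem nc_of (p : Pl k W i) (h : ¬ Po k W S i) (hr : i • r.v = -r.v) :
    ∃ b : Rt k W G, In S i b ∧ r.g * b.g ≠ b.g * r.g := by
  by_contra! h1
  exact h fun a b ha hb => two_of_comm c p hr ha.2 hb.2 (h1 a ha) (h1 b hb)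

theorem rich (p : Pl k W i) (h : ¬ Po k W S i) (ha : In S i a) (ha' : i • a'.v = -a'.v)
    (e : a.φ a'.v = 0) : Ed a a' := by
  obtain ⟨b, hb, hn⟩ := nc_of c p h ha.2
  obtain ⟨m, h1, h2⟩ := ed_of_nc c ha.1 hb.1 hn
  have h3 : Commute i ((a.g * b.g) ^ m) :=
    (Commute.mul_right (p.comm c ha.2) (p.comm c hb.2)).pow_right m
  exact h2.congr rfl ((p.root_eq c ha.2 ha' e (r := a.conj ((a.g * b.g) ^ m)) (by
    rw [Rt.conj_v, ← mul_smul, h3.eq, mul_smul, ha.2, smul_neg]) (Rt.comm_of_perp c h1)).resolve_left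
      (Rt.ne_of_perp c h1).symm).symm

theorem partner (p : Pl k W i) (hi : i ∈ S) (ha : In S i a) :
    ∃ b : Rt k W G, In S i b ∧ a.φ b.v = 0 :=
  let ⟨b, h1, h2, h3⟩ := p.root c ha.2
  ⟨b, ⟨h1 ▸ mul_mem ha.1 hi, h2⟩, h3⟩

theorem edge_two (h : a.φ b.v = 0) (hx : x.g * a.g * x.g⁻¹ = b.g) :
    IsPGroup 2 (Subgroup.closure {a.g, x.g}) ∧ a.g * x.g ≠ x.g * a.g := by
  refine ⟨CL.RootInv.isPGroup_pair (a.sq c) (x.sq c) (k := 2) ?_, fun e => Rt.ne_of_perp c h (by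
    rw [← hx, ← e, mul_inv_cancel_right])⟩
  rw [← (Rt.pl_mul c h).1, ← hx, x.inv c, pow_two, pow_mul, pow_two, pow_two]
  simp only [mul_assoc]

omit c in
theorem nc_conj (h : a.g * b.g ≠ b.g * a.g) (g : G) :
    (a.conj g).g * (b.conj g).g ≠ (b.conj g).g * (a.conj g).g := fun e => h (by simpa using e)

omit c in
theorem comm_conj (h : a.g * b.g = b.g * a.g) (g : G) :
    (a.conj g).g * (b.conj g).g = (b.conj g).g * (a.conj g).g := by simpa using h

theorem not3 (p : Pl k W i) (ha : i • a.v = -a.v) (hb : i • b.v = -b.v) (hd : i • d.v = -d.v)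
    (ab : a.φ b.v = 0) (ad : a.φ d.v = 0) (bd : b.φ d.v = 0) : False :=
  (p.root_eq c ha hb ab hd (Rt.comm_of_perp c ad)).elim (Rt.ne_of_perp c ad).symm
    (Rt.ne_of_perp c bd).symm

omit c in
theorem pairs_aux {P Q : Fin 5 → Prop} {r r' : Fin 5 → Fin 5 → Prop} {m a b d k : Fin 5}
    (h : [m, a, b, d, k].Nodup) (h1 : ∀ x, x ≠ m → P x ∨ Q x)
    (p3 : ∀ x y z, x ≠ y → x ≠ z → y ≠ z → P x → P y → ¬ P z)
    (q3 : ∀ x y z, x ≠ y → x ≠ z → y ≠ z → Q x → Q y → ¬ Q z)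
    (hr : ∀ x y, x ≠ y → P x → P y → r x y) (hr' : ∀ x y, x ≠ y → Q x → Q y → r' x y) :
    (r a b ∧ r' d k ∨ r' a b ∧ r d k) ∨ (r a d ∧ r' b k ∨ r' a d ∧ r b k) ∨
      (r a k ∧ r' b d ∨ r' a k ∧ r b d) := by
  simp only [List.nodup_cons, List.mem_cons, not_or, List.not_mem_nil, ← ne_eq] at h
  obtain ⟨⟨m1, m2, m3, m4, -⟩, ⟨a1, a2, a3, -⟩, ⟨b1, b2, -⟩, ⟨d1, -⟩, -⟩ := h
  have := p3 a b d a1 a2 b1
  have := p3 a b k a1 a3 b2
  have := p3 a d k a2 a3 d1
  have := p3 b d k b1 b2 d1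
  have := q3 a b d a1 a2 b1
  have := q3 a b k a1 a3 b2
  have := q3 a d k a2 a3 d1
  have := q3 b d k b1 b2 d1
  rcases h1 a m1.symm with ha | ha <;> rcases h1 b m2.symm with hb | hb <;>
    rcases h1 d m3.symm with hd | hd <;> rcases h1 k m4.symm with hk | hk <;> simp_all

section Su

variable (s : Su S t i j)
include s

theorem planes (ha : a.g ∈ S) (hb : b.g ∈ S) (h : a.g * b.g ≠ b.g * a.g) :
    In S i a ∧ In S i b ∨ In S j a ∧ In S j b := by
  rcases s.root c ha with h1 | h1 | h1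
  · exact absurd (by rw [h1, s.cen _ hb]) h
  all_goals rcases s.root c hb with h2 | h2 | h2
  exacts [absurd (by rw [h2, s.cen _ ha]) h, .inl ⟨⟨ha, h1⟩, hb, h2⟩,
    absurd (Rt.comm_of_perp c (s.cross c h1 h2)) h, absurd (by rw [h2, s.cen _ ha]) h,
    absurd (Rt.comm_of_perp c (s.cross c h2 h1)).symm h, .inr ⟨⟨ha, h1⟩, hb, h2⟩]

theorem not_po_of_ed (h : a.φ b.v = 0) (h' : Ed a b) : ¬ Po k W S i ∨ ¬ Po k W S j := by
  obtain ⟨x, hx⟩ := h'
  obtain ⟨h1, h2⟩ := edge_two c h hx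
  obtain ⟨g, hg⟩ := CL.SylowAux.exists_conj_mem_sylow S h1
  exact (planes c s (a := a.conj g) (b := x.conj g) (hg _ (Subgroup.subset_closure (by simp)))
    (hg _ (Subgroup.subset_closure (by simp))) (nc_conj h2 g)).imp
      (fun h p => nc_conj h2 g (p _ _ h.1 h.2)) fun h p => nc_conj h2 g (p _ _ h.1 h.2)

theorem pairs (f : Fr e) {m a b d l : Fin 5} (h : [m, a, b, d, l].Nodup)
    {r : Fin 5 → Fin 5 → Prop} {r' : Fin 5 → Fin 5 → Prop}
    (hr : ∀ g : G, ∀ x y, x ≠ y → In S i ((e x).conj g) → In S i ((e y).conj g) → r x y)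
    (hr' : ∀ g : G, ∀ x y, x ≠ y → In S j ((e x).conj g) → In S j ((e y).conj g) → r' x y) :
    (r a b ∧ r' d l ∨ r' a b ∧ r d l) ∨ (r a d ∧ r' b l ∨ r' a d ∧ r b l) ∨
      (r a l ∧ r' b d ∨ r' a l ∧ r b d) := by
  obtain ⟨g, h1, h2⟩ := s.extr c (e m) (f.isP c) fun x hx => f.comm c hx (f.mem m)
  have f' := f.conj g
  have n3 : ∀ {i : G}, Pl k W i → ∀ x y z, x ≠ y → x ≠ z → y ≠ z → In S i ((e x).conj g) →
      In S i ((e y).conj g) → ¬ In S i ((e z).conj g) := fun p x y z h1 h2 h3 a b d =>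
    not3 c p a.2 b.2 d.2 (f' x y h1) (f' x z h2) (f' y z h3)
  exact pairs_aux h (fun x hx => ((s.root c (r := (e x).conj g) (h2 _ (f.mem x))).resolve_left fun e =>
    hx (f'.inj c (e.trans h1.symm))).imp (⟨h2 _ (f.mem x), ·⟩) (⟨h2 _ (f.mem x), ·⟩))
    (n3 s.pi) (n3 s.pj) (hr g) (hr' g)

theorem has (f : Fr e) : ∃ a : Rt k W G, In S i a := by
  have := pairs c s f (m := 0) (a := 1) (b := 2) (d := 3) (l := 4) (by decide)
    (r := fun _ _ => ∃ a : Rt k W G, In S i a) (r' := fun _ _ => True) (fun _ _ _ _ h _ => ⟨_, h⟩)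
    fun _ _ _ _ _ _ => trivial
  simpa using this

theorem frame (ha : i • a.v = -a.v) (ha' : i • a'.v = -a'.v) (h : a.φ a'.v = 0) (hb : j • b.v = -b.v)
    (hd : j • d.v = -d.v) (h' : b.φ d.v = 0) : Fr ![t, a, a', b, d] :=
  fr_of c (s.perp c ha) (s.perp c ha') ((s.symm c).perp c hb) ((s.symm c).perp c hd) h (s.cross c ha hb)
    (s.cross c ha hd) (s.cross c ha' hb) (s.cross c ha' hd) h'

theorem ed_of (h : ¬ Po k W S i) (f : Fr e) (g : G) (x y : Fin 5) (h1 : x ≠ y)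
    (h2 : In S i ((e x).conj g)) (h3 : In S i ((e y).conj g)) : Ed (e x) (e y) :=
  ((rich c s.pi h h2 h3.2 (f.conj g x y h1)).conj g⁻¹).congr (by simp [mul_assoc]) (by simp [mul_assoc])

theorem all_edges (hi : ¬ Po k W S i) (hj : ¬ Po k W S j) (f : Fr e) : Ed (e 0) (e 1) := by
  have h := fun m a b d l (h : [m, a, b, d, l].Nodup) =>
    pairs c s f h (ed_of c s hi f) (ed_of c (s.symm c) hj f)
  have h0 := h 0 1 2 3 4 (by decide)
  have h1 := h 1 0 2 3 4 (by decide)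
  have h2 := h 2 0 1 3 4 (by decide)
  have h3 := h 3 0 1 2 4 (by decide)
  have h4 := h 4 0 1 2 3 (by decide)
  have sy : ∀ a b, Ed (e a) (e b) → Ed (e b) (e a) := fun a b h => h.symm c
  have tr : ∀ a b d, a ≠ b → a ≠ d → Ed (e a) (e b) → Ed (e b) (e d) → Ed (e a) (e d) :=
    fun a b d h1 h2 h3 h4 => by
      by_cases h5 : b = d
      · exact h5 ▸ h3
      · exact trans c h3 h4 (f b a h1.symm) (f d a h2.symm) (f b d h5)
  clear h
  generalize hr : (fun a b => Ed (e a) (e b)) = r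
  have hr' : ∀ a b, Ed (e a) (e b) = r a b := fun a b => by rw [← hr]
  simp only [hr', or_self] at h0 h1 h2 h3 h4 sy tr ⊢
  grind

theorem full (hi : ¬ Po k W S i) (hj : ¬ Po k W S j) (f : Fr e) : Full k W G := fun a b h => by
  obtain ⟨g, h1, h2⟩ := s.extr c a (CL.SylowAux.isPGroup_zpowers_two (b.sq c)) (by
    rintro _ ⟨n, rfl⟩; exact (Commute.zpow_right (Rt.comm_of_perp c h) n).symm)
  have key : ∀ {i j : G}, Su S t i j → ¬ Po k W S i → ¬ Po k W S j → i • (b.conj g).v = -(b.conj g).v →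
      Ed t (b.conj g) := fun s hi hj h3 => by
    obtain ⟨b', -, h4, h5⟩ := s.pi.root c h3
    obtain ⟨d, hd⟩ := has c (s.symm c) f
    obtain ⟨d', -, h6, h7⟩ := s.pj.root c hd.2
    exact all_edges c s hi hj (frame c s h3 h4 h5 hd.2 h6 h7)
  have : Ed t (b.conj g) := by
    rcases s.root c (r := b.conj g) (h2 _ (Subgroup.mem_zpowers _)) with h3 | h3 | h3
    · exact absurd (by simpa using h1.trans h3.symm) (Rt.ne_of_perp c h)
    · exact key s hi hj h3
    · exact key (s.symm c) hj hi h3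
  exact (this.conj g⁻¹).congr (by simp [← h1, mul_assoc]) (by simp [mul_assoc])

end Su

/-- two roots interchanging the same orthogonal pair -/
theorem hom_case (p : ℕ) [Fact p.Prime] [CharP k p] {z : Rt k W G} (f : Fr ![x, y, z, a, a'])
    (hb : b.g * a.g * b.g⁻¹ = a'.g) (hd : d.g * a.g * d.g⁻¹ = a'.g) (h1 : Ed a' x) (h2 : Ed b y) :
    b.g * d.g = d.g * b.g := by
  have aa : a.φ a'.v = 0 := f 3 4 (by decide)
  have ax : a.φ x.v = 0 := f 3 0 (by decide)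
  have ay : a.φ y.v = 0 := f 3 1 (by decide)
  have az : a.φ z.v = 0 := f 3 2 (by decide)
  have a'x : a'.φ x.v = 0 := f 4 0 (by decide)
  have a'y : a'.φ y.v = 0 := f 4 1 (by decide)
  have a'z : a'.φ z.v = 0 := f 4 2 (by decide)
  obtain ⟨β, hβ, b1, b2, -, b3⟩ := Ed.swap c aa hb
  obtain ⟨δ, hδ, d1, d2, -, d3⟩ := Ed.swap c aa hd
  obtain ⟨u, hu⟩ := h1
  obtain ⟨κ, hκ, u1, u2, -, u3⟩ := Ed.swap c a'x hu
  obtain ⟨w, hw⟩ := h2
  obtain ⟨-, -, -, -, -, w3⟩ := Ed.swap c (b3 _ ay a'y) hw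
  have g1 : (b.g * d.g) • a.v = (δ * β⁻¹) • a.v := by rw [mul_smul, d1, smul_sm, b2, smul_smul]
  have g2 : (b.g * d.g) • a'.v = (δ⁻¹ * β) • a'.v := by rw [mul_smul, d2, smul_sm, b1, smul_smul]
  have gx := Rt.mul_fix (b3 _ ax a'x) (d3 _ ax a'x)
  have gy := Rt.mul_fix (b3 _ ay a'y) (d3 _ ay a'y)
  have gz := Rt.mul_fix (b3 _ az a'z) (d3 _ az a'z)
  have ua := u.perp (u3 _ (Rt.symm c aa) (Rt.symm c ax))
  have uy := u.perp (u3 _ a'y (f 0 1 (by decide)))
  have uz := u.perp (u3 _ a'z (f 0 2 (by decide)))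
  have m1 : mu a b = 2 := by
    have := congrArg a.φ b1
    rw [b.act, map_sub, map_smul, map_smul, aa, a.two, smul_zero, smul_eq_mul] at this
    rw [mu]; linear_combination this
  have key := homology p c (t := x) (y := a) (w := w) (Rt.symm c ax)
    (Rt.symm c (w3 _ (b3 _ ax a'x) (f 1 0 (by decide))))
    (mul_left_cancel₀ c.two (by rw [mu_swap c (b3 _ ay a'y) hw (Rt.symm c ay), m1, mul_one]))
    (fun e => Rt.ne_of_perp c (b3 _ ay a'y) (by
      rw [e, mul_inv_eq_iff_eq_mul, ← Rt.comm_of_perp c ay] at hw; exact mul_left_cancel hw))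
    (g := u.g * (b.g * d.g) * u.g⁻¹) (γ := δ * β⁻¹) (δ := δ⁻¹ * β) ?_ ?_ fun v h1 h2 => ?_
  · have h : δ * β⁻¹ * (δ * β⁻¹) = 1 := by rw [← key, pow_two]
    have h' : δ⁻¹ * β * (δ⁻¹ * β) = 1 := by
      rw [← inv_inv β, ← mul_inv, ← mul_inv, h, inv_one]
    have : b.g * d.g * (b.g * d.g) = 1 := f.ext c fun l => by
      fin_cases l <;> simp [mul_smul (b.g * d.g), gx, gy, gz, g1, g2, smul_sm, smul_smul, h, h']
    rw [eq_inv_of_mul_eq_one_left this, mul_inv_rev, b.inv c, d.inv c]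
  all_goals rw [u.inv c]
  all_goals generalize b.g * d.g = g at g1 g2 gx gy gz
  · rw [mul_smul, mul_smul, u2, smul_sm, g2, smul_sm, smul_sm, u1, smul_comm, inv_smul_smul₀ hκ]
  · rw [mul_smul, mul_smul, ua, smul_neg, g1, smul_neg, smul_sm, ua, smul_neg, neg_neg]
  · rw [f.exp c v]
    simp [Fin.sum_univ_five, h1, h2, mul_smul, smul_sm, uy, uz, gy, gz, u1, gx, u2, hκ]

omit c in
theorem pow_or_pow {γ δ : k} {n m : ℕ} (h : γ ^ 2 ^ n = 1) (h' : δ ^ 2 ^ m = 1) :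
    (∃ l : ℕ, δ = γ ^ l) ∨ ∃ l : ℕ, γ = δ ^ l := by
  obtain ⟨a, -, ha⟩ := (Nat.dvd_prime_pow Nat.prime_two).1 (orderOf_dvd_of_pow_eq_one h)
  obtain ⟨b, -, hb⟩ := (Nat.dvd_prime_pow Nat.prime_two).1 (orderOf_dvd_of_pow_eq_one h')
  have key : ∀ {γ δ : k} {a b : ℕ}, orderOf γ = 2 ^ a → orderOf δ = 2 ^ b → b ≤ a → ∃ l : ℕ, δ = γ ^ l :=
    fun {γ δ a b} ha hb h => by
      have : NeZero (orderOf γ) := ⟨by rw [ha]; positivity⟩
      obtain ⟨l, -, hl⟩ := (IsPrimitiveRoot.orderOf γ).eq_pow_of_pow_eq_one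
        (orderOf_dvd_iff_pow_eq_one.1 (ha ▸ hb ▸ pow_dvd_pow 2 h : orderOf δ ∣ orderOf γ))
      exact ⟨l, hl.symm⟩
  exact (le_total b a).imp (key ha hb) (key hb ha)

theorem conj_of_pow {m : ℕ} (h : a.g * d.g = (a.g * b.g) ^ m) :
    ∃ g : G, (∀ z : G, Commute z a.g → Commute z b.g → Commute z g) ∧
      (d.g = g * a.g * g⁻¹ ∨ d.g = g * b.g * g⁻¹) := by
  have h3 : ∀ n : ℕ, a.g * (a.g * b.g) ^ n = ((a.g * b.g) ^ n)⁻¹ * a.g := fun n => by
    rw [← mul_inv_eq_iff_eq_mul, ← conj_pow, ← _root_.inv_pow, mul_inv_rev, b.inv c, ← mul_assoc,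
      a.sq c, one_mul]
  have h4 : d.g = a.g * (a.g * b.g) ^ m := by rw [← h, ← mul_assoc, a.sq c, one_mul]
  rcases Nat.even_or_odd' m with ⟨l, rfl | rfl⟩ <;>
    refine ⟨((a.g * b.g) ^ l)⁻¹, fun z h1 h2 => ((h1.mul_right h2).pow_right l).inv_right, ?_⟩
  · exact .inl (by rw [h4, two_mul, pow_add, ← mul_assoc, h3, inv_inv])
  · exact .inr (by
      rw [h4, two_mul, add_assoc, pow_add, ← mul_assoc, h3, inv_inv, pow_succ', ← mul_assoc, ← mul_assoc,
        mul_assoc _ a.g a.g, a.sq c, mul_one])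

/-- three pairwise non-adjacent third vertices do not occur -/
theorem three_types (p : ℕ) [Fact p.Prime] [CharP k p] (q : Pl k W j) (hj : j ∈ S) (hP : ¬ Po k W S j)
    {x a : Fin 3 → Rt k W G} (hx : ∀ m n, m ≠ n → (x m).φ (x n).v = 0)
    (hn : ∀ m n, m ≠ n → ¬ Ed (x m) (x n)) (fx : ∀ m, j • (x m).v = (x m).v) (ha : ∀ m, In S j (a m))
    (he : ∀ m, Ed (a m) (x m)) : False := by
  have := c.fd
  have px : ∀ {r : Rt k W G}, j • r.v = -r.v → ∀ m, r.φ (x m).v = 0 := fun h m => perp_of c h (fx m)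
  have one : ∀ m n, m ≠ n → ∀ r : Rt k W G, j • r.v = -r.v → Ed r (x m) → ¬ Ed r (x n) :=
    fun m n h r hr h1 h2 => hn n m h.symm (trans c (h2.symm c) h1 (px hr n) (hx m n h) (px hr m))
  choose a' ha' aa using fun m => partner c q hj (ha m)
  have he' : ∀ m, Ed (a' m) (x m) := fun m => trans c ((rich c q hP (ha m) (ha' m).2 (aa m)).symm c)
    (he m) (aa m) (Rt.symm c (px (ha' m).2 m)) (px (ha m).2 m)
  have nc : ∀ m n, m ≠ n → (a m).g * (a n).g ≠ (a n).g * (a m).g := fun m n h e =>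
    (q.root_eq c (ha m).2 (ha' m).2 (aa m) (ha n).2 e).elim
      (fun e => one m n h _ (ha n).2 ((he m).congr e rfl) (he n))
      fun e => one m n h _ (ha n).2 ((he' m).congr e rfl) (he n)
  have fr : ∀ m n l u, m ≠ n → m ≠ l → n ≠ l → Fr ![x m, x n, x l, a u, a' u] := fun m n l u h1 h2 h3 =>
    fr_of c (hx _ _ h1) (hx _ _ h2) (Rt.symm c (px (ha u).2 _)) (Rt.symm c (px (ha' u).2 _)) (hx _ _ h3)
      (Rt.symm c (px (ha u).2 _)) (Rt.symm c (px (ha' u).2 _)) (Rt.symm c (px (ha u).2 _))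
      (Rt.symm c (px (ha' u).2 _)) (aa u)
  have aD : ∀ m, (a m).g ∈ (S : Subgroup G) ⊓ Subgroup.centralizer {j} := fun m =>
    ⟨(ha m).1, Subgroup.mem_centralizer_singleton_iff.2 (q.comm c (ha m).2).symm⟩
  rcases split c (S := (S : Subgroup G) ⊓ Subgroup.centralizer {j}) S.isPGroup'.to_inf_left
    (U := eig k W j (-1)) (fun g hg w hw => mem_neg.2 (by
      rw [← mul_smul, ← Subgroup.mem_centralizer_singleton_iff.1 hg.2, mul_smul, mem_neg.1 hw,
        smul_neg])) with h | ⟨U, V, h1, h2, h3, h4, h5⟩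
  · obtain ⟨y, hy⟩ := h _ (aD 0)
    exact nc 0 1 (by decide) ((Rt.comm_iff c).2 ⟨y, hy _ (mem_neg.2 (ha 1).2)⟩)
  have e := Submodule.finrank_sup_add_finrank_inf_eq U V
  rw [h3.eq_bot, finrank_bot, add_zero, h4, q.2] at e
  have p1 := Nat.pos_of_ne_zero (mt Submodule.finrank_eq_zero.1 h1)
  have p2 := Nat.pos_of_ne_zero (mt Submodule.finrank_eq_zero.1 h2)
  obtain ⟨⟨u, hu⟩, u0, u1⟩ := finrank_eq_one_iff'.1 (show finrank k U = 1 by omega)
  obtain ⟨⟨v, hv⟩, v0, v1⟩ := finrank_eq_one_iff'.1 (show finrank k V = 1 by omega)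
  replace u0 : u ≠ 0 := fun h => u0 (Subtype.ext h)
  replace u1 : ∀ w ∈ U, ∃ y : k, w = y • u := fun w hw =>
    (u1 ⟨w, hw⟩).imp fun _ h => (congrArg Subtype.val h).symm
  replace v1 : ∀ w ∈ V, ∃ y : k, w = y • v := fun w hw =>
    (v1 ⟨w, hw⟩).imp fun _ h => (congrArg Subtype.val h).symm
  have ext : ∀ {g g' : G}, (∀ m, g • (x m).v = g' • (x m).v) → g • u = g' • u → g • v = g' • v →
      g = g' := fun {g g'} k1 k2 k3 => by
    have key : ∀ w : W, j • w = -w → g • w = g' • w := fun w hw => by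
      obtain ⟨y, hy, z, hz, rfl⟩ := Submodule.mem_sup.1 (h4.ge (mem_neg.2 hw))
      obtain ⟨y, rfl⟩ := u1 y hy
      obtain ⟨z, rfl⟩ := v1 z hz
      simp only [smul_add, smul_sm, k2, k3]
    refine (fr 0 1 2 0 (by decide) (by decide) (by decide)).ext c fun l => ?_
    fin_cases l
    exacts [k1 0, k1 1, k1 2, key _ (ha 0).2, key _ (ha' 0).2]
  have ax : ∀ m n, (a m).g • (x n).v = -(x n).v := fun m n => (a m).perp (px (ha m).2 n)
  let D : Fin 3 → Prop := fun m => ∃ y z : k, (a m).g • u = y • u ∧ (a m).g • v = z • v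
  let E : Fin 3 → Prop := fun m => ∃ y : k, y ≠ 0 ∧ (a m).g • u = y • v ∧ (a m).g • v = y⁻¹ • u
  have de : ∀ m, D m ∨ E m := fun m => (h5 _ (aD m)).imp (fun h =>
    let ⟨y, hy⟩ := u1 _ (h.1 u hu); let ⟨z, hz⟩ := v1 _ (h.2 v hv); ⟨y, z, hy, hz⟩) fun h => by
      obtain ⟨y, hy⟩ := v1 _ (h.1 u hu)
      have y0 : y ≠ 0 := fun h0 => u0 ((smul_eq_zero_iff_eq (a m).g).1 (by rw [hy, h0, zero_smul]))
      exact ⟨y, y0, hy, by rw [eq_inv_smul_iff₀ y0, ← smul_sm, ← hy, ← mul_smul, (a m).sq c, one_smul]⟩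
  have dd : ∀ m n, m ≠ n → D m → ¬ D n := by
    rintro m n h ⟨y, z, k1, k2⟩ ⟨y', z', k3, k4⟩
    exact nc m n h (ext (fun l => by simp [mul_smul, ax]) (by
      simp only [mul_smul, k1, k3, smul_sm]; rw [smul_comm]) (by
      simp only [mul_smul, k2, k4, smul_sm]; rw [smul_comm]))
  have sw : ∀ m n, m ≠ n → D m → E n → (a n).g * (a m).g * (a n).g⁻¹ = (a' m).g := by
    rintro m n h ⟨y, z, k1, k2⟩ ⟨y', y0, k3, k4⟩
    refine (q.root_eq c (ha m).2 (ha' m).2 (aa m) (r := (a m).conj (a n).g) (by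
      rw [Rt.conj_v, ← mul_smul, q.comm c (ha n).2, mul_smul, (ha m).2, smul_neg]) ?_).resolve_left
        fun e => nc n m h.symm (mul_inv_eq_iff_eq_mul.1 e)
    rw [Rt.conj_g, (a n).inv c]
    exact ext (fun l => by simp [mul_smul, ax]) (by
      simp only [mul_smul, k1, k2, k3, k4, smul_sm]; module) (by
      simp only [mul_smul, k1, k2, k3, k4, smul_sm]; module)
  have c1 : ∀ m n l, m ≠ n → m ≠ l → n ≠ l → D m → False := fun m n l h1 h2 h3 h =>
    nc n l h3 (hom_case c p (fr m n l m h1 h2 h3)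
      (sw m n h1 h ((de n).resolve_left (dd m n h1 h))) (sw m l h2 h ((de l).resolve_left (dd m l h2 h)))
      (he' m) (he n))
  obtain ⟨y0, z0, k0, l0⟩ := (de 0).resolve_left (c1 0 1 2 (by decide) (by decide) (by decide))
  obtain ⟨y1, z1, k1, l1⟩ := (de 1).resolve_left (c1 1 0 2 (by decide) (by decide) (by decide))
  obtain ⟨y2, z2, k2, l2⟩ := (de 2).resolve_left (c1 2 0 1 (by decide) (by decide) (by decide))
  have pw : ∀ {g : G} {w : W} {y : k}, g • w = y • w → ∀ n : ℕ, g ^ n • w = y ^ n • w := fun h n => by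
    induction n with
    | zero => simp
    | succ n ih => rw [pow_succ, mul_smul, h, smul_sm, ih, smul_smul, pow_succ']
  have act : ∀ {n : Fin 3} {y : k}, (a n).g • u = y • v → (a n).g • v = y⁻¹ • u →
      ((a 0).g * (a n).g) • u = (y * y0⁻¹) • u ∧ ((a 0).g * (a n).g) • v = (y * y0⁻¹)⁻¹ • v ∧
        ∃ l : ℕ, (y * y0⁻¹) ^ 2 ^ l = 1 := fun {n y} k' l => by
    have h : ((a 0).g * (a n).g) • u = (y * y0⁻¹) • u := by rw [mul_smul, k', smul_sm, l0, smul_smul]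
    refine ⟨h, by rw [mul_smul, l, smul_sm, k0, smul_smul, mul_inv, inv_inv],
      (exists_pow (mul_mem (ha 0).1 (ha n).1)).imp fun l hl => smul_left_injective k u0 ?_⟩
    simpa [hl] using (pw h (2 ^ l)).symm
  have fin : ∀ {m n : Fin 3} {γ δ : k} {l : ℕ}, m ≠ n → 0 ≠ n → ((a 0).g * (a m).g) • u = γ • u →
      ((a 0).g * (a m).g) • v = γ⁻¹ • v → ((a 0).g * (a n).g) • u = δ • u →
      ((a 0).g * (a n).g) • v = δ⁻¹ • v → δ = γ ^ l → False := fun {m n γ δ l} h1 h2 k1 k2 k3 k4 h => by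
    obtain ⟨g, g1, g2⟩ := conj_of_pow c (a := a 0) (b := a m) (d := a n) (m := l) (ext (fun r => by
      rw [pw (y := 1) (by simp [mul_smul, ax]), one_pow, one_smul]; simp [mul_smul, ax])
      (by rw [k3, pw k1, h]) (by rw [k4, pw k2, h, _root_.inv_pow]))
    have key : ∀ r, r ≠ n → (a n).g ≠ g * (a r).g * g⁻¹ := fun r hr e =>
      one r n hr _ (ha n).2 (((he r).conj g).congr e (mul_inv_eq_iff_eq_mul.2 (g1 _
        (Rt.comm_of_perp c (px (ha 0).2 r)).symm (Rt.comm_of_perp c (px (ha m).2 r)).symm).symm).symm) (he n)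
    exact g2.elim (key _ h2) (key _ h1)
  obtain ⟨r1, r2, _, r3⟩ := act k1 l1
  obtain ⟨s1, s2, _, s3⟩ := act k2 l2
  rcases pow_or_pow r3 s3 with ⟨l, h⟩ | ⟨l, h⟩
  · exact fin (by decide) (by decide) r1 r2 s1 s2 h
  · exact fin (by decide) (by decide) s1 s2 r1 r2 h

/-- a rich plane and a poor plane do not occur together -/
theorem one_side (p : ℕ) [Fact p.Prime] [CharP k p] (s : Su S t i j) (hi : Po k W S i)
    (hj : ¬ Po k W S j) (f : Fr e) : False := by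
  have s' := s.symm c
  obtain ⟨a, ha⟩ := has c s' f
  obtain ⟨b, hb, ab⟩ := nc_of c s.pj hj ha.2
  have pj : ∀ {a b : Rt k W G}, a.g ∈ S → b.g ∈ S → a.g * b.g ≠ b.g * a.g → In S j a ∧ In S j b :=
    fun h1 h2 h3 => (planes c s h1 h2 h3).resolve_left fun h => h3 (hi _ _ h.1 h.2)
  have nE : ∀ {y y' : Rt k W G}, i • y.v = -y.v → i • y'.v = -y'.v → y.φ y'.v = 0 → ¬ Ed y y' := by
    rintro y y' h1 h2 h3 ⟨x, hx⟩
    obtain ⟨-, -, -, -, -, h4⟩ := Ed.swap c h3 hx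
    obtain ⟨h5, h6⟩ := edge_two c h3 hx
    have ya := Rt.comm_of_perp c (s.cross c h1 ha.2)
    have yb := Rt.comm_of_perp c (s.cross c h1 hb.2)
    have xa := Rt.comm_of_perp c (h4 _ (s.cross c h1 ha.2) (s.cross c h2 ha.2))
    have xb := Rt.comm_of_perp c (h4 _ (s.cross c h1 hb.2) (s.cross c h2 hb.2))
    obtain ⟨g, hg⟩ := CL.SylowAux.exists_conj_mem_sylow S (h5.to_sup_of_normal_right'
      (K := Subgroup.closure {a.g, b.g}) (S.isPGroup'.to_le ((Subgroup.closure_le _).2 (by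
        rintro _ (rfl | rfl); exacts [ha.1, hb.1]))) (((Subgroup.closure_le _).2 (by
          rintro _ (rfl | rfl) <;> rw [SetLike.mem_coe, Subgroup.centralizer_closure] <;>
            rintro _ (rfl | rfl)
          exacts [ya.symm, yb.symm, xa.symm, xb.symm])).trans (Subgroup.centralizer_le_normalizer _)))
    have k1 := pj (a := y.conj g) (b := x.conj g)
      (hg _ (Subgroup.mem_sup_left (Subgroup.subset_closure (by simp))))
      (hg _ (Subgroup.mem_sup_left (Subgroup.subset_closure (by simp)))) (nc_conj h6 g)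
    have k2 := pj (a := a.conj g) (b := b.conj g)
      (hg _ (Subgroup.mem_sup_right (Subgroup.subset_closure (by simp))))
      (hg _ (Subgroup.mem_sup_right (Subgroup.subset_closure (by simp)))) (nc_conj ab g)
    exact nc_conj ab g (two_of_comm c s.pj k1.1.2 k2.1.2 k2.2.2 (comm_conj ya g) (comm_conj yb g))
  have tr : ∀ {y y' : Rt k W G}, In S i y → In S i y' → y.φ y'.v = 0 → ¬ Ed t y' ∧
      (∀ a, In S j a → Ed a y → ∃ a', In S j a' ∧ Ed a' t) ∧
        ∀ a, In S j a → Ed a t → ∃ a', In S j a' ∧ Ed a' y := by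
    intro y y' hy hy' yy
    obtain ⟨g, h3, h4⟩ := s.extr c y (Q := (S : Subgroup G) ⊓ Subgroup.centralizer {y.g})
      S.isPGroup'.to_inf_left fun x hx => Subgroup.mem_centralizer_singleton_iff.1 hx.2
    have k0 : ∀ {r : Rt k W G}, r.g ∈ S → y.φ r.v = 0 → (r.conj g).g ∈ S := fun h1 h2 =>
      h4 _ ⟨h1, Subgroup.mem_centralizer_singleton_iff.2 (Rt.comm_of_perp c h2).symm⟩
    have k1 : ∀ a, In S j a → In S j (a.conj g) := fun a ha => by
      obtain ⟨b, hb, ab⟩ := nc_of c s.pj hj ha.2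
      exact (pj (k0 ha.1 (s.cross c hy.2 ha.2)) (k0 hb.1 (s.cross c hy.2 hb.2)) (nc_conj ab g)).1
    have k2 : ∀ {r : Rt k W G}, r.g ∈ S → y.φ r.v = 0 → j • r.v = r.v →
        i • (r.conj g).v = -(r.conj g).v := fun {r} h1 h2 h5 => by
      rcases s.root c (k0 h1 h2) with h | h | h
      · exact absurd (by simpa using h3.trans h.symm) (Rt.ne_of_perp c h2)
      · exact h
      · exact (nc_conj ab g (two_of_comm c s.pj h (k1 a ha).2 (k1 b hb).2
          (comm_conj (Rt.comm_of_perp c (perp_of c ha.2 h5)).symm g)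
          (comm_conj (Rt.comm_of_perp c (perp_of c hb.2 h5)).symm g))).elim
    refine ⟨fun h => nE (k2 (s.tS c) (perp_of c hy.2 s.it) s.jt) (k2 hy'.1 yy (s.fix_j c hy'.2))
      (by simpa using s.perp c hy'.2) (h.conj g), fun a h1 h2 => ⟨_, k1 a h1, (h2.conj g).congr rfl h3.symm⟩,
      fun a h1 h2 => ?_⟩
    have k3 : ∀ n : ℕ, In S j (a.conj (g ^ n)) := fun n => by
      induction n with
      | zero => simpa [In] using h1
      | succ n ih => simpa [In, pow_succ', mul_smul, mul_assoc] using k1 _ ih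
    refine ⟨a.conj g⁻¹, ?_, (h2.conj g⁻¹).congr rfl (by simp [← h3, mul_assoc])⟩
    rw [inv_eq_of_mul_eq_one_right (a := g) (b := g ^ (orderOf g - 1)) (by
      rw [← pow_succ', Nat.sub_add_cancel (orderOf_pos g), pow_orderOf_eq_one])]
    exact k3 _
  obtain ⟨y, hy⟩ := has c s f
  obtain ⟨z, hz, yz⟩ := partner c s.pi s.iS hy
  obtain ⟨a', ha', aa⟩ := partner c s.pj s.jS ha
  obtain ⟨nz, yt, ty⟩ := tr hy hz yz
  obtain ⟨ny, zt, tz⟩ := tr hz hy (Rt.symm c yz)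
  have nyz := nE hy.2 hz.2 yz
  have F := frame c s hy.2 hz.2 yz ha.2 ha'.2 aa
  obtain ⟨a₁, x1, e1⟩ : ∃ a', In S j a' ∧ Ed a' t := by
    have := pairs c s F (m := 4) (a := 0) (b := 1) (d := 2) (l := 3) (by decide)
      (r := fun _ _ => True) (fun _ _ _ _ _ _ => trivial) (ed_of c s' hj F)
    simp only [and_true, true_and] at this
    rcases this with (h | h) | (h | h) | h | h
    exacts [zt a ha (h.symm c), (ny h).elim, yt a ha (h.symm c), (nz h).elim, (nyz h).elim,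
      ⟨a, ha, h.symm c⟩]
  obtain ⟨a₂, x2, e2⟩ := ty a₁ x1 e1
  obtain ⟨a₃, x3, e3⟩ := tz a₁ x1 e1
  refine three_types c p s.pj s.jS hj (x := ![t, y, z]) (a := ![a₁, a₂, a₃]) (fun m n h => ?_)
    (fun m n h => ?_) (fun m => ?_) (fun m => ?_) fun m => ?_
  · fin_cases m <;> fin_cases n
    exacts [absurd rfl h, F 0 1 (by decide), F 0 2 (by decide), F 1 0 (by decide), absurd rfl h, yz,
      F 2 0 (by decide), F 2 1 (by decide), absurd rfl h]
  · fin_cases m <;> fin_cases n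
    exacts [absurd rfl h, ny, nz, fun e => ny (e.symm c), absurd rfl h, nyz, fun e => nz (e.symm c),
      fun e => nyz (e.symm c), absurd rfl h]
  all_goals fin_cases m
  exacts [s.jt, s.fix_j c hy.2, s.fix_j c hz.2, x1, x2, x3, e1, e2, e3]

end CL.FR.RC
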