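import Cfsg.Agent.CLAS.L3Max5
import Cfsg.Agent.CLAS.Four6
import Cfsg.Agent.S4208

/-!
# Maximal subgroups in dimension five: frames, field extensions, subfields and forms
-/

set_option autoImplicit false
set_option maxHeartbeats 200000

namespace CL.T5

open Matrix Cfsg Cfsg.Geo CL.Asch CL.ElusL Polynomial
open scoped commutatorElement

variable {F : Type*} [Field F]

/-- The general linear group of dimension five. -/
abbrev G5 (F : Type*) [Field F] := GL (Fin 5) F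

/-- The special linear group of dimension five. -/
abbrev S5 (F : Type*) [Field F] : Subgroup (G5 F) := specialLinear (Fin 5) F

theorem cj_inf (g : G5 F) (A B : Subgroup (G5 F)) : cj g (A ⊓ B) = cj g A ⊓ cj g B :=
  Subgroup.map_inf _ _ _ (MulAut.conj g).injective

theorem cj_eq_of_mem {A : Subgroup (G5 F)} {g : G5 F} (hg : g ∈ A) : cj g A = A := by
  ext x
  rw [mem_cj, A.mul_mem_cancel_right hg, A.mul_mem_cancel_left (A.inv_mem hg)]

theorem cj_S5 (g : G5 F) : cj g (S5 F) = S5 F := by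
  ext x
  rw [mem_cj, mem_SL, mem_SL, Units.val_mul, Units.val_mul, det_units_conj']

theorem card_cj (g : G5 F) (A : Subgroup (G5 F)) : Nat.card (cj g A) = Nat.card A :=
  Subgroup.card_map_of_injective (MulAut.conj g).injective

theorem cj_mono (g : G5 F) {A B : Subgroup (G5 F)} (h : A ≤ B) : cj g A ≤ cj g B := Subgroup.map_mono h

theorem max_cj {S H : Subgroup (G5 F)} {P : G5 F} (hS : cj P S = S) (h : IsMaximalIn S H) :
    IsMaximalIn S (cj P H) := by
  have e : ∀ A : Subgroup (G5 F), cj P (cj P⁻¹ A) = A := fun A => by rw [cj_cj, mul_inv_cancel, cj_one]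
  have e' : ∀ A : Subgroup (G5 F), cj P⁻¹ (cj P A) = A := fun A => by rw [cj_cj, inv_mul_cancel, cj_one]
  refine ⟨lt_of_le_of_ne ((cj_mono P h.1.le).trans hS.le) fun a => h.1.ne (cj_injective P (a.trans hS.symm)),
    fun K h1 h2 => ?_⟩
  refine (h.2 (cj P⁻¹ K) (e' H ▸ cj_mono P⁻¹ h1) ?_).imp (fun a => by rw [← a, e]) fun a => by rw [← e K, a, hS]
  exact e' S ▸ cj_mono P⁻¹ (h2.trans hS.ge)

theorem cj_su {σ : F →+* F} {g : G5 F} (h : g ∈ isoGrp σ 1) : cj g (suG σ 1) = suG σ 1 := by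
  rw [cj_inf, cj_S5, cj_eq_of_mem h]

theorem not_le_sub {H : Subgroup (G5 F)} (h : Irr H) {W : Submodule F (Fin 5 → F)} (h0 : W ≠ ⊥)
    (h1 : W ≠ ⊤) : ¬ H ≤ subspaceStabilizer W := fun hle =>
  (h W fun g hg v => ((mem_subspaceStabilizer W g).1 (hle hg) v).1).elim h0 h1

theorem pow5 {g : G5 F} (h : g ∈ S5 F) {c : F} (e : g.1 = c • 1) : g ^ 5 = 1 := by
  have := mem_SL.1 h
  rw [e, det_smul, det_one, mul_one, Fintype.card_fin] at this
  exact Units.ext (by rw [Units.val_pow_eq_pow_val, e, _root_.smul_pow, this, one_pow, one_smul]; rfl)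

theorem card_scal [Finite F] {N : Subgroup (G5 F)} (h : N ≤ scalars (Fin 5) F) (h5 : ∀ g ∈ N, g ^ 5 = 1) :
    Nat.card N ∣ 5 := by
  have := isCyclic_of_le_scalars h
  rw [← IsCyclic.exponent_eq_card]
  exact Monoid.exponent_dvd_of_forall_pow_eq_one fun g => Subtype.ext (h5 _ g.2)

/-! ### Action on a subgroup modulo scalars -/

/-- The quotient map modulo scalars. -/
abbrev pr (F : Type*) [Field F] := QuotientGroup.mk' (scalars (Fin 5) F)

/-- The elements centralising `P` modulo scalars. -/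
def Cm (P : Subgroup (G5 F)) : Subgroup (G5 F) := (Subgroup.centralizer (P.map (pr F) : Set _)).comap (pr F)

theorem mem_Cm {P : Subgroup (G5 F)} {g : G5 F} :
    g ∈ Cm P ↔ ∀ x ∈ P, g * x * g⁻¹ * x⁻¹ ∈ scalars (Fin 5) F := by
  have k : ∀ x : G5 F, pr F x * pr F g = pr F g * pr F x ↔ g * x * g⁻¹ * x⁻¹ ∈ scalars (Fin 5) F := fun x => by
    rw [← QuotientGroup.eq_one_iff, ← QuotientGroup.mk'_apply, map_mul, map_mul, map_mul, map_inv, map_inv,
      mul_inv_eq_one, mul_inv_eq_iff_eq_mul, eq_comm]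
  refine ⟨fun h x hx => (k x).1 (h _ ⟨x, hx, rfl⟩), fun h => ?_⟩
  rintro _ ⟨x, hx, rfl⟩
  exact (k x).2 (h x hx)

theorem relIndex_Cm {P M : Subgroup (G5 F)} [Finite (P.map (pr F))] (h : M ≤ subgroupNormalizer P) :
    (Cm P).relIndex M ∣ Nat.card (MulAut (P.map (pr F))) := by
  let φ : M →* MulAut (P.map (pr F)) := (P.map (pr F)).normalizerMonoidHom.comp
    (((pr F).comp M.subtype).codRestrict _ fun g => P.le_normalizer_map (pr F) ⟨g.1, h g.2, rfl⟩)
  have : φ.ker = (Cm P).subgroupOf M := by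
    ext g
    rw [← MonoidHom.comap_ker, Subgroup.normalizerMonoidHom_ker]; rfl
  rw [Subgroup.relIndex, ← this, Subgroup.index_ker]
  exact Subgroup.card_subgroup_dvd_card _

theorem card_res [Finite F] {M P : Subgroup (G5 F)} (hM : M ≤ S5 F) (hP : IsResidualCore M P) {G : Type*}
    [Group G] (e : Nonempty ((P ⧸ (scalars (Fin 5) F).subgroupOf P) ≃* G)) :
    Nat.card M ∣ 5 * Nat.card (MulAut G) := by
  obtain ⟨e⟩ := e
  let e' : (P ⧸ (scalars (Fin 5) F).subgroupOf P) ≃* P.map (pr F) :=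
    ((QuotientGroup.quotientMulEquivOfEq (by rw [← MonoidHom.comap_ker, QuotientGroup.ker_mk']; rfl)).trans
      (QuotientGroup.quotientKerEquivRange ((pr F).comp P.subtype))).trans
      (MulEquiv.subgroupCongr (by rw [MonoidHom.range_comp, Subgroup.range_subtype]))
  have h := relIndex_Cm (NormBy.le_normalizer (H := M) hP.normal)
  rw [Nat.card_congr (MulAut.congr (e'.symm.trans e)).toEquiv] at h
  rw [← ((Cm P).subgroupOf M).card_mul_index, ← Subgroup.inf_subgroupOf_right,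
    Nat.card_congr (Subgroup.subgroupOfEquivOfLe inf_le_right).toEquiv, Subgroup.inf_subgroupOf_right]
  have k : Cm P ⊓ M ≤ scalars (Fin 5) F := fun g hg => hP.centralizer_scalar g hg.2 (mem_Cm.1 hg.1)
  exact Nat.mul_dvd_mul (card_scal k fun g hg => pow5 (hM hg.2) (mem_scalars'.1 (k hg)).choose_spec) h

/-! ### Frames -/

/-- The monomial group. -/
def Mon (F : Type*) [Field F] : Subgroup (G5 F) :=
  decompositionStabilizer fun i : Fin 5 => F ∙ (Pi.single i 1 : Fin 5 → F)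

theorem map_span_gl (g : G5 F) (v : Fin 5 → F) : (F ∙ v).map (toLin' g.1) = F ∙ (g.1 *ᵥ v) := by
  rw [Submodule.map_span, Set.image_singleton]; rfl

theorem stab_eq_cj {D : Fin 5 → Submodule F (Fin 5 → F)} {P : G5 F}
    (h : ∀ i, D i = F ∙ (P.1 *ᵥ Pi.single i 1)) : decompositionStabilizer D = cj P (Mon F) := by
  ext g
  rw [mem_cj]
  refine exists_congr fun s => forall_congr' fun i => ?_
  rw [h, h, map_span_gl, map_span_gl, ← (Submodule.map_injective_of_injective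
    (f := toLin' (P⁻¹).1) fun u v => gl_mulVec_inj P⁻¹).eq_iff, map_span_gl, map_span_gl,
    inv_mulVec_mulVec, Units.val_mul, Units.val_mul, ← mulVec_mulVec, ← mulVec_mulVec]

theorem exists_frame {D : Fin 5 → Submodule F (Fin 5 → F)} (hD : IsMDecomposition 1 D)
    {v : Fin 5 → Fin 5 → F} (hv : ∀ i, v i ∈ D i) (h0 : ∀ i, v i ≠ 0) :
    ∃ P : G5 F, P.1 = (of v)ᵀ ∧ decompositionStabilizer D = cj P (Mon F) := by
  have e : ∀ i, D i = F ∙ v i := fun i => (Submodule.eq_of_le_of_finrank_eq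
    ((Submodule.span_singleton_le_iff_mem _ _).mpr (hv i))
    (by rw [finrank_span_singleton (h0 i), hD.finrank_eq])).symm
  have c : ∀ i, (of v)ᵀ *ᵥ Pi.single i 1 = v i := fun i => by ext j; simp
  have hu : IsUnit (of v)ᵀ := mulVec_surjective_iff_isUnit.1 (LinearMap.range_eq_top (f := toLin' (of v)ᵀ).1
    (top_le_iff.1 (hD.iSup_eq_top ▸ iSup_le fun i => by
      rw [e, Submodule.span_singleton_le_iff_mem]; exact ⟨_, c i⟩)))
  exact ⟨hu.unit, rfl, stab_eq_cj fun i => by rw [e, IsUnit.unit_spec, c]⟩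

theorem exists_cj_Mon {D : Fin 5 → Submodule F (Fin 5 → F)} (hD : IsMDecomposition 1 D) :
    ∃ P : G5 F, decompositionStabilizer D = cj P (Mon F) := by
  choose v hv h0 using IsMDecomposition.exists_ne_zero hD
  exact (exists_frame hD hv h0).imp fun _ h => h.2

theorem frame_std [Fintype F] {q : ℕ} (hF : Fintype.card F = q ^ 2) {σ : F →+* F} (hσ : ∀ a, σ a = a ^ q)
    {D : Fin 5 → Submodule F (Fin 5 → F)} (hD : IsNondegenerateMDecomposition (gf σ 1) 1 D) :
    ∃ P ∈ isoGrp σ 1, decompositionStabilizer D ⊓ suG σ 1 = cj P (Mon F ⊓ suG σ 1) := by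
  obtain ⟨e, P, h1, h2, -⟩ := frame_coord hF hσ (herm_one (sig_invol hF hσ)) (Fintype.card_fin 5) hD
  obtain ⟨Q, hQ, h⟩ := exists_frame hD.decomp h2 fun i => cvec_ne_zero _ _ (single_one_ne_zero i)
  suffices hm : Q ∈ isoGrp σ 1 from ⟨Q, hm, by rw [h, cj_inf, cj_su hm]⟩
  rw [mem_isoGrp, IsSim, one_smul, hQ]
  refine Eq.trans ?_ h1
  ext i j
  rw [← gf_single (σ := σ) (cpull _ _ _ _), gf_cpull, gf_eq_sum]
  simp [Matrix.mul_apply, one_apply]

theorem mem_Mon {g : G5 F} : g ∈ Mon F ↔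
    ∃ s : Equiv.Perm (Fin 5), ∀ i, ∃ c : F, g.1 *ᵥ Pi.single i 1 = c • Pi.single (s i) 1 := by
  refine exists_congr fun s => forall_congr' fun i => ?_
  rw [map_span_gl]
  refine ⟨fun h => (Submodule.mem_span_singleton.1 (h.le (Submodule.mem_span_singleton_self _))).imp
    fun _ => Eq.symm, fun ⟨c, hc⟩ => ?_⟩
  rw [hc]
  refine Submodule.span_singleton_smul_eq (Ne.isUnit ?_) _
  rintro rfl
  exact gl_mulVec_ne_zero g (single_one_ne_zero i) (by rw [hc, zero_smul])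

theorem perm_uniq {g : G5 F} {i j k : Fin 5} {a b : F} (ha : g.1 *ᵥ Pi.single i 1 = a • Pi.single j 1)
    (hb : g.1 *ᵥ Pi.single i 1 = b • Pi.single k 1) : j = k := by
  by_contra hne
  have := congrFun (ha.symm.trans hb) j
  rw [Pi.smul_apply, Pi.smul_apply, Pi.single_eq_same, Pi.single_eq_of_ne hne, smul_zero, smul_eq_mul,
    mul_one] at this
  exact gl_mulVec_ne_zero g (single_one_ne_zero i) (by rw [ha, this, zero_smul])

/-- The permutation of the coordinate lines induced by a monomial matrix. -/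
noncomputable def monPerm : Mon F →* Equiv.Perm (Fin 5) := MonoidHom.mk' (fun g => (mem_Mon.1 g.2).choose)
  fun g h => Equiv.ext fun i => by
    obtain ⟨a, ha⟩ := (mem_Mon.1 (g * h).2).choose_spec i
    obtain ⟨b, hb⟩ := (mem_Mon.1 h.2).choose_spec i
    obtain ⟨c, hc⟩ := (mem_Mon.1 g.2).choose_spec ((mem_Mon.1 h.2).choose i)
    refine perm_uniq ha (b := b * c) ?_
    rw [Subgroup.coe_mul, Units.val_mul, ← mulVec_mulVec, hb, mulVec_smul, hc, smul_smul]; rfl

theorem monPerm_spec (g : Mon F) (i : Fin 5) :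
    ∃ c : F, g.1.1 *ᵥ Pi.single i 1 = c • Pi.single (monPerm g i) 1 := (mem_Mon.1 g.2).choose_spec i

theorem diag_of_ker {g : Mon F} (h : monPerm g = 1) : g.1.1 = diagonal fun i => g.1.1 i i :=
  ext_of_mulVec_single fun i => by
    obtain ⟨a, ha⟩ := monPerm_spec g i
    rw [h] at ha
    have := congrFun ha i
    simp only [mulVec_single_one, col_apply, Equiv.Perm.one_apply, Pi.smul_apply, Pi.single_eq_same,
      smul_eq_mul, mul_one] at this
    rw [ha, diagonal_mulVec_single, this]; ext j; simp [Pi.single_apply]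

/-- `M` normalises an abelian subgroup of index not divisible by 25. -/
def AbN (M : Subgroup (G5 F)) : Prop := ∃ A : Subgroup (G5 F), NormBy M A ∧ (∀ a ∈ A, ∀ b ∈ A, Commute a b) ∧
  ∀ N ≤ M, ¬ 25 ∣ A.relIndex N

theorem abN_of {M : Subgroup (G5 F)} {G : Type*} [Group G] (φ : M →* G) (hG : ¬ 25 ∣ Nat.card G)
    (h : ∀ a b, φ a = 1 → φ b = 1 → Commute a b) : AbN M := by
  refine ⟨φ.ker.map M.subtype, ?_, ?_, fun N hN e => hG (e.trans ?_)⟩
  · rintro g hg _ ⟨x, hx, rfl⟩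
    exact ⟨_, φ.normal_ker.conj_mem x hx ⟨g, hg⟩, rfl⟩
  · rintro _ ⟨a, ha, rfl⟩ _ ⟨b, hb, rfl⟩
    exact (h a b ha hb).map _
  · have : (φ.comp (Subgroup.inclusion hN)).ker = (φ.ker.map M.subtype).subgroupOf N := by
      ext x
      refine ⟨fun hx => ⟨_, hx, rfl⟩, fun ⟨y, hy, e⟩ => ?_⟩
      rw [show y = Subgroup.inclusion hN x from Subtype.ext e] at hy
      exact hy
    rw [Subgroup.relIndex, ← this, Subgroup.index_ker]
    exact Subgroup.card_subgroup_dvd_card _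

theorem abN_frame {D : Fin 5 → Submodule F (Fin 5 → F)} (hD : IsMDecomposition 1 D) :
    AbN (decompositionStabilizer D) := by
  obtain ⟨P, e⟩ := exists_cj_Mon hD
  rw [e]
  let ψ : cj P (Mon F) →* Mon F := ((MulAut.conj P⁻¹).toMonoidHom.comp (cj P (Mon F)).subtype).codRestrict _
    fun g => by simpa using mem_cj.1 g.2
  have hψ : Function.Injective ψ := fun a b e =>
    Subtype.ext ((MulAut.conj P⁻¹).injective (congrArg Subtype.val e))
  refine abN_of (monPerm.comp ψ) (by simp [Fintype.card_perm, Nat.factorial]) fun a b ha hb =>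
    Commute.of_map hψ ?_
  rw [MonoidHom.comp_apply] at ha hb
  generalize ψ a = u at ha ⊢
  generalize ψ b = v at hb ⊢
  refine Subtype.ext (Units.ext (show u.1.1 * v.1.1 = v.1.1 * u.1.1 from ?_))
  rw [diag_of_ker ha, diag_of_ker hb, diagonal_mul_diagonal, diagonal_mul_diagonal]
  simp only [mul_comm]

theorem eig_frame {D : Fin 5 → Submodule F (Fin 5 → F)} (hD : IsMDecomposition 1 D) {x : G5 F}
    (hx : x ∈ decompositionStabilizer D) : ∃ v ≠ 0, ∃ c : F, (x ^ 120).1 *ᵥ v = c • v := by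
  obtain ⟨P, e⟩ := exists_cj_Mon hD
  rw [e] at hx
  obtain ⟨y, hy, rfl⟩ := hx
  obtain ⟨c, hc⟩ := monPerm_spec (⟨y, hy⟩ ^ 120) 0
  rw [map_pow, show monPerm ⟨y, hy⟩ ^ 120 = 1 from pow_card_eq_one (G := Equiv.Perm (Fin 5))] at hc
  refine ⟨P.1 *ᵥ Pi.single 0 1, gl_mulVec_ne_zero P (single_one_ne_zero 0), c, ?_⟩
  change (y ^ 120).1 *ᵥ _ = c • Pi.single 0 1 at hc
  rw [← map_pow, ← mulVec_smul, ← hc, ← conj_mulVec P, conjAlgHom_coe]; rfl

/-! ### Traces -/

/-- The trace. -/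
abbrev tr (g : G5 F) : F := g.1.trace

theorem tr_conj (P g : G5 F) : tr (P * g * P⁻¹) = tr g := by
  rw [tr, Units.val_mul, Units.val_mul, trace_units_conj]

theorem tr_sub {F₀ : Subfield F} {P : G5 F} {g : G5 F}
    (hg : g ∈ ⁅subfieldSubgroup F₀ P, subfieldSubgroup F₀ P⁆) : tr g ∈ F₀ := by
  let φ : G5 F₀ →* G5 F := (MulAut.conj P).toMonoidHom.comp (GeneralLinearGroup.map F₀.subtype)
  have k : ∀ x ∈ subfieldSubgroup F₀ P, ∃ y, ∃ z ∈ scalars (Fin 5) F, x = φ y * z := by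
    rintro _ ⟨x, hx, rfl⟩
    rw [Subgroup.mul_normal] at hx
    obtain ⟨_, ⟨y, rfl⟩, z, hz, rfl⟩ := hx
    exact ⟨y, _, (scalars_normal (F := F)).conj_mem z hz P, map_mul _ _ _⟩
  have : ⁅subfieldSubgroup F₀ P, subfieldSubgroup F₀ P⁆ ≤ φ.range := Subgroup.commutator_le.2 fun a ha b hb => by
    obtain ⟨x, z, hz, rfl⟩ := k a ha
    obtain ⟨y, w, hw, rfl⟩ := k b hb
    refine ⟨⁅x, y⁆, ?_⟩
    have h1 : ∀ g, Commute z g := scalars_comm hz
    have h2 : ∀ g, Commute w g := scalars_comm hw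
    rw [map_commutatorElement, commutatorElement_def, commutatorElement_def, _root_.mul_inv_rev,
      _root_.mul_inv_rev, mul_assoc (φ x) z, (h1 _).eq, ← mul_assoc (φ x), ← mul_assoc _ z⁻¹,
      mul_inv_cancel_right, ← mul_assoc (φ x), mul_assoc _ w, (h2 _).eq, ← mul_assoc, ← mul_assoc,
      mul_inv_cancel_right]
  obtain ⟨y, rfl⟩ := this hg
  have : tr (φ y) = _ := (tr_conj P _).trans (AddMonoidHom.map_trace F₀.subtype y.1).symm
  exact this ▸ y.1.trace.2

theorem comm_le_iso {σ : F →+* F} {G : Matrix (Fin 5) (Fin 5) F} (hG : G.det ≠ 0) :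
    ⁅similarityGroup (gf σ G), similarityGroup (gf σ G)⁆ ≤ isoGrp σ G :=
  Subgroup.commutator_le.2 fun a ha b hb => by
    have k : ∀ {g : G5 F}, g ∈ similarityGroup (gf σ G) → ∃ c d, IsSim σ G c g.1 ∧ IsSim σ G d (g⁻¹).1 ∧
        c * d = 1 := fun {g} hg => by
      obtain ⟨c, hc⟩ := (mem_similarityGroup hG).1 hg
      obtain ⟨d, hd⟩ := (mem_similarityGroup hG).1 (inv_mem hg)
      exact ⟨c, d, hc, hd, (g.mul_inv ▸ hc.mul hd).unique hG (isoGrp σ G).one_mem⟩
    obtain ⟨c, c', h1, h2, h3⟩ := k ha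
    obtain ⟨d, d', h4, h5, h6⟩ := k hb
    have := ((h1.mul h4).mul h2).mul h5
    rwa [show c * d * c' * d' = 1 by linear_combination d * d' * h3 + h6] at this

theorem tr_iso {σ : F →+* F} {G : Matrix (Fin 5) (Fin 5) F} (hG : G.det ≠ 0) {g : G5 F} (h : g ∈ isoGrp σ G) :
    tr g = σ (tr g⁻¹) := (mem_isoGrp.1 h).isAdj_inv.trace_eq hG

/-! ### Field extensions -/

section Fld

variable [Fintype F] {K : Subalgebra F (Matrix (Fin 5) (Fin 5) F)} (hK : IsFieldSubalgebra 5 K)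
include hK

omit [Fintype F] in
theorem mem_of_comm {y : Matrix (Fin 5) (Fin 5) F} (h : ∀ k ∈ K, y * k = k * y) : y ∈ K := by
  obtain ⟨Ψ, hΨ⟩ := exists_orbitEquiv (K := K) (by simpa using hK) (single_one_ne_zero (0 : Fin 5))
  obtain ⟨k, hk⟩ := Ψ.surjective (y *ᵥ Pi.single 0 1)
  convert k.2
  refine eq_of_mulVec fun v => ?_
  obtain ⟨l, rfl⟩ := Ψ.surjective v
  rw [hΨ, mulVec_mulVec, h _ l.2, ← mulVec_mulVec, ← hk, hΨ, mulVec_mulVec, mulVec_mulVec, hK.comm _ l.2 _ k.2]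

theorem exists_gal : ∃ φ : subalgebraNormalizer K →* (K ≃ₐ[F] K), Nat.card (K ≃ₐ[F] K) = 5 ∧
    ∀ g, φ g = 1 → g.1.1 ∈ K := by
  let := (IsFieldSubalgebra.isField hK).toField
  have : Finite K := inferInstance
  refine ⟨MonoidHom.mk' (fun g => conjEquiv g.2) fun g h => AlgEquiv.ext fun k =>
    Subtype.ext (conjAlgHom_mul _ _ _), by rw [IsGalois.card_aut_eq_finrank, hK.finrank_eq], fun g hg => ?_⟩
  exact mem_of_comm hK fun k hk => (conjAlgHom_eq_self_iff _ k).1
    (congrArg Subtype.val (DFunLike.congr_fun hg (⟨k, hk⟩ : K)) :)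

theorem abN_field : AbN (subalgebraNormalizer K) := by
  obtain ⟨φ, h1, h2⟩ := exists_gal hK
  exact abN_of φ (by rw [h1]; norm_num) fun a b ha hb =>
    Subtype.ext (Units.ext (hK.comm _ (h2 a ha) _ (h2 b hb)))

theorem pow_mem_K {g : G5 F} (hg : g ∈ subalgebraNormalizer K) : (g ^ 5).1 ∈ K := by
  obtain ⟨φ, h1, h2⟩ := exists_gal hK
  exact h2 (⟨g, hg⟩ ^ 5) (by rw [map_pow]; simpa only [h1] using pow_card_eq_one' (x := φ ⟨g, hg⟩))

omit [Fintype F] in
theorem scalar_of_eig {k : Matrix (Fin 5) (Fin 5) F} (hk : k ∈ K) {v : Fin 5 → F} (hv : v ≠ 0) {c : F}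
    (h : k *ᵥ v = c • v) : k = c • 1 :=
  sub_eq_zero.1 (IsFieldSubalgebra.eq_zero_of_mulVec hK (K.sub_mem hk (K.smul_mem K.one_mem c)) hv (by
    rw [sub_mulVec, h, smul_mulVec, one_mulVec, sub_self]))

theorem invol_eq_one {t : G5 F} (ht : t ∈ subalgebraNormalizer K) (hs : t ∈ S5 F) (h2 : t * t = 1) :
    t = 1 := by
  have h := pow_mem_K hK ht
  have t5 : t ^ 5 = t := by rw [pow_succ, show 4 = 2 * 2 from rfl, pow_mul, sq t, h2, one_pow, one_mul]
  rw [t5] at h
  by_contra h1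
  obtain ⟨y, -, hy⟩ := hK.inv _ (K.sub_mem h K.one_mem) (sub_ne_zero.2 fun e => h1 (Units.ext e))
  have e : t.1 = (-1 : F) • 1 := by
    have : (t.1 + 1) * (t.1 - 1) = 0 := by
      rw [add_mul, mul_sub, ← Units.val_mul, h2]; simp
    have e := congrArg (· * y) this
    simp only [mul_assoc, hy, mul_one, zero_mul] at e
    rwa [neg_one_smul, ← add_eq_zero_iff_eq_neg]
  exact h1 (t5 ▸ pow5 hs e)

variable {x : G5 F} (hs : x ∈ S5 F) (hx : x.1 ∈ K)
include hx

omit [Fintype F] in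
theorem mem_norm_of_mem : x ∈ subalgebraNormalizer K := fun k => by
  have : (x⁻¹).1 ∈ K := mem_of_comm hK fun k hk => by
    rw [Units.inv_mul_eq_iff_eq_mul, ← Matrix.mul_assoc, hK.comm _ hx _ hk, Units.mul_inv_cancel_right]
  refine ⟨fun h => K.mul_mem (K.mul_mem hx h) this, fun h => ?_⟩
  simpa [Matrix.mul_assoc] using K.mul_mem (K.mul_mem this h) hx

include hs

omit [Fintype F] in
theorem le_of_mem (h5 : x ^ 5 ≠ 1) {A : Subalgebra F (Matrix (Fin 5) (Fin 5) F)} (hA : x.1 ∈ A) : K ≤ A := by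
  let := (IsFieldSubalgebra.isField hK).toField
  rcases (Subalgebra.isSimpleOrder_of_finrank_prime F K (hK.finrank_eq.symm ▸ Nat.prime_five)).2 (A.comap K.val)
    with e | e
  · obtain ⟨c, hc⟩ := Algebra.mem_bot.1 (e.le (show (⟨x.1, hx⟩ : K) ∈ A.comap K.val from hA))
    exact (h5 (pow5 hs (c := c) (by
      rw [← Algebra.algebraMap_eq_smul_one]; exact (congrArg Subtype.val hc).symm))).elim
  · exact fun k hk => e.ge (Algebra.mem_top (x := (⟨k, hk⟩ : K)))

theorem irr_field {H : Subgroup (G5 F)} (hH : x ∈ H) (h5 : x ^ 5 ≠ 1) : Irr H :=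
  fun W hW => or_iff_not_imp_left.2 fun h0 => by
  obtain ⟨w, hw, w0⟩ := Submodule.exists_mem_ne_zero_of_ne_bot h0
  obtain ⟨Ψ, hΨ⟩ := exists_orbitEquiv (K := K) (by simpa using hK) w0
  refine Submodule.eq_top_iff'.2 fun v => ?_
  obtain ⟨k, rfl⟩ := Ψ.surjective v
  exact hΨ k ▸ mulVec_mem_of_alg hW _ (le_of_mem hK hs hx h5 (mem_alg hH) k.2) w hw

theorem field_eq {K' : Subalgebra F (Matrix (Fin 5) (Fin 5) F)} (hK' : IsFieldSubalgebra 5 K')
    (h9 : x ^ 25 ≠ 1) (h : x ∈ subalgebraNormalizer K') : K = K' :=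
  Subalgebra.eq_of_le_of_finrank_eq (le_of_mem hK (pow_mem hs 5) (K.pow_mem hx 5) (by rwa [← pow_mul])
    (pow_mem_K hK' h)) (hK.finrank_eq.trans hK'.finrank_eq.symm)

theorem ord_frame {D : Fin 5 → Submodule F (Fin 5 → F)} (hD : IsMDecomposition 1 D)
    (h : x ∈ decompositionStabilizer D) : orderOf x ∣ 600 := by
  obtain ⟨v, v0, c, hc⟩ := eig_frame hD h
  exact orderOf_dvd_of_pow_eq_one ((pow_mul x 120 5).trans
    (pow5 (pow_mem hs 120) (scalar_of_eig hK (K.pow_mem hx 120) v0 hc)))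

theorem ord_sim {σ : F →+* F} {G : Matrix (Fin 5) (Fin 5) F} (hG : Herm σ 1 G)
    (h : x ∈ similarityGroup (gf σ G)) :
    orderOf x ∣ 50 ∨ ∃ s, Fintype.card F ^ 5 = s ^ 2 ∧ orderOf x ∣ 5 * (s + 1) := by
  obtain ⟨c, hc⟩ := (mem_similarityGroup hG.det_ne).1 h
  have h5 := hc.det_eq hG.det_ne
  rw [mem_SL.1 hs, map_one, mul_one, Fintype.card_fin] at h5
  have hy : x ^ 5 ∈ isoGrp σ G := by
    have := hc.mul (hc.mul (hc.mul (hc.mul hc)))
    rw [show c * (c * (c * (c * c))) = 1 by rw [h5]; ring] at this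
    rw [mem_isoGrp, Units.val_pow_eq_pow_val]
    simpa only [pow_succ', pow_zero, mul_one] using this
  by_cases h25 : (x ^ 5) ^ 5 = 1
  · exact .inl ((orderOf_dvd_of_pow_eq_one ((pow_mul x 5 5).trans h25)).trans (by norm_num))
  have e : K = alg (Subgroup.zpowers (x ^ 5)) := le_antisymm
    (le_of_mem hK (pow_mem hs 5) (K.pow_mem hx 5) h25 (mem_alg (Subgroup.mem_zpowers _)))
    (alg_le fun z hz => by
      obtain ⟨n, rfl⟩ := (Submonoid.mem_powers_iff _ _).1 (mem_powers_iff_mem_zpowers.2 hz)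
      exact K.pow_mem (K.pow_mem hx 5) n)
  obtain ⟨θ, h1, h2⟩ := exists_adjHom hG K.toSubring hK.comm (e ▸ isAdj_alg hG.invol fun z hz =>
    (Subgroup.zpowers_le.2 hy) hz)
  let := (IsFieldSubalgebra.isField hK).toField
  have : Finite K := inferInstance
  have := Fintype.ofFinite K
  let y : K := ⟨_, K.pow_mem hx 5⟩
  have h3 : (θ y).1 = ((x ^ 5)⁻¹).1 := (h1 y).unique hG.det_ne (mem_isoGrp.1 hy).isAdj_inv
  have k : ∀ n, θ y = y ^ n → orderOf x ∣ 5 * (n + 1) := fun n hn =>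
    orderOf_dvd_of_pow_eq_one (by
      rw [pow_mul, pow_succ, mul_eq_one_iff_eq_inv]
      exact Units.ext (by rw [← h3, hn]; rfl))
  by_cases h4 : ∀ a, θ a = a
  · exact .inl ((k 1 (by rw [h4, pow_one])).trans (by norm_num))
  · obtain ⟨s, h6, h7⟩ := L3.invol_pow (F := K) h2 h4
    rw [← Nat.card_eq_fintype_card, Module.natCard_eq_pow_finrank (K := F), hK.finrank_eq,
      Nat.card_eq_fintype_card] at h6
    exact .inr ⟨s, h6, k s (h7 y)⟩

theorem ord_sub {F₀ : Subfield F} {P : G5 F} (h : x ∈ subfieldSubgroup F₀ P) :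
    ∃ m, 1 ≤ m ∧ m ≤ 5 ∧ orderOf x ∣ 5 * (Nat.card F₀ ^ m - 1) := by
  classical
  obtain ⟨c, c0, hc⟩ := (mem_subfieldSubgroup_iff F₀ P x).1 h
  let := (IsFieldSubalgebra.isField hK).toField
  have : Finite K := inferInstance
  have := Fintype.ofFinite F₀
  let A : Matrix (Fin 5) (Fin 5) F₀ := of fun i j => ⟨_, hc i j⟩
  let y : K := c • ⟨_, hx⟩
  have h1 : aeval y A.charpoly = 0 := by
    have h2 : aeval (conjAlgHom P⁻¹ y.1) (A.charpoly.map (algebraMap F₀ F)) = 0 := by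
      rw [← charpoly_map, show conjAlgHom P⁻¹ y.1 = A.map (algebraMap F₀ F) from map_smul _ _ _]
      exact aeval_self_charpoly _
    rw [aeval_algHom_apply, map_eq_zero_iff _ (conjAlgHom_injective _), show y.1 = K.val y from rfl,
      aeval_algHom_apply, map_eq_zero_iff _ Subtype.val_injective, aeval_map_algebraMap] at h2
    exact h2
  let φ := FiniteField.frobeniusAlgHom F₀ K
  have h2 : ∀ i, (φ ^ i) y = y ^ Fintype.card F₀ ^ i := fun i => by
    induction i with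
    | zero => simp
    | succ i ih => rw [pow_succ', AlgHom.mul_apply, ih, pow_succ, pow_mul]; rfl
  obtain ⟨i, hi, j, hj, hij, e⟩ := Finset.exists_ne_map_eq_of_card_lt_of_maps_to (s := Finset.range 6)
    (t := (A.charpoly.aroots K).toFinset) (f := fun i => (φ ^ i) y) (by
      refine (Multiset.toFinset_card_le _).trans_lt ((card_roots' _).trans_lt ?_)
      rw [natDegree_map, charpoly_natDegree_eq_dim]; simp) fun i _ => by
      rw [Finset.mem_coe, Multiset.mem_toFinset, mem_aroots, aeval_algHom_apply, h1, map_zero]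
      exact ⟨A.charpoly_monic.ne_zero, rfl⟩
  wlog hlt : i < j generalizing i j
  · exact this j hj i hi hij.symm e.symm (by omega)
  obtain ⟨m, rfl⟩ := Nat.exists_eq_add_of_lt hlt
  have h3 : (φ ^ (m + 1)) y = y := (φ ^ i).toRingHom.injective (by
    change (φ ^ i) _ = (φ ^ i) _
    rw [← AlgHom.mul_apply, ← pow_add, ← add_assoc]; exact e.symm)
  rw [Finset.mem_range] at hj
  refine ⟨m + 1, by omega, by omega, orderOf_dvd_of_pow_eq_one ?_⟩
  rw [h2, ← Nat.card_eq_fintype_card] at h3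
  have h4 : 1 ≤ Nat.card F₀ ^ (m + 1) := Nat.one_le_pow _ _ Nat.card_pos
  generalize Nat.card F₀ ^ (m + 1) = n at h3 h4
  obtain ⟨n, rfl⟩ := Nat.exists_eq_add_of_le' h4
  have h5 : c ^ (n + 1) • x.1 ^ (n + 1) = c • x.1 := by rw [← _root_.smul_pow]; exact congrArg Subtype.val h3
  rw [Nat.add_sub_cancel, mul_comm, pow_mul]
  refine pow5 (pow_mem hs n) (c := (c ^ n)⁻¹) ?_
  rw [eq_inv_smul_iff₀ (pow_ne_zero n c0), ← x.isUnit.mul_left_inj, Matrix.one_mul, smul_mul_assoc,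
    Units.val_pow_eq_pow_val, ← pow_succ]
  exact smul_right_injective _ c0 (by simpa only [smul_smul, ← pow_succ'] using h5)

end Fld

end CL.T5
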