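import Cfsg.Agent.CLAS.FiveT1
import Cfsg.Agent.PLOC.Symplectic

/-!
# Maximal subgroups in dimension five: the extraspecial group of order 125
-/

set_option autoImplicit false
set_option maxHeartbeats 200000

namespace CL.T5

open Matrix Cfsg Cfsg.Geo CL.Asch CL.ElusL
open scoped commutatorElement

variable {F : Type*} [Field F]

theorem five_ne {ω : F} (h1 : ω ≠ 1) (h5 : ω ^ 5 = 1) : (5 : F) ≠ 0 := fun h => h1 (sub_eq_zero.1
  (pow_eq_zero_iff (n := 5) (by simp) |>.1 (by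
    linear_combination h5 + (-ω ^ 4 + 2 * ω ^ 3 - 2 * ω ^ 2 + ω) * h)))

theorem exists_tv {a b : G5 F} {ω : F} (h1 : ω ≠ 1) (h5 : ω ^ 5 = 1) (hb : b ^ 5 = 1)
    (e : a.1 * b.1 = ω • (b.1 * a.1)) :
    ∃ v : G5 F, Commute v b ∧ (v⁻¹ * a * v).1 = ω ^ 3 • (b.1 * a.1) := by
  have h0 : ω ^ 4 + ω ^ 3 + ω ^ 2 + ω + 1 = 0 :=
    mul_left_cancel₀ (sub_ne_zero.2 h1) (by linear_combination h5)
  have b5 : b.1 ^ 5 = 1 := by rw [← Units.val_pow_eq_pow_val, hb, Units.val_one]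
  have b6 : b.1 ^ 6 = b.1 := by rw [pow_succ, b5, one_mul]
  have b7 : b.1 ^ 7 = b.1 ^ 2 := by rw [show 7 = 5 + 2 from rfl, pow_add, b5, one_mul]
  have b8 : b.1 ^ 8 = b.1 ^ 3 := by rw [show 8 = 5 + 3 from rfl, pow_add, b5, one_mul]
  have e' : ∀ k : ℕ, a.1 * b.1 ^ k = ω ^ k • (b.1 ^ k * a.1) := fun k => by
    induction k with
    | zero => simp
    | succ k ih => rw [pow_succ, ← mul_assoc, ih, smul_mul_assoc, mul_assoc, e, mul_smul_comm, smul_smul,
        ← mul_assoc, ← pow_succ]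
  obtain ⟨g, hg⟩ : ∃ g, g = 1 + ω ^ 2 • b.1 + ω ^ 3 • b.1 ^ 2 + ω ^ 3 • b.1 ^ 3 + ω ^ 2 • b.1 ^ 4 := ⟨_, rfl⟩
  have hu : g * ((5 : F)⁻¹ • (1 + ω ^ 3 • b.1 + ω ^ 2 • b.1 ^ 2 + ω ^ 2 • b.1 ^ 3 + ω ^ 3 • b.1 ^ 4)) = 1 := by
    rw [mul_smul_comm, inv_smul_eq_iff₀ (five_ne h1 h5), hg]
    simp only [mul_add, add_mul, smul_mul_assoc, mul_smul_comm, ← pow_add, ← pow_succ, ← pow_succ', one_mul,
      mul_one, ← sq, ← pow_mul, Nat.reduceAdd, Nat.reduceMul, b5, b6, b7, b8]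
    match_scalars <;> grind
  have hu := IsUnit.of_mul_eq_one _ hu
  refine ⟨hu.unit, Units.ext ?_, ?_⟩
  · rw [Units.val_mul, Units.val_mul, hu.unit_spec, hg]
    simp only [mul_add, add_mul, smul_mul_assoc, mul_smul_comm, ← pow_succ, ← pow_succ', one_mul, mul_one]
  · rw [mul_assoc, Units.val_mul, Units.inv_mul_eq_iff_eq_mul, Units.val_mul, hu.unit_spec, hg, mul_smul_comm,
      ← mul_assoc]
    simp only [mul_add, add_mul, smul_mul_assoc, mul_smul_comm, e, e', ← pow_succ, one_mul, mul_one, ← sq,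
      Nat.reduceAdd, b5]
    match_scalars <;> grind

theorem comm_of_card {G : Type*} [Group G] {p : ℕ} [hp : Fact p.Prime] (h : Nat.card G ∣ p ^ 2) (a b : G) :
    a * b = b * a := by
  obtain ⟨k, hk, e⟩ := (Nat.dvd_prime_pow hp.out).1 h
  have : Finite G := Nat.finite_of_card_ne_zero (e ▸ pow_ne_zero _ hp.out.ne_zero)
  interval_cases k
  · have := (Nat.card_eq_one_iff_unique.1 e).1
    exact Subsingleton.elim _ _
  · have := isCyclic_of_prime_card (e.trans (pow_one p))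
    exact IsCyclic.isMulCommutative.is_comm.comm a b
  · exact (IsPGroup.isMulCommutative_of_card_eq_prime_sq e).is_comm.comm a b

/-- An absolutely irreducible extraspecial group of order 125 and exponent 5. -/
structure Hs (R : Subgroup (G5 F)) : Prop where
  card : Nat.card R = 125
  pow : ∀ x ∈ R, x ^ 5 = 1
  comm : ⁅R, R⁆ ≤ scalars (Fin 5) F
  top : alg R = ⊤

theorem hs_of [Finite F] {R : Subgroup (G5 F)} (hs : IsSymplecticTypeGroup 5 R)
    (hi : ActsAbsolutelyIrreducibly (matrixSet R)) (hZ : Nat.card (Subgroup.center R) = 5) : Hs R := by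
  have : Fact (Nat.Prime 5) := ⟨Nat.prime_five⟩
  have he : Monoid.exponent R = 5 := hs.exponent_eq
  have : Nontrivial R := not_subsingleton_iff_nontrivial.1 fun _ => by simp at he
  have ht := Four.alg_eq_top4 hi
  have hc : ⁅R, R⁆ ≤ scalars (Fin 5) F := Subgroup.commutator_le.2 fun s hs' t ht' => by
    obtain ⟨z, E, -, h3, -, h5, -, -, h6, h7 | ⟨h7, -⟩⟩ :=
      ES.exists_symplectic_decomp hs.pGroup hs.cyclic_of_characteristic
    · obtain ⟨e, he, d, hd, h9⟩ := h6 ⟨t, ht'⟩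
      obtain ⟨e', he', d', hd', h10⟩ := h6 ⟨s, hs'⟩
      have h8 : Commute (⟨s, hs'⟩ : R) d := h10 ▸ Commute.mul_left (hd e' he') (congrArg Subtype.val
        (h7.isMulCommutative.is_comm.comm (⟨d', hd'⟩ : Subgroup.centralizer (E : Set R)) ⟨d, hd⟩))
      refine (mem_center_iff_scalar ht (⁅(⟨s, hs'⟩ : R), ⟨t, ht'⟩⁆ : R)).1 ?_
      have := Subgroup.zpowers_le.2 h3 (h5 ⟨s, hs'⟩ e he)
      convert this using 1
      rw [h9, commutatorElement_def, commutatorElement_def, ← mul_assoc, mul_assoc _ d, h8.inv_left.symm.eq]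
      group
    · omega
  exact ⟨by rw [card_eq_center_mul ht hc, hZ]; simp,
    fun x hx => congrArg Subtype.val (he ▸ Monoid.pow_exponent_eq_one (⟨x, hx⟩ : R)), hc, ht⟩

namespace Hs

variable {R : Subgroup (G5 F)} (h : Hs R) {a b : G5 F}
include h

theorem scal {g : G5 F} (hg : ∀ x ∈ R, Commute g x) : g ∈ scalars (Fin 5) F :=
  mem_scalars'.2 (scalar_of_alg_top h.top _ fun x hx => congrArg Units.val (hg x hx))

theorem root (ha : a ∈ R) {c : F} (e : a.1 = c • 1) : c ^ 5 = 1 := smul_one_inj (ι := Fin 5) (by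
  rw [← one_pow (M := Matrix _ _ F) 5, ← _root_.smul_pow, ← e, ← Units.val_pow_eq_pow_val, h.pow a ha]; simp)

theorem rel (ha : a ∈ R) (hb : b ∈ R) (hn : ¬ Commute a b) :
    ∃ ω : F, ω ≠ 1 ∧ ω ^ 5 = 1 ∧ (⁅a, b⁆ : G5 F).1 = ω • 1 ∧ a.1 * b.1 = ω • (b.1 * a.1) := by
  obtain ⟨ω, e⟩ := mem_scalars'.1 (h.comm (Subgroup.commutator_mem_commutator ha hb))
  refine ⟨ω, fun e1 => hn (commutatorElement_eq_one_iff_commute.1 (Units.ext (by rw [e, e1, one_smul]; rfl))),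
    h.root (commutator_le_self' R (Subgroup.commutator_mem_commutator ha hb)) e, e, ?_⟩
  rw [← Units.val_mul, ← Units.val_mul, show a * b = ⁅a, b⁆ * (b * a) by group, Units.val_mul, e,
    smul_one_mul]

theorem exists_nc (hn : a ∉ scalars (Fin 5) F) : ∃ b ∈ R, ¬ Commute a b := by
  by_contra! H
  exact hn (h.scal H)

theorem le_of_nc {L : Subgroup (G5 F)} (ha : a ∈ L ⊓ R) (hb : b ∈ L ⊓ R) (hn : ¬ Commute a b) : R ≤ L := by
  have : Fact (Nat.Prime 5) := ⟨Nat.prime_five⟩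
  have : Finite R := Nat.finite_of_card_ne_zero (by rw [h.card]; simp)
  obtain ⟨k, hk, e⟩ := (Nat.dvd_prime_pow Nat.prime_five).1 (show _ ∣ 5 ^ 3 from
    (Subgroup.card_dvd_of_le (inf_le_right : L ⊓ R ≤ R)).trans h.card.dvd)
  rcases hk.eq_or_lt with rfl | hk
  · exact inf_eq_right.1 (Subgroup.eq_of_le_of_card_ge inf_le_right (h.card.trans e.symm).le)
  · exact (hn (congrArg Subtype.val (comm_of_card (G := ↥(L ⊓ R)) (e.dvd.trans (pow_dvd_pow 5 (by omega)))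
      ⟨a, ha⟩ ⟨b, hb⟩))).elim

theorem tv [Finite F] (ha : a ∈ R) (hb : b ∈ R) (hn : ¬ Commute a b) : ∃ v ∈ subgroupNormalizer R,
    Commute v b ∧ ∃ z ∈ R, z ∈ scalars (Fin 5) F ∧ v⁻¹ * a * v = z * (b * a) := by
  obtain ⟨ω, h1, h5, e1, e⟩ := h.rel ha hb hn
  obtain ⟨v, h2, h3⟩ := exists_tv h1 h5 (h.pow b hb) e
  have hc := Subgroup.commutator_mem_commutator ha hb
  have h4 : v⁻¹ * a * v = ⁅a, b⁆ ^ 3 * (b * a) := Units.ext (by
    rw [h3, Units.val_mul, Units.val_pow_eq_pow_val, e1, _root_.smul_pow, one_pow, smul_one_mul]; rfl)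
  have hz := pow_mem (commutator_le_self' R hc) 3
  refine ⟨v, inv_mem_iff.1 (Subgroup.mem_normalizer_fintype fun x hx => ?_), h2, _, hz,
    pow_mem (h.comm hc) 3, h4⟩
  rw [inv_inv]
  refine mem_cj.1 (h.le_of_nc (L := cj v R) ⟨mem_cj.2 ?_, ha⟩ ⟨mem_cj.2 ?_, hb⟩ hn hx)
  · exact h4 ▸ mul_mem hz (mul_mem hb ha)
  · rwa [h2.inv_left.eq, inv_mul_cancel_right]

theorem exists_om : ∃ g ∈ ⁅R, R⁆, ∃ ω : F, ω ≠ 1 ∧ ω ^ 5 = 1 ∧ g.1 = ω • 1 := by
  obtain ⟨a, ha, hn⟩ := exists_nonscalar_of_alg_top (by simp) h.top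
  obtain ⟨b, hb, hab⟩ := h.exists_nc (a := a) (mt mem_scalars'.1 hn)
  obtain ⟨ω, h1, h5, e, -⟩ := h.rel ha hb hab
  exact ⟨_, Subgroup.commutator_mem_commutator ha hb, ω, h1, h5, e⟩

variable [Finite F]

theorem le_S5 : R ≤ S5 F := fun b hb => by
  have k : ∀ z ∈ R, z ∈ scalars (Fin 5) F → z ∈ S5 F := fun z hz hs => by
    obtain ⟨c, e⟩ := mem_scalars'.1 hs
    rw [mem_SL, e, det_smul, det_one, mul_one, Fintype.card_fin, h.root hz e]
  by_cases hs : b ∈ scalars (Fin 5) F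
  · exact k b hb hs
  obtain ⟨a, ha, hn⟩ := h.exists_nc hs
  obtain ⟨v, -, -, z, h1, h2, e⟩ := h.tv ha hb fun e => hn e.symm
  rw [show b = z⁻¹ * ⁅v⁻¹, a⁆ by rw [commutatorElement_def, inv_inv, e]; group]
  exact mul_mem (inv_mem (k z h1 h2)) (MonoidHom.mem_ker.2 (by
    rw [map_commutatorElement, commutatorElement_eq_one_iff_mul_comm, mul_comm]))

theorem move (ha : a ∈ R) (hn : a ∉ scalars (Fin 5) F) :
    ∃ g ∈ ⁅subgroupNormalizer R, subgroupNormalizer R⁆, ¬ Commute (g * a * g⁻¹) a := by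
  obtain ⟨b, hb, hab⟩ := h.exists_nc hn
  obtain ⟨v, hv, -, z, -, hz, ev⟩ := h.tv ha hb hab
  obtain ⟨u, hu, cu, w, -, hw, eu⟩ := h.tv hb ha fun e => hab e.symm
  refine ⟨_, Subgroup.commutator_mem_commutator hv hu, fun e => hab ?_⟩
  have e1 := e.map (MulAut.conj (u⁻¹ * v⁻¹))
  simp only [MulAut.conj_apply] at e1
  have z1 : ∀ g, Commute z g := scalars_comm hz
  have w1 : ∀ g, Commute w g := scalars_comm hw
  rw [show u⁻¹ * v⁻¹ * (⁅v, u⁆ * a * ⁅v, u⁆⁻¹) * (u⁻¹ * v⁻¹)⁻¹ = v⁻¹ * (u⁻¹ * a * u) * v by group,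
    cu.inv_left.eq, inv_mul_cancel_right, show u⁻¹ * v⁻¹ * a * (u⁻¹ * v⁻¹)⁻¹ = u⁻¹ * (v⁻¹ * a * v) * u by group,
    ev, show u⁻¹ * (z * (b * a)) * u = u⁻¹ * z * u * (u⁻¹ * b * u) * (u⁻¹ * a * u) by group, eu,
    cu.inv_left.eq, inv_mul_cancel_right, (z1 _).symm.eq, inv_mul_cancel_right] at e1
  have e2 : Commute (b * a) (z * (w * (a * b)) * a) := by
    simpa only [inv_mul_cancel_left] using (z1 _).inv_left.mul_left e1
  have e3 : Commute (b * a) a := by
    have := (((z1 _).inv_left.mul_left (w1 (b * a)).inv_left |>.symm).mul_right e2).mul_right (Commute.refl _).inv_right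
    rwa [show z⁻¹ * w⁻¹ * (z * (w * (a * b)) * a) * (b * a)⁻¹ = a by rw [(z1 w⁻¹).inv_left.eq]; group] at this
  simpa only [mul_inv_cancel_right] using (e3.mul_left (Commute.refl a).inv_left).symm

theorem card_center : Nat.card (Subgroup.center R) = 5 := by
  have := card_eq_center_mul h.top h.comm
  rw [h.card, Fintype.card_fin] at this
  exact Nat.eq_of_mul_eq_mul_right (by norm_num) this.symm

theorem key {H A : Subgroup (G5 F)} (hH : ⁅subgroupNormalizer R, subgroupNormalizer R⁆ ≤ H) (hA : NormBy H A)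
    (hi : ¬ 25 ∣ A.relIndex R) : R ≤ A := by
  obtain ⟨a, ha, hn⟩ : ∃ a ∈ A ⊓ R, a ∉ scalars (Fin 5) F := by
    by_contra! k
    have h1 := Subgroup.card_dvd_of_le (show A.subgroupOf R ≤ Subgroup.center R from fun x hx =>
      (mem_center_iff_scalar h.top x).2 (k _ ⟨hx, x.2⟩))
    have h2 := (A.subgroupOf R).card_mul_index
    rw [h.card_center] at h1
    rw [h.card] at h2
    exact hi (Nat.dvd_of_mul_dvd_mul_left (by norm_num : 0 < 5) (h2.symm.dvd.trans (Nat.mul_dvd_mul_right h1 _)))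
  obtain ⟨g, hg, e⟩ := h.move ha.2 hn
  exact h.le_of_nc ⟨hA g (hH hg) a ha.1,
    (Subgroup.mem_normalizer_iff.1 (commutator_le_self' _ hg) a).1 ha.2⟩ ha e

theorem not_abN {H M : Subgroup (G5 F)} (hH : ⁅subgroupNormalizer R, subgroupNormalizer R⁆ ≤ H) (hR : R ≤ H)
    (hM : H ≤ M) : ¬ AbN M := fun ⟨A, h1, h2, h3⟩ =>
  have := h.key hH (h1.mono hM) (h3 R (hR.trans hM))
  not_comm_of_alg_top (by simp) h.top fun x hx y hy => h2 x (this hx) y (this hy)

theorem Cm_inf : Cm R ⊓ S5 F = R := by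
  have hle : R ≤ Cm R ⊓ S5 F := fun x hx => ⟨mem_Cm.2 fun y hy => comm_scalar h.comm hx hy, h.le_S5 hx⟩
  have ht : alg (Cm R ⊓ S5 F) = ⊤ := top_le_iff.1 (h.top ▸ alg_le fun x hx => mem_alg (hle hx))
  have hc : ⁅Cm R ⊓ S5 F, Cm R ⊓ S5 F⁆ ≤ scalars (Fin 5) F := Subgroup.commutator_le.2 fun g hg k hk => by
    have : (k * g)⁻¹ * (g * k) ∈ scalars (Fin 5) F := h.scal fun r hr => by
      have z1 : ∀ y, Commute _ y := scalars_comm (mem_Cm.1 hg.1 r hr)
      have w1 : ∀ y, Commute _ y := scalars_comm (mem_Cm.1 hk.1 r hr)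
      generalize hz : g * r * g⁻¹ * r⁻¹ = z at z1
      generalize hw : k * r * k⁻¹ * r⁻¹ = w at w1
      have e1 : g * r = z * (r * g) := by rw [← hz]; group
      have e2 : k * r = w * (r * k) := by rw [← hw]; group
      have e3 : ∀ {g k z w : G5 F}, g * r = z * (r * g) → k * r = w * (r * k) → (∀ y, Commute w y) →
          g * k * r = w * z * r * (g * k) := fun {g k z w} a b c => by
        rw [mul_assoc, b, ← mul_assoc, ← (c g).eq, mul_assoc, ← mul_assoc g, a]; group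
      rw [Commute, SemiconjBy, mul_assoc, e3 e1 e2 w1, ← mul_assoc, ← mul_assoc r, mul_left_inj,
        inv_mul_eq_iff_eq_mul, ← mul_assoc, e3 e2 e1 z1, mul_inv_cancel_right, (w1 z).eq]
    convert (scalars_normal (F := F)).conj_mem _ this (k * g) using 1
    group
  have h1 := card_eq_center_mul ht hc
  have h2 := card_scal (N := (Subgroup.center ↥(Cm R ⊓ S5 F)).map (Subgroup.subtype _)) (by
    rintro _ ⟨x, hx, rfl⟩; exact (mem_center_iff_scalar ht x).1 hx) (by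
    rintro _ ⟨x, hx, rfl⟩
    exact pow5 x.2.2 (mem_scalars'.1 ((mem_center_iff_scalar ht x).1 hx)).choose_spec)
  rw [Subgroup.card_map_of_injective Subtype.val_injective] at h2
  have := Nat.le_of_dvd (by norm_num) h2
  rw [Fintype.card_fin] at h1
  exact (Subgroup.eq_of_le_of_card_ge hle (h.card ▸ h1.le.trans (Nat.mul_le_mul_right _ this))).symm

theorem relIndex_dvd {M : Subgroup (G5 F)} (h1 : M ≤ subgroupNormalizer R) (h2 : M ≤ S5 F) :
    R.relIndex M ∣ 480 := by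
  have := Fact.mk Nat.prime_five
  have h3 : Nat.card (R.map (pr F)) = 5 ^ 2 := by
    have := (Subgroup.center R).card_mul_index
    rw [h.card, h.card_center, show Subgroup.center R = (pr F).ker.subgroupOf R from Subgroup.ext fun x => by
      rw [mem_center_iff_scalar h.top, QuotientGroup.ker_mk']; rfl] at this
    rw [← Subgroup.relIndex_ker, Subgroup.relIndex]; omega
  obtain ⟨r, h4, h5⟩ := (Nat.dvd_prime_pow Nat.prime_five).1 (h3 ▸ (frattini (R.map (pr F))).index_dvd_card)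
  rw [← h.Cm_inf, ← Subgroup.inf_relIndex_right, inf_assoc, inf_eq_right.2 h2, Subgroup.inf_relIndex_right]
  refine ((relIndex_Cm h1).trans (Cfsg.Agent.S4208.result h3 h5)).trans ?_
  interval_cases r <;> decide

theorem card_dvd {M : Subgroup (G5 F)} (h1 : M ≤ subgroupNormalizer R) (h2 : M ≤ S5 F) :
    Nat.card M ∣ 60000 := by
  rw [← (R.subgroupOf M).card_mul_index]
  refine Nat.mul_dvd_mul (b := 125) ?_ (h.relIndex_dvd h1 h2)
  rw [← h.card, ← Subgroup.inf_subgroupOf_right,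
    Nat.card_congr (Subgroup.subgroupOfEquivOfLe inf_le_right).toEquiv]
  exact Subgroup.card_dvd_of_le inf_le_left

theorem eq_of {R' H : Subgroup (G5 F)} (h' : Hs R') (hH : ⁅subgroupNormalizer R, subgroupNormalizer R⁆ ≤ H)
    (hR : R ≤ H) (hM : H ≤ subgroupNormalizer R') : R = R' :=
  Subgroup.eq_of_le_of_card_ge (h.key hH (fun g hg x hx => (Subgroup.mem_normalizer_iff.1 (hM hg) x).1 hx)
    fun e => absurd (e.trans (h'.relIndex_dvd (hR.trans hM) h.le_S5)) (by norm_num))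
    (h'.card.trans h.card.symm).le

omit h [Finite F] in
theorem comm_le_S5 (A B : Subgroup (G5 F)) : ⁅A, B⁆ ≤ S5 F := Subgroup.commutator_le.2 fun a _ b _ =>
  MonoidHom.mem_ker.2 (by rw [map_commutatorElement, commutatorElement_eq_one_iff_mul_comm, mul_comm])

omit [Finite F] in
theorem le_iso {σ : F →+* F} {G : Matrix (Fin 5) (Fin 5) F} (hG : Herm σ 1 G) (hs : R ≤ similarityGroup (gf σ G))
    (h5 : ∀ c, σ c = c → c ^ 5 = 1 → c = 1) :
    R ≤ isoGrp σ G ∧ ⁅subgroupNormalizer R, subgroupNormalizer R⁆ ≤ isoGrp σ G := by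
  have k : R ≤ isoGrp σ G := fun x hx => by
    obtain ⟨c, hc⟩ := (mem_similarityGroup hG.det_ne).1 (hs hx)
    have e := hc.mul (hc.mul (hc.mul (hc.mul hc)))
    have e1 := congrArg Units.val (h.pow x hx)
    rw [Units.val_pow_eq_pow_val] at e1
    simp only [pow_succ', pow_zero, mul_one] at e1
    rw [e1] at e
    have := e.unique hG.det_ne (isoGrp σ G).one_mem
    rw [mem_isoGrp, ← h5 c (hc.fixed hG) (by rw [← this]; ring)]; exact hc
  have k2 : subgroupNormalizer R ≤ similarityGroup (gf σ G) := fun g hg =>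
    (mem_similarityGroup hG.det_ne).2 (exists_isSim_of_normalizes hG.det_ne (scalar_of_alg_top h.top) k
      fun x hx => (Subgroup.mem_normalizer_iff.1 hg x).1 hx)
  exact ⟨k, (Subgroup.commutator_mono k2 k2).trans (comm_le_iso hG.det_ne)⟩

omit [Finite F] in
theorem om_sub {F₀ : Subfield F} {P : G5 F} (hs : R ≤ subfieldSubgroup F₀ P) :
    ∃ ω ∈ F₀, ω ≠ 1 ∧ ω ^ 5 = 1 := by
  obtain ⟨g, hg, ω, h1, h5, e⟩ := h.exists_om
  have := F₀.div_mem (tr_sub (Subgroup.commutator_mono hs hs hg)) (natCast_mem F₀ 5)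
  rw [tr, e, trace_smul, trace_one, Fintype.card_fin, smul_eq_mul, mul_div_cancel_right₀ _
    (by exact_mod_cast five_ne h1 h5)] at this
  exact ⟨ω, this, h1, h5⟩

omit [Finite F] in
theorem om_sim {σ : F →+* F} {G : Matrix (Fin 5) (Fin 5) F} (hG : G.det ≠ 0) (hs : R ≤ similarityGroup (gf σ G)) :
    ∃ ω, ω ≠ 1 ∧ ω ^ 5 = 1 ∧ ω * σ ω = 1 := by
  obtain ⟨g, hg, ω, h1, h5, e⟩ := h.exists_om
  have := mem_isoGrp.1 (comm_le_iso hG (Subgroup.commutator_mono hs hs hg))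
  refine ⟨ω, h1, h5, IsSim.unique (g := g.1) hG ?_ this⟩
  rw [IsSim, e, map_smul_eq, Matrix.map_one _ (map_zero σ) (map_one σ), transpose_smul, transpose_one,
    smul_one_mul, mul_smul_comm, mul_one, smul_smul, mul_comm]

end Hs

end CL.T5
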