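import Mathlib
import Cfsg.Agent.CLAS.Ref8

/-!
Maximality of the stabiliser of an orthonormal frame in a special unitary group.
-/

set_option autoImplicit false
set_option linter.unusedSectionVars false

namespace CL.Witt

open Module

theorem exists_eq_of_fibres' {α β : Type*} {A B : Finset α} {C : Finset β} {φ ψ : α → β}
    (h1 : ∀ s ∈ A, φ s ∈ C) (h2 : ∀ s ∈ B, ψ s ∈ C)
    (h3 : ∀ z, ∃ r r', ∀ s ∈ A, φ s = z → s = r ∨ s = r')
    (h4 : ∀ z, ∃ r r', ∀ s ∈ B, ψ s = z → s = r ∨ s = r') (h : 2 * C.card < A.card + B.card) :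
    ∃ s ∈ A, ∃ s' ∈ B, φ s = ψ s' := by
  classical
  have k : ∀ (A : Finset α) (φ : α → β), (∀ z, ∃ r r', ∀ s ∈ A, φ s = z → s = r ∨ s = r') →
      A.card ≤ 2 * (A.image φ).card := fun A φ h =>
    Finset.card_le_mul_card_image _ 2 fun z _ => by
      obtain ⟨r, r', h⟩ := h z
      exact (Finset.card_le_card (t := {r, r'}) fun s hs => by
        simpa using h s (Finset.mem_filter.1 hs).1 (Finset.mem_filter.1 hs).2).trans
          Finset.card_le_two
  by_contra! H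
  have h5 := Finset.card_le_card (s := A.image φ ∪ B.image ψ) (t := C)
    (Finset.union_subset (Finset.image_subset_iff.2 h1) (Finset.image_subset_iff.2 h2))
  rw [Finset.card_union_of_disjoint (Finset.disjoint_left.2 fun z hz hz' => by
    obtain ⟨s, hs, rfl⟩ := Finset.mem_image.1 hz
    obtain ⟨s', hs', e⟩ := Finset.mem_image.1 hz'
    exact H s hs s' hs' e.symm)] at h5
  have := k A φ h3
  have := k B ψ h4
  omega

/-- The norm-one group and the fixed field of the involution of a finite field. -/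
structure NF {F : Type*} [Field F] (σ : F →+* F) : Prop where
  σσ : ∀ a, σ (σ a) = a
  card : ∃ U C : Finset F, (∀ a, a ∈ U ↔ σ a * a = 1) ∧ (∀ a, a ∈ C ↔ σ a = a) ∧
    U.card = C.card + 1 ∧ 2 ≤ C.card
  norm : ∀ c, σ c = c → ∃ a, σ a * a = c

theorem nf_sig {F : Type*} [Field F] [Fintype F] {q : ℕ} (hF : Fintype.card F = q ^ 2) :
    NF (Uni.sig hF) where
  σσ := Uni.sig_sig hF
  card := by
    classical
    have h1 := SqField.card_norm_eq hF one_ne_zero (one_pow q)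
    have h2 := SqField.card_fixed hF
    have h3 := SqField.two_le hF
    rw [Nat.card_eq_fintype_card, Fintype.card_subtype] at h1 h2
    exact ⟨Finset.univ.filter fun x => x ^ (q + 1) = 1, Finset.univ.filter fun x => x ^ q = x,
      fun a => by simp [pow_succ, Uni.sig_apply], fun a => by simp [Uni.sig_apply], by omega,
      by omega⟩
  norm c hc := (SqField.exists_norm_eq hF hc).imp fun a ha => by rw [← ha, pow_succ]; rfl

namespace NF

variable {F : Type*} [Field F] {σ : F →+* F} (h : NF σ)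
include h

theorem ex (l : List F) (hl : l.length < 3) : ∃ a, σ a * a = 1 ∧ a ∉ l := by
  obtain ⟨U, C, h1, -, h2, h3⟩ := h.card
  obtain ⟨a, ha, ha'⟩ := exists_mem_notMem_list (s := U) l (by omega)
  exact ⟨a, (h1 a).1 ha, ha'⟩

theorem exists_ne : ∃ a, σ a * a = 1 ∧ σ a ≠ a := by
  obtain ⟨a, ha, ha'⟩ := h.ex [1, -1] (by simp)
  exact ⟨a, ha, fun e => ha' (by simpa [e, mul_self_eq_one_iff] using ha)⟩

theorem ne_id : σ ≠ RingHom.id F := fun e => by
  obtain ⟨a, -, ha⟩ := h.exists_ne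
  exact ha (by simp [e])

omit h in
theorem fib {κ : F} (hκ : κ ≠ 0) (s z : F) :
    ∃ r r', ∀ l, σ l * l = 1 → s + (l * κ + σ l * σ κ) = z → l = r ∨ l = r' := by
  obtain ⟨r, r', H⟩ := quad_roots (α := κ) (β := s - z) (γ := σ κ) (Or.inl hκ)
  exact ⟨r, r', fun l hl e => H l (by linear_combination l * e - σ κ * hl)⟩

theorem induction {P : F → Prop} (h1 : ∀ a b, P a → P b → P (a - b))
    (h2 : ∀ l, σ l * l = 1 → P l) (s : F) : P s := by
  have h3 : ∀ a b, P a → P b → P (a + b) := fun a b ha hb => by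
    simpa using h1 a _ ha (h1 _ b (h1 b b hb hb) hb)
  have k : ∀ c, σ c = c → ∀ ν, σ ν * ν = 1 → P (c * ν) := fun c hc ν hν => by
    obtain ⟨U, C, u1, u2, u3, -⟩ := h.card
    obtain ⟨l, hl, m, hm, e⟩ := exists_eq_of_fibres' (A := U) (B := U) (C := C)
      (φ := fun l => 0 + (l * 1 + σ l * σ 1)) (ψ := fun l => c + (l * 1 + σ l * σ 1))
      (fun s _ => (u2 _).2 (by simp [h.σσ, add_comm])) (fun s _ => (u2 _).2 (by
        simp [h.σσ, hc, add_comm])) (fun z => (fib one_ne_zero 0 z).imp fun _ => .imp fun _ H s hs =>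
          H s ((u1 s).1 hs)) (fun z => (fib one_ne_zero c z).imp fun _ => .imp fun _ H s hs =>
            H s ((u1 s).1 hs)) (by omega)
    have k' : ∀ l ∈ U, P (l * ν + σ l * ν) := fun l hl => h3 _ _
      (h2 _ (by rw [map_mul]; linear_combination σ ν * ν * (u1 l).1 hl + hν))
      (h2 _ (by rw [map_mul, h.σσ]; linear_combination σ ν * ν * (u1 l).1 hl + hν))
    convert h1 _ _ (k' l hl) (k' m hm) using 1
    simp only [map_one] at e
    linear_combination -ν * e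
  obtain ⟨l, hl, hl'⟩ := h.exists_ne
  have h4 := sub_ne_zero.2 hl'
  have h5 : σ ((σ s - s) / (σ l - l)) = (σ s - s) / (σ l - l) := by
    rw [map_div₀, map_sub, map_sub, h.σσ, h.σσ, ← neg_sub, ← neg_sub (σ l), neg_div_neg_eq]
  convert h3 _ _ (k (s - (σ s - s) / (σ l - l) * l) (by
    rw [map_sub, map_mul, h5]; field_simp; ring) 1 (by simp)) (k _ h5 l hl) using 1
  ring

theorem exists_N_eq {a b a' b' : F} (ha : a ≠ 0) (hb : b ≠ 0) (ha' : a' ≠ 0) (hb' : b' ≠ 0) :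
    ∃ l m, σ l * l = 1 ∧ σ m * m = 1 ∧ a + l * b ≠ 0 ∧
      σ (a + l * b) * (a + l * b) = σ (a' + m * b') * (a' + m * b') := by
  classical
  obtain ⟨U, C, u1, u2, u3, u4⟩ := h.card
  have k1 : ∀ {a b : F}, b ≠ 0 → ∀ l ∈ U.erase (-a / b), a + l * b ≠ 0 := fun hb l hl e =>
    (Finset.mem_erase.1 hl).1 (by field_simp; linear_combination e)
  have k2 : ∀ {a b : F}, b ≠ 0 → ∀ l ∈ U.erase (-a / b), σ (a + l * b) * (a + l * b) ∈ C.erase 0 :=
    fun hb l hl => Finset.mem_erase.2 ⟨mul_ne_zero ((map_ne_zero σ).2 (k1 hb l hl)) (k1 hb l hl),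
      (u2 _).2 (by rw [map_mul, h.σσ, mul_comm])⟩
  have k3 : ∀ {a b : F}, a ≠ 0 → b ≠ 0 → ∀ z, ∃ r r', ∀ l ∈ U.erase (-a / b),
      σ (a + l * b) * (a + l * b) = z → l = r ∨ l = r' := fun {a b} ha hb z => by
    obtain ⟨r, r', H⟩ := fib (σ := σ) (κ := σ a * b) (by simp [ha, hb]) (σ a * a + σ b * b) z
    refine ⟨r, r', fun l hl e => H l ((u1 l).1 (Finset.mem_erase.1 hl).2) ?_⟩
    rw [map_add, map_mul] at e
    rw [map_mul, h.σσ]
    linear_combination e - σ b * b * (u1 l).1 (Finset.mem_erase.1 hl).2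
  obtain ⟨l, hl, m, hm, e⟩ := exists_eq_of_fibres' (k2 hb) (k2 hb') (k3 ha hb) (k3 ha' hb') (by
    have := Finset.pred_card_le_card_erase (s := U) (a := -a / b)
    have := Finset.pred_card_le_card_erase (s := U) (a := -a' / b')
    rw [Finset.card_erase_of_mem ((u2 0).2 (map_zero σ))]
    omega)
  exact ⟨l, m, (u1 l).1 (Finset.mem_erase.1 hl).2, (u1 m).1 (Finset.mem_erase.1 hm).2,
    k1 hb l hl, e⟩

omit h in
theorem exists_eq_mul {a b : F} (e : σ a * a = σ b * b) : ∃ μ, σ μ * μ = 1 ∧ a = μ * b := by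
  by_cases hb : b = 0
  · exact ⟨1, by simp, by simpa [hb] using e⟩
  · have := (map_ne_zero σ).2 hb
    exact ⟨a / b, by rw [map_div₀]; field_simp; exact e, by field_simp⟩

end NF

namespace Form

variable {F : Type*} [Field F] [Finite F] {σ : F →+* F} {hσ2 : ∀ a, σ (σ a) = a} {V : Type*}
  [AddCommGroup V] [Module F V] [FiniteDimensional F V] {f : Form (FormType.herm σ hσ2) V}
  {K : Subgroup (V ≃ₗ[F] V)}

theorem co_one {T : FormType F} {f : Form T V} (x v : V) : f.co 1 x v = f.B x v := by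
  rw [co_apply, inv_one, one_mul]

theorem hB_smul (c : F) (x y : V) : f.B (c • x) y = σ c * f.B x y := f.B_smul_left c x y

theorem hσ_B (x y : V) : σ (f.B x y) = f.B y x := (f.herm_symm x y).symm

variable (f) in
open Classical in
/-- The isometry `v ↦ v + κ B(x,v) x`. -/
noncomputable def rk (x : V) (κ : F) : V ≃ₗ[F] V :=
  if h : κ + σ κ + σ κ * κ * f.B x x = 0 then
    f.rk1Equiv x κ (by rw [FormType.herm_π, FormType.herm_σ, hσ2, herm_q, add_comm (σ κ)]; exact h)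
  else 1

section rk

variable {x : V} {κ : F}

theorem rk_apply (h : κ + σ κ + σ κ * κ * f.B x x = 0) (v : V) :
    f.rk x κ v = v + (κ * f.B x v) • x := by rw [rk, dif_pos h]; rfl

theorem rk_mem_O (x : V) (κ : F) : f.rk x κ ∈ f.O := by
  unfold rk
  split_ifs
  exacts [f.rk1Equiv_mem_O _ _ _, one_mem _]

theorem det_rk (h : κ + σ κ + σ κ * κ * f.B x x = 0) :
    LinearMap.det (f.rk x κ : V →ₗ[F] V) = 1 + κ * f.B x x := by
  rw [rk, dif_pos h, det_rk1]

theorem rk_conj {g : V ≃ₗ[F] V} (hg : g ∈ f.O) (x : V) (κ : F) :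
    g * f.rk x κ * g⁻¹ = f.rk (g x) κ := by
  by_cases h : κ + σ κ + σ κ * κ * f.B x x = 0
  · rw [rk, rk, dif_pos h, dif_pos (mem_O_B hg x x ▸ h)]
    exact rk1Equiv_conj f hg _ _ _ _
  · simp [rk, h, mem_O_B hg]

theorem rk_smul {a : F} (ha : σ a * a = 1) (x : V) (κ : F) : f.rk (a • x) κ = f.rk x κ := by
  have h1 : f.B (a • x) (a • x) = f.B x x := by
    rw [hB_smul, B_smul_right, ← mul_assoc, ha, one_mul]
  by_cases h : κ + σ κ + σ κ * κ * f.B x x = 0
  · ext v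
    rw [rk_apply h, rk_apply (h1 ▸ h), hB_smul, smul_smul]
    congr 2
    linear_combination κ * f.B x v * ha
  · rw [rk, rk, dif_neg h, dif_neg (h1 ▸ h)]

theorem hm_ok {l : F} (hx : f.B x x = 1) (hl : σ l * l = 1) :
    (l - 1) + σ (l - 1) + σ (l - 1) * (l - 1) * f.B x x = 0 := by
  rw [hx, map_sub, map_one]; linear_combination hl

theorem hm_apply {l : F} (hx : f.B x x = 1) (hl : σ l * l = 1) (v : V) :
    f.rk x (l - 1) v = v + ((l - 1) * f.B x v) • x := rk_apply (hm_ok hx hl) v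

theorem norm_mul {l m : F} (hl : σ l * l = 1) (hm : σ m * m = 1) : σ (l * m) * (l * m) = 1 := by
  rw [map_mul]; linear_combination σ m * m * hl + hm

theorem hm_mul {l m : F} (hx : f.B x x = 1) (hl : σ l * l = 1) (hm : σ m * m = 1) :
    f.rk x (l - 1) * f.rk x (m - 1) = f.rk x (l * m - 1) := by
  ext v
  rw [LinearEquiv.mul_apply, hm_apply hx hl, hm_apply hx hm, hm_apply hx (norm_mul hl hm), map_add,
    B_smul_right, hx]
  module

theorem sw_ok (hx : f.B x x = 2) : (-1 : F) + σ (-1) + σ (-1) * (-1) * f.B x x = 0 := by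
  rw [hx, map_neg, map_one]; ring

theorem sw_apply (hx : f.B x x = 2) (v : V) : f.rk x (-1) v = v - f.B x v • x := by
  rw [rk_apply (sw_ok hx)]; module

end rk

variable (f K) in
/-- All homologies with centre the unit vector `x` lie in `K`. -/
def Hr (x : V) : Prop := f.B x x = 1 ∧ ∀ l, σ l * l = 1 → f.rk x (l - 1) ∈ K

namespace Hr

variable {x y : V}

theorem map (h : f.Hr K x) {g : V ≃ₗ[F] V} (hg : g ∈ K) (hO : g ∈ f.O) : f.Hr K (g x) :=
  ⟨(mem_O_B hO x x).trans h.1, fun l hl =>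
    rk_conj hO x (l - 1) ▸ mul_mem (mul_mem hg (h.2 l hl)) (inv_mem hg)⟩

theorem smul (h : f.Hr K x) {a : F} (ha : σ a * a = 1) : f.Hr K (a • x) :=
  ⟨by rw [hB_smul, B_smul_right, ← mul_assoc, ha, h.1, one_mul], fun l hl => by
    rw [rk_smul ha]; exact h.2 l hl⟩

theorem hm (h : f.Hr K x) (h' : f.Hr K y) {l : F} (hl : σ l * l = 1) :
    f.Hr K (y + ((l - 1) * f.B x y) • x) :=
  hm_apply h.1 hl y ▸ h'.map (h.2 l hl) (rk_mem_O _ _)

theorem rk (N : NF σ) (h : f.Hr K x) : f.Rk K x := by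
  obtain ⟨l, hl, l1⟩ := N.ex [1] (by simp)
  exact ⟨_, h.2 l hl, rk_mem_O _ _, l - 1, sub_ne_zero.2 (by simpa using l1), hm_apply h.1 hl⟩

theorem step (N : NF σ) {u : V} (h : f.Hr K x) (h' : f.Hr K (x + u)) (hu : f.q u = 0)
    (hux : f.B u x = 0) (s : F) : f.Es K u (s • x) := by
  obtain ⟨l, hl, l1⟩ := N.ex [1] (by simp)
  obtain ⟨γ, γ0, e⟩ := es_of_step (h.2 l hl) (h'.2 l hl) (rk_mem_O _ _)
    (sub_ne_zero.2 (by simpa using l1)) (by simp [h.1]) hu hux (hm_apply h.1 hl) (hm_apply h'.1 hl)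
  have := N.induction (P := fun s => f.Es K u ((s * γ) • x))
    (fun a b ha hb => by simpa [sub_mul, sub_smul] using ha.sub hb) (fun m hm => by
      convert e.map_fix (h.2 m hm) (rk_mem_O _ _) (by
        rw [hm_apply h.1 hm, f.B_eq_zero_symm hux]; simp) using 1
      rw [hm_apply h.1 hm, B_smul_right, h.1]
      module) (s * γ⁻¹)
  rwa [inv_mul_cancel_right₀ γ0] at this

section plane

variable {P : Submodule F V} (hP : (f.restrict P).Nondeg) (h2 : finrank F P = 2)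
include hP h2

omit [Finite F] in
theorem plane_basis (hy : y ∈ P) (h1 : f.B y y = 1) : ∃ t, f.B y t = 0 ∧ f.B t t ≠ 0 ∧
    ∀ v ∈ P, ∃ b : F, v = f.B y v • y + b • t := by
  have y0 : y ≠ 0 := by rintro rfl; simp at h1
  obtain ⟨t, ht, t0, h3⟩ := exists_mem_perp_ne_zero hP
    ((Submodule.span_singleton_le_iff_mem _ _).2 hy) (by rw [finrank_span_singleton y0]; omega)
  have h4 := f.mem_perp_span_singleton.1 h3
  have h5 : P ≤ Submodule.span F {y, t} := (Submodule.eq_of_le_of_finrank_eq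
    (Submodule.span_le.2 (by rintro _ (rfl | rfl) <;> assumption)) (by
      rw [h2, finrank_span_pair_of t0 (not_mem_span_of_B (f := f) (d := y) (by simp [h1]) h4)])).ge
  refine ⟨t, h4, fun e => t0 (restrict_nondeg_iff'.1 hP t ht fun v hv =>
    f.mem_perp_span_pair.2 ⟨h4, e⟩ v (h5 hv)), fun v hv => ?_⟩
  obtain ⟨a, b, rfl⟩ := Submodule.mem_span_pair.1 (h5 hv)
  exact ⟨b, by simp [h1, h4]⟩

theorem same_level (hy : y ∈ P) (ry : f.Hr K y) {v w : V} (hv : v ∈ P) (hw : w ∈ P)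
    (h1 : f.B v v = 1) (rw' : f.Hr K w) (e : σ (f.B y v) * f.B y v = σ (f.B y w) * f.B y w) :
    f.Hr K v := by
  obtain ⟨t, yt, tt, H⟩ := plane_basis hP h2 hy ry.1
  obtain ⟨b, hb⟩ := H v hv
  obtain ⟨b', hb'⟩ := H w hw
  have k : ∀ a b : F, f.B (a • y + b • t) (a • y + b • t) = σ a * a + σ b * b * f.B t t :=
    fun a b => by
      simp only [map_add, LinearMap.add_apply, hB_smul, map_smul, smul_eq_mul, ry.1, yt,
        f.B_eq_zero_symm yt]
      ring
  have h3 := rw'.1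
  rw [hb, k] at h1
  rw [hb', k] at h3
  obtain ⟨μ, hμ, e1⟩ := NF.exists_eq_mul (σ := σ) (a := b) (b := b')
    (mul_right_cancel₀ tt (by linear_combination h1 - h3 - e))
  obtain ⟨ν, hν, e2⟩ := NF.exists_eq_mul e
  convert (ry.hm rw' (l := ν * σ μ) (norm_mul hν (by rw [hσ2, mul_comm, hμ]))).smul hμ using 1
  rw [hb, e1, e2]
  nth_rw 2 [hb']
  match_scalars
  · linear_combination -ν * f.B y w * hμ
  · ring

theorem of_level (N : NF σ) {z v : V} (hy : y ∈ P) (hz : z ∈ P) (hv : v ∈ P) (ry : f.Hr K y)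
    (rz : f.Hr K z) (h1 : f.B v v = 1) (z0 : f.B y z ≠ 0) (z1 : σ (f.B y z) * f.B y z ≠ 1)
    (v0 : f.B y v ≠ 0) (v1 : σ (f.B y v) * f.B y v ≠ 1) : f.Hr K v := by
  have h3 : f.B z v - σ (f.B y z) * f.B y v ≠ 0 := by
    obtain ⟨t, yt, tt, H⟩ := plane_basis hP h2 hy ry.1
    obtain ⟨b, hb⟩ := H v hv
    obtain ⟨b', hb'⟩ := H z hz
    have k : ∀ (b : F) v, v = f.B y v • y + b • t → f.B v v = 1 → σ (f.B y v) * f.B y v ≠ 1 → b ≠ 0 := by
      rintro _ v e h1 h3 rfl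
      rw [e] at h1
      exact h3 (by simpa [ry.1, FormType.herm_σ, mul_comm] using h1)
    have : f.B z v = σ (f.B y z) * f.B y v + σ b' * b * f.B t t := by
      conv_lhs => rw [hb, hb']
      simp only [map_add, LinearMap.add_apply, hB_smul, map_smul, smul_eq_mul, ry.1, yt,
        f.B_eq_zero_symm yt]
      ring
    simp [this, tt, k b v hb h1 v1, k b' z hb' rz.1 z1]
  obtain ⟨l, m, hl, hm, -, e⟩ := N.exists_N_eq h3 (b := σ (f.B y z) * f.B y v) (by simp [z0, v0])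
    (sub_ne_zero.2 z1.symm) (b' := σ (f.B y z) * f.B y z) (by simp [z0])
  have hl' : σ (σ l) * σ l = 1 := by rw [hσ2, mul_comm, hl]
  have r1 := ry.hm rz hl'
  have m1 := P.add_mem hz (P.smul_mem ((σ l - 1) * f.B y z) hy)
  refine same_level hP h2 m1 r1 hv (P.add_mem m1 (P.smul_mem _ hy)) h1 (ry.hm r1 hm) ?_
  have e1 : f.B (z + ((σ l - 1) * f.B y z) • y) v =
      f.B z v - σ (f.B y z) * f.B y v + l * (σ (f.B y z) * f.B y v) := by
    rw [B_add_left, hB_smul, map_mul, map_sub, hσ2, map_one]; ring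
  have e2 : f.B y (z + ((σ l - 1) * f.B y z) • y) = σ l * f.B y z := by
    rw [map_add, map_smul, ry.1, smul_eq_mul]; ring
  rw [e1, e, map_add (f.B _), r1.1, map_smul, ← hσ_B y, e2, map_mul σ (σ l), hσ2, smul_eq_mul]
  rw [show 1 - σ (f.B y z) * f.B y z + m * (σ (f.B y z) * f.B y z) =
    1 + (m - 1) * (σ l * f.B y z) * (l * σ (f.B y z)) by
      linear_combination (1 - m) * σ (f.B y z) * f.B y z * hl]

theorem of_plane (N : NF σ) {z v : V} (hy : y ∈ P) (hz : z ∈ P) (hv : v ∈ P) (ry : f.Hr K y)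
    (rz : f.Hr K z) (h1 : f.B v v = 1) (z0 : f.B y z ≠ 0) (z1 : σ (f.B y z) * f.B y z ≠ 1) :
    f.Hr K v := by
  by_cases e1 : σ (f.B y v) * f.B y v = 1
  · exact same_level hP h2 hy ry hv hy h1 ry (by simp [e1, ry.1])
  by_cases e2 : σ (f.B z v) * f.B z v = 1
  · exact same_level hP h2 hz rz hv hz h1 rz (by simp [e2, rz.1])
  by_cases e3 : f.B y v = 0
  swap; · exact of_level hP h2 N hy hz hv ry rz h1 z0 z1 e3 e1
  refine of_level hP h2 N hz hy hv rz ry h1 (fun e => z0 (f.B_eq_zero_symm e))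
    (by rwa [hσ_B, ← hσ_B y z, mul_comm]) (fun e => ?_) e2
  obtain ⟨t, yt, tt, H⟩ := plane_basis hP h2 hy ry.1
  obtain ⟨b, hb⟩ := H v hv
  obtain ⟨b', hb'⟩ := H z hz
  have h3 := rz.1
  rw [e3, zero_smul, zero_add] at hb
  rw [hb, hb'] at e
  have b0 : b ≠ 0 := by rintro rfl; simp [hb] at h1
  obtain rfl : b' = 0 := by simpa [yt, tt, b0] using e
  rw [hb'] at h3
  exact z1 (by simpa [ry.1, FormType.herm_σ, mul_comm] using h3)

end plane

theorem of_span (N : NF σ) {z v : V} (ry : f.Hr K y) (rz : f.Hr K z)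
    (hv : v ∈ Submodule.span F {y, z}) (h1 : f.B v v = 1) {w : V}
    (hw : w ∈ Submodule.span F {y, z}) (rw' : f.Hr K w) (z1 : σ (f.B y z) * f.B y z ≠ 1)
    (w0 : f.B y w ≠ 0) (w1 : σ (f.B y w) * f.B y w ≠ 1) : f.Hr K v :=
  of_plane (restrict_nondeg_span_pair (by rwa [ry.1, rz.1, ← hσ_B y z, one_mul, mul_comm, ne_comm]))
    (finrank_span_pair_of (by rintro rfl; simpa using rz.1) fun e => by
      obtain ⟨a, rfl⟩ := Submodule.mem_span_singleton.1 e
      have := ry.1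
      simp only [hB_smul, map_smul, rz.1, smul_eq_mul, mul_one, hσ2] at this z1
      exact z1 this) N (Submodule.subset_span (by simp)) hw hv ry rw' h1 w0 w1

end Hr

variable {ι : Type*} [Fintype ι] {e : ι → V}

namespace Fr

variable (h : f.Fr e 1) (hσ : σ ≠ RingHom.id F)
include h

theorem mem_ln {x : V} {i : ι} (hx : ∀ j, j ≠ i → f.B (e j) x = 0) : x = f.B (e i) x • e i := by
  simpa only [co_one] using h.eq_smul (v := x) (i := i) (by simpa only [co_one] using hx)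

theorem exists_B {x : V} (hx : x ≠ 0) : ∃ i, f.B (e i) x ≠ 0 := by
  simpa only [co_one] using h.exists_co_ne hx

theorem exists_B' {x : V} {i : ι} (hx : x ∉ F ∙ e i) : ∃ j, j ≠ i ∧ f.B (e j) x ≠ 0 := by
  by_contra! H
  exact hx (Submodule.mem_span_singleton.2 ⟨_, (h.mem_ln H).symm⟩)

theorem hm_mem (i : ι) {l : F} (hl : σ l * l = 1) : f.rk (e i) (l - 1) ∈ dstab (ln F e) :=
  h.sdec.mem_dstab_of_rk (i := i) (Submodule.mem_span_singleton_self _) (hm_apply (h.self i) hl)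

theorem B_std {i j : ι} (hij : i ≠ j) {a : F} (ha : σ a * a = 1) :
    f.B (e i + a • e j) (e i + a • e j) = 2 := by
  simp only [map_add, LinearMap.add_apply, hB_smul, map_smul, smul_eq_mul, h.self, h.ne _ _ hij,
    h.ne _ _ hij.symm]
  linear_combination ha

include hσ

theorem mem_E {g : V ≃ₗ[F] V} (hg : g ∈ f.O) (hd : LinearMap.det (g : V →ₗ[F] V) = 1) : g ∈ f.E :=
  Uni.E_eq_SO hσ h.sdec.nondeg' ▸ f.mem_SO.2 ⟨hg, hd⟩

theorem hm_mul_inv (i j : ι) {l : F} (hl : σ l * l = 1) :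
    f.rk (e i) (l - 1) * (f.rk (e j) (l - 1))⁻¹ ∈ dstab (ln F e) ⊓ f.E :=
  ⟨(dstab _).mul_mem (h.hm_mem i hl) ((dstab _).inv_mem (h.hm_mem j hl)), h.mem_E hσ
    (mul_mem (rk_mem_O _ _) (inv_mem (rk_mem_O _ _))) (by
      rw [det_mul_equiv, det_inv_equiv, det_rk (hm_ok (h.self i) hl), det_rk (hm_ok (h.self j) hl),
        h.self, h.self, mul_inv_cancel₀ (by rintro e; simp_all)])⟩

theorem herm_cyc {i j k : ι} (hij : i ≠ j) (hjk : j ≠ k) (hik : i ≠ k) :
    ∃ u ∈ dstab (ln F e) ⊓ f.E, f.IsCyc 1 u (e i) (e j) (e k) := by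
  have k1 := fun j (hj : i ≠ j) => h.B_std hj (a := -1) (by simp)
  have k3 : f.IsCyc 1 (f.rk (e i + (-1 : F) • e k) (-1) * f.rk (e i + (-1 : F) • e j) (-1))
      (e i) (e j) (e k) := fun v => by
    rw [LinearEquiv.mul_apply, sw_apply (k1 k hik), sw_apply (k1 j hij)]
    simp only [map_sub, map_add, map_smul, LinearMap.add_apply, hB_smul, h.self, h.ne _ _ hij,
      h.ne _ _ hik.symm, h.ne _ _ hjk.symm, smul_eq_mul, co_one, map_neg, map_one]
    module
  exact ⟨_, ⟨k3.mem_dstab h hij hjk hik, h.mem_E hσ (mul_mem (rk_mem_O _ _) (rk_mem_O _ _)) (by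
    rw [det_mul_equiv, det_rk (sw_ok (k1 k hik)), det_rk (sw_ok (k1 j hij)), k1 k hik, k1 j hij]
    ring)⟩, k3⟩

theorem herm_fGen {M : Subgroup (V ≃ₗ[F] V)} (hM : dstab (ln F e) ⊓ f.E ≤ M) : f.FGen e 1 M where
  t i j hij := by
    have h1 : σ (-1) * (-1) = 1 := by simp
    have h2 := h.hm_mul_inv hσ i j h1
    rw [inv_eq_of_mul_eq_one_right (b := f.rk (e j) (-1 - 1)) (by
      rw [hm_mul (h.self j) h1 h1]; ext v; simp [rk_apply])] at h2
    refine ⟨_, hM h2, h2.1, fun v => ?_⟩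
    rw [LinearEquiv.mul_apply, hm_apply (h.self i) h1, hm_apply (h.self j) h1]
    simp only [map_add, map_smul, h.ne _ _ hij, co_one, smul_eq_mul]
    module
  cyc i j k hij hjk hik := by
    obtain ⟨u, hu, hu'⟩ := h.herm_cyc hσ hij hjk hik
    exact ⟨u, hM hu, hu'⟩

theorem sw_mem (h2 : (2 : F) = 0) {i j : ι} (hij : i ≠ j) {a : F} (ha : σ a * a = 1) :
    f.rk (e i + a • e j) (-1) ∈ dstab (ln F e) ⊓ f.E := by
  have h1 := h.B_std hij ha
  refine ⟨h.mem_dstab_iff.2 fun s => ?_, h.mem_E hσ (rk_mem_O _ _) (by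
    rw [det_rk (sw_ok h1), h1, h2]; simp)⟩
  rw [sw_apply h1, B_add_left, hB_smul]
  by_cases h3 : i = s
  · exact ⟨j, -a, by simp [← h3, h.self, h.ne _ _ hij.symm]⟩
  by_cases h4 : j = s
  · exact ⟨i, -σ a, by simp [← h4, h.self, h.ne _ _ hij, smul_smul, ha]⟩
  · exact ⟨s, 1, by simp [h.ne _ _ h3, h.ne _ _ h4]⟩

end Fr

variable (f K e) in
/-- `K` contains the frame stabiliser and the homologies of the frame. -/
structure UF : Prop extends f.Fr e 1 where
  N : NF σ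
  le : dstab (ln F e) ⊓ f.E ≤ K
  hr : ∀ i, f.Hr K (e i)
  h4 : 4 ≤ Fintype.card ι

namespace UF

variable (h : f.UF K e)
include h

theorem cyc {i j k : ι} (hij : i ≠ j) (hjk : j ≠ k) (hik : i ≠ k) :
    ∃ u ∈ K, u ∈ f.O ∧ f.IsCyc 1 u (e i) (e j) (e k) := by
  obtain ⟨u, hu, hu'⟩ := h.herm_cyc h.N.ne_id hij hjk hik
  exact ⟨u, h.le hu, E_le_O hu.2, hu'⟩

theorem of_level {y : V} (hy : f.Hr K y) {i : ι} (h1 : σ (f.B (e i) y) * f.B (e i) y = 1)
    (hn : y ∉ F ∙ e i) : f.E ≤ K := by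
  have hσ := h.N.ne_id
  have ry := hy.smul (a := σ (f.B (e i) y)) (by rw [hσ2, mul_comm, h1])
  obtain ⟨u, hu⟩ : ∃ u, σ (f.B (e i) y) • y = e i + u := ⟨_, (add_sub_cancel _ _).symm⟩
  have h2 : f.B (e i) u = 0 := by simpa [h1, h.self] using congrArg (f.B (e i)) hu
  rw [hu] at ry
  have qu : f.q u = 0 := by
    simpa [herm_q, h.self, h2, f.B_eq_zero_symm h2] using ry.1
  obtain ⟨j, hj⟩ := h.exists_B (x := u) fun e0 => hn (by
    rw [← Submodule.smul_mem_iff _ (left_ne_zero_of_mul_eq_one h1), hu, e0, add_zero]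
    exact Submodule.mem_span_singleton_self _)
  have ij : i ≠ j := by rintro rfl; exact hj h2
  have e1 := (h.hr i).step h.N ry qu (f.B_eq_zero_symm h2)
  obtain ⟨Z₀, nd, fu, hd, hle, x, hx, w, hw, qx, qw, xw⟩ := exists_full (K := K) ⟨qu, fun a ha => by
      obtain ⟨c, rfl⟩ := Uni.exists_sub_σ_eq hσ hσ2 ha
      obtain ⟨_, ok, m⟩ := e1 1
      obtain ⟨_, ok', m'⟩ := e1 c
      have := mul_mem (mul_mem (mul_mem m m') (inv_mem m)) (inv_mem m')
      rw [← commutatorElement_def, ok.commutator_ei ok'] at this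
      simpa [FormType.herm_σ, h.self] using this⟩ ((h.hr j).rk h.N) (fun e0 => hj (f.B_eq_zero_symm e0))
    (restrict_nondeg_span_singleton (t := e i) (by simp [h.self]))
    (f.mem_perp_span_singleton.2 h2) fun w hw => by
      obtain ⟨a, rfl⟩ := Submodule.mem_span_singleton.1 hw
      exact e1 a
  rw [finrank_span_singleton (h.ne_zero i)] at hd
  obtain ⟨Z, hZ, -, fu, sp⟩ := Form.exists_split (R := {y | f.Hr K y}) (fun y r => r.rk h.N)
    h.sdec.nondeg' (top_le_iff.1 (h.top ▸ Submodule.span_mono (by rintro _ ⟨i, rfl⟩; exact h.hr i)))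
    nd fu hx hw qx qw xw fun Z hZ nd fu z hz hz0 t ht r => by
      have h3 : 3 ≤ finrank F Z := hd.le.trans (Submodule.finrank_mono hZ)
      by_cases hq : f.q z = 0
      · have hs := fu.herm_scale hσ nd h3 hz hz0 hq
        obtain ⟨l, hl, l1⟩ := h.N.exists_ne
        have l2 : l - 1 ≠ 0 := fun e0 => l1 (by simp [sub_eq_zero.1 e0])
        obtain ⟨g, hg, hO, g1, g2⟩ := hs l (right_ne_zero_of_mul_eq_one hl)
        have h4 := Hr.map r hg hO
        rw [map_add, g1, g2 t ht, show l • z + t = (z + t) + (l - 1) • z by module] at h4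
        have h5 := (Hr.step h.N r h4 (f.q_smul_eq_zero hq _) (by
          rw [B_smul_left, B_add_right, f.B_self_eq_zero hq, ht z hz]; simp) 1).of_smul_left l2
        rw [one_smul, smul_add] at h5
        have h6 := h5.sub (Es.self hq (fu.tv hq hz) ((FormType.herm σ hσ2).σ (l - 1)))
        rw [add_sub_cancel_left] at h6
        exact fu.mem_SZ_of_scale nd (Or.inl (herm_pi hσ)) hz hz0 ht hs ((map_ne_zero _).2 l2) h6
      · obtain ⟨u, hu, hu0, huq, h1⟩ := herm_exists_singular_perp hσ nd h3 hz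
        refine fu.mem_SZ_of_rk nd (Or.inl (herm_pi hσ)) hz ht (Hr.rk h.N r) hu hu0 huq
          (f.B_eq_zero_symm h1) fun e => hq ?_
        obtain ⟨c, rfl⟩ := Submodule.mem_span_singleton.1 e
        exact f.q_smul_eq_zero huq c
  refine Full.E_le (h.eq_top_of_split h.h4 h.hr (fun i j k h3 h4 h5 => ?_) sp
    ((sp _ ry).resolve_right fun e0 => ?_) ry ij (by simp [co_one, h.self, h2])
    (by simpa [co_one, h.ne _ _ ij.symm] using hj) ▸ fu)
  · obtain ⟨u, hu, hO, hu'⟩ := h.cyc h3 h4 h5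
    exact ⟨u, hu', fun v hv => hv.map hu hO⟩
  · simpa [h.self, h2] using e0 _ (hZ (hle (Submodule.mem_span_singleton_self _)))

theorem of_two {α β : F} {i j : ι} (hij : i ≠ j) (hx : f.Hr K (α • e i + β • e j)) (hα : α ≠ 0)
    (hβ : β ≠ 0) : f.E ≤ K := by
  obtain ⟨k, hk⟩ := exists_notMem_of_lt [i, j]
    (by rw [Nat.card_eq_fintype_card]; exact lt_of_lt_of_le (by simp) h.h4)
  obtain ⟨m, hm⟩ := exists_notMem_of_lt [i, j, k]
    (by rw [Nat.card_eq_fintype_card]; exact lt_of_lt_of_le (by simp) h.h4)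
  simp only [List.mem_cons, List.not_mem_nil, or_false, not_or] at hk hm
  have h1 : σ α * α + σ β * β = 1 := by
    simpa [FormType.herm_σ, h.self, h.ne _ _ hij, h.ne _ _ hij.symm, mul_comm] using hx.1
  have α0 : σ α * α ≠ 0 := by simp [hα]
  obtain ⟨u, hu, hO, hu'⟩ := h.cyc (Ne.symm hk.2) (Ne.symm hm.2.2) (Ne.symm hm.2.1)
  have h2 := hx.map hu hO
  rw [hu'] at h2
  simp only [co_one, map_add, map_smul, h.self, h.ne _ _ hij.symm, h.ne _ _ hk.1, h.ne _ _ hk.2,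
    h.ne _ _ hm.1, h.ne _ _ hm.2.1, smul_eq_mul, mul_zero, mul_one, zero_add, zero_smul,
    add_zero] at h2
  obtain ⟨l, hl, l1⟩ := h.N.exists_ne
  have l2 : l - 1 ≠ 0 := fun e0 => l1 (by simp [sub_eq_zero.1 e0])
  have rw' := hx.hm (h.hr i) hl
  have h3 := hx.hm h2 hl
  obtain ⟨w, hw⟩ : ∃ w, e i + ((l - 1) * f.B (α • e i + β • e j) (e i)) • (α • e i + β • e j) = w :=
    ⟨_, rfl⟩
  have w1 : f.B (e k) w = 0 := by simp [← hw, h.ne _ _ hk.1, h.ne _ _ hk.2]
  have w2 : f.B (e i) w = 1 + (l - 1) * (σ α * α) := by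
    simp [← hw, h.self, h.ne _ _ hij, h.ne _ _ hij.symm, FormType.herm_σ, mul_assoc]
  have w3 : f.B (e j) w = (l - 1) * σ α * β := by
    simp [← hw, h.self, h.ne _ _ hij.symm, FormType.herm_σ]
  have w4 : f.B (e i) w ≠ 0 := fun e0 => l1 (by
    rw [w2] at e0
    have := congrArg σ e0
    simp only [map_add, map_mul, map_sub, map_one, map_zero, hσ2] at this
    exact mul_right_cancel₀ α0 (by linear_combination this - e0))
  replace h3 : f.Hr K (β • e k + α • w) := by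
    convert h3 using 1
    simp only [← hw, map_add, map_sub, map_smul, LinearMap.add_apply, hB_smul, h.self,
      h.ne _ _ hij, h.ne _ _ hij.symm, h.ne _ _ (Ne.symm hk.1), h.ne _ _ (Ne.symm hk.2),
      smul_eq_mul]
    module
  rw [hw] at rw'
  obtain ⟨b, hb⟩ := h.N.norm (1 - σ (f.B (e i) w)⁻¹ * (f.B (e i) w)⁻¹)
    (by rw [map_sub, map_one, map_mul, hσ2, mul_comm])
  have h4 : f.B (e i) (b • e k + (f.B (e i) w)⁻¹ • w) = 1 := by
    simp [h.ne _ _ (Ne.symm hk.1), w4]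
  refine h.of_level (i := i) ((h.hr k).of_span h.N rw' (Submodule.mem_span_pair.2 ⟨b, (f.B (e i) w)⁻¹, rfl⟩)
    ?_ (Submodule.mem_span_pair.2 ⟨β, α, rfl⟩) h3 (by simp [w1]) (by simpa [w1, h.self] using hβ)
    fun e0 => α0 ?_) (by simp [h4]) (not_mem_span_of_B (f := f) (d := e j) ?_ (h.ne _ _ hij.symm))
  · simp only [map_add, LinearMap.add_apply, hB_smul, map_smul, smul_eq_mul, h.self, w1, rw'.1,
      f.B_eq_zero_symm w1]
    linear_combination hb
  · simp only [map_add, map_smul, smul_eq_mul, h.self, w1, mul_one, mul_zero, add_zero] at e0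
    linear_combination h1 - e0
  · simp [h.ne _ _ (Ne.symm hk.2), w3, w4, l2, hα, hβ]

theorem E_le {x : V} (hx : f.Hr K x) (hn : ∀ i, x ∉ F ∙ e i) : f.E ≤ K := by
  classical
  induction hc : (Finset.univ.filter fun i => f.B (e i) x ≠ 0).card using Nat.strong_induction_on
    generalizing x with
  | _ n ih =>
  obtain ⟨i, hi⟩ := h.exists_B (x := x) (by rintro rfl; simpa using hx.1)
  by_cases h1 : σ (f.B (e i) x) * f.B (e i) x = 1
  · exact h.of_level hx h1 (hn i)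
  obtain ⟨s, hs⟩ := h.N.norm (1 - σ (f.B (e i) x) * f.B (e i) x)⁻¹
    (by rw [map_inv₀, map_sub, map_one, map_mul, hσ2, mul_comm])
  have h2 := sub_ne_zero.2 (Ne.symm h1)
  have s0 : s ≠ 0 := by rintro rfl; exact inv_ne_zero h2 (by rw [← hs, mul_zero])
  have ry := (h.hr i).of_span h.N hx (v := (-(s * f.B (e i) x)) • e i + s • x)
    (Submodule.mem_span_pair.2 ⟨_, _, rfl⟩) (by
      simp only [map_add, LinearMap.add_apply, hB_smul, map_smul, smul_eq_mul, h.self, hx.1,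
        ← hσ_B (e i) x, map_neg, map_mul]
      linear_combination (1 - σ (f.B (e i) x) * f.B (e i) x) * hs + mul_inv_cancel₀ h2)
    (Submodule.subset_span (by simp)) hx h1 hi h1
  by_cases H : ∃ j, (-(s * f.B (e i) x)) • e i + s • x ∈ F ∙ e j
  · obtain ⟨j, hj⟩ := H
    obtain ⟨a, ha⟩ := Submodule.mem_span_singleton.1 hj
    have e1 : x = f.B (e i) x • e i + (s⁻¹ * a) • e j := by
      rw [mul_smul, ha, smul_add, inv_smul_smul₀ s0, smul_smul, mul_neg, inv_mul_cancel_left₀ s0]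
      module
    have k : ∀ a : F, a • e i ∈ F ∙ e i := fun a =>
      Submodule.smul_mem _ _ (Submodule.mem_span_singleton_self _)
    exact h.of_two (i := i) (j := j) (fun e0 => hn i (e1 ▸ add_mem (k _) (e0 ▸ k _))) (e1 ▸ hx) hi
      fun e0 => hn i (by rw [e1, e0, zero_smul, add_zero]; exact k _)
  refine ih _ (hc ▸ Finset.card_lt_card ⟨fun j hj => ?_, fun e0 => ?_⟩) ry (not_exists.1 H) rfl
  · by_cases ji : j = i
    · simpa [ji] using hi
    · simpa [h.ne _ _ ji, s0] using hj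
  · simpa [h.self] using e0 (Finset.mem_filter.2 ⟨Finset.mem_univ i, hi⟩)

end UF

section B

variable {M : Subgroup (V ≃ₗ[F] V)} (h : f.Fr e 1) (N : NF σ) (h2 : (2 : F) = 0)
  (hM : dstab (ln F e) ⊓ f.E ≤ M) (h7 : 7 ≤ Fintype.card ι)
  (hs : ∀ m ∈ M, ∀ i j, ∀ a : F, m (e i) = a • e j → m ∈ dstab (ln F e))
include h N h2 hM h7 hs

theorem not_full_two {u : V} (hu : f.B u u = 2) (hu' : f.rk u (-1) ∈ M)
    (hf : ∀ i, f.B (e i) u ≠ 0) : False := by
  have ex : ∀ l : List ι, l.length < 7 → ∃ a, a ∉ l := fun l hl =>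
    exists_notMem_of_lt l (by rw [Nat.card_eq_fintype_card]; omega)
  obtain ⟨i, -⟩ := ex [] (by simp)
  obtain ⟨j, n1⟩ := ex [i] (by simp)
  obtain ⟨k, n2⟩ := ex [i, j] (by simp)
  obtain ⟨l, n3⟩ := ex [i, j, k] (by simp)
  obtain ⟨r, n4⟩ := ex [i, j, k, l] (by simp)
  obtain ⟨s, n5⟩ := ex [i, j, k, l, r] (by simp)
  obtain ⟨t, n6⟩ := ex [i, j, k, l, r, s] (by simp)
  simp only [List.mem_cons, List.not_mem_nil, or_false, not_or] at n1 n2 n3 n4 n5 n6
  have σ1 : ∀ a, σ a * a = 1 → σ (σ a) * σ a = 1 := fun a ha => by rw [hσ2, mul_comm, ha]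
  have k1 : ∀ i j a, f.B (e i + σ a • e j) u = f.B (e i) u + a * f.B (e j) u := fun i j a => by
    rw [B_add_left, hB_smul, hσ2]
  obtain ⟨a, b, ha, hb, β0, eβ⟩ := N.exists_N_eq (hf i) (hf j) (hf k) (hf l)
  obtain ⟨c, -, hc, -, γ0, -⟩ := N.exists_N_eq (hf r) (hf s) (hf k) (hf l)
  rw [← k1] at β0 γ0
  rw [← k1, ← k1] at eβ
  have s1 := hM (h.sw_mem N.ne_id h2 (Ne.symm n1) (σ1 a ha))
  have s2 := hM (h.sw_mem N.ne_id h2 (Ne.symm n3.2.2) (σ1 b hb))
  have s3 := hM (h.sw_mem N.ne_id h2 (Ne.symm n5.2.2.2.2) (σ1 c hc))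
  have b1 := h.B_std (Ne.symm n1) (σ1 a ha)
  have b2 := h.B_std (Ne.symm n3.2.2) (σ1 b hb)
  have b3 := h.B_std (Ne.symm n5.2.2.2.2) (σ1 c hc)
  have b4 : f.B (e i + σ a • e j) (e k + σ b • e l) = 0 := by
    simp [h.ne _ _ (Ne.symm n2.1), h.ne _ _ (Ne.symm n2.2), h.ne _ _ (Ne.symm n3.1),
      h.ne _ _ (Ne.symm n3.2.1)]
  have c1 : ∀ m, m ≠ i → m ≠ j → f.B (e m) (e i + σ a • e j) = 0 := fun m h3 h4 => by
    simp [h.ne _ _ h3, h.ne _ _ h4]
  have c2 : ∀ m, m ≠ k → m ≠ l → f.B (e m) (e k + σ b • e l) = 0 := fun m h3 h4 => by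
    simp [h.ne _ _ h3, h.ne _ _ h4]
  have c3 : f.B (e i) (e i + σ a • e j) = 1 := by simp [h.self, h.ne _ _ (Ne.symm n1)]
  have c4 : f.B (e r) (e r + σ c • e s) = 1 := by simp [h.self, h.ne _ _ (Ne.symm n5.2.2.2.2)]
  have c5 : f.B (e s) (e r + σ c • e s) = σ c := by simp [h.self, h.ne _ _ n5.2.2.2.2]
  have c6 : f.B (e t) (e r + σ c • e s) = 0 := by
    simp [h.ne _ _ n6.2.2.2.2.1, h.ne _ _ n6.2.2.2.2.2]
  generalize e i + σ a • e j = p at *
  generalize e k + σ b • e l = p' at *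
  obtain ⟨ρ, hρ⟩ : ∃ ρ, -(f.B p u • p + f.B p' u • p') = ρ := ⟨_, rfl⟩
  have d1 : ∀ m, m ∉ [i, j, k, l] → f.B (e m) ρ = 0 := fun m hm => by
    simp only [List.mem_cons, List.not_mem_nil, or_false, not_or] at hm
    simp [← hρ, c1 m hm.1 hm.2.1, c2 m hm.2.2.1 hm.2.2.2]
  have d2 : f.B ρ (e i) ≠ 0 := fun e0 => β0 (by
    simpa [← hρ, c3, c2 i (Ne.symm n2.1) (Ne.symm n3.1)] using f.B_eq_zero_symm e0)
  have d3 : f.B ρ u = 0 := by
    simp only [← hρ, map_neg, map_add, LinearMap.neg_apply, LinearMap.add_apply, hB_smul, eβ]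
    linear_combination -σ (f.B p' u) * f.B p' u * h2
  have d4 : f.B ρ ρ = 0 := by
    simp [← hρ, b1, b2, b4, h2, f.B_eq_zero_symm b4]
  have d5 : f.B (e r + σ c • e s) ρ = 0 := by
    simp [d1 r (by simp [n4]), d1 s (by simp [n5])]
  have t1 := mul_mem (mul_mem (mul_mem s1 s2) hu') (inv_mem (mul_mem s1 s2))
  rw [rk_conj (mul_mem (rk_mem_O _ _) (rk_mem_O _ _)), LinearEquiv.mul_apply, sw_apply b1,
    sw_apply b2, map_sub, map_smul, b4, smul_zero, sub_zero,
    show u - f.B p' u • p' - f.B p u • p = u + ρ by rw [← hρ]; module] at t1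
  have ok : f.EichOK ρ u 1 := ⟨(f.herm_q ρ).trans d4, d3, by
    rw [herm_q, hu, FormType.herm_π, map_one, one_add_one_eq_two]⟩
  have t2 : f.Es M ρ u := ⟨1, ok, by
    convert mul_mem t1 hu'
    ext v
    rw [LinearEquiv.mul_apply, sw_apply hu, sw_apply (by
      simp [hu, d3, d4, f.B_eq_zero_symm d3]), ok.ei_apply, FormType.herm_ε]
    simp only [map_sub, map_add, map_smul, LinearMap.add_apply, hu, d3, smul_eq_mul]
    match_scalars
    · ring
    · linear_combination (f.B ρ v) * h2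
    · linear_combination -(f.B u v) * h2⟩
  obtain ⟨a₀, ok', t3⟩ := t2.sub (t2.map_fix s3 (rk_mem_O _ _) (by rw [sw_apply b3, d5]; simp))
  rw [sw_apply b3, sub_sub_cancel] at ok' t3
  obtain ⟨m, d, hm⟩ := h.mem_dstab_iff.1 (hs _ t3 t t 1 (by
    rw [ok'.ei_apply_fix (f.B_eq_zero_symm (d1 t (by simp [n6])))
      (by rw [hB_smul, f.B_eq_zero_symm c6, mul_zero]), one_smul])) i
  rw [ok'.ei_apply] at hm
  have k2 : ∀ z, z ∉ [i, j, k, l] → f.B (e z) (e r + σ c • e s) ≠ 0 → z = m := fun z hz h3 => by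
    by_contra h4
    have := congrArg (f.B (e z)) hm
    simp only [map_sub, map_add (f.B _) (e i), map_smul, d1 z hz, h.ne _ _ h4,
      h.ne z i (fun e0 => hz (by simp [e0])), smul_eq_mul, mul_zero, sub_zero, zero_add] at this
    exact mul_ne_zero d2 (mul_ne_zero γ0 h3) this
  exact n5.2.2.2.2 ((k2 s (by simp [n5]) (c5.trans_ne (left_ne_zero_of_mul_eq_one hc))).trans
    (k2 r (by simp [n4]) (c4 ▸ one_ne_zero)).symm)

theorem supp_two {u : V} (hu : f.B u u = 2) (hu' : f.rk u (-1) ∈ M) {r s : ι} (hrs : r ≠ s)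
    (hr : f.B (e r) u ≠ 0) (hs' : f.B (e s) u ≠ 0) : u ∈ Submodule.span F {e r, e s} := by
  obtain ⟨k, hk⟩ : ∃ k, f.B (e k) u = 0 := by
    by_contra! H
    exact not_full_two h N h2 hM h7 hs hu hu' H
  obtain ⟨m, a, hm⟩ := h.mem_dstab_iff.1 (hs _ hu' k k 1 (by
    rw [sw_apply hu, f.B_eq_zero_symm hk]; simp)) r
  have k1 : ∀ z, z ≠ r → f.B (e z) u ≠ 0 → z = m := fun z hz h3 => by
    by_contra h4
    have := congrArg (f.B (e z)) hm
    rw [sw_apply hu] at this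
    simp only [map_sub, map_smul, h.ne _ _ hz, h.ne _ _ h4, smul_eq_mul, mul_zero, zero_sub,
      neg_eq_zero] at this
    exact mul_ne_zero (fun e0 => hr (f.B_eq_zero_symm e0)) h3 this
  exact Submodule.mem_span_pair.2 ⟨_, _, (h.eq_two hrs fun j h3 h4 => (co_one _ _).trans
    (not_not.1 fun h5 => h4 ((k1 j h3 h5).trans (k1 s hrs.symm hs').symm))).symm⟩

theorem le_dstab_two (hO : M ≤ f.O) : M ≤ dstab (ln F e) := fun g hg => by
  classical
  obtain ⟨i, -⟩ := exists_notMem_of_lt (α := ι) [] (by rw [Nat.card_eq_fintype_card]; simp; omega)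
  have h1 := h.map (hO hg)
  obtain ⟨r, hr⟩ := h.exists_B (h1.ne_zero i)
  by_cases H : g (e i) ∈ F ∙ e r
  · obtain ⟨a, ha⟩ := Submodule.mem_span_singleton.1 H
    exact hs g hg i r a ha.symm
  obtain ⟨s, sr, hs'⟩ := h.exists_B' H
  have h3 : Submodule.span F {g (e i), e s, e r} = ⊤ := by
    refine top_le_iff.1 (h1.top ▸ Submodule.span_le.2 ?_)
    rintro _ ⟨j, rfl⟩
    by_cases ij : i = j
    · exact Submodule.subset_span (by simp [ij])
    obtain ⟨a, ha, n⟩ := N.ex [-f.B (e s) (g (e i)) / f.B (e s) (g (e j)),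
      -f.B (e r) (g (e i)) / f.B (e r) (g (e j))] (by simp)
    simp only [List.mem_cons, List.not_mem_nil, or_false, not_or] at n
    have k : ∀ s, f.B (e s) (g (e i)) ≠ 0 → a ≠ -f.B (e s) (g (e i)) / f.B (e s) (g (e j)) →
        f.B (e s) (g (e i + a • e j)) ≠ 0 := fun s h3 h4 h5 => by
      rw [map_add, map_smul, map_add, map_smul, smul_eq_mul] at h5
      have : f.B (e s) (g (e j)) ≠ 0 := fun e0 => h3 (by simpa [e0] using h5)
      exact h4 (by field_simp; linear_combination h5)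
    obtain ⟨α, β, e1⟩ := Submodule.mem_span_pair.1 (supp_two h N h2 hM h7 hs
      ((mem_O_B (hO hg) _ _).trans (h.B_std ij ha)) (rk_conj (hO hg) _ _ ▸ mul_mem (mul_mem hg
        (hM (h.sw_mem N.ne_id h2 ij ha))) (inv_mem hg)) sr (k s hs' n.1) (k r hr n.2))
    refine Submodule.mem_span_triple.2 ⟨-σ a, σ a * α, σ a * β, ?_⟩
    rw [map_add, map_smul] at e1
    linear_combination (norm := module) σ a • e1 + ha • g (e j)
  have h4 := finrank_span_finset_le_card (R := F) ({g (e i), e s, e r} : Finset V)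
  have h5 := Finset.card_le_three (a := g (e i)) (b := e s) (c := e r)
  rw [Set.finrank, Finset.coe_insert, Finset.coe_pair, h3, finrank_top, ← h.card_eq] at h4
  omega

end B

theorem Fr.herm_E_le (h : f.Fr e 1) (N : NF σ) (h9 : 9 ≤ Fintype.card ι)
    {M : Subgroup (V ≃ₗ[F] V)} (hM : dstab (ln F e) ⊓ f.E ≤ M) (hO : M ≤ f.O)
    (hM' : ¬ M ≤ dstab (ln F e)) : f.E ≤ M := by
  have : Finite V := Module.finite_of_finite F
  obtain ⟨m, hm, mn, i, j, a, ha⟩ : ∃ m ∈ M, m ∉ dstab (ln F e) ∧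
      ∃ i j, ∃ a : F, m (e i) = a • e j := by
    by_cases h2 : (2 : F) = 0
    · by_contra! H
      exact hM' (le_dstab_two h N h2 hM (by omega)
        (fun m hm i j a e0 => not_not.1 fun e1 => H m hm e1 i j a e0) hO)
    · exact h.exists_not_mono h2 (h.herm_fGen N.ne_id hM) hO h9 hM'
  obtain ⟨k, hk⟩ := not_forall.1 (mt h.mem_dstab_iff.2 mn)
  have a1 : σ a * a = 1 := by
    have := mem_O_B (hO hm) (e i) (e i)
    rwa [ha, hB_smul, B_smul_right, h.self, h.self, mul_one] at this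
  let A : Subgroup (V ≃ₗ[F] V) := Subgroup.closure {g | ∃ l, σ l * l = 1 ∧ g = f.rk (e j) (l - 1)}
  have kA : ∀ g ∈ A, ∃ l, σ l * l = 1 ∧ g = f.rk (e j) (l - 1) := fun g hg => by
    induction hg using Subgroup.closure_induction with
    | mem x hx => exact hx
    | one => exact ⟨1, by simp, by ext v; simp [rk_apply]⟩
    | mul x y _ _ hx hy =>
      obtain ⟨l, hl, rfl⟩ := hx
      obtain ⟨l', hl', rfl⟩ := hy
      exact ⟨_, norm_mul hl hl', hm_mul (h.self j) hl hl'⟩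
    | inv x _ hx =>
      obtain ⟨l, hl, rfl⟩ := hx
      have hl' : σ (σ l) * σ l = 1 := by rw [hσ2, mul_comm, hl]
      exact ⟨σ l, hl', inv_eq_of_mul_eq_one_left (by
        rw [hm_mul (h.self j) hl' hl, hl]; ext v; simp [rk_apply])⟩
  have kH : ∀ x, f.B x x = 1 → (∀ l, σ l * l = 1 → f.rk x (l - 1) * (f.rk (e j) (l - 1))⁻¹ ∈ M) →
      f.Hr (relCore M A ⊔ A) x := fun x hx H => ⟨hx, fun l hl => by
    rw [← inv_mul_cancel_right (f.rk x (l - 1)) (f.rk (e j) (l - 1))]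
    refine Subgroup.mul_mem_sup (mem_relCore.2 fun g hg => ?_)
      (Subgroup.subset_closure ⟨l, hl, rfl⟩)
    obtain ⟨μ, hμ, rfl⟩ := kA g hg
    have := mul_mem (inv_mem (H μ hμ)) (H _ (norm_mul hμ hl))
    rw [← hm_mul hx hμ hl, ← hm_mul (h.self j) hμ hl] at this
    simpa [mul_assoc] using this⟩
  refine le_of_le_relCore_sup (A := A) (Uni.commutator_E N.ne_id h.sdec.nondeg'
    (by rw [← h.card_eq]; omega) (Or.inl (by rw [← h.card_eq]; omega))) (fun g hg g' hg' => ?_)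
    (UF.E_le ⟨h, N, fun n hn => Subgroup.mem_sup_left (mem_relCore.2 fun g hg => ?_),
      fun i => kH _ (h.self i) fun l hl => hM (h.hm_mul_inv N.ne_id i j hl), by omega⟩
      (kH (m (e k)) ((mem_O_B (hO hm) _ _).trans (h.self k)) fun l hl => ?_) fun i e0 => hk ?_)
  · obtain ⟨l, hl, rfl⟩ := kA g hg
    obtain ⟨l', hl', rfl⟩ := kA g' hg'
    rw [hm_mul (h.self j) hl hl', hm_mul (h.self j) hl' hl, mul_comm]
  · obtain ⟨l, hl, rfl⟩ := kA g hg
    exact hM ⟨(dstab _).mul_mem ((dstab _).mul_mem (h.hm_mem j hl) hn.1)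
      ((dstab _).inv_mem (h.hm_mem j hl)),
      conj_mem_E (rk_mem_O _ _) hn.2⟩
  · have := mul_mem (mul_mem hm (hM (h.hm_mul_inv N.ne_id k i hl))) (inv_mem hm)
    rw [← rk_smul a1 (e j), ← ha, ← rk_conj (hO hm), ← rk_conj (hO hm)]
    simpa [mul_assoc] using this
  · obtain ⟨b, hb⟩ := Submodule.mem_span_singleton.1 e0
    exact ⟨i, b, hb.symm⟩

end Form

end CL.Witt

namespace CL.FGL

open Module Matrix Cfsg Cfsg.Geo CL.Witt CL.Witt.Form CL.Orth

theorem su_frame_isMaximalIn {F : Type*} [Field F] [Fintype F] {n q : ℕ}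
    (hF : Fintype.card F = q ^ 2) (hn : 9 ≤ n) {t : ℕ} {D : Fin t → Submodule F (Fin n → F)}
    (hD : IsNondegenerateMDecomposition (hermForm n F q) 1 D) :
    IsMaximalIn (GU n F q ⊓ specialLinear (Fin n) F)
      (decompositionStabilizer D ⊓ (GU n F q ⊓ specialLinear (Fin n) F)) := by
  have h := sdec_of _ (uni_B_iff hF) hD
  have hσ := Uni.sig_ne_id hF
  have ht := hD.decomp.two_le
  have : Nonempty (Fin t) := ⟨⟨0, by omega⟩⟩
  obtain ⟨e, c, h1, rfl⟩ := h.exists_fr rfl hD.decomp.finrank_eq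
    (h.herm_isom hσ hD.decomp.finrank_eq)
  obtain ⟨s, hs⟩ := (nf_sig hF).norm c⁻¹ (by rw [map_inv₀]; exact congrArg _ h1.σc)
  have s0 : s ≠ 0 := by rintro rfl; exact inv_ne_zero h1.c0 (by rw [← hs, mul_zero])
  have h2 : ln F e = ln F fun i => s • e i := funext fun i =>
    (Submodule.span_singleton_smul_eq s0.isUnit _).symm
  have h3 : (Uni.std hF (Fin n)).Fr (fun i => s • e i) 1 := ⟨rfl, one_ne_zero, map_one _,
    fun i => by rw [hB_smul, B_smul_right, h1.self, ← mul_assoc, hs, inv_mul_cancel₀ h1.c0],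
    fun i j hij => by simp [h1.ne i j hij], by
      rw [Submodule.span_range_eq_iSup]; exact (congrArg iSup h2).symm.trans h.top⟩
  have h4 := h3.card_eq
  have h5 := h.nondeg'.finrank_add_finrank_perp (ln F e ⟨0, by omega⟩)
  rw [hD.decomp.finrank_eq] at h5
  simp only [finrank_fun, Fintype.card_fin] at h4 h5
  obtain ⟨u, hu, hu0, huq⟩ := herm_iso2 hσ _ ((Uni.std hF (Fin n)).perp (ln F e ⟨0, by omega⟩))
    (by omega)
  refine decomp_isMaximalIn (fun _ => mem_SU_iff_E hF) (h.not_E_le_dstab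
    (Submodule.mem_span_singleton_self _) (h1.ne_zero _) hu hu0 huq) fun M h6 h7 g hg hg' => ?_
  rw [h2] at h6 hg'
  exact h3.herm_E_le (nf_sig hF) (by simp; omega) h6 (h7.trans E_le_O) fun h8 => hg' (h8 hg)

end CL.FGL
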