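import Mathlib
import Cfsg.Agent.CLAS.Ref11
import Cfsg.Agent.CLAS.SuFr6A

/-!
Maximality of the stabiliser of an orthonormal frame in `SU₆(q)`, `q ≥ 3`.
-/

set_option autoImplicit false
set_option linter.unusedSectionVars false

namespace CL.Asch

open Module CL.Witt CL.Witt.Form

variable {F : Type*} [Field F] [Finite F] {σ : F →+* F} {hσ2 : ∀ a, σ (σ a) = a} {V : Type*}
  [AddCommGroup V] [Module F V] [FiniteDimensional F V] {f : Form (FormType.herm σ hσ2) V}
  {ι : Type*} [Fintype ι] {e : ι → V} {M : Subgroup (V ≃ₗ[F] V)}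

theorem sf_d1 (h : f.Fr e 1) (k : ι) {s : F} (hs : σ s * s = 1) :
    (f.rk (e k) (s - 1))⁻¹ = f.rk (e k) (σ s - 1) :=
  inv_eq_of_mul_eq_one_left (by
    rw [hm_mul (h.self k) (by rw [hσ2, mul_comm, hs]) hs, hs]; ext v; simp [rk_apply])

theorem sf_d2 (h : f.Fr e 1) (hσ : σ ≠ RingHom.id F) {k l : ι} (hkl : k ≠ l) {s : F}
    (hs : σ s * s = 1) : ∃ t ∈ dstab (ln F e) ⊓ f.E, ∀ v,
      t v = v + ((s - 1) * f.B (e k) v) • e k + ((σ s - 1) * f.B (e l) v) • e l := by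
  refine ⟨_, h.hm_mul_inv hσ k l hs, fun v => ?_⟩
  rw [sf_d1 h l hs, LinearEquiv.mul_apply, hm_apply (h.self k) hs,
    hm_apply (h.self l) (by rw [hσ2, mul_comm, hs])]
  simp only [map_add, map_smul, h.ne _ _ hkl, smul_eq_mul]
  module

theorem sf_ext (h : f.Fr e 1) {v w : V} (H : ∀ i, f.B (e i) v = f.B (e i) w) : v = w :=
  h.ext (by simpa only [co_one] using H)

theorem sf_line (h : f.Fr e 1) {k l : ι} (hkl : k ≠ l) {x w : V}
    (hx : x ∈ Submodule.span F {e k, e l}) (x0 : x ≠ 0) (xx : f.B x x = 0)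
    (hw : w ∈ Submodule.span F {e k, e l}) (xw : f.B x w = 0) : w ∈ F ∙ x := by
  obtain ⟨a, b, rfl⟩ := Submodule.mem_span_pair.1 hx
  obtain ⟨p, r, rfl⟩ := Submodule.mem_span_pair.1 hw
  simp only [map_add, LinearMap.add_apply, hB_smul, map_smul, smul_eq_mul, h.self, h.ne _ _ hkl,
    h.ne _ _ hkl.symm, mul_one, mul_zero, add_zero, zero_add] at xx xw
  have a0 : a ≠ 0 := by
    rintro rfl
    have : b = 0 := by simpa using xx
    simp [this] at x0
  have b0 : σ b ≠ 0 := fun e0 => a0 (by simpa [e0] using xx)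
  have : r = p / a * b := by
    rw [div_mul_eq_mul_div, eq_div_iff a0]
    exact mul_left_cancel₀ b0 (by linear_combination a * xw - p * xx)
  exact Submodule.mem_span_singleton.2 ⟨p / a, by
    rw [this, smul_add, smul_smul, smul_smul, div_mul_cancel₀ _ a0]⟩

variable (f M) in
theorem sf_exists_K (x : V) : ∃ K : Subgroup (V ≃ₗ[F] V), ∀ κ, κ ∈ K ↔
    (∀ v, f.B x v = 0 → f.B x (κ v) = 0) ∧ ∃ c ∈ M, c x ∈ F ∙ x ∧
      ∀ v, f.B x v = 0 → c v - κ v ∈ F ∙ x := by
  have : Finite V := Module.finite_of_finite F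
  have : Finite (V ≃ₗ[F] V) := Finite.of_injective (fun g : V ≃ₗ[F] V => (g : V → V))
    DFunLike.coe_injective
  have k : ∀ c : V ≃ₗ[F] V, c x ∈ F ∙ x → ∀ v ∈ F ∙ x, c v ∈ F ∙ x := fun c hc v hv => by
    obtain ⟨a, rfl⟩ := Submodule.mem_span_singleton.1 hv
    rw [map_smul]; exact Submodule.smul_mem _ _ hc
  let P : Submonoid (V ≃ₗ[F] V) :=
    { carrier := {κ | (∀ v, f.B x v = 0 → f.B x (κ v) = 0) ∧ ∃ c ∈ M, c x ∈ F ∙ x ∧
        ∀ v, f.B x v = 0 → c v - κ v ∈ F ∙ x}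
      one_mem' := ⟨fun _ h => h, 1, one_mem _, Submodule.mem_span_singleton_self _, by simp⟩
      mul_mem' := by
        rintro κ κ' ⟨h1, c, hc, h2, h3⟩ ⟨h1', c', hc', h2', h3'⟩
        refine ⟨fun v hv => h1 _ (h1' v hv), c * c', mul_mem hc hc', k c h2 _ h2', fun v hv => ?_⟩
        simpa using add_mem (k c h2 _ (h3' v hv)) (h3 _ (h1' v hv)) }
  exact ⟨{ P with
    inv_mem' := fun hg => Submonoid.powers_le (P := P).2 hg
      (mem_powers_iff_mem_zpowers.2 (inv_mem (Subgroup.mem_zpowers _))) }, fun _ => Iff.rfl⟩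

variable (f e M) in
/-- An overgroup of the frame stabiliser whose point stabilisers are monomial. -/
structure S6 : Prop extends f.Fr e 1 where
  N : NF σ
  N4 : ∀ l : List F, l.length < 4 → ∃ a, σ a * a = 1 ∧ a ∉ l
  le : dstab (ln F e) ⊓ f.E ≤ M
  hO : M ≤ f.O
  six : Fintype.card ι = 6
  hs : ∀ m ∈ M, ∀ i j, ∀ a : F, m (e i) = a • e j → m ∈ dstab (ln F e)

namespace S6

variable (h : S6 f e M)
include h

theorem ex (l : List ι) (hl : l.length < 6) : ∃ a, a ∉ l :=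
  exists_notMem_of_lt l (by rw [Nat.card_eq_fintype_card, h.six]; exact hl)

theorem zero_of_two {g : V ≃ₗ[F] V} (hg : g ∈ M) {α β k l m : ι} (hkl : k ≠ l) (hmk : m ≠ k)
    (hml : m ≠ l) (h1 : f.B (e k) (g (e α)) = 0) (h2 : f.B (e l) (g (e α)) = 0)
    (h3 : f.B (e k) (g (e β)) ≠ 0) : f.B (e m) (g (e β)) = 0 := by
  by_contra h4
  have hy := h.toFr.map (h.hO hg)
  obtain ⟨y, hy'⟩ : ∃ y, y = g (e β) := ⟨_, rfl⟩
  have yy : f.B y y = 1 := hy' ▸ hy.self β
  have key : ∀ s : F, σ s * s = 1 → s ≠ 1 →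
      s + (s - 1) * s * (σ (f.B (e k) y) * f.B (e k) y) +
        (1 - s) * (σ (f.B (e l) y) * f.B (e l) y) = 0 := fun s hs hs1 => by
    obtain ⟨t, ht, et⟩ := sf_d2 h.toFr h.N.ne_id hkl hs
    obtain ⟨γ, d, e1⟩ := h.mem_dstab_iff.1 (h.hs (g⁻¹ * t * g)
      (M.mul_mem (M.mul_mem (M.inv_mem hg) (h.le ht)) hg) α α 1 (by
        rw [LinearEquiv.mul_apply, LinearEquiv.mul_apply, et, h1, h2]; simp)) β
    have e2 : t y = d • g (e γ) := by
      rw [← map_smul, ← e1, hy', ← LinearEquiv.mul_apply, ← LinearEquiv.mul_apply]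
      congr 1; group
    by_cases hγ : β = γ
    · rw [← hγ, ← hy', et] at e2
      have e3 := congrArg (f.B (e m)) e2
      have e4 := congrArg (f.B (e k)) e2
      rw [← hy'] at h3 h4
      simp only [map_add, map_smul, h.ne _ _ hmk, h.ne _ _ hml, h.ne _ _ hkl, h.self,
        smul_eq_mul] at e3 e4
      have : (s - 1) * f.B (e k) y * f.B (e m) y = 0 := by
        linear_combination f.B (e m) y * e4 - f.B (e k) y * e3
      exact absurd this (mul_ne_zero (mul_ne_zero (sub_ne_zero.2 hs1) h3) h4)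
    · have e3 := congrArg (f.B y) e2
      rw [map_smul, hy', hy.ne _ _ hγ, ← hy', et] at e3
      simp only [map_add, map_smul, yy, ← hσ_B (e k) y, ← hσ_B (e l) y, smul_eq_mul] at e3
      linear_combination s * e3 - σ (f.B (e l) y) * f.B (e l) y * hs
  generalize σ (f.B (e k) y) * f.B (e k) y = A, σ (f.B (e l) y) * f.B (e l) y = B at key
  obtain ⟨r, r1, hr⟩ := h.N4 [1] (by simp)
  obtain ⟨s, s1, hs⟩ := h.N4 [1, r] (by simp)
  obtain ⟨t, t1, ht⟩ := h.N4 [1, r, s] (by simp)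
  simp only [List.mem_cons, List.not_mem_nil, or_false, not_or] at hr hs ht
  have e1 := key r r1 hr
  have e2 := key s s1 hs.1
  have e3 := key t t1 ht.1
  have e4 : A * (r + s) + (1 - A - B) = 0 :=
    mul_left_cancel₀ (sub_ne_zero.2 hs.2) (by linear_combination e2 - e1)
  have e5 : A * (r + t) + (1 - A - B) = 0 :=
    mul_left_cancel₀ (sub_ne_zero.2 ht.2.1) (by linear_combination e3 - e1)
  have e6 : A = 0 := mul_left_cancel₀ (sub_ne_zero.2 ht.2.2) (by linear_combination e5 - e4)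
  exact one_ne_zero (α := F) (by linear_combination e1 + (1 - r) * e4 + (1 - r) * (1 - s) * e6)

theorem mono_of_two {g : V ≃ₗ[F] V} (hg : g ∈ M) {α k l : ι} (hkl : k ≠ l)
    (h1 : f.B (e k) (g (e α)) = 0) (h2 : f.B (e l) (g (e α)) = 0) : g ∈ dstab (ln F e) := by
  have ex : ∀ k, ∃ β, f.B (e k) (g (e β)) ≠ 0 := fun k => by
    obtain ⟨β, hβ⟩ := (h.toFr.map (h.hO hg)).exists_B (h.ne_zero k)
    exact ⟨β, fun e0 => hβ (f.B_eq_zero_symm e0)⟩
  obtain ⟨β, hβ⟩ := ex k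
  obtain ⟨k', hk'⟩ := h.ex [k, l] (by simp)
  obtain ⟨l', hl'⟩ := h.ex [k, l, k'] (by simp)
  obtain ⟨m', hm'⟩ := h.ex [k, l, k', l'] (by simp)
  simp only [List.mem_cons, List.not_mem_nil, or_false, not_or] at hk' hl' hm'
  have z1 := h.zero_of_two hg hkl hk'.1 hk'.2 h1 h2 hβ
  have z2 := h.zero_of_two hg hkl hl'.1 hl'.2.1 h1 h2 hβ
  have z3 := h.zero_of_two hg hkl hm'.1 hm'.2.1 h1 h2 hβ
  obtain ⟨γ, hγ⟩ := ex k'
  refine h.hs g hg γ k' _ (h.mem_ln fun j hj => ?_)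
  by_cases h3 : j = l'
  · exact h.zero_of_two hg (Ne.symm hm'.2.2.1) hj (h3 ▸ Ne.symm hm'.2.2.2) z1 z3 hγ
  · exact h.zero_of_two hg (Ne.symm hl'.2.2) hj h3 z1 z2 hγ

theorem mono_of_conj (h2 : (2 : F) ≠ 0) {m τ : V ≃ₗ[F] V} (hm : m ∈ M) {i j : ι} (hij : i ≠ j)
    (hτ : f.IsT 1 τ (e i) (e j)) (h0 : m * τ * m⁻¹ ∈ dstab (ln F e)) : m ∈ dstab (ln F e) := by
  classical
  have h1 := hτ.conj (h.hO hm)
  have h3 := h.card_le_fixed h0 Finset.univ (m (e i)) (m (e j))
    fun s _ => ⟨_, h1.sub_mem (e s), fun _ _ => rfl⟩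
  rw [Finset.card_univ, h.six] at h3
  obtain ⟨s, hs'⟩ := Finset.card_pos.1 (show 0 < (Finset.univ.filter fun s =>
    (m * τ * m⁻¹) (e s) = e s).card by omega)
  have hy := h.toFr.map (h.hO hm)
  have h4 := congrArg (f.B (m (e i))) (Finset.mem_filter.1 hs').2
  have h5 := congrArg (f.B (m (e j))) (Finset.mem_filter.1 hs').2
  rw [h1] at h4 h5
  simp only [map_sub, map_smul, map_add, hy.self, hy.ne _ _ hij, hy.ne _ _ hij.symm, co_one,
    smul_eq_mul, mul_one, mul_zero, add_zero, zero_add, sub_eq_self, mul_eq_zero, h2,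
    false_or] at h4 h5
  rw [B_apply_left (h.hO hm)] at h4 h5
  exact (dstab _).inv_mem_iff.1 (h.mono_of_two (M.inv_mem hm) hij h4 h5)

theorem le_odd (h2 : (2 : F) ≠ 0) : M ≤ dstab (ln F e) := by
  classical
  have : Finite V := Module.finite_of_finite F
  have : Finite (V ≃ₗ[F] V) := Finite.of_injective (fun g : V ≃ₗ[F] V => (g : V → V))
    DFunLike.coe_injective
  have G := h.herm_fGen h.N.ne_id h.le
  choose! t t1 t2 t3 using G.t
  have uq : ∀ {τ τ' : V ≃ₗ[F] V} {x y : V}, f.IsT 1 τ x y → f.IsT 1 τ' x y → τ = τ' :=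
    fun h1 h3 => LinearEquiv.ext fun v => (h1 v).trans (h3 v).symm
  have sy : ∀ i j, i ≠ j → t i j = t j i := fun i j hij =>
    uq (t3 i j hij) fun v => by rw [t3 j i hij.symm, add_comm]
  have val : ∀ i j, i ≠ j → ∀ s, t i j (e s) = if s = i ∨ s = j then -e s else e s :=
    fun i j hij s => by
      rw [t3 i j hij, co_one, co_one]
      by_cases h3 : s = i
      · subst h3; rw [h.self, h.ne _ _ hij.symm, if_pos (Or.inl rfl)]; module
      by_cases h4 : s = j
      · subst h4; rw [h.self, h.ne _ _ hij, if_pos (Or.inr rfl)]; module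
      · rw [h.ne _ _ (Ne.symm h3), h.ne _ _ (Ne.symm h4), if_neg (not_or.2 ⟨h3, h4⟩)]; module
  have ext : ∀ {a b : V ≃ₗ[F] V}, (∀ s, a (e s) = b (e s)) → a = b := fun H =>
    LinearEquiv.toLinearMap_injective (LinearMap.ext_on_range h.top H)
  have M1 : ∀ m ∈ M, ∀ i j, i ≠ j → m * t i j * m⁻¹ ∈ dstab (ln F e) → m ∈ dstab (ln F e) :=
    fun m hm i j hij => h.mono_of_conj h2 hm hij (t3 i j hij)
  have hinj : ∀ i j k l, i ≠ j → k ≠ l → t i j = t k l → i = k ∧ j = l ∨ i = l ∧ j = k := by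
    intro i j k l hij hkl e0
    have k1 : ∀ s, s = i ∨ s = j → s = k ∨ s = l := fun s hs => by
      by_contra h3
      have := val i j hij s
      rw [e0, val k l hkl, if_pos hs, if_neg h3] at this
      have h4 := congrArg (f.B (e s)) this
      rw [map_neg, h.self] at h4
      exact h2 (by linear_combination h4)
    have := k1 i (Or.inl rfl)
    have := k1 j (Or.inr rfl)
    grind
  refine sf_le_of_even t1 t2 (fun i j hij => (t3 i j hij).mul_self h.toFr hij) sy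
    (fun ν hν hν' => ?_) hinj M1 (fun m hm i j k l hij hkl hne hh => ?_) (by rw [h.six]; omega)
    (by rw [h.six]; decide)
  · choose π a ha using h.mem_dstab_iff.1 hν'
    have a1 : ∀ i, σ (a i) * a i = 1 := fun i => by
      have := mem_O_B (h.hO hν) (e i) (e i)
      rwa [ha, hB_smul, B_smul_right, h.self, h.self, mul_one] at this
    have hπ : Function.Injective π := fun i j e0 => by
      by_contra hij
      have := mem_O_B (h.hO hν) (e i) (e j)
      rw [ha, ha, hB_smul, B_smul_right, e0, h.self, h.ne _ _ hij, mul_one] at this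
      exact mul_ne_zero (left_ne_zero_of_mul_eq_one (a1 i)) (right_ne_zero_of_mul_eq_one (a1 j)) this
    refine ⟨π, hπ, fun i j hij => uq ((t3 i j hij).conj (h.hO hν)) fun v => ?_⟩
    rw [t3 _ _ (hπ.ne hij), ha, ha]
    simp only [co_one, hB_smul, smul_smul]
    rw [mul_right_comm, a1, mul_right_comm, a1, one_mul, one_mul]
  · have k1 : ∀ i j k, i ≠ j → i ≠ k → j ≠ k → t i j * t i k = t j k := fun i j k h3 h4 h5 =>
      ext fun s => by
        rw [LinearEquiv.mul_apply, val i k h4, val j k h5, apply_ite (t i j), map_neg, val i j h3]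
        split_ifs <;> first | rfl | exact neg_neg _ | grind
    by_cases hd : i ≠ k ∧ i ≠ l ∧ j ≠ k ∧ j ≠ l
    · obtain ⟨r, hr⟩ := h.ex [i, j, k, l] (by simp)
      obtain ⟨s, hs⟩ := h.ex [i, j, k, l, r] (by simp)
      simp only [List.mem_cons, List.not_mem_nil, or_false, not_or] at hr hs
      have all : ∀ u, u = i ∨ u = j ∨ u = k ∨ u = l ∨ u = r ∨ u = s := fun u => by
        by_contra hu
        have : ({i, j, k, l, r, s, u} : Finset ι).card = 7 := by
          simp only [not_or] at hu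
          rw [Finset.card_insert_of_notMem, Finset.card_insert_of_notMem,
            Finset.card_insert_of_notMem, Finset.card_insert_of_notMem,
            Finset.card_insert_of_notMem, Finset.card_pair] <;> simp <;> grind
        have h3 := Finset.card_le_univ ({i, j, k, l, r, s, u} : Finset ι)
        rw [h.six] at h3
        omega
      have e1 : t i j * t k l = LinearEquiv.neg F * t r s := ext fun u => by
        rw [LinearEquiv.mul_apply, LinearEquiv.mul_apply, val k l hkl, val r s (Ne.symm hs.2.2.2.2),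
          apply_ite (t i j), map_neg, val i j hij, LinearEquiv.neg_apply]
        have := all u
        split_ifs <;> first | rfl | exact (neg_neg _).symm | grind
      refine M1 m hm r s (Ne.symm hs.2.2.2.2) ?_
      have e2 : m * t r s * m⁻¹ = LinearEquiv.neg F * (m * (t i j * t k l) * m⁻¹) := by
        rw [e1]; ext v; simp
      rw [e2]
      exact (dstab _).mul_mem (h.mem_dstab_iff.2 fun u => ⟨u, -1, by simp⟩) hh
    · have : i = k ∧ j ≠ l ∨ i = l ∧ j ≠ k ∨ j = k ∧ i ≠ l ∨ j = l ∧ i ≠ k := by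
        by_contra! H
        by_cases h3 : i = k
        · exact hne (by rw [h3, H.1 h3])
        by_cases h4 : i = l
        · exact hne (by rw [h4, H.2.1 h4, sy k l hkl])
        by_cases h5 : j = k
        · exact h4 (H.2.2.1 h5)
        · exact hd ⟨h3, h4, h5, fun h6 => h3 (H.2.2.2 h6)⟩
      rcases this with ⟨rfl, h3⟩ | ⟨rfl, h3⟩ | ⟨rfl, h3⟩ | ⟨rfl, h3⟩
      · exact M1 m hm j l h3 (k1 i j l hij hkl h3 ▸ hh)
      · exact M1 m hm j k h3 (k1 i j k hij hkl.symm h3 ▸ sy k i hkl ▸ hh)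
      · exact M1 m hm i l h3 (k1 j i l hij.symm hkl h3 ▸ sy i j hij ▸ hh)
      · exact M1 m hm i k h3 (k1 j i k hij.symm hkl.symm h3 ▸ sy i j hij ▸ sy k j hkl ▸ hh)

section even

variable (h2 : (2 : F) = 0)
include h2

theorem lift {x : V} {k l s : ι} (hkl : k ≠ l) (hsk : s ≠ k) (hsl : s ≠ l)
    (hx : x ∈ Submodule.span F {e k, e l}) (x0 : x ≠ 0) (xx : f.B x x = 0) {a : F}
    (ha : σ a * a = 1) : ∃ c ∈ M, c x ∈ F ∙ x ∧
      ∀ v, f.B x v = 0 → c v - f.rk (e s) (a - 1) v ∈ F ∙ x := by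
  have : CharP F 2 := CharTwo.of_one_ne_zero_of_two_eq_zero one_ne_zero h2
  obtain ⟨b, hb⟩ := (Finite.injective_iff_surjective.1 (frobenius F 2).injective) a
  rw [frobenius_def] at hb
  have hb1 : σ b * b = 1 := (frobenius F 2).injective (by
    rw [frobenius_def, mul_pow, ← map_pow, hb, ha, map_one])
  have hb2 : σ (σ b) * σ b = 1 := by rw [hσ2, mul_comm, hb1]
  obtain ⟨t, ht, et⟩ := sf_d2 h.toFr h.N.ne_id hsk.symm hb2
  obtain ⟨t', ht', et'⟩ := sf_d2 h.toFr h.N.ne_id hsl.symm hb2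
  have e1 : ∀ v, (t * t') v = f.rk (e s) (a - 1) v +
      (σ b - 1) • (f.B (e k) v • e k + f.B (e l) v • e l) := fun v => by
    rw [LinearEquiv.mul_apply, et, et', hm_apply (h.self s) ha, hσ2, ← hb]
    simp only [map_add, map_smul, h.self, h.ne _ _ hkl, h.ne _ _ hsk.symm, h.ne _ _ hsl,
      smul_eq_mul]
    module
  have e2 : ∀ v, f.B x v = 0 → (t * t') v - f.rk (e s) (a - 1) v ∈ F ∙ x := fun v hv => by
    rw [e1, add_sub_cancel_left]
    refine Submodule.smul_mem _ _ (sf_line h.toFr hkl hx x0 xx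
      (Submodule.mem_span_pair.2 ⟨_, _, rfl⟩) ?_)
    obtain ⟨p, r, rfl⟩ := Submodule.mem_span_pair.1 hx
    simpa [hB_smul, h.self, h.ne _ _ hkl, h.ne _ _ hkl.symm, mul_comm] using hv
  refine ⟨t * t', mul_mem (h.le ht) (h.le ht'), ?_, e2⟩
  have e3 : f.B (e s) x = 0 := by
    obtain ⟨p, r, rfl⟩ := Submodule.mem_span_pair.1 hx
    simp [h.ne _ _ hsk, h.ne _ _ hsl]
  have := e2 x xx
  rw [hm_apply (h.self s) ha, e3, mul_zero, zero_smul, add_zero] at this
  simpa using add_mem this (Submodule.mem_span_singleton_self x)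

theorem mono_of_tv {m : V ≃ₗ[F] V} (hm : m ∈ M) {i j : ι} (hij : i ≠ j) {a : F}
    (ha : σ a * a = 1) (h0 : m * f.rk (e i + a • e j) (-1) * m⁻¹ ∈ dstab (ln F e)) :
    m ∈ dstab (ln F e) := by
  classical
  have hO := h.hO hm
  have hy := h.toFr.map hO
  rw [rk_conj hO] at h0
  have b1 := h.B_std hij ha
  have x00 : e i + a • e j ≠ 0 := fun e0 => by
    simpa [h.self, h.ne _ _ hij] using congrArg (f.B (e i)) e0
  obtain ⟨x, hx⟩ : ∃ x, x = m (e i + a • e j) := ⟨_, rfl⟩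
  have xx : f.B x x = 2 := hx ▸ (mem_O_B hO _ _).trans b1
  have x0 : x ≠ 0 := fun e0 => x00 (m.map_eq_zero_iff.1 (hx ▸ e0))
  rw [← hx] at h0
  obtain ⟨k, l, hkl, hxs⟩ : ∃ k l, k ≠ l ∧ x ∈ Submodule.span F {e k, e l} := by
    obtain ⟨r, hr⟩ := h.exists_B x0
    obtain ⟨t, d, ht⟩ := h.mem_dstab_iff.1 h0 r
    rw [sw_apply xx] at ht
    have hr' : f.B x (e r) ≠ 0 := fun e0 => hr (f.B_eq_zero_symm e0)
    have e1 : x = (f.B x (e r))⁻¹ • e r + (-(f.B x (e r))⁻¹ * d) • e t := by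
      rw [mul_smul, ← ht, neg_smul, smul_sub, inv_smul_smul₀ hr']; abel
    refine ⟨r, t, ?_, Submodule.mem_span_pair.2 ⟨_, _, e1.symm⟩⟩
    rintro rfl
    rw [← add_smul] at e1
    generalize (f.B x (e r))⁻¹ + _ = c at e1
    rw [e1, hB_smul, B_smul_right, h.self, h2] at xx
    exact x0 (by rw [e1, show c = 0 by simpa using xx, zero_smul])
  rw [h2] at xx
  have xz : ∀ s, s ≠ k → s ≠ l → ∀ v ∈ F ∙ x, f.B (e s) v = 0 := fun s h3 h4 v hv => by
    obtain ⟨c, rfl⟩ := Submodule.mem_span_singleton.1 hv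
    obtain ⟨p, r, rfl⟩ := Submodule.mem_span_pair.1 hxs
    simp [h.ne _ _ h3, h.ne _ _ h4]
  have xe : ∀ s, s ≠ k → s ≠ l → f.B x (e s) = 0 := fun s h3 h4 =>
    f.B_eq_zero_symm (xz s h3 h4 x (Submodule.mem_span_singleton_self x))
  obtain ⟨K, hK⟩ := sf_exists_K f M x
  have pres : ∀ z, f.B z z = 1 → f.B x z = 0 → ∀ b, σ b * b = 1 → ∀ v, f.B x v = 0 →
      f.B x (f.rk z (b - 1) v) = 0 := fun z h3 h4 b hb v hv => by
    rw [hm_apply h3 hb]; simp [hv, h4]
  have K1 : ∀ s, s ≠ k → s ≠ l → f.Hr K (e s) := fun s h3 h4 => ⟨h.self s, fun b hb =>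
    (hK _).2 ⟨pres _ (h.self s) (xe s h3 h4) b hb, h.lift h2 hkl h3 h4 hxs x0 xx hb⟩⟩
  have Q : ∀ z, f.Hr K z → f.B (e k) z = 0 → f.B (e l) z = 0 → ∀ s, s ≠ k → s ≠ l →
      f.B (e s) z = 0 → ∃ r, ∀ t, t ≠ r → f.B (e t) z = 0 := by
    intro z hz zk zl s sk sl zs
    obtain ⟨r, hr⟩ := h.exists_B (x := z) (by rintro rfl; simpa using hz.1)
    refine ⟨r, fun t tr => by_contra fun ht => ?_⟩
    have rk : r ≠ k := by rintro rfl; exact hr zk
    have rl : r ≠ l := by rintro rfl; exact hr zl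
    have tk : t ≠ k := by rintro rfl; exact ht zk
    have tl : t ≠ l := by rintro rfl; exact ht zl
    have hr' : f.B z (e r) ≠ 0 := fun e0 => hr (f.B_eq_zero_symm e0)
    have key : ∀ b, σ b * b = 1 → b ≠ 1 → 1 + (b - 1) * f.B z (e r) * f.B (e r) z = 0 := by
      intro b hb b1
      obtain ⟨-, c, hc, -, c2⟩ := (hK _).1 (hz.2 b hb)
      obtain ⟨p, hp⟩ := h.ex [k, l, s] (by simp)
      obtain ⟨p', hp'⟩ := h.ex [k, l, s, p] (by simp)
      simp only [List.mem_cons, List.not_mem_nil, or_false, not_or] at hp hp'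
      have c3 := c2 _ (xe s sk sl)
      rw [hm_apply hz.1 hb, f.B_eq_zero_symm zs, mul_zero, zero_smul, add_zero] at c3
      have c4 : ∀ p, p ≠ k → p ≠ l → p ≠ s → f.B (e p) (c (e s)) = 0 := fun p h3 h4 h5 => by
        simpa [h.ne _ _ h5] using xz p h3 h4 _ c3
      obtain ⟨u, d, hu⟩ := h.mem_dstab_iff.1 (h.mono_of_two hc (Ne.symm hp'.2.2.2)
        (c4 p hp.1 hp.2.1 hp.2.2) (c4 p' hp'.1 hp'.2.1 hp'.2.2.1)) r
      have c5 := c2 _ (xe r rk rl)
      rw [hm_apply hz.1 hb, hu] at c5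
      have c6 := xz t tk tl _ c5
      have c7 := xz r rk rl _ c5
      have ut : t = u := by
        by_contra h3
        simp [h.ne _ _ h3, h.ne _ _ tr, sub_eq_zero, b1, hr', ht] at c6
      subst ut
      simp only [map_sub, map_add, map_smul, h.ne _ _ tr.symm, h.self, smul_eq_mul] at c7
      linear_combination -c7
    obtain ⟨b, hb, nb⟩ := h.N4 [1] (by simp)
    obtain ⟨b', hb', nb'⟩ := h.N4 [1, b] (by simp)
    simp only [List.mem_cons, List.not_mem_nil, or_false, not_or] at nb nb'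
    exact mul_ne_zero (mul_ne_zero (sub_ne_zero.2 nb'.2) hr') hr
      (by linear_combination key b' hb' nb'.1 - key b hb nb)
  obtain ⟨s, hs⟩ := h.ex [i, j] (by simp)
  simp only [List.mem_cons, List.not_mem_nil, or_false, not_or] at hs
  have xy : f.B x (m (e s)) = 0 := by
    rw [hx, mem_O_B hO]; simp [hB_smul, h.ne _ _ (Ne.symm hs.1), h.ne _ _ (Ne.symm hs.2)]
  obtain ⟨γ, hγ⟩ := Submodule.mem_span_singleton.1 (sf_line h.toFr hkl hxs x0 xx
    (w := f.B (e k) (m (e s)) • e k + f.B (e l) (m (e s)) • e l)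
    (Submodule.mem_span_pair.2 ⟨_, _, rfl⟩) (by
      obtain ⟨p, r, rfl⟩ := Submodule.mem_span_pair.1 hxs
      simpa [hB_smul, h.self, h.ne _ _ hkl, h.ne _ _ hkl.symm, mul_comm] using xy))
  obtain ⟨z, hz⟩ : ∃ z, z = m (e s) - γ • x := ⟨_, rfl⟩
  have zk : f.B (e k) z = 0 := by simp [hz, hγ, h.self, h.ne _ _ hkl]
  have zl : f.B (e l) z = 0 := by simp [hz, hγ, h.self, h.ne _ _ hkl.symm]
  have zB : ∀ v, f.B x v = 0 → f.B z v = f.B (m (e s)) v := fun v hv => by
    rw [hz, B_sub_left, hB_smul, hv, mul_zero, sub_zero]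
  have xz' : f.B x z = 0 := by simp [hz, xy, xx]
  have zz : f.B z z = 1 := by
    rw [zB z xz', hz, map_sub, map_smul, hy.self, f.B_eq_zero_symm xy, smul_zero, sub_zero]
  have Kz : f.Hr K z := ⟨zz, fun b hb => (hK _).2 ⟨pres z zz xz' b hb, by
    obtain ⟨c, hc, c1, c2⟩ := h.lift h2 hij hs.1 hs.2 (x := e i + a • e j)
      (Submodule.mem_span_pair.2 ⟨1, a, by simp⟩) x00 (b1.trans h2) hb
    have k : ∀ v ∈ F ∙ (e i + a • e j), m v ∈ F ∙ x := fun v hv => by
      obtain ⟨d, rfl⟩ := Submodule.mem_span_singleton.1 hv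
      rw [map_smul, ← hx]
      exact Submodule.smul_mem _ _ (Submodule.mem_span_singleton_self _)
    refine ⟨m * c * m⁻¹, mul_mem (mul_mem hm hc) (inv_mem hm), ?_, fun v hv => ?_⟩
    · have := k _ c1
      rwa [hx, LinearEquiv.mul_apply, LinearEquiv.mul_apply, ← LinearEquiv.mul_apply m⁻¹,
        inv_mul_cancel, ← hx]
    · have := k _ (c2 (m⁻¹ v) (by rwa [← B_apply_left hO, ← hx]))
      rw [map_sub, ← LinearEquiv.mul_apply m (f.rk _ _), ← LinearEquiv.mul_apply (m * f.rk _ _),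
        rk_conj hO, hm_apply (hy.self s) hb] at this
      rw [hm_apply zz hb, zB v hv]
      convert add_mem this (Submodule.smul_mem _ ((b - 1) * f.B (m (e s)) v * γ)
        (Submodule.mem_span_singleton_self x)) using 1
      rw [hz, LinearEquiv.mul_apply, LinearEquiv.mul_apply]
      module⟩⟩
  by_cases H : ∃ s', s' ≠ k ∧ s' ≠ l ∧ f.B (e s') z = 0
  · obtain ⟨s', h3, h4, h5⟩ := H
    obtain ⟨r, hr⟩ := Q z Kz zk zl s' h3 h4 h5
    obtain ⟨p, hp⟩ := h.ex [k, l, r] (by simp)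
    obtain ⟨p', hp'⟩ := h.ex [k, l, r, p] (by simp)
    simp only [List.mem_cons, List.not_mem_nil, or_false, not_or] at hp hp'
    have c4 : ∀ p, p ≠ k → p ≠ l → p ≠ r → f.B (e p) (m (e s)) = 0 := fun p h3 h4 h5 => by
      have := hr p h5
      rwa [hz, map_sub, xz p h3 h4 (γ • x)
        (Submodule.smul_mem _ _ (Submodule.mem_span_singleton_self x)), sub_zero] at this
    exact h.mono_of_two hm (Ne.symm hp'.2.2.2) (c4 p hp.1 hp.2.1 hp.2.2)
      (c4 p' hp'.1 hp'.2.1 hp'.2.2.1)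
  exfalso
  push Not at H
  obtain ⟨r, rk, rl, h1⟩ : ∃ r, r ≠ k ∧ r ≠ l ∧ σ (f.B (e r) z) * f.B (e r) z ≠ 1 := by
    by_contra! H'
    have e1 := h.co_eq_sum z z
    simp only [co_one, zz] at e1
    rw [← Finset.add_sum_erase _ _ (Finset.mem_univ k), ← Finset.add_sum_erase _ _
      (Finset.mem_erase.2 ⟨hkl.symm, Finset.mem_univ l⟩), zk, zl,
      Finset.sum_congr rfl (g := fun _ => (1 : F)) fun r hr => by
        rw [← hσ_B]
        exact H' r (Finset.mem_erase.1 (Finset.mem_erase.1 hr).2).1 (Finset.mem_erase.1 hr).1,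
      Finset.sum_const, Finset.card_erase_of_mem (Finset.mem_erase.2 ⟨hkl.symm, Finset.mem_univ l⟩),
      Finset.card_erase_of_mem (Finset.mem_univ k), Finset.card_univ, h.six] at e1
    norm_num at e1
    exact one_ne_zero (α := F) (by linear_combination e1 + 2 * h2)
  obtain ⟨d, hd⟩ := h.N.norm (1 - σ (f.B (e r) z) * f.B (e r) z)⁻¹
    (by rw [map_inv₀, map_sub, map_one, map_mul, hσ2, mul_comm])
  have h3 := sub_ne_zero.2 (Ne.symm h1)
  have d0 : d ≠ 0 := by rintro rfl; exact inv_ne_zero h3 (by rw [← hd, mul_zero])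
  have ry := (K1 r rk rl).of_span h.N Kz (v := (-(d * f.B (e r) z)) • e r + d • z)
    (Submodule.mem_span_pair.2 ⟨_, _, rfl⟩) (by
      simp only [map_add, LinearMap.add_apply, hB_smul, map_smul, smul_eq_mul, h.self, zz,
        ← hσ_B (e r) z, map_neg, map_mul]
      linear_combination (1 - σ (f.B (e r) z) * f.B (e r) z) * hd + mul_inv_cancel₀ h3)
    (Submodule.subset_span (by simp)) Kz h1 (H r rk rl) h1
  obtain ⟨t, ht⟩ := Q _ ry (by simp [zk, h.ne _ _ rk.symm]) (by simp [zl, h.ne _ _ rl.symm]) r rk rl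
    (by simp [h.self])
  obtain ⟨p, hp⟩ := h.ex [k, l, r, t] (by simp)
  simp only [List.mem_cons, List.not_mem_nil, or_false, not_or] at hp
  exact H p hp.1 hp.2.1 (by simpa [h.ne _ _ hp.2.2.1, d0] using ht p hp.2.2.2)

theorem not_full {u : V} (hu : f.B u u = 2) (hu' : f.rk u (-1) ∈ M)
    (hf : ∀ i, f.B (e i) u ≠ 0) : False := by
  have : Finite V := Module.finite_of_finite F
  have : Finite (V ≃ₗ[F] V) := Finite.of_injective (fun g : V ≃ₗ[F] V => (g : V → V))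
    DFunLike.coe_injective
  obtain ⟨i, -⟩ := h.ex [] (by simp)
  obtain ⟨j, n1⟩ := h.ex [i] (by simp)
  obtain ⟨k, n2⟩ := h.ex [i, j] (by simp)
  obtain ⟨l, n3⟩ := h.ex [i, j, k] (by simp)
  obtain ⟨s, n4⟩ := h.ex [i, j, k, l] (by simp)
  simp only [List.mem_cons, List.not_mem_nil, or_false, not_or] at n1 n2 n3 n4
  obtain ⟨a, ha, a1⟩ := h.N4 [f.B (e j) u / f.B (e i) u] (by simp)
  obtain ⟨b, hb, b1⟩ := h.N4 [f.B (e l) u / f.B (e k) u] (by simp)
  rw [List.mem_singleton, eq_div_iff (hf _)] at a1 b1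
  have s1 := h.sw_mem h.N.ne_id h2 (Ne.symm n1) ha
  have s2 := h.sw_mem h.N.ne_id h2 (Ne.symm n3.2.2) hb
  have c1 := h.B_std (Ne.symm n1) ha
  have c2 := h.B_std (Ne.symm n3.2.2) hb
  have sq : ∀ x, f.B x x = 2 → f.rk x (-1) * f.rk x (-1) = 1 := fun x hx => by
    ext v
    rw [LinearEquiv.mul_apply, sw_apply hx, sw_apply hx, map_sub, map_smul, hx, smul_eq_mul]
    simp only [LinearEquiv.coe_one, id]
    match_scalars
    · ring
    · ring
  obtain ⟨r, hr⟩ := sf_exists_pow hu' (h.le s1) (h.le s2) (sq _ c1) (sq _ c2) s1.1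
    (fun m hm => h.mono_of_tv h2 hm (Ne.symm n1) ha)
    fun m hm => h.mono_of_tv h2 hm (Ne.symm n3.2.2) hb
  rw [rk_conj (rk_mem_O _ _)] at hr
  have c3 := (mem_O_B (rk_mem_O (f := f) u (-1)) _ _).trans c2
  have hY : ∀ (r : ℕ) v, ((f.rk (f.rk u (-1) (e k + b • e l)) (-1) * f.rk (e i + a • e j) (-1)) ^ r)
      v - v ∈ Submodule.span F {e i + a • e j, f.rk u (-1) (e k + b • e l)} := fun r => by
    induction r with
    | zero => simp
    | succ r ih =>
      intro v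
      rw [pow_succ, LinearEquiv.mul_apply, ← sub_add_sub_cancel _ _ v]
      refine add_mem (ih _) (Submodule.mem_span_pair.2 ⟨-f.B (e i + a • e j) v,
        -f.B (f.rk u (-1) (e k + b • e l)) (f.rk (e i + a • e j) (-1) v), ?_⟩)
      rw [LinearEquiv.mul_apply, sw_apply c3]
      nth_rw 2 [sw_apply c1]
      module
  obtain ⟨t, d, ht⟩ := h.mem_dstab_iff.1 hr s
  obtain ⟨α, γ, e1⟩ := Submodule.mem_span_pair.1 (hY r (f.rk u (-1) (e s)))
  rw [← LinearEquiv.mul_apply, ht, sw_apply hu, sw_apply hu] at e1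
  obtain ⟨β, hβ⟩ : ∃ β, β = f.B u (e s) + γ * f.B u (e k + b • e l) := ⟨_, rfl⟩
  have e2 : ∀ p, d * f.B (e p) (e t) = f.B (e p) (e s) + α * f.B (e p) (e i + a • e j) +
      γ * f.B (e p) (e k + b • e l) - β * f.B (e p) u := fun p => by
    have := congrArg (f.B (e p)) e1
    simp only [map_add (f.B (e p)) (α • _), map_sub, map_smul, smul_eq_mul] at this
    rw [hβ]
    linear_combination -this
  have ei := e2 i
  have ej := e2 j
  have ek := e2 k
  have el := e2 l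
  have es := e2 s
  simp only [map_add, map_smul, smul_eq_mul, h.self, h.ne _ _ n1, h.ne _ _ n2.1, h.ne _ _ n2.2,
    h.ne _ _ n3.1, h.ne _ _ n3.2.1, h.ne _ _ n3.2.2, h.ne _ _ n4.1, h.ne _ _ n4.2.1,
    h.ne _ _ n4.2.2.1, h.ne _ _ n4.2.2.2, h.ne _ _ (Ne.symm n1), h.ne _ _ (Ne.symm n2.1),
    h.ne _ _ (Ne.symm n2.2), h.ne _ _ (Ne.symm n3.1), h.ne _ _ (Ne.symm n3.2.1),
    h.ne _ _ (Ne.symm n3.2.2), h.ne _ _ (Ne.symm n4.1), h.ne _ _ (Ne.symm n4.2.1),
    h.ne _ _ (Ne.symm n4.2.2.1), h.ne _ _ (Ne.symm n4.2.2.2)] at ei ej ek el es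
  by_cases β0 : β = 0
  · have ts : s = t := by
      by_contra h3
      rw [h.ne _ _ h3, β0] at es
      exact one_ne_zero (α := F) (by linear_combination -es)
    subst ts
    rw [h.ne _ _ (Ne.symm n4.2.2.1), β0] at ek
    have γ0 : γ = 0 := by linear_combination -ek
    rw [β0, γ0, zero_mul, add_zero] at hβ
    exact hf s (f.B_eq_zero_symm hβ.symm)
  by_cases h3 : i ≠ t ∧ j ≠ t
  · rw [h.ne _ _ h3.1] at ei
    rw [h.ne _ _ h3.2] at ej
    exact a1 (mul_left_cancel₀ β0 (by linear_combination a * ei - ej))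
  · have h4 : k ≠ t ∧ l ≠ t := by grind
    rw [h.ne _ _ h4.1] at ek
    rw [h.ne _ _ h4.2] at el
    exact b1 (mul_left_cancel₀ β0 (by linear_combination b * ek - el))

theorem supp_two {u : V} (hu : f.B u u = 2) (hu' : f.rk u (-1) ∈ M) {r s : ι} (hrs : r ≠ s)
    (hr : f.B (e r) u ≠ 0) (hs' : f.B (e s) u ≠ 0) : u ∈ Submodule.span F {e r, e s} := by
  obtain ⟨k, hk⟩ : ∃ k, f.B (e k) u = 0 := by
    by_contra! H
    exact h.not_full h2 hu hu' H
  obtain ⟨m, a, hm⟩ := h.mem_dstab_iff.1 (h.hs _ hu' k k 1 (by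
    rw [sw_apply hu, f.B_eq_zero_symm hk]; simp)) r
  have k1 : ∀ z, z ≠ r → f.B (e z) u ≠ 0 → z = m := fun z hz h3 => by
    by_contra h4
    have := congrArg (f.B (e z)) hm
    rw [sw_apply hu] at this
    simp only [map_sub, map_smul, h.ne _ _ hz, h.ne _ _ h4, smul_eq_mul, mul_zero, zero_sub,
      neg_eq_zero] at this
    exact mul_ne_zero (fun e0 => hr (f.B_eq_zero_symm e0)) h3 this
  exact Submodule.mem_span_pair.2 ⟨_, _, (h.eq_two hrs fun j h3 h4 => (co_one _ _).trans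
    (not_not.1 fun h5 => h4 ((k1 j h3 h5).trans (k1 s hrs.symm hs').symm))).symm⟩

theorem le_even : M ≤ dstab (ln F e) := fun g hg => by
  classical
  obtain ⟨i, -⟩ := h.ex [] (by simp)
  have h1 := h.toFr.map (h.hO hg)
  obtain ⟨r, hr⟩ := h.exists_B (h1.ne_zero i)
  by_cases H : g (e i) ∈ F ∙ e r
  · obtain ⟨a, ha⟩ := Submodule.mem_span_singleton.1 H
    exact h.hs g hg i r a ha.symm
  obtain ⟨s, sr, hs'⟩ := h.exists_B' H
  have h3 : Submodule.span F {g (e i), e s, e r} = ⊤ := by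
    refine top_le_iff.1 (h1.top ▸ Submodule.span_le.2 ?_)
    rintro _ ⟨j, rfl⟩
    by_cases ij : i = j
    · exact Submodule.subset_span (by simp [ij])
    obtain ⟨a, ha, n⟩ := h.N.ex [-f.B (e s) (g (e i)) / f.B (e s) (g (e j)),
      -f.B (e r) (g (e i)) / f.B (e r) (g (e j))] (by simp)
    simp only [List.mem_cons, List.not_mem_nil, or_false, not_or] at n
    have k : ∀ s, f.B (e s) (g (e i)) ≠ 0 → a ≠ -f.B (e s) (g (e i)) / f.B (e s) (g (e j)) →
        f.B (e s) (g (e i + a • e j)) ≠ 0 := fun s h3 h4 h5 => by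
      rw [map_add, map_smul, map_add, map_smul, smul_eq_mul] at h5
      have : f.B (e s) (g (e j)) ≠ 0 := fun e0 => h3 (by simpa [e0] using h5)
      exact h4 (by field_simp; linear_combination h5)
    obtain ⟨α, β, e1⟩ := Submodule.mem_span_pair.1 (h.supp_two h2
      ((mem_O_B (h.hO hg) _ _).trans (h.B_std ij ha)) (rk_conj (h.hO hg) _ _ ▸ mul_mem (mul_mem hg
        (h.le (h.sw_mem h.N.ne_id h2 ij ha))) (inv_mem hg)) sr (k s hs' n.1) (k r hr n.2))
    refine Submodule.mem_span_triple.2 ⟨-σ a, σ a * α, σ a * β, ?_⟩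
    rw [map_add, map_smul] at e1
    linear_combination (norm := module) σ a • e1 + ha • g (e j)
  have h4 := finrank_span_finset_le_card (R := F) ({g (e i), e s, e r} : Finset V)
  have h5 := Finset.card_le_three (a := g (e i)) (b := e s) (c := e r)
  rw [Set.finrank, Finset.coe_insert, Finset.coe_pair, h3, finrank_top, ← h.card_eq, h.six] at h4
  omega

end even

theorem le_dstab : M ≤ dstab (ln F e) := by
  by_cases h2 : (2 : F) = 0
  exacts [h.le_even h2, h.le_odd h2]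

end S6

theorem sf_E_le (h : f.Fr e 1) (N : NF σ) (h4 : 4 ≤ Fintype.card ι)
    (hM : dstab (ln F e) ⊓ f.E ≤ M) (hO : M ≤ f.O) {m : V ≃ₗ[F] V} (hm : m ∈ M)
    (mn : m ∉ dstab (ln F e)) {i j : ι} {a : F} (ha : m (e i) = a • e j) : f.E ≤ M := by
  obtain ⟨k, hk⟩ := not_forall.1 (mt h.mem_dstab_iff.2 mn)
  have a1 : σ a * a = 1 := by
    have := mem_O_B (hO hm) (e i) (e i)
    rwa [ha, hB_smul, B_smul_right, h.self, h.self, mul_one] at this
  let A : Subgroup (V ≃ₗ[F] V) := Subgroup.closure {g | ∃ l, σ l * l = 1 ∧ g = f.rk (e j) (l - 1)}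
  have kA : ∀ g ∈ A, ∃ l, σ l * l = 1 ∧ g = f.rk (e j) (l - 1) := fun g hg => by
    induction hg using Subgroup.closure_induction with
    | mem x hx => exact hx
    | one => exact ⟨1, by simp, by ext v; simp [rk_apply]⟩
    | mul x y _ _ hx hy =>
      obtain ⟨l, hl, rfl⟩ := hx
      obtain ⟨l', hl', rfl⟩ := hy
      exact ⟨_, norm_mul hl hl', hm_mul (h.self j) hl hl'⟩
    | inv x _ hx =>
      obtain ⟨l, hl, rfl⟩ := hx
      exact ⟨σ l, by rw [hσ2, mul_comm, hl], sf_d1 h j hl⟩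
  have kH : ∀ x, f.B x x = 1 → (∀ l, σ l * l = 1 → f.rk x (l - 1) * (f.rk (e j) (l - 1))⁻¹ ∈ M) →
      f.Hr (relCore M A ⊔ A) x := fun x hx H => ⟨hx, fun l hl => by
    rw [← inv_mul_cancel_right (f.rk x (l - 1)) (f.rk (e j) (l - 1))]
    refine Subgroup.mul_mem_sup (mem_relCore.2 fun g hg => ?_)
      (Subgroup.subset_closure ⟨l, hl, rfl⟩)
    obtain ⟨μ, hμ, rfl⟩ := kA g hg
    have := mul_mem (inv_mem (H μ hμ)) (H _ (norm_mul hμ hl))
    rw [← hm_mul hx hμ hl, ← hm_mul (h.self j) hμ hl] at this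
    simpa [mul_assoc] using this⟩
  refine le_of_le_relCore_sup (A := A) (Uni.commutator_E N.ne_id h.sdec.nondeg'
    (by rw [← h.card_eq]; omega) (Or.inl (by rw [← h.card_eq]; omega))) (fun g hg g' hg' => ?_)
    (UF.E_le ⟨h, N, fun n hn => Subgroup.mem_sup_left (mem_relCore.2 fun g hg => ?_),
      fun i => kH _ (h.self i) fun l hl => hM (h.hm_mul_inv N.ne_id i j hl), by omega⟩
      (kH (m (e k)) ((mem_O_B (hO hm) _ _).trans (h.self k)) fun l hl => ?_) fun i e0 => hk ?_)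
  · obtain ⟨l, hl, rfl⟩ := kA g hg
    obtain ⟨l', hl', rfl⟩ := kA g' hg'
    rw [hm_mul (h.self j) hl hl', hm_mul (h.self j) hl' hl, mul_comm]
  · obtain ⟨l, hl, rfl⟩ := kA g hg
    exact hM ⟨(dstab _).mul_mem ((dstab _).mul_mem (h.hm_mem j hl) hn.1)
      ((dstab _).inv_mem (h.hm_mem j hl)),
      conj_mem_E (rk_mem_O _ _) hn.2⟩
  · have := mul_mem (mul_mem hm (hM (h.hm_mul_inv N.ne_id k i hl))) (inv_mem hm)
    rw [← rk_smul a1 (e j), ← ha, ← rk_conj (hO hm), ← rk_conj (hO hm)]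
    simpa [mul_assoc] using this
  · obtain ⟨b, hb⟩ := Submodule.mem_span_singleton.1 e0
    exact ⟨i, b, hb.symm⟩

theorem sf_E_le_six (h : f.Fr e 1) (N : NF σ)
    (N4 : ∀ l : List F, l.length < 4 → ∃ a, σ a * a = 1 ∧ a ∉ l) (h6 : Fintype.card ι = 6)
    (hM : dstab (ln F e) ⊓ f.E ≤ M) (hO : M ≤ f.O) (hM' : ¬ M ≤ dstab (ln F e)) : f.E ≤ M := by
  by_contra H
  exact hM' (S6.le_dstab ⟨h, N, N4, hM, hO, h6, fun m hm i j a ha => by_contra fun mn =>
    H (sf_E_le h N (by omega) hM hO hm mn ha)⟩)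

open Matrix Cfsg Cfsg.Geo CL.Orth CL.FGL in
theorem su_frame_six {F : Type*} [Field F] [Fintype F] {q : ℕ}
    (hF : Fintype.card F = q ^ 2) (hq : 3 ≤ q) {D : Fin 6 → Submodule F (Fin 6 → F)}
    (hD : IsNondegenerateMDecomposition (hermForm 6 F q) 1 D) :
    IsMaximalIn (GU 6 F q ⊓ specialLinear (Fin 6) F)
      (decompositionStabilizer D ⊓ (GU 6 F q ⊓ specialLinear (Fin 6) F)) := by
  classical
  have h := sdec_of _ (uni_B_iff hF) hD
  have hσ := Uni.sig_ne_id hF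
  obtain ⟨e, c, h1, rfl⟩ := h.exists_fr rfl hD.decomp.finrank_eq
    (h.herm_isom hσ hD.decomp.finrank_eq)
  obtain ⟨s, hs⟩ := (nf_sig hF).norm c⁻¹ (by rw [map_inv₀]; exact congrArg _ h1.σc)
  have s0 : s ≠ 0 := by rintro rfl; exact inv_ne_zero h1.c0 (by rw [← hs, mul_zero])
  have h2 : ln F e = ln F fun i => s • e i := funext fun i =>
    (Submodule.span_singleton_smul_eq s0.isUnit _).symm
  have h3 : (Uni.std hF (Fin 6)).Fr (fun i => s • e i) 1 := ⟨rfl, one_ne_zero, map_one _,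
    fun i => by rw [hB_smul, B_smul_right, h1.self, ← mul_assoc, hs, inv_mul_cancel₀ h1.c0],
    fun i j hij => by simp [h1.ne i j hij], by
      rw [Submodule.span_range_eq_iSup]; exact (congrArg iSup h2).symm.trans h.top⟩
  have h5 := h.nondeg'.finrank_add_finrank_perp (ln F e 0)
  rw [hD.decomp.finrank_eq] at h5
  simp only [finrank_fun, Fintype.card_fin] at h5
  obtain ⟨u, hu, hu0, huq⟩ := herm_iso2 hσ _ ((Uni.std hF (Fin 6)).perp (ln F e 0)) (by omega)
  refine decomp_isMaximalIn (fun _ => mem_SU_iff_E hF) (h.not_E_le_dstab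
    (Submodule.mem_span_singleton_self _) (h1.ne_zero _) hu hu0 huq) fun M h6 h7 g hg hg' => ?_
  rw [h2] at h6 hg'
  refine sf_E_le_six h3 (nf_sig hF) (fun l hl => ?_) (by simp) h6 (h7.trans E_le_O)
    fun h8 => hg' (h8 hg)
  have h9 := SqField.card_norm_eq hF one_ne_zero (one_pow q)
  rw [Nat.card_eq_fintype_card, Fintype.card_subtype] at h9
  obtain ⟨a, ha, ha'⟩ := exists_mem_notMem_list
    (s := Finset.univ.filter fun x : F => x ^ (q + 1) = 1) l (by omega)
  exact ⟨a, by simpa [pow_succ, Uni.sig_apply] using ha, ha'⟩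

end CL.Asch
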