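import Mathlib
import Cfsg.Agent.CLAS.SuFr6

/-!
Maximality of the stabiliser of an orthonormal frame in `SU₄(q)`, `q ≠ 3`.
-/

set_option autoImplicit false
set_option linter.unusedSectionVars false

namespace CL.Four

open Module CL.Witt CL.Witt.Form CL.Asch

theorem f4_exists_inv {G : Type*} [Group G] [Finite G] {M H : Subgroup G} {δ t τ : G}
    (hδ : δ ∈ M) (ht : t ∈ M) (hτ : τ ∈ M) (htt : t * t = 1) (hττ : τ * τ = 1) (htH : t ∈ H)
    (hc : t * τ = τ * t)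
    (D1 : ∀ m ∈ M, m * t * m⁻¹ ∈ H → m ∈ H) (D2 : ∀ m ∈ M, m * τ * m⁻¹ ∈ H → m ∈ H) :
    ∃ n ∈ H, n ∈ M ∧ δ * n * (δ * n) = 1 ∧ ∀ κ : G, (∀ g, κ * g = g * κ) → κ * κ = 1 →
      n * t = κ * t * n → δ⁻¹ * t * δ * (τ * t) = τ * t * (δ⁻¹ * t * δ) := by
  obtain ⟨r, hr⟩ := sf_exists_pow hδ ht hτ htt hττ htH D1 D2
  obtain ⟨b, hb⟩ : ∃ b, b = δ * τ * δ⁻¹ := ⟨_, rfl⟩
  rw [← hb] at hr
  have hbb : b * b = 1 := by
    rw [hb, show δ * τ * δ⁻¹ * (δ * τ * δ⁻¹) = δ * (τ * τ) * δ⁻¹ by group, hττ]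
    group
  have ti : t⁻¹ = t := inv_eq_of_mul_eq_one_right htt
  have h1 : SemiconjBy t (b * t) (b * t)⁻¹ := by
    rw [SemiconjBy, mul_inv_rev, inv_eq_of_mul_eq_one_right hbb, ti, mul_assoc]
  have h2 : ∀ k : ℕ, t * (b * t) ^ k = ((b * t) ^ k)⁻¹ * t := fun k => by
    rw [(h1.pow_right k).eq, inv_pow]
  have hbM : b ∈ M := hb ▸ M.mul_mem (M.mul_mem hδ hτ) (M.inv_mem hδ)
  have dd : t * (b * t) ^ r * (t * (b * t) ^ r) = 1 := by
    nth_rw 1 [h2]
    rw [mul_assoc, ← mul_assoc t, htt, one_mul, inv_mul_cancel]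
  refine ⟨δ⁻¹ * (t * (b * t) ^ r), ?_, M.mul_mem (M.inv_mem hδ)
    (M.mul_mem ht (M.pow_mem (M.mul_mem hbM ht) r)), by rw [mul_inv_cancel_left, dd],
    fun κ hκ κκ e2 => ?_⟩
  · rw [h2, ← mul_assoc, ← mul_inv_rev]
    exact mul_mem (inv_mem hr) htH
  have e3 : (b * t) ^ (2 * r + 1) = κ * (δ * (τ * t) * δ⁻¹) := by
    have e4 : t * (b * t) ^ r * t * (t * (b * t) ^ r) = κ * (δ * t * δ⁻¹) := by
      calc _ = δ * (δ⁻¹ * (t * (b * t) ^ r) * t) * (t * (b * t) ^ r) := by group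
        _ = δ * κ * t * δ⁻¹ * (t * (b * t) ^ r * (t * (b * t) ^ r)) := by rw [e2]; group
        _ = _ := by rw [dd, ← hκ δ]; group
    calc _ = b * (t * (b * t) ^ r * (t * t) * (b * t) ^ r) := by
          rw [htt, mul_one, pow_succ', two_mul, pow_add]; group
      _ = b * (t * (b * t) ^ r * t * (t * (b * t) ^ r)) := by group
      _ = _ := by rw [e4, ← mul_assoc, ← hκ b, hb]; group
  have e5 : κ * (δ * (τ * t) * δ⁻¹) * (κ * (δ * (τ * t) * δ⁻¹)) = 1 := by
    calc _ = κ * κ * (δ * (τ * (t * τ) * t) * δ⁻¹) := by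
          rw [mul_assoc κ κ, hκ (δ * (τ * (t * τ) * t) * δ⁻¹), hκ (δ * (τ * t) * δ⁻¹)]
          nth_rw 2 [← hκ (δ * (τ * t) * δ⁻¹)]
          rw [hκ (δ * (τ * t) * δ⁻¹)]
          calc _ = δ * (τ * t) * δ⁻¹ * (κ * (δ * (τ * t) * δ⁻¹ * κ)) := by group
            _ = δ * (τ * t) * δ⁻¹ * (δ * (τ * t) * δ⁻¹ * κ * κ) := by rw [hκ]
            _ = δ * (τ * (t * τ) * t) * δ⁻¹ * κ * κ := by group
            _ = _ := by rw [hκ]
      _ = 1 := by rw [κκ, hc, ← mul_assoc τ, hττ, one_mul t, htt]; group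
  have e6 := h2 (2 * r + 1)
  rw [e3, inv_eq_of_mul_eq_one_right e5, ← mul_assoc, ← hκ t, mul_assoc, mul_assoc κ] at e6
  have e7 := mul_left_cancel e6
  calc _ = δ⁻¹ * (t * (δ * (τ * t) * δ⁻¹)) * δ := by group
    _ = _ := by rw [e7]; group

theorem f4_all {R : Fin 4 → Fin 4 → Fin 4 → Prop} (cyc : ∀ a b c, R a b c → R b c a)
    (swap : ∀ a b c, R a b c → R b a c)
    (step : ∀ a b c d, a ≠ b → a ≠ c → a ≠ d → b ≠ c → b ≠ d → c ≠ d → R a b c → R a b d)
    {a b c : Fin 4} (hab : a ≠ b) (hac : a ≠ c) (hbc : b ≠ c) (h : R a b c)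
    {a' b' c' : Fin 4} (hab' : a' ≠ b') (hac' : a' ≠ c') (hbc' : b' ≠ c') : R a' b' c' := by
  have cy : ∀ a b c, R a b c ↔ R b c a := fun a b c => ⟨cyc _ _ _, fun h => cyc _ _ _ (cyc _ _ _ h)⟩
  have sw : ∀ a b c, R a b c ↔ R b a c := fun a b c => ⟨swap _ _ _, swap _ _ _⟩
  have st : ∀ a b c d, a ≠ b → a ≠ c → a ≠ d → b ≠ c → b ≠ d → c ≠ d → (R a b c ↔ R a b d) :=
    fun a b c d h1 h2 h3 h4 h5 h6 => ⟨step _ _ _ _ h1 h2 h3 h4 h5 h6,
      step _ _ _ _ h1 h3 h2 h5 h4 h6.symm⟩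
  have p : ∀ a b c, R a b c → R a b c ∧ R b c a ∧ R c a b ∧ R b a c ∧ R a c b ∧ R c b a :=
    fun a b c h => ⟨h, cyc _ _ _ h, cyc _ _ _ (cyc _ _ _ h), swap _ _ _ h,
      cyc _ _ _ (swap _ _ _ h), cyc _ _ _ (cyc _ _ _ (swap _ _ _ h))⟩
  obtain ⟨d, h1, h2, h3, h4⟩ : ∃ d, a ≠ d ∧ b ≠ d ∧ c ≠ d ∧ ∀ x, x = a ∨ x = b ∨ x = c ∨ x = d := by
    clear h; revert a b c; decide
  have q1 := p _ _ _ h
  have q2 := p _ _ _ (step _ _ _ _ hab hac h1 hbc h2 h3 h)
  have q3 := p _ _ _ (step _ _ _ _ hac hab h1 hbc.symm h3 h2 q1.2.2.2.2.1)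
  have q4 := p _ _ _ (step _ _ _ _ hbc hab.symm h2 hac.symm h3 h1 q1.2.1)
  rcases h4 a' with rfl | rfl | rfl | rfl <;> rcases h4 b' with rfl | rfl | rfl | rfl <;>
    rcases h4 c' with rfl | rfl | rfl | rfl <;>
    first | contradiction | tauto

set_option synthInstance.maxSize 2000 in
set_option maxRecDepth 100000 in
theorem f4_klein : ∀ π : Fin 4 → Fin 4, (∀ i, π (π i) = i) → (¬ ∃ i j, π i = i ∧ π j ≠ j) →
    (∀ s, (π s = 0 ∨ π s = 1) ↔ (s = 0 ∨ s = 1)) ∨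
      ∀ s, (π s = 0 ∨ π s = 1) ↔ ¬ (s = 0 ∨ s = 1) := by
  decide

variable {F : Type*} [Field F] [Finite F] {σ : F →+* F} {hσ2 : ∀ a, σ (σ a) = a} {V : Type*}
  [AddCommGroup V] [Module F V] [FiniteDimensional F V] {f : Form (FormType.herm σ hσ2) V}
  {e : Fin 4 → V} {M : Subgroup (V ≃ₗ[F] V)}

variable (f e) in
/-- `u` is diagonal with entries `c`. -/
def Dg (u : V ≃ₗ[F] V) (c : Fin 4 → F) : Prop := ∀ a v, f.B (e a) (u v) = c a * f.B (e a) v

theorem Dg.apply (h : f.Fr e 1) {u : V ≃ₗ[F] V} {c : Fin 4 → F} (hu : Dg f e u c) (a : Fin 4) :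
    u (e a) = c a • e a := sf_ext h fun i => by
  rw [hu, map_smul, smul_eq_mul]
  by_cases hi : i = a
  · rw [hi]
  · rw [h.ne _ _ hi, mul_zero, mul_zero]

theorem Dg.mul {u u' : V ≃ₗ[F] V} {c c' : Fin 4 → F} (hu : Dg f e u c) (hu' : Dg f e u' c') :
    Dg f e (u * u') (c * c') := fun a v => by
  rw [LinearEquiv.mul_apply, hu, hu', Pi.mul_apply, mul_assoc]

theorem Dg.eq (h : f.Fr e 1) {u u' : V ≃ₗ[F] V} {c : Fin 4 → F} (hu : Dg f e u c)
    (hu' : Dg f e u' c) : u = u' :=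
  LinearEquiv.ext fun v => sf_ext h fun i => by rw [hu, hu']

theorem f4_sum (h : f.Fr e 1) (v w : V) : f.B v w = ∑ i, σ (f.B (e i) v) * f.B (e i) w := by
  have := h.co_eq_sum v w
  simp only [co_one] at this
  simpa only [hσ_B] using this

theorem f4_ext (h : f.Fr e 1) {a b : V ≃ₗ[F] V} (H : ∀ s, a (e s) = b (e s)) : a = b :=
  LinearEquiv.toLinearMap_injective (LinearMap.ext_on_range h.top H)

theorem f4_diag (h : f.Fr e 1) (hσ : σ ≠ RingHom.id F) (c : Fin 4 → F)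
    (hc : ∀ a, σ (c a) * c a = 1) (hp : c 0 * c 1 * c 2 * c 3 = 1) :
    ∃ u ∈ dstab (ln F e) ⊓ f.E, Dg f e u c := by
  have k : ∀ k : Fin 4, k ≠ 3 → ∃ u ∈ dstab (ln F e) ⊓ f.E,
      Dg f e u fun a => if a = k then c k else if a = 3 then σ (c k) else 1 := fun k hk => by
    obtain ⟨t, ht, et⟩ := sf_d2 h hσ hk (hc k)
    refine ⟨t, ht, fun a v => ?_⟩
    rw [et]
    simp only [map_add, map_smul, smul_eq_mul]
    split_ifs with h1 h2
    · rw [h1, h.self, h.ne _ _ hk]; ring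
    · rw [h2, h.self, h.ne _ _ hk.symm]; ring
    · rw [h.ne _ _ h1, h.ne _ _ h2]; ring
  obtain ⟨u0, m0, d0⟩ := k 0 (by decide)
  obtain ⟨u1, m1, d1⟩ := k 1 (by decide)
  obtain ⟨u2, m2, d2⟩ := k 2 (by decide)
  refine ⟨_, mul_mem (mul_mem m0 m1) m2, ?_⟩
  convert (d0.mul d1).mul d2 using 1
  funext a
  fin_cases a <;> simp
  linear_combination (σ (c 0) * σ (c 1) * σ (c 2)) * hp - c 3 * σ (c 1) * c 1 * σ (c 2) * c 2 * hc 0
    - c 3 * σ (c 2) * c 2 * hc 1 - c 3 * hc 2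

theorem f4_even (h : f.Fr e 1) (N : NF σ) (h2 : (2 : F) = 0) (hM : dstab (ln F e) ⊓ f.E ≤ M)
    (hO : M ≤ f.O) (hM' : ¬ M ≤ dstab (ln F e)) : f.E ≤ M := by
  obtain ⟨m, hm, mn⟩ := SetLike.not_le_iff_exists.1 hM'
  obtain ⟨k, hk⟩ := not_forall.1 (mt h.mem_dstab_iff.2 mn)
  have : CharP F 2 := CharTwo.of_one_ne_zero_of_two_eq_zero one_ne_zero h2
  have sq : ∀ a : F, σ a * a = 1 → ∃ b, σ b * b = 1 ∧ b ^ 2 = a := fun a ha => by
    obtain ⟨b, hb⟩ := (Finite.injective_iff_surjective.1 (frobenius F 2).injective) a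
    rw [frobenius_def] at hb
    exact ⟨b, (frobenius F 2).injective (by
      rw [frobenius_def, mul_pow, ← map_pow, hb, ha, map_one]), hb⟩
  have hK : M ≤ relCore M (Subgroup.center _) ⊔ Subgroup.center _ := fun n hn =>
    Subgroup.mem_sup_left (mem_relCore.2 fun a ha => by
      rwa [← Subgroup.mem_center_iff.1 ha n, mul_inv_cancel_right])
  have hr : ∀ i, f.Hr (relCore M (Subgroup.center _) ⊔ Subgroup.center _) (e i) := fun i =>
    ⟨h.self i, fun l hl => by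
      obtain ⟨b', hb', e1⟩ := sq l hl
      obtain ⟨b, hb, e2⟩ := sq b' hb'
      have b0 : b ≠ 0 := right_ne_zero_of_mul_eq_one hb
      obtain ⟨u, hu, du⟩ := f4_diag h N.ne_id (fun a => if a = i then b ^ 3 else σ b)
        (fun a => by
          split_ifs
          · rw [map_pow, ← mul_pow, hb, one_pow]
          · rw [hσ2, mul_comm, hb])
        (by fin_cases i <;> simp <;> linear_combination ((σ b * b) ^ 2 + σ b * b + 1) * hb)
      have : f.rk (e i) (l - 1) = u * LinearEquiv.smulOfNeZero F V b b0 :=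
        LinearEquiv.ext fun v => sf_ext h fun a => by
          rw [hm_apply (h.self i) hl, LinearEquiv.mul_apply, du]
          simp only [map_add, map_smul, smul_eq_mul, LinearEquiv.smulOfNeZero_apply]
          split_ifs with h1
          · rw [h1, h.self, ← e1, ← e2]; ring
          · rw [h.ne _ _ h1]; linear_combination -f.B (e a) v * hb
      rw [this]
      exact mul_mem (hK (hM hu)) (Subgroup.mem_sup_right (Subgroup.mem_center_iff.2 fun g => by
        ext v; simp))⟩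
  refine le_of_le_relCore_sup (A := Subgroup.center _) (Uni.commutator_E N.ne_id h.sdec.nondeg'
    (by rw [← h.card_eq]; simp) (Or.inl (by rw [← h.card_eq]; simp)))
    (fun g _ g' hg' => Subgroup.mem_center_iff.1 hg' g)
    (UF.E_le ⟨h, N, hM.trans hK, hr, by simp⟩ ((hr k).map (hK hm) (hO hm)) fun i e0 => hk ?_)
  obtain ⟨b, hb⟩ := Submodule.mem_span_singleton.1 e0
  exact ⟨i, b, hb.symm⟩

variable (f e M) in
/-- An overgroup of the frame stabiliser whose point stabilisers are monomial. -/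
structure S4 : Prop extends f.Fr e 1 where
  N : NF σ
  N5 : ∀ l : List F, l.length < 5 → ∃ a, σ a * a = 1 ∧ a ∉ l
  two : (2 : F) ≠ 0
  le : dstab (ln F e) ⊓ f.E ≤ M
  hO : M ≤ f.O
  hs : ∀ m ∈ M, ∀ i j, ∀ a : F, m (e i) = a • e j → m ∈ dstab (ln F e)

namespace S4

variable (h : S4 f e M)
include h

theorem exists_w : ∃ w : F, σ w * w = 1 ∧ w ^ 2 ≠ 1 ∧ w ^ 2 ≠ -1 := by
  obtain ⟨r, r', H⟩ := quad_roots (α := (1 : F)) (β := 0) (γ := 1) (Or.inl one_ne_zero)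
  obtain ⟨w, hw, n⟩ := h.N5 [1, -1, r, r'] (by simp)
  simp only [List.mem_cons, List.not_mem_nil, or_false, not_or] at n
  refine ⟨w, hw, fun e0 => ?_, fun e0 => ?_⟩
  · rcases mul_self_eq_one_iff.1 ((sq w).symm.trans e0) with e1 | e1
    exacts [n.1 e1, n.2.1 e1]
  · rcases H w (by linear_combination e0) with e1 | e1
    exacts [n.2.2.1 e1, n.2.2.2 e1]

theorem col {g : V ≃ₗ[F] V} (hg : g ∈ M) (k : Fin 4) : ∃ β, f.B (e k) (g (e β)) ≠ 0 := by
  obtain ⟨β, hβ⟩ := (h.toFr.map (h.hO hg)).exists_B (h.ne_zero k)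
  exact ⟨β, fun e0 => hβ (f.B_eq_zero_symm e0)⟩

theorem key {g u : V ≃ₗ[F] V} (hg : g ∈ M) (hu : g⁻¹ * u * g ∈ dstab (ln F e)) (β : Fin 4) :
    ∃ γ, ∃ d : F, u (g (e β)) = d • g (e γ) := by
  obtain ⟨γ, d, e1⟩ := h.mem_dstab_iff.1 hu β
  refine ⟨γ, d, ?_⟩
  rw [← map_smul, ← e1, ← LinearEquiv.mul_apply, ← LinearEquiv.mul_apply]
  congr 1; group

theorem mono_of_two {g : V ≃ₗ[F] V} (hg : g ∈ M) {α k l : Fin 4} (hkl : k ≠ l)
    (h1 : f.B (e k) (g (e α)) = 0) (h2 : f.B (e l) (g (e α)) = 0) : g ∈ dstab (ln F e) := by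
  by_contra mn
  obtain ⟨β, h3⟩ := h.col hg k
  have hy := h.toFr.map (h.hO hg)
  obtain ⟨r, hr, h4⟩ := h.exists_B' (x := g (e β)) (i := k) fun e0 => by
    obtain ⟨a, ha⟩ := Submodule.mem_span_singleton.1 e0
    exact mn (h.hs g hg β k a ha.symm)
  obtain ⟨y, hy'⟩ : ∃ y, y = g (e β) := ⟨_, rfl⟩
  have yy : f.B y y = 1 := hy' ▸ hy.self β
  rw [← hy'] at h3 h4
  obtain ⟨r1, r2, H⟩ := quad_roots (α := σ (f.B (e k) y) * f.B (e k) y)
    (β := 1 - σ (f.B (e k) y) * f.B (e k) y - σ (f.B (e l) y) * f.B (e l) y)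
    (γ := σ (f.B (e l) y) * f.B (e l) y) (Or.inl (by simp [h3]))
  obtain ⟨s, hs, n⟩ := h.N5 [1, -1, r1, r2] (by simp)
  simp only [List.mem_cons, List.not_mem_nil, or_false, not_or] at n
  obtain ⟨t, ht, et⟩ := sf_d2 h.toFr h.N.ne_id hkl hs
  obtain ⟨γ, d, e2⟩ := h.key hg (h.hs (g⁻¹ * t * g)
    (M.mul_mem (M.mul_mem (M.inv_mem hg) (h.le ht)) hg) α α 1 (by
      rw [LinearEquiv.mul_apply, LinearEquiv.mul_apply, et, h1, h2]; simp)) β
  by_cases hγ : β = γ
  · rw [← hγ, ← hy', et] at e2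
    have e3 := congrArg (f.B (e r)) e2
    have e4 := congrArg (f.B (e k)) e2
    simp only [map_add, map_smul, h.ne _ _ hr, h.ne _ _ hkl, h.self, smul_eq_mul] at e3 e4
    have e5 : d = s := mul_right_cancel₀ h3 (by linear_combination -e4)
    by_cases hl : r = l
    · subst hl
      rw [h.self] at e3
      have e6 : σ s = s := mul_right_cancel₀ h4 (by linear_combination e3 + f.B (e r) y * e5)
      rw [e6, mul_self_eq_one_iff] at hs
      exact hs.elim n.1 n.2.1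
    · rw [h.ne _ _ hl] at e3
      exact n.1 (mul_right_cancel₀ h4 (by linear_combination -e3 - f.B (e r) y * e5))
  · have e3 := congrArg (f.B y) e2
    rw [map_smul, hy', hy.ne _ _ hγ, ← hy', et] at e3
    simp only [map_add, map_smul, yy, ← hσ_B (e k) y, ← hσ_B (e l) y, smul_eq_mul] at e3
    exact (H s (by linear_combination s * e3 - σ (f.B (e l) y) * f.B (e l) y * hs)).elim
      n.2.2.1 n.2.2.2

theorem mono_of_one {g : V ≃ₗ[F] V} (hg : g ∈ M) {α k : Fin 4}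
    (h1 : f.B (e k) (g (e α)) = 0) : g ∈ dstab (ln F e) := by
  obtain ⟨w, hw, w1, w2⟩ := h.exists_w
  obtain ⟨β, h3⟩ := h.col hg k
  have hy := h.toFr.map (h.hO hg)
  obtain ⟨u, hu, du⟩ := f4_diag h.toFr h.N.ne_id (fun a => if a = k then σ w ^ 3 else w)
    (fun a => by
      split_ifs
      · rw [map_pow, hσ2, ← mul_pow, mul_comm, hw, one_pow]
      · exact hw)
    (by fin_cases k <;> simp <;> linear_combination ((σ w * w) ^ 2 + σ w * w + 1) * hw)
  have e1 : ∀ v, u v = w • v + ((σ w ^ 3 - w) * f.B (e k) v) • e k := fun v =>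
    sf_ext h.toFr fun a => by
      rw [du]
      simp only [map_add, map_smul, smul_eq_mul]
      split_ifs with h2
      · rw [h2, h.self]; ring
      · rw [h.ne _ _ h2]; ring
  obtain ⟨γ, d, e2⟩ := h.key hg (h.hs (g⁻¹ * u * g)
    (M.mul_mem (M.mul_mem (M.inv_mem hg) (h.le hu)) hg) α α w (by
      rw [LinearEquiv.mul_apply, LinearEquiv.mul_apply, e1, h1]; simp)) β
  have w3 : σ w ^ 3 - w ≠ 0 := fun e0 => by
    have : (w ^ 2 - 1) * (w ^ 2 + 1) = 0 := by
      linear_combination (-w ^ 3) * e0 + ((σ w * w) ^ 2 + σ w * w + 1) * hw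
    exact (mul_eq_zero.1 this).elim (fun e3 => w1 (by linear_combination e3))
      fun e3 => w2 (by linear_combination e3)
  have k1 : ∀ r, r ≠ β → r ≠ γ → f.B (e r) (g⁻¹ (e k)) = 0 := fun r h4 h5 => by
    have e3 := congrArg (f.B (g (e r))) e2
    rw [e1] at e3
    simp only [map_add, map_smul, hy.ne _ _ h4, hy.ne _ _ h5, smul_eq_mul, mul_zero, zero_add,
      mul_eq_zero, w3, h3, false_or] at e3
    rwa [B_apply_left (h.hO hg)] at e3
  obtain ⟨r, s, hrs, h4, h5, h6, h7⟩ : ∃ r s : Fin 4, r ≠ s ∧ r ≠ β ∧ r ≠ γ ∧ s ≠ β ∧ s ≠ γ := by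
    clear e2 k1 h3; revert β γ; decide
  exact (dstab _).inv_mem_iff.1 (h.mono_of_two (M.inv_mem hg) hrs (k1 r h4 h5) (k1 s h6 h7))

theorem not_mono {g u : V ≃ₗ[F] V} (hg : g ∈ M) (mn : g ∉ dstab (ln F e)) {c : Fin 4 → F}
    (du : Dg f e u c) {τ : F} (τ0 : τ ≠ 0) (hτ : ∀ a, c a + σ (c a) = τ) {i k : Fin 4}
    (hik : c i ≠ c k) : g⁻¹ * u * g ∉ dstab (ln F e) := fun hu => by
  have hy := h.toFr.map (h.hO hg)
  obtain ⟨γ, d, e2⟩ := h.key hg hu 0
  by_cases hγ : 0 = γ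
  · rw [← hγ] at e2
    have k1 : ∀ a, c a = d := fun a => mul_right_cancel₀
      (fun e0 => mn (h.mono_of_one hg (α := 0) (k := a) e0)) (by rw [← du, e2]; simp)
    exact hik ((k1 i).trans (k1 k).symm)
  · have e3 := congrArg (f.B (g (e 0))) e2
    rw [map_smul, hy.ne _ _ hγ, smul_zero, f4_sum h.toFr] at e3
    have e4 := congrArg σ e3
    have e5 := hy.self 0
    rw [f4_sum h.toFr] at e5
    simp only [du _, Fin.sum_univ_four, map_add, map_mul, hσ2, map_zero] at e3 e4 e5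
    refine τ0 ?_
    linear_combination e3 + e4 - τ * e5
      - σ (f.B (e 0) (g (e 0))) * f.B (e 0) (g (e 0)) * hτ 0
      - σ (f.B (e 1) (g (e 0))) * f.B (e 1) (g (e 0)) * hτ 1
      - σ (f.B (e 2) (g (e 0))) * f.B (e 2) (g (e 0)) * hτ 2
      - σ (f.B (e 3) (g (e 0))) * f.B (e 3) (g (e 0)) * hτ 3

theorem perm {n : V ≃ₗ[F] V} (hO : n ∈ f.O) (hn : n ∈ dstab (ln F e)) :
    ∃ π : Fin 4 → Fin 4, ∃ a : Fin 4 → F, Function.Injective π ∧ (∀ i, σ (a i) * a i = 1) ∧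
      ∀ i, n (e i) = a i • e (π i) := by
  choose π a ha using h.mem_dstab_iff.1 hn
  have a1 : ∀ i, σ (a i) * a i = 1 := fun i => by
    have := mem_O_B hO (e i) (e i)
    rwa [ha, hB_smul, B_smul_right, h.self, h.self, mul_one] at this
  refine ⟨π, a, fun i j e0 => ?_, a1, ha⟩
  by_contra hij
  have := mem_O_B hO (e i) (e j)
  rw [ha, ha, hB_smul, B_smul_right, e0, h.self, h.ne _ _ hij, mul_one] at this
  exact mul_ne_zero (left_ne_zero_of_mul_eq_one (a1 i)) (right_ne_zero_of_mul_eq_one (a1 j)) this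

theorem dg2 {w : F} (hw : σ w * w = 1) {p : Fin 4} (hp : p ≠ 0) :
    ∃ u ∈ dstab (ln F e) ⊓ f.E, Dg f e u fun a => if a = 0 ∨ a = p then σ w else w :=
  f4_diag h.toFr h.N.ne_id _
    (fun a => by
      split_ifs
      · rw [hσ2, mul_comm, hw]
      · exact hw)
    (by fin_cases p <;> simp at hp ⊢ <;> linear_combination (σ w * w + 1) * hw)

theorem not_mono2 {g u : V ≃ₗ[F] V} (hg : g ∈ M) (mn : g ∉ dstab (ln F e)) {w : F}
    (hw : σ w * w = 1) (w1 : w ^ 2 ≠ 1) (w2 : w ^ 2 ≠ -1) {p : Fin 4}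
    (du : Dg f e u fun a => if a = 0 ∨ a = p then σ w else w) : g⁻¹ * u * g ∉ dstab (ln F e) := by
  obtain ⟨k, hk⟩ : ∃ k : Fin 4, ¬ (k = 0 ∨ k = p) := by clear du; revert p; decide
  refine h.not_mono hg mn du (τ := w + σ w) (fun e0 => w2 (by linear_combination w * e0 - hw))
    (fun a => ?_) (i := 0) (k := k) ?_
  · split_ifs
    · rw [hσ2, add_comm]
    · rfl
  · rw [if_pos (Or.inl rfl), if_neg hk]
    exact fun e0 => w1 (by linear_combination hw - w * e0)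

theorem mono_of_conj {m z : V ≃ₗ[F] V} (hm : m ∈ M) (hz : z ∈ M) {ε : Fin 4 → F}
    (dz : Dg f e z ε) (zz : z * z = 1) {i k : Fin 4} (hi : ε i = -1) (hk : ε k = 1)
    (h0 : m * z * m⁻¹ ∈ dstab (ln F e)) : m ∈ dstab (ln F e) := by
  by_contra mn
  have hν := h.hO (mul_mem (mul_mem hm hz) (inv_mem hm))
  obtain ⟨π, a, hπ, a1, ha⟩ := h.perm hν h0
  obtain ⟨ν, hν'⟩ : ∃ ν, ν = m * z * m⁻¹ := ⟨_, rfl⟩
  have e1 : ∀ b, ν (m (e b)) = ε b • m (e b) := fun b => by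
    rw [hν', ← LinearEquiv.mul_apply, inv_mul_cancel_right, LinearEquiv.mul_apply,
      dz.apply h.toFr, map_smul]
  have νν : ν * ν = 1 := by
    rw [hν', show m * z * m⁻¹ * (m * z * m⁻¹) = m * (z * z) * m⁻¹ by group, zz]; group
  rw [← hν'] at hν ha
  have e2 : ∀ s, π s ≠ s := fun s hs => by
    have k1 : ∀ b, σ (a s) * ε b = 1 := fun b => by
      have := mem_O_B hν (e s) (m (e b))
      rw [e1, ha, hs, hB_smul, B_smul_right, ← mul_assoc] at this
      exact mul_right_cancel₀ (fun e0 => mn (h.mono_of_one hm e0)) (this.trans (one_mul _).symm)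
    have k2 := k1 i
    have k3 := k1 k
    rw [hi] at k2
    rw [hk] at k3
    exact h.two (by linear_combination -k2 - k3)
  have e3 : ∀ s, π (π s) = s := fun s => by
    by_contra h3
    have := congrArg (fun g : V ≃ₗ[F] V => f.B (e s) (g (e s))) νν
    simp only [LinearEquiv.mul_apply, ha, map_smul, h.ne _ _ (Ne.symm h3), smul_zero,
      LinearEquiv.coe_one, id, h.self] at this
    exact zero_ne_one this
  obtain ⟨w, hw, w1, w2⟩ := h.exists_w
  obtain ⟨u, hu, du⟩ := h.dg2 hw (e2 0)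
  have e4 : ∀ s, (π s = 0 ∨ π s = π 0) ↔ (s = 0 ∨ s = π 0) := fun s =>
    ⟨fun H => H.symm.imp (fun h1 => hπ h1) fun h1 => by rw [← h1, e3],
      fun H => H.symm.imp (fun h1 => by rw [h1, e3]) fun h1 => by rw [h1]⟩
  have e5 : u * ν = ν * u := f4_ext h.toFr fun s => by
    rw [LinearEquiv.mul_apply, LinearEquiv.mul_apply, ha, map_smul, du.apply h.toFr,
      du.apply h.toFr, map_smul, ha, smul_comm]
    simp only [e4]
  have e6 := mem_O_B hν (m (e k)) (u (m (e i)))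
  rw [← LinearEquiv.mul_apply ν u, ← e5, LinearEquiv.mul_apply, e1, e1, hi, hk, one_smul,
    map_smul, map_smul, smul_eq_mul] at e6
  have e7 : f.B (m (e k)) (u (m (e i))) = 0 :=
    mul_left_cancel₀ h.two (by linear_combination -e6)
  rw [B_apply_left (h.hO hm)] at e7
  exact h.not_mono2 hm mn hw w1 w2 du (h.mono_of_one (α := i) (k := k)
    (mul_mem (mul_mem (inv_mem hm) (h.le hu)) hm) e7)

theorem dgz {p : Fin 4} (hp : p ≠ 0) : ∃ z ∈ dstab (ln F e) ⊓ f.E, z * z = 1 ∧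
    Dg f e z fun a => if a = 0 ∨ a = p then -1 else 1 := by
  obtain ⟨z, hz, dz⟩ := f4_diag h.toFr h.N.ne_id (fun a => if a = 0 ∨ a = p then -1 else 1)
    (fun a => by split_ifs <;> simp) (by fin_cases p <;> simp at hp ⊢)
  refine ⟨z, hz, (dz.mul dz).eq h.toFr fun a v => ?_, dz⟩
  rw [Pi.mul_apply]
  split_ifs <;> simp

theorem herm {δ : V ≃ₗ[F] V} (hδ : δ ∈ M) (mn : δ ∉ dstab (ln F e)) :
    ∃ a b c : Fin 4, a ≠ b ∧ a ≠ c ∧ b ≠ c ∧ ∃ X, σ X = X ∧ X = f.B (e a) (δ (e b)) *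
      f.B (e b) (δ (e c)) * σ (f.B (e a) (δ (e c))) * σ (f.B (e b) (δ (e b))) := by
  have : Finite V := Module.finite_of_finite F
  have : Finite (V ≃ₗ[F] V) := Finite.of_injective (fun g : V ≃ₗ[F] V => (g : V → V))
    DFunLike.coe_injective
  obtain ⟨t, ht, tt, dt⟩ := h.dgz (p := 1) (by decide)
  obtain ⟨τ, hτ, ττ, dτ⟩ := h.dgz (p := 2) (by decide)
  have D1 : ∀ m ∈ M, m * t * m⁻¹ ∈ dstab (ln F e) → m ∈ dstab (ln F e) := fun m hm =>
    h.mono_of_conj hm (h.le ht) dt tt (i := 0) (k := 3) (by simp) (by simp)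
  obtain ⟨n, hn, nM, nn, H⟩ := f4_exists_inv hδ (h.le ht) (h.le hτ) tt ττ ht.1
    ((dt.mul dτ).eq h.toFr (mul_comm (G := Fin 4 → F) _ _ ▸ dτ.mul dt)) D1
    fun m hm => h.mono_of_conj hm (h.le hτ) dτ ττ (i := 0) (k := 3) (by simp) (by simp)
  obtain ⟨π, a, hπ, a1, ha⟩ := h.perm (h.hO nM) hn
  have R : ∀ x y, f.B (e x) (δ (e (π y))) * a y = σ (f.B (e y) (δ (e (π x))) * a x) := fun x y => by
    have := mem_O_B (h.hO (mul_mem hδ nM)) (e x) ((δ * n) (e y))
    rw [← LinearEquiv.mul_apply (δ * n), nn, ← hσ_B] at this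
    simp only [LinearEquiv.mul_apply, ha, map_smul, smul_eq_mul, LinearEquiv.coe_one, id] at this
    rw [mul_comm, ← this, mul_comm]
  by_cases h1 : ∃ i, π (π i) ≠ i
  · obtain ⟨i, hi⟩ := h1
    have h2 : i ≠ π i := fun e0 => hi (by rw [← e0, ← e0])
    refine ⟨i, π i, π (π i), h2, hi.symm, hπ.ne h2, _, ?_, rfl⟩
    have r1 := R i i
    have r2 := R (π i) (π i)
    have r3 := R i (π i)
    have r4 := congrArg σ r3
    have r5 := a1 i
    have r6 := a1 (π i)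
    simp only [map_mul, hσ2] at r1 r2 r3 r4 ⊢
    generalize f.B (e i) (δ (e (π i))) = A, f.B (e (π i)) (δ (e (π (π i)))) = B,
      f.B (e i) (δ (e (π (π i)))) = C, f.B (e (π i)) (δ (e (π i))) = D, a i = x,
      a (π i) = y at *
    have r7 : A * B * σ C * σ D = (A * x) * (B * y) * (σ C * σ y) * (σ D * σ x) := by
      linear_combination (-A * B * σ C * σ D * σ y * y) * r5 - A * B * σ C * σ D * r6
    have r8 : σ A * σ B * C * D = (σ A * σ x) * (σ B * σ y) * (C * y) * (D * x) := by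
      linear_combination (-σ A * σ B * C * D * σ y * y) * r5 - σ A * σ B * C * D * r6
    rw [r7, r8, r1, r2, r3, r4]; ring
  push Not at h1
  by_cases h2 : ∃ i j, π i = i ∧ π j ≠ j
  · obtain ⟨i, j, hi, hj⟩ := h2
    have h3 : j ≠ i := fun e0 => hj (by rw [e0, hi])
    refine ⟨j, i, π j, h3, hj.symm, hi ▸ hπ.ne h3.symm, _, ?_, rfl⟩
    have r1 := R i i
    have r2 := R j j
    have r3 := R j i
    have r4 := congrArg σ r3
    have r5 := a1 i
    have r6 := a1 j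
    simp only [map_mul, hσ2, hi] at r1 r2 r3 r4 ⊢
    generalize f.B (e j) (δ (e i)) = A, f.B (e i) (δ (e (π j))) = B,
      f.B (e j) (δ (e (π j))) = C, f.B (e i) (δ (e i)) = D, a i = x, a j = y at *
    have r7 : A * B * σ C * σ D = (A * x) * (B * y) * (σ C * σ y) * (σ D * σ x) := by
      linear_combination (-A * B * σ C * σ D * σ y * y) * r5 - A * B * σ C * σ D * r6
    have r8 : σ A * σ B * C * D = (σ A * σ x) * (σ B * σ y) * (C * y) * (D * x) := by
      linear_combination (-σ A * σ B * C * D * σ y * y) * r5 - σ A * σ B * C * D * r6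
    rw [r7, r8, r1, r2, r3, r4]; ring
  exfalso
  have h3 : (∀ s, (π s = 0 ∨ π s = 1) ↔ (s = 0 ∨ s = 1)) ∨
      ∀ s, (π s = 0 ∨ π s = 1) ↔ ¬ (s = 0 ∨ s = 1) := f4_klein π h1 h2
  have h4 : δ⁻¹ * t * δ * (τ * t) = τ * t * (δ⁻¹ * t * δ) := by
    rcases h3 with h3 | h3
    · refine H 1 (by simp) (by simp) (f4_ext h.toFr fun s => ?_)
      rw [one_mul, LinearEquiv.mul_apply, LinearEquiv.mul_apply, ha, map_smul, dt.apply h.toFr,
        dt.apply h.toFr, map_smul, ha, smul_comm]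
      simp only [h3]
    · refine H (LinearEquiv.neg F) (fun g => by ext v; simp) (by ext v; simp)
        (f4_ext h.toFr fun s => ?_)
      rw [LinearEquiv.mul_apply, LinearEquiv.mul_apply, LinearEquiv.mul_apply, ha, map_smul,
        dt.apply h.toFr, dt.apply h.toFr, map_smul, ha, smul_comm, LinearEquiv.neg_apply]
      simp only [h3]
      split_ifs <;> simp
  have h5 := congrArg (fun g : V ≃ₗ[F] V => f.B (e 0) (g (e 1))) h4
  simp only [LinearEquiv.mul_apply _ (τ * t), LinearEquiv.mul_apply (τ * t), dτ.mul dt _ _,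
    (dτ.mul dt).apply h.toFr, map_smul, smul_eq_mul] at h5
  simp only [Pi.mul_apply, true_or, or_true, if_true, show ¬ ((1 : Fin 4) = 0 ∨ (1 : Fin 4) = 2) by
    decide, if_false] at h5
  have h6 := h.mono_of_one (mul_mem (mul_mem (inv_mem hδ) (h.le ht)) hδ) (α := 1) (k := 0)
    (mul_left_cancel₀ h.two (by linear_combination -h5))
  exact mn ((dstab _).inv_mem_iff.1 (D1 _ (inv_mem hδ) (by rwa [inv_inv])))

theorem le_dstab : M ≤ dstab (ln F e) := fun g hg => by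
  by_contra mn
  obtain ⟨w, hw, w1, w2⟩ := h.exists_w
  obtain ⟨z, hz, zz, dz⟩ := h.dgz (p := 1) (by decide)
  obtain ⟨u, hu, du⟩ := h.dg2 hw (p := 1) (by decide)
  have m1 := mul_mem (mul_mem hg (h.le hz)) (inv_mem hg)
  have n1 : g * z * g⁻¹ ∉ dstab (ln F e) := fun h0 =>
    mn (h.mono_of_conj hg (h.le hz) dz zz (i := 0) (k := 3) (by simp) (by simp) h0)
  have m2 := mul_mem (mul_mem hg (h.le hu)) (inv_mem hg)
  have n2 : g * u * g⁻¹ ∉ dstab (ln F e) := by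
    simpa only [inv_inv] using h.not_mono2 (inv_mem hg) (mt (dstab _).inv_mem_iff.1 mn) hw w1 w2 du
  have e1 : ∀ v, (2 : F) • (g * u * g⁻¹) v = (σ w + w) • v + (w - σ w) • (g * z * g⁻¹) v := by
    intro v
    obtain ⟨v, rfl⟩ := g.surjective v
    rw [← LinearEquiv.mul_apply, ← LinearEquiv.mul_apply, inv_mul_cancel_right,
      inv_mul_cancel_right, LinearEquiv.mul_apply, LinearEquiv.mul_apply, ← map_smul g,
      ← map_smul g, ← map_smul g, ← map_add]
    refine congrArg g (sf_ext h.toFr fun a => ?_)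
    simp only [map_add, map_smul, du _ _, dz _ _, smul_eq_mul]
    split_ifs <;> ring
  have dd : g * z * g⁻¹ * (g * z * g⁻¹) = 1 := by
    rw [show g * z * g⁻¹ * (g * z * g⁻¹) = g * (z * z) * g⁻¹ by group, zz]; group
  generalize g * z * g⁻¹ = d, g * u * g⁻¹ = δ at *
  obtain ⟨D, hD⟩ : ∃ D : Fin 4 → Fin 4 → F, ∀ a b, f.B (e a) (d (e b)) = D a b :=
    ⟨_, fun _ _ => rfl⟩
  have D0 : ∀ a b, D a b ≠ 0 := fun a b e0 => n1 (h.mono_of_one m1 ((hD a b).trans e0))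
  have D1 : ∀ a b, σ (D a b) = D b a := fun a b => by
    rw [← hD, ← hD, hσ_B, ← mem_O_B (h.hO m1), ← LinearEquiv.mul_apply d d, dd]; rfl
  have D2 : ∀ a b, a ≠ b → ∑ x, D a x * D x b = 0 := fun a b hab => by
    have := mem_O_B (h.hO m1) (e a) (e b)
    rw [h.ne _ _ hab, f4_sum h.toFr] at this
    simpa only [hD, D1] using this
  obtain ⟨a, b, c, hab, hac, hbc, X, hX, eX⟩ := h.herm m1 n1
  obtain ⟨a', b', c', hab', hac', hbc', Y, hY, eY⟩ := h.herm m2 n2
  have r1 : D a' b' * D b' c' * D c' a' = D b' a' * D c' b' * D a' c' := by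
    refine f4_all (R := fun a b c => D a b * D b c * D c a = D b a * D c b * D a c)
      (fun a b c H => by linear_combination H) (fun a b c H => by linear_combination -H)
      (fun a b c x h1 h2 h3 h4 h5 h6 H => ?_) hab hac hbc ?_ hab' hac' hbc'
    · have k : ∀ φ : Fin 4 → F, ∑ y, φ y = φ a + φ b + φ c + φ x := fun φ => by
        rw [show (Finset.univ : Finset (Fin 4)) = {a, b, c, x} by
          clear H; revert a b c x; decide, Finset.sum_insert (by simp [h1, h2, h3]),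
          Finset.sum_insert (by simp [h4, h5]), Finset.sum_pair h6]
        ring
      have k1 := D2 a b h1
      have k2 := D2 b a h1.symm
      rw [k] at k1 k2
      linear_combination D a b * k2 - D b a * k1 - H
    · rw [eX] at hX
      simp only [hD, map_mul, D1] at hX
      exact mul_right_cancel₀ (D0 b b) (by linear_combination -hX)
  have e2 : ∀ x y, 2 * f.B (e x) (δ (e y)) = (σ w + w) * f.B (e x) (e y) + (w - σ w) * D x y :=
    fun x y => by simpa only [map_add, map_smul, smul_eq_mul, hD] using congrArg (f.B (e x)) (e1 (e y))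
  have e3 := e2 a' b'
  have e4 := e2 b' c'
  have e5 := congrArg σ (e2 a' c')
  have e6 := congrArg σ (e2 b' b')
  rw [h.ne _ _ hab'] at e3
  rw [h.ne _ _ hbc'] at e4
  rw [h.ne _ _ hac'] at e5
  rw [h.self] at e6
  simp only [map_mul, map_add, map_sub, hσ2, map_ofNat, D1, map_zero, map_one, mul_zero, zero_add,
    mul_one] at e3 e4 e5 e6
  have e7 : 2 ^ 4 * Y = (w - σ w) * D a' b' * ((w - σ w) * D b' c') * ((σ w - w) * D c' a') *
      (w + σ w + (σ w - w) * D b' b') := by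
    rw [← e3, ← e4, ← e5, ← e6, eY]; ring
  have e8 := congrArg σ e7
  simp only [map_mul, map_add, map_sub, map_pow, hσ2, map_ofNat, D1, hY] at e8
  have e9 : 2 * (w - σ w) ^ 3 * (D a' b' * D b' c' * D c' a') * (w + σ w) = 0 := by
    linear_combination e7 - e8 + (w - σ w) ^ 3 * (σ w + w + (w - σ w) * D b' b') * r1
  simp only [mul_eq_zero, h.two, D0, false_or, or_false, pow_eq_zero_iff three_ne_zero] at e9
  exact e9.elim (fun e0 => w1 (by linear_combination hw + w * e0))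
    fun e0 => w2 (by linear_combination w * e0 - hw)

end S4

open Matrix Cfsg Cfsg.Geo CL.Orth CL.FGL in
theorem su_frame_four {F : Type*} [Field F] [Fintype F] {q : ℕ}
    (hF : Fintype.card F = q ^ 2) (hq : q ≠ 3) {D : Fin 4 → Submodule F (Fin 4 → F)}
    (hD : IsNondegenerateMDecomposition (hermForm 4 F q) 1 D) :
    IsMaximalIn (GU 4 F q ⊓ specialLinear (Fin 4) F)
      (decompositionStabilizer D ⊓ (GU 4 F q ⊓ specialLinear (Fin 4) F)) := by
  classical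
  have h := sdec_of _ (uni_B_iff hF) hD
  have hσ := Uni.sig_ne_id hF
  obtain ⟨e, c, h1, rfl⟩ := h.exists_fr rfl hD.decomp.finrank_eq
    (h.herm_isom hσ hD.decomp.finrank_eq)
  obtain ⟨s, hs⟩ := (nf_sig hF).norm c⁻¹ (by rw [map_inv₀]; exact congrArg _ h1.σc)
  have s0 : s ≠ 0 := by rintro rfl; exact inv_ne_zero h1.c0 (by rw [← hs, mul_zero])
  have h2 : ln F e = ln F fun i => s • e i := funext fun i =>
    (Submodule.span_singleton_smul_eq s0.isUnit _).symm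
  have h3 : (Uni.std hF (Fin 4)).Fr (fun i => s • e i) 1 := ⟨rfl, one_ne_zero, map_one _,
    fun i => by rw [hB_smul, B_smul_right, h1.self, ← mul_assoc, hs, inv_mul_cancel₀ h1.c0],
    fun i j hij => by simp [h1.ne i j hij], by
      rw [Submodule.span_range_eq_iSup]; exact (congrArg iSup h2).symm.trans h.top⟩
  have h5 := h.nondeg'.finrank_add_finrank_perp (ln F e 0)
  rw [hD.decomp.finrank_eq] at h5
  simp only [finrank_fun, Fintype.card_fin] at h5
  obtain ⟨u, hu, hu0, huq⟩ := herm_iso2 hσ _ ((Uni.std hF (Fin 4)).perp (ln F e 0)) (by omega)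
  refine decomp_isMaximalIn (fun _ => mem_SU_iff_E hF) (h.not_E_le_dstab
    (Submodule.mem_span_singleton_self _) (h1.ne_zero _) hu hu0 huq) fun M h6 h7 g hg hg' => ?_
  rw [h2] at h6 hg'
  have hO := h7.trans E_le_O
  by_cases h8 : (2 : F) = 0
  · exact f4_even h3 (nf_sig hF) h8 h6 hO fun h9 => hg' (h9 hg)
  have q2 : q ≠ 2 := by
    rintro rfl
    have := FiniteField.cast_card_eq_zero F
    rw [hF] at this
    exact h8 (pow_eq_zero_iff (n := 2) two_ne_zero |>.1 (by exact_mod_cast this))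
  have q4 := SqField.two_le hF
  by_contra H
  refine hg' (S4.le_dstab ⟨h3, nf_sig hF, fun l hl => ?_, h8, h6, hO, fun m hm i j a ha =>
    by_contra fun mn => H (sf_E_le h3 (nf_sig hF) (by simp) h6 hO hm mn ha)⟩ hg)
  have h9 := SqField.card_norm_eq hF one_ne_zero (one_pow q)
  rw [Nat.card_eq_fintype_card, Fintype.card_subtype] at h9
  obtain ⟨a, ha, ha'⟩ := exists_mem_notMem_list
    (s := Finset.univ.filter fun x : F => x ^ (q + 1) = 1) l (by omega)
  exact ⟨a, by simpa [pow_succ, Uni.sig_apply] using ha, ha'⟩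

end CL.Four
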