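/-
The monomial group is maximal in `SL₄(q)` for `q ≥ 7`.
-/
import Cfsg.Agent.CLAS.DecMono2

set_option autoImplicit false
set_option linter.unusedSectionVars false

namespace CL.Four

open Module Cfsg Cfsg.Geo CL.Tv CL.Dec

variable {F : Type*} [Field F] {K : Subgroup (GL (Fin 4) F)} {b : Basis (Fin 4) F (Fin 4 → F)}
  {c l : F} {x y : Fin 4 → F} {φ ψ θ : Dual F (Fin 4 → F)}

variable (K) in
/-- `K` contains a scalar multiple of a rank one perturbation of the identity. -/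
def Rks (c : F) (x : Fin 4 → F) (φ : Dual F (Fin 4 → F)) : Prop :=
  ∃ g ∈ K, ∀ v, act g v = c • (v + φ v • x)

theorem rks_one : Rks K 1 x φ ↔ HasTv K x φ := by simp [Rks, HasTv]

theorem Rks.conj {x' : Fin 4 → F} {φ' : Dual F (Fin 4 → F)} (h : Rks K c x φ) {g : GL (Fin 4) F}
    (hg : g ∈ K) {d : F} (hx : act g x = d • x') (hφ : ∀ v, φ' (act g v) = d * φ v) :
    Rks K c x' φ' := by
  obtain ⟨k, hk, e⟩ := h
  refine ⟨g * k * g⁻¹, K.mul_mem (K.mul_mem hg hk) (K.inv_mem hg), fun v => ?_⟩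
  obtain ⟨w, rfl⟩ := (act g).surjective v
  rw [act_mul, act_mul, act_inv_act, e, map_smul, map_add, map_smul, hx, hφ]
  module

variable (K) in
/-- `K` contains a scalar multiple of the homology with centre `x`, axis `ψ`, eigenvalue `l`. -/
def Hm (c l : F) (x : Fin 4 → F) (ψ : Dual F (Fin 4 → F)) : Prop :=
  ψ x = 1 ∧ Rks K c x ((l - 1) • ψ)

theorem Hm.conj {x' : Fin 4 → F} {ψ' : Dual F (Fin 4 → F)} (h : Hm K c l x ψ) {g : GL (Fin 4) F}
    (hg : g ∈ K) (hx : act g x = x') (hψ : ∀ v, ψ' (act g v) = ψ v) : Hm K c l x' ψ' :=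
  ⟨by rw [← hx, hψ, h.1], h.2.conj hg (d := 1) (by rw [hx, one_smul]) fun v => by simp [hψ]⟩

theorem Rks.hm {d : F} (h : Rks K d x φ) (h' : Hm K c l y θ) (l0 : l ≠ 0) :
    Rks K d (x + ((l - 1) * θ x) • y) (φ + ((l⁻¹ - 1) * φ y) • θ) := by
  obtain ⟨h1, g, hg, e⟩ := h'
  refine h.conj hg (d := c) (by rw [e]; simp) fun v => ?_
  simp only [e, map_add, map_smul, LinearMap.add_apply, LinearMap.smul_apply, smul_eq_mul, h1]
  field_simp
  ring

theorem Hm.hm (h : Hm K c l x ψ) (h' : Hm K c l y θ) (l0 : l ≠ 0) :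
    Hm K c l (x + ((l - 1) * θ x) • y) (ψ + ((l⁻¹ - 1) * ψ y) • θ) := by
  refine ⟨?_, ?_⟩
  · simp only [map_add, map_smul, LinearMap.add_apply, LinearMap.smul_apply, smul_eq_mul, h.1, h'.1]
    field_simp
    ring
  · convert h.2.hm h' l0 using 1
    refine LinearMap.ext fun v => ?_
    simp only [LinearMap.add_apply, LinearMap.smul_apply, smul_eq_mul]
    ring

theorem Hm.tv_right {ψ' : Dual F (Fin 4 → F)} (h : Hm K c l x ψ) (h' : Hm K c l x ψ') :
    HasTv K x ((l - 1) • (ψ' - ψ)) := by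
  obtain ⟨h1, g, hg, e⟩ := h
  obtain ⟨h2, g', hg', e'⟩ := h'
  refine ⟨g' * g⁻¹, K.mul_mem hg' (K.inv_mem hg), fun v => ?_⟩
  obtain ⟨w, rfl⟩ := (act g).surjective v
  rw [act_mul, act_inv_act, e', e]
  simp only [map_add, map_smul, LinearMap.sub_apply, LinearMap.smul_apply, smul_eq_mul, h1, h2]
  module

theorem Hm.tv_left {x' : Fin 4 → F} (h : Hm K c l x ψ) (h' : Hm K c l x' ψ) :
    HasTv K (x' - x) ((l - 1) • ψ) := by
  obtain ⟨h1, g, hg, e⟩ := h
  obtain ⟨h2, g', hg', e'⟩ := h'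
  refine ⟨g⁻¹ * g', K.mul_mem (K.inv_mem hg) hg', fun v => (act g).injective ?_⟩
  rw [act_mul, act_act_inv, e', e]
  simp only [map_add, map_sub, map_smul, LinearMap.smul_apply, smul_eq_mul, h1, h2]
  module

variable (b) in
theorem exists_refl_sc {j k : Fin 4} (hjk : j ≠ k) {p q : F} (hp : p ≠ 0) (hq : q ≠ 0) :
    ∃ s : GL (Fin 4) F, (s : Matrix (Fin 4) (Fin 4) F).det = -1 ∧ Mono b s ∧
      ∀ v, act s v = v + (q⁻¹ * b.coord k v - p⁻¹ * b.coord j v) • (p • b j - q • b k) := by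
  have e : 1 + (q⁻¹ • b.coord k - p⁻¹ • b.coord j) (p • b j - q • b k) = -1 := by
    simp only [LinearMap.sub_apply, LinearMap.smul_apply, map_sub, map_smul, coord_self,
      coord_ne hjk, coord_ne hjk.symm, smul_eq_mul]
    field_simp
    ring
  refine ⟨dt (p • b j - q • b k) (q⁻¹ • b.coord k - p⁻¹ • b.coord j) (by rw [e]; simp),
    by rw [det_dt, e], mono_of j k ⟨k, p⁻¹ * q, ?_⟩ ⟨j, q⁻¹ * p, ?_⟩ fun i h1 h2 => ⟨i, 1, ?_⟩,
    fun v => act_dt _ _ _ v⟩
  all_goals simp only [act_dt, LinearMap.sub_apply, LinearMap.smul_apply, coord_self,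
    smul_eq_mul]
  · rw [coord_ne hjk.symm]
    match_scalars <;> field_simp <;> ring
  · rw [coord_ne hjk]
    match_scalars <;> field_simp <;> ring
  · rw [coord_ne h1.symm, coord_ne h2.symm]; module

theorem exists_scal4 {c : F} (hc : c ≠ 0) : ∃ s : GL (Fin 4) F,
    (s : Matrix (Fin 4) (Fin 4) F).det = c ^ 4 ∧ ∀ v, act s v = c • v :=
  ⟨Matrix.GeneralLinearGroup.mkOfDetNeZero (c • 1) (by simp [hc]), by simp, fun v => by
    simp [act_apply, Matrix.smul_mulVec]⟩

theorem four_cases {i j k m : Fin 4} (hij : i ≠ j) (hik : i ≠ k) (him : i ≠ m) (hjk : j ≠ k)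
    (hjm : j ≠ m) (hkm : k ≠ m) (n : Fin 4) : n = i ∨ n = j ∨ n = k ∨ n = m := by
  revert i j k m n; decide

theorem four_ex (i j : Fin 4) (hij : i ≠ j) :
    ∃ k m, i ≠ k ∧ i ≠ m ∧ j ≠ k ∧ j ≠ m ∧ k ≠ m := by
  revert i j; decide

theorem four_ex' {i j k : Fin 4} (hij : i ≠ j) (hik : i ≠ k) (hjk : j ≠ k) :
    ∃ m, i ≠ m ∧ j ≠ m ∧ k ≠ m := by
  revert i j k; decide

theorem expand4 {i j k m : Fin 4} (hij : i ≠ j) (hik : i ≠ k) (him : i ≠ m) (hjk : j ≠ k)
    (hjm : j ≠ m) (hkm : k ≠ m) (v : Fin 4 → F) : v = b.coord i v • b i + b.coord j v • b j +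
      b.coord k v • b k + b.coord m v • b m := ext_coord (b := b) fun n => by
  rcases four_cases hij hik him hjk hjm hkm n with rfl | rfl | rfl | rfl <;>
    simp only [map_add, map_smul, coord_self, smul_eq_mul, coord_ne hij, coord_ne hik, coord_ne him,
      coord_ne hjk, coord_ne hjm, coord_ne hkm, coord_ne hij.symm, coord_ne hik.symm,
      coord_ne him.symm, coord_ne hjk.symm, coord_ne hjm.symm, coord_ne hkm.symm] <;> ring

variable [Fintype F]

variable (K b c l) in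
/-- An overgroup of the monomial group that does not contain `SL₄`. -/
structure M4 : Prop where
  hK : ∀ g ∈ specialLinear (Fin 4) F, Mono b g → g ∈ K
  hS : ¬ specialLinear (Fin 4) F ≤ K
  h7 : 7 ≤ Fintype.card F
  hc : c ^ 4 * l = 1
  hl : l ≠ 1

namespace M4

variable (h : M4 K b c l)
include h

theorem l0 : l ≠ 0 := right_ne_zero_of_mul_eq_one h.hc

theorem c0 : c ≠ 0 := fun e => by simpa [e] using h.hc

theorem l1 : l - 1 ≠ 0 := sub_ne_zero.2 h.hl

theorem l2 : l⁻¹ - 1 ≠ 0 := sub_ne_zero.2 fun e => h.hl (inv_eq_one.1 e)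

theorem ex (s : List F) (hs : s.length < 7) : ∃ a, a ∉ s :=
  exists_notMem_list s (hs.trans_le h.h7)

theorem mem {g : GL (Fin 4) F} (hd : (g : Matrix (Fin 4) (Fin 4) F).det = l) (hm : Mono b g) :
    ∃ k ∈ K, ∀ v, act k v = c • act g v := by
  obtain ⟨s, h1, h2⟩ := exists_scal4 h.c0
  exact ⟨s * g, h.hK _ (mul_mem_SL h1 hd h.hc) (Mono.mul (fun i => ⟨i, c, h2 _⟩) hm),
    fun v => by rw [act_mul, h2]⟩

theorem hb (i : Fin 4) : Hm K c l (b i) (b.coord i) := by
  obtain ⟨d, h1, h2, h3⟩ := exists_dil b i h.l0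
  obtain ⟨k, hk, e⟩ := h.mem h1 h2
  exact ⟨coord_self i, k, hk, fun v => by rw [e, h3]; rfl⟩

theorem tv₁ (h1 : HasTv K x φ) (h0 : φ x = 0) {i : Fin 4} (hx : b.coord i x ≠ 0)
    (hφ : φ (b i) = 0) : φ = 0 := by
  by_contra e
  have h2 := rks_one.1 ((rks_one.2 h1).hm (h.hb i) h.l0)
  rw [hφ, mul_zero, zero_smul, add_zero] at h2
  have h3 := h2.sub_left h1 h0
  rw [add_sub_cancel_left, HasTv.smul_left_iff] at h3
  exact h.hS ((gen_of h.hK).SL_le_of_center (by simp) h.l0 h.hl (by simp [hφ])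
    (smul_ne_zero (mul_ne_zero h.l1 hx) e) h3)

theorem tv₂ (h1 : HasTv K x φ) (h0 : φ x = 0) {i : Fin 4} (hx : b.coord i x = 0)
    (hφ : φ (b i) ≠ 0) : x = 0 := by
  by_contra e
  have h2 := rks_one.1 ((rks_one.2 h1).hm (h.hb i) h.l0)
  rw [hx, mul_zero, zero_smul, add_zero] at h2
  have h3 := h2.sub_right h1 (by simp only [LinearMap.add_apply, LinearMap.smul_apply, h0, hx]; simp)
    h0
  rw [add_sub_cancel_left] at h3
  exact h.hS ((gen_of h.hK).SL_le_of_axis (by simp) h.l0 h.hl hx e (mul_ne_zero h.l2 hφ) h3)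

theorem supp (H : Hm K c l x ψ) (i : Fin 4) : b.coord i x = 0 ↔ ψ (b i) = 0 := by
  have h2 := H.hm (h.hb i) h.l0
  refine ⟨fun hx => by_contra fun e => ?_, fun e => by_contra fun hx => ?_⟩
  · rw [hx, mul_zero, zero_smul, add_zero] at h2
    have h3 := H.tv_right h2
    rw [add_sub_cancel_left, smul_smul] at h3
    have := h.tv₂ h3 (by rw [LinearMap.smul_apply, hx, smul_zero]) hx (by
      rw [LinearMap.smul_apply, coord_self]; simp [h.l1, h.l2, e])
    simpa [this] using H.1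
  · rw [e, mul_zero, zero_smul, add_zero] at h2
    have h3 := H.tv_left h2
    rw [add_sub_cancel_left] at h3
    have := h.tv₁ h3 (by simp [e]) (i := i) (by
      rw [map_smul, coord_self, smul_eq_mul, mul_one]; exact mul_ne_zero h.l1 hx) (by simp [e])
    have h4 := LinearMap.congr_fun this x
    simp [H.1, h.l1] at h4

theorem d2 (H : Hm K c l x ψ) {i m : Fin 4} (him : i ≠ m) {a : F} (ha : a ≠ 0) :
    Hm K c l (x + ((a - 1) * b.coord i x) • b i + ((a⁻¹ - 1) * b.coord m x) • b m)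
      (ψ + ((a⁻¹ - 1) * ψ (b i)) • b.coord i + ((a - 1) * ψ (b m)) • b.coord m) := by
  obtain ⟨t, ht, e⟩ := (gen_of h.hK).d2 i m him a ha
  refine H.conj ht (e x) fun v => ?_
  simp only [e, map_add, map_smul, LinearMap.add_apply, LinearMap.smul_apply, smul_eq_mul,
    coord_self, coord_ne him, coord_ne him.symm]
  field_simp
  ring

theorem two_tv {i j m : Fin 4} (hij : i ≠ j) (him : i ≠ m) (hjm : j ≠ m) {p q κ : F} (hp : p ≠ 0)
    (hq : q ≠ 0) (k0 : κ ≠ 0) (k1 : κ ≠ -1)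
    (H : HasTv K (p • b i + q • b j) (κ • (q⁻¹ • b.coord j - p⁻¹ • b.coord i))) : False := by
  obtain ⟨a, ha, hk⟩ : ∃ a : F, a ≠ 0 ∧ κ * (a - 1) = 1 :=
    ⟨1 + κ⁻¹, fun e => k1 (by field_simp at e; linear_combination e), by simp [k0]⟩
  obtain ⟨t, ht, e⟩ := (gen_of h.hK).d2 i m him _ ha
  have h1 : HasTv K ((a * p) • b i + q • b j)
      (κ • (q⁻¹ • b.coord j - (a⁻¹ * p⁻¹) • b.coord i)) := H.conj' ht (by
    simp only [e, map_add, map_smul, smul_eq_mul, coord_self, coord_ne him.symm, coord_ne hij,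
      coord_ne hjm.symm]
    module) fun v => by
    simp only [e, map_add, map_smul, LinearMap.sub_apply, LinearMap.smul_apply, smul_eq_mul,
      coord_self, coord_ne him, coord_ne hij.symm, coord_ne hjm]
    field_simp
    ring
  have h2 := h1.conj_tv H (by
    simp only [map_add, map_smul, LinearMap.sub_apply, LinearMap.smul_apply, smul_eq_mul,
      coord_self, coord_ne hij, coord_ne hij.symm]
    field_simp
    ring)
  have h3 := congrArg (b.coord i) (h.tv₂ h2 (i := j) ?_ ?_ ?_)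
  all_goals simp only [map_add, map_smul, LinearMap.sub_apply, LinearMap.smul_apply, smul_eq_mul,
    coord_self, coord_ne hij, coord_ne hij.symm, map_zero, mul_zero, mul_one, sub_zero, zero_sub,
    add_zero, zero_add] at *
  · field_simp at h3
    exact hp (by linear_combination κ * h3 + (κ * p - p) * hk)
  · field_simp
    ring
  · field_simp
    linear_combination (-q) * hk
  · intro e
    field_simp at e
    exact one_ne_zero (α := F) (by linear_combination e + (κ - 1) * hk)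

theorem eq_u (H : Hm K c l x ψ) {i j : Fin 4} (hij : i ≠ j) (hi : b.coord i x ≠ 0)
    (hj : b.coord j x ≠ 0) : b.coord i x * ψ (b i) = b.coord j x * ψ (b j) := by
  by_contra hu
  obtain ⟨s, s1, s2, s3⟩ := exists_refl_sc b hij hi hj
  have sx : act s x = x := by rw [s3, inv_mul_cancel₀ hi, inv_mul_cancel₀ hj]; simp
  by_cases hz : ∃ m, b.coord m x = 0
  · obtain ⟨m, hm⟩ := hz
    have him : i ≠ m := by rintro rfl; exact hi hm
    have hjm : j ≠ m := by rintro rfl; exact hj hm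
    have hm' := (h.supp H m).1 hm
    obtain ⟨d, d1, d2, d3⟩ := exists_dil b m (a := -1) (by simp)
    have hg := h.hK _ (mul_mem_SL d1 s1 (by simp)) (d2.mul s2)
    have gx : act (d * s) x = x := by rw [act_mul, sx, d3, hm]; simp
    have h1 := H.tv_right (H.conj (ψ' := ψ ∘ₗ (act (d * s)).toLinearMap) (K.inv_mem hg)
      (by rw [← gx, act_inv_act, gx]) fun v => by
        rw [LinearMap.comp_apply, LinearEquiv.coe_coe, act_act_inv])
    have e : (l - 1) • (ψ ∘ₗ (act (d * s)).toLinearMap - ψ) =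
        ((l - 1) * (b.coord i x * ψ (b i) - b.coord j x * ψ (b j))) •
          ((b.coord j x)⁻¹ • b.coord j - (b.coord i x)⁻¹ • b.coord i) := by
      refine LinearMap.ext fun v => ?_
      simp only [act_mul, d3, s3, map_add, map_smul, map_sub, LinearMap.sub_apply, hm',
        LinearMap.smul_apply, smul_eq_mul, LinearMap.comp_apply, LinearEquiv.coe_coe]
      ring
    rw [e] at h1
    have k0 := mul_ne_zero h.l1 (sub_ne_zero.2 hu)
    have h0 : ((b.coord j x)⁻¹ • b.coord j - (b.coord i x)⁻¹ • b.coord i) x = 0 := by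
      simp only [LinearMap.sub_apply, LinearMap.smul_apply, smul_eq_mul, inv_mul_cancel₀ hi,
        inv_mul_cancel₀ hj, sub_self]
    obtain ⟨n, hin, hjn, hmn⟩ := four_ex' hij him hjm
    by_cases hn : b.coord n x = 0
    · have ex := expand4 (b := b) hij him hin hjm hjn hmn x
      rw [hm, hn, zero_smul, zero_smul, add_zero, add_zero] at ex
      have e1 := H.1
      rw [ex, map_add, map_smul, map_smul, smul_eq_mul, smul_eq_mul] at e1
      generalize b.coord i x = p, b.coord j x = q at *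
      subst ex
      by_cases k1 : (l - 1) * (p * ψ (b i) - q * ψ (b j)) = -1
      · have h2 := h1.neg_right (by rw [LinearMap.smul_apply, h0, smul_zero])
        refine h.two_tv hij him hjm hi hj (neg_ne_zero.2 k0) (fun k2 => h.l0 ?_)
          (by convert h2 using 1; exact LinearMap.ext fun v => by simp)
        have h20 : (2 : F) = 0 := by linear_combination k1 + k2
        linear_combination k1 - (l - 1) * e1 + ((l - 1) * q * ψ (b j)) * h20
      · exact h.two_tv hij him hjm hi hj k0 k1 h1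
    · have := LinearMap.congr_fun (h.tv₁ h1 (by rw [LinearMap.smul_apply, h0, smul_zero]) hn (by
        simp only [LinearMap.sub_apply, LinearMap.smul_apply, coord_ne hin, coord_ne hjn]; simp))
        (b j)
      simp only [LinearMap.sub_apply, LinearMap.smul_apply, coord_self, coord_ne hij] at this
      simp only [smul_eq_mul, mul_one, mul_zero, sub_zero, LinearMap.zero_apply] at this
      exact mul_ne_zero k0 (inv_ne_zero hj) this
  · push Not at hz
    obtain ⟨k, m, hik, him, hjk, hjm, hkm⟩ := four_ex i j hij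
    obtain ⟨t, t1, t2, t3⟩ := exists_refl_sc b hjk hj (hz k)
    have tx : act t x = x := by rw [t3, inv_mul_cancel₀ (hz k), inv_mul_cancel₀ hj]; simp
    have hg := h.hK _ (mul_mem_SL s1 t1 (by simp)) (s2.mul t2)
    have gx : act (s * t) x = x := by rw [act_mul, tx, sx]
    have h1 := H.tv_right (H.conj (ψ' := ψ ∘ₗ (act (s * t)).toLinearMap) (K.inv_mem hg)
      (by rw [← gx, act_inv_act, gx]) fun v => by
        rw [LinearMap.comp_apply, LinearEquiv.coe_coe, act_act_inv])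
    have h2 := h.tv₁ h1 (by simp [gx]) (hz m) (by
      simp only [act_mul, s3, t3, LinearMap.sub_apply, LinearMap.smul_apply, LinearMap.comp_apply,
        LinearEquiv.coe_coe, coord_ne him, coord_ne hjm, coord_ne hkm, mul_zero, sub_zero,
        zero_smul, add_zero, sub_self, smul_zero])
    have e1 : act (s * t) (b.coord j x • b j) = b.coord k x • b k := by
      simp only [act_mul, s3, t3, map_smul, map_add, map_sub, coord_self, coord_ne hij,
        coord_ne hik, coord_ne hjk, coord_ne hjk.symm, smul_eq_mul]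
      match_scalars <;> field_simp <;> ring
    have e2 : act (s * t) (b.coord k x • b k) = b.coord i x • b i := by
      have hk := hz k
      simp only [act_mul, s3, t3, map_smul, map_add, map_sub, coord_self, coord_ne hij,
        coord_ne hik, coord_ne hjk, coord_ne hjk.symm, smul_eq_mul]
      match_scalars <;> field_simp <;> ring
    have h3 := LinearMap.congr_fun h2 (b.coord j x • b j)
    have h4 := LinearMap.congr_fun h2 (b.coord k x • b k)
    simp only [LinearMap.sub_apply, LinearMap.smul_apply, LinearMap.comp_apply,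
      LinearEquiv.coe_coe, e1, e2, LinearMap.zero_apply, smul_eq_mul, mul_eq_zero, h.l1,
      false_or] at h3 h4
    simp only [map_smul, smul_eq_mul] at h3 h4
    exact hu (by linear_combination h3 + h4)

theorem step (H : Hm K c l x ψ) {i m : Fin 4} (him : i ≠ m) {a : F} (ha : a ≠ 0) :
    ∃ x' ψ' s s', Hm K c l x' ψ' ∧
      s = 1 + (a - 1) * (b.coord i x * ψ (b i)) + (a⁻¹ - 1) * (b.coord m x * ψ (b m)) ∧
      s' = 1 + (a⁻¹ - 1) * (b.coord i x * ψ (b i)) + (a - 1) * (b.coord m x * ψ (b m)) ∧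
      b.coord i x' = b.coord i x * (a + (l - 1) * s) ∧ ψ' (b i) = ψ (b i) * (a⁻¹ + (l⁻¹ - 1) * s') ∧
      b.coord m x' = b.coord m x * (a⁻¹ + (l - 1) * s) ∧ ψ' (b m) = ψ (b m) * (a + (l⁻¹ - 1) * s') ∧
      ∀ j, j ≠ i → j ≠ m → b.coord j x' = b.coord j x * (1 + (l - 1) * s) ∧
        ψ' (b j) = ψ (b j) * (1 + (l⁻¹ - 1) * s') := by
  refine ⟨_, _, _, _, (h.d2 H him ha).hm H h.l0, rfl, rfl, ?_, ?_, ?_, ?_, fun j h1 h2 => ⟨?_, ?_⟩⟩
  all_goals simp only [map_add, map_smul, LinearMap.add_apply, LinearMap.smul_apply, smul_eq_mul,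
    coord_self, coord_ne him, coord_ne him.symm, H.1]
  any_goals simp only [coord_ne h1, coord_ne h2, coord_ne h1.symm, coord_ne h2.symm]
  all_goals ring

theorem sum_u (H : Hm K c l x ψ) {i j k m : Fin 4} (hij : i ≠ j) (hik : i ≠ k) (him : i ≠ m)
    (hjk : j ≠ k) (hjm : j ≠ m) (hkm : k ≠ m) : b.coord i x * ψ (b i) + b.coord j x * ψ (b j) +
      b.coord k x * ψ (b k) + b.coord m x * ψ (b m) = 1 := by
  have := congrArg ψ (expand4 (b := b) hij hik him hjk hjm hkm x)
  simp only [map_add, map_smul, smul_eq_mul, H.1] at this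
  exact this.symm

theorem exists_param {p₁ q₁ p₂ q₂ p₃ q₃ : F} (h1 : p₁ ≠ 0 ∨ q₁ ≠ 0) (h2 : p₂ ≠ 0 ∨ q₂ ≠ 0)
    (h3 : p₃ ≠ 0 ∨ q₃ ≠ 0) : ∃ a : F, a ≠ 0 ∧ a ≠ 1 ∧ p₁ * a + q₁ ≠ 0 ∧ p₂ * a + q₂ ≠ 0 ∧
      p₃ * a + q₃ ≠ 0 := by
  have key : ∀ {p q a : F}, p ≠ 0 ∨ q ≠ 0 → a ≠ -q / p → p * a + q ≠ 0 := fun {p q a} H ha e => by
    by_cases hp : p = 0
    · simp [hp] at H e; exact H e
    · exact ha (by field_simp; linear_combination e)
  obtain ⟨a, ha⟩ := h.ex [0, 1, -q₁ / p₁, -q₂ / p₂, -q₃ / p₃] (by simp)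
  simp only [List.mem_cons, List.not_mem_nil, or_false, not_or] at ha
  exact ⟨a, ha.1, ha.2.1, key h1 ha.2.2.1, key h2 ha.2.2.2.1, key h3 ha.2.2.2.2⟩

theorem ne_u (H : Hm K c l x ψ) {i : Fin 4} (hi : b.coord i x ≠ 0) : b.coord i x * ψ (b i) ≠ 0 :=
  mul_ne_zero hi fun e => hi ((h.supp H i).2 e)

theorem key_zero (H : Hm K c l x ψ) {i j m : Fin 4} (hij : i ≠ j) (hi : b.coord i x ≠ 0)
    (hj : b.coord j x ≠ 0) (hm : b.coord m x = 0) : l = -1 ∧ 2 * (b.coord i x * ψ (b i)) = 1 := by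
  have him : i ≠ m := by rintro rfl; exact hi hm
  have hjm : j ≠ m := by rintro rfl; exact hj hm
  have e := h.eq_u H hij hi hj
  have u0 := h.ne_u H hi
  have l0 := h.l0
  have l1 := h.l1
  by_contra hc
  obtain ⟨u, hu⟩ : ∃ u, b.coord i x * ψ (b i) = u := ⟨_, rfl⟩
  rw [hu] at hc u0 e
  obtain ⟨a, a0, a1, h1, h2, h3⟩ := h.exists_param (p₁ := 1 + (l - 1) * u) (q₁ := (l - 1) * (1 - u))
    (p₂ := (l - 1) * u) (q₂ := 1 + (l - 1) * (1 - u)) (p₃ := 1 - u + l * u) (q₃ := u + l * (1 - u))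
    (by by_contra! H; exact l0 (by linear_combination H.1 + H.2)) (Or.inl (mul_ne_zero l1 u0)) (by
      by_contra! H
      have : l = -1 := by linear_combination H.1 + H.2
      exact hc ⟨this, by linear_combination -H.1 + u * this⟩)
  obtain ⟨x', ψ', s, s', H', hs, hs', e1, e2, -, -, e3⟩ := h.step H him a0
  obtain ⟨e3, e4⟩ := e3 j hij.symm hjm
  rw [hu, hm, zero_mul, mul_zero, add_zero] at hs hs'
  have := h.eq_u H' hij (by rw [e1]; exact mul_ne_zero hi fun e0 => h1 (by rw [← e0, hs]; ring))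
    (by rw [e3]; exact mul_ne_zero hj fun e0 => h2 (by rw [← e0, hs]; ring))
  rw [e1, e2, e3, e4, mul_mul_mul_comm, hu, mul_mul_mul_comm (b.coord j x), ← e, hs, hs'] at this
  have h4 := mul_left_cancel₀ u0 this
  field_simp at h4
  exact mul_ne_zero (mul_ne_zero (sub_ne_zero.2 a1) l1) h3 (by linear_combination -h4)

theorem not_full (H : Hm K c l x ψ) : ∃ m, b.coord m x = 0 := by
  by_contra! hz
  have l0 := h.l0
  have l1 := h.l1
  have u0 := h.ne_u H (hz 0)
  have e1 := h.eq_u H (i := 0) (j := 1) (by decide) (hz _) (hz _)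
  have e2 := h.eq_u H (i := 0) (j := 2) (by decide) (hz _) (hz _)
  have e3 := h.eq_u H (i := 0) (j := 3) (by decide) (hz _) (hz _)
  have e4 := h.sum_u H (i := 0) (j := 1) (k := 2) (m := 3) (by decide) (by decide) (by decide)
    (by decide) (by decide) (by decide)
  rw [← e1, ← e2, ← e3] at e4
  obtain ⟨u, hu⟩ : ∃ u, b.coord 0 x * ψ (b 0) = u := ⟨_, rfl⟩
  rw [hu] at e1 e2 e3 e4 u0
  have c01 : b.coord 0 (b 1) = 0 := coord_ne (by decide)
  have c10 : b.coord 1 (b 0) = 0 := coord_ne (by decide)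
  have hl : l = -1 := by
    have H' := (h.hb 0).hm H l0
    have f1 : b.coord 1 (b 0 + ((l - 1) * ψ (b 0)) • x) ≠ 0 := by
      rw [map_add, map_smul, c10, zero_add]
      exact mul_ne_zero (mul_ne_zero l1 fun e => hz 0 ((h.supp H 0).2 e)) (hz 1)
    by_cases f0 : b.coord 0 (b 0 + ((l - 1) * ψ (b 0)) • x) = 0
    · refine (h.key_zero H' (i := 1) (j := 2) (by decide) f1 ?_ f0).1
      rw [map_add, map_smul, coord_ne (by decide), zero_add]
      exact mul_ne_zero (mul_ne_zero l1 fun e => hz 0 ((h.supp H 0).2 e)) (hz 2)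
    have := h.eq_u H' (by decide) f0 f1
    simp only [map_add, map_smul, LinearMap.add_apply, LinearMap.smul_apply, smul_eq_mul,
      coord_self, c01, c10] at this
    have h1 : 1 + (l - 1) * u + (l⁻¹ - 1) * u = 0 := by
      linear_combination this - (l - 1) * (l⁻¹ - 1) * (b.coord 0 x * ψ (b 0)) * (hu + e1) -
        ((l - 1) + (l⁻¹ - 1)) * hu
    field_simp at h1
    have h2 : (l + 1) ^ 2 * u = 0 := by linear_combination h1 + l * e4
    exact eq_neg_of_add_eq_zero_left (pow_eq_zero_iff (two_ne_zero) |>.1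
      ((mul_eq_zero.1 h2).resolve_right u0))
  obtain ⟨a, a0, a1, a2, a3⟩ : ∃ a : F, a ≠ 0 ∧ a ≠ 1 ∧ a ≠ -1 ∧ a ^ 2 + 1 ≠ 0 := by
    by_cases hi : ∃ i : F, i ^ 2 + 1 = 0
    · obtain ⟨i, hi⟩ := hi
      obtain ⟨a, ha⟩ := h.ex [0, 1, -1, i, -i] (by simp)
      simp only [List.mem_cons, List.not_mem_nil, or_false, not_or] at ha
      refine ⟨a, ha.1, ha.2.1, ha.2.2.1, fun e => ?_⟩
      rcases sq_eq_sq_iff_eq_or_eq_neg.1 (show a ^ 2 = i ^ 2 by linear_combination e - hi) with e | e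
      · exact ha.2.2.2.1 e
      · exact ha.2.2.2.2 e
    · obtain ⟨a, ha⟩ := h.ex [0, 1, -1] (by simp)
      simp only [List.mem_cons, List.not_mem_nil, or_false, not_or] at ha
      exact ⟨a, ha.1, ha.2.1, ha.2.2, fun e => hi ⟨a, e⟩⟩
  obtain ⟨x', ψ', s, s', H', hs, hs', f1, f2, -, -, f3⟩ := h.step H (i := 0) (m := 1) (by decide) a0
  obtain ⟨f3, f4⟩ := f3 2 (by decide) (by decide)
  rw [hu, ← e1] at hs hs'
  have hss : s' = s := by rw [hs, hs']; ring
  have hs2 : a * s = (a + 1) ^ 2 * u := by rw [hs]; field_simp; linear_combination -a * e4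
  have ha1 : a + 1 ≠ 0 := fun e => a2 (eq_neg_of_add_eq_zero_left e)
  have s0 : s ≠ 0 := by
    rintro rfl
    exact mul_ne_zero (pow_ne_zero 2 ha1) u0 (by linear_combination -hs2)
  have h2 : (2 : F) ≠ 0 := fun e => h.hl (by linear_combination hl - e)
  rw [hss, hl] at f2 f4
  rw [hl] at f1 f3
  by_cases g0 : b.coord 0 x' = 0
  · have g1 := (h.supp H' 0).1 g0
    rw [f1] at g0
    rw [f2] at g1
    have g2 := (mul_eq_zero.1 g0).resolve_left (hz 0)
    have g3 := (mul_eq_zero.1 g1).resolve_left fun e => hz 0 ((h.supp H 0).2 e)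
    field_simp at g3
    exact mul_ne_zero (sub_ne_zero.2 a1) ha1 (by linear_combination a * g2 - g3)
  have := h.eq_u H' (j := 2) (by decide) g0 (by
    rw [f3]
    refine mul_ne_zero (hz 2) fun e0 => mul_ne_zero h2 (mul_ne_zero a3 u0) ?_
    linear_combination -a * e0 - 2 * hs2 - a * e4)
  rw [f1, f2, f3, f4, mul_mul_mul_comm, hu, mul_mul_mul_comm (b.coord 2 x), ← e2] at this
  have h4 := mul_left_cancel₀ u0 this
  field_simp at h4
  exact mul_ne_zero h2 (mul_ne_zero s0 (pow_ne_zero 2 (sub_ne_zero.2 a1))) (by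
    linear_combination -h4)

theorem not_three (H : Hm K c l x ψ) {i j k : Fin 4} (hij : i ≠ j) (hik : i ≠ k) (hjk : j ≠ k)
    (hi : b.coord i x ≠ 0) (hj : b.coord j x ≠ 0) : b.coord k x = 0 := by
  by_contra hk
  obtain ⟨m, hm⟩ := h.not_full H
  have him : i ≠ m := by rintro rfl; exact hi hm
  have hjm : j ≠ m := by rintro rfl; exact hj hm
  have hkm : k ≠ m := by rintro rfl; exact hk hm
  have e := h.sum_u H hij hik him hjk hjm hkm
  have e1 := (h.key_zero H hij hi hj hm).2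
  have e2 := (h.key_zero H hij.symm hj hi hm).2
  have e3 := (h.key_zero H hik.symm hk hi hm).2
  rw [hm] at e
  exact one_ne_zero (α := F) (by linear_combination 2 * e - e1 - e2 - e3)

theorem mono {g : GL (Fin 4) F} (hg : g ∈ K) : Mono b g := by
  by_contra hn
  obtain ⟨r, hr⟩ := not_forall.1 hn
  have key : ∀ {y θ}, Hm K c l y θ → Hm K c l (act g y) (θ ∘ₗ (act g⁻¹).toLinearMap) :=
    fun H => H.conj hg rfl fun v => by rw [LinearMap.comp_apply, LinearEquiv.coe_coe, act_inv_act]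
  obtain ⟨i, hi⟩ : ∃ i, b.coord i (act g (b r)) ≠ 0 := by
    by_contra! H
    exact hr ⟨r, 0, ext_coord (b := b) fun j => by rw [H, zero_smul, map_zero]⟩
  obtain ⟨j, hij, hj⟩ : ∃ j, j ≠ i ∧ b.coord j (act g (b r)) ≠ 0 := by
    by_contra! H
    exact hr ⟨i, _, eq_smul_of_coord H⟩
  obtain ⟨m, hm⟩ := h.not_full (key (h.hb r))
  have hl := (h.key_zero (key (h.hb r)) hij hj hi hm).1
  have h2 : (2 : F) ≠ 0 := fun e => h.hl (by linear_combination hl - e)
  have him : i ≠ m := by rintro rfl; exact hi hm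
  have hjm : j ≠ m := by rintro rfl; exact hj hm
  obtain ⟨t, ht⟩ : ∃ t, b.coord m (act g (b t)) ≠ 0 := by
    by_contra! H
    have := LinearMap.congr_fun (b.ext (f₁ := b.coord m ∘ₗ (act g).toLinearMap) (f₂ := 0) H)
      (act g⁻¹ (b m))
    rw [LinearMap.comp_apply, LinearEquiv.coe_coe, act_act_inv, coord_self] at this
    exact one_ne_zero this
  have hrt : r ≠ t := by rintro rfl; exact ht hm
  obtain ⟨a, a0, -, h3, h4, -⟩ := h.exists_param (p₁ := -b.coord i (act g (b t)))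
    (p₂ := -b.coord j (act g (b t))) (p₃ := 1) (q₃ := 0) (Or.inr hi) (Or.inr hj) (by simp)
  obtain ⟨s, s1, s2, s3⟩ := exists_refl_sc b hrt one_ne_zero a0
  obtain ⟨k, hk, e⟩ := h.mem (s1.trans hl.symm) s2
  have H : Hm K c l ((1 : F) • b r - a • b t) ((2 : F)⁻¹ • (b.coord r - a⁻¹ • b.coord t)) := by
    refine ⟨?_, k, hk, fun v => ?_⟩
    · simp only [map_sub, map_smul, LinearMap.sub_apply, LinearMap.smul_apply, smul_eq_mul,
        coord_self, coord_ne hrt, coord_ne hrt.symm]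
      field_simp
      ring
    · simp only [e, s3, hl, LinearMap.sub_apply, LinearMap.smul_apply, smul_eq_mul]
      congr 3
      field_simp
      ring
  have := h.not_three (key H) hij.symm him hjm ?_ ?_
  all_goals simp only [map_sub, map_smul, smul_eq_mul, hm] at *
  · exact mul_ne_zero a0 ht (by linear_combination -this)
  · exact fun e => h3 (by linear_combination e)
  · exact fun e => h4 (by linear_combination e)

end M4

theorem SL_le_of_mono4 (h7 : 7 ≤ Fintype.card F)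
    (hK : ∀ g ∈ specialLinear (Fin 4) F, Mono b g → g ∈ K) {g : GL (Fin 4) F} (hg : g ∈ K)
    (hg' : ¬ Mono b g) : specialLinear (Fin 4) F ≤ K := by
  classical
  by_contra hS
  obtain ⟨c, c0, c1⟩ : ∃ c : F, c ≠ 0 ∧ c ^ 4 ≠ 1 := by
    by_contra! H
    have h1 : (Finset.univ.erase (0 : F)) ⊆ (Polynomial.nthRoots 4 (1 : F)).toFinset := fun a ha => by
      simpa using H a (Finset.ne_of_mem_erase ha)
    have h2 := (Finset.card_le_card h1).trans ((Multiset.toFinset_card_le _).trans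
      (Polynomial.card_nthRoots 4 (1 : F)))
    rw [Finset.card_erase_of_mem (Finset.mem_univ _), Finset.card_univ] at h2
    omega
  exact hg' (M4.mono (c := c) (l := (c ^ 4)⁻¹) ⟨hK, hS, h7, mul_inv_cancel₀ (pow_ne_zero 4 c0),
    fun e => c1 (inv_eq_one.1 e)⟩ hg)

/-- The monomial group is maximal in `SL₄(q)`, `q ≥ 7`. -/
theorem sl4_mono (h7 : 7 ≤ Fintype.card F) {D : Fin 4 → Submodule F (Fin 4 → F)}
    (hD : IsMDecomposition 1 D) : IsMaximalIn (specialLinear (Fin 4) F)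
      (decompositionStabilizer D ⊓ specialLinear (Fin 4) F) := by
  obtain ⟨P⟩ := nonempty_proj hD.indep hD.iSup_eq_top
  refine isMaximalIn_of inf_le_right (fun H => ?_) fun K h1 _ ⟨g, hg, hg'⟩ => ?_
  · obtain ⟨g, hg, hg'⟩ := P.exists_SL_not_perm hD.finrank_eq hD.pos
    exact hg' (mem_decomp_iff.1 (H hg).1)
  have hK : ∀ g ∈ specialLinear (Fin 4) F, Perm D (act g) → g ∈ K := fun g h2 h3 =>
    h1 ⟨mem_decomp_iff.2 h3, h2⟩
  have hg'' : ¬ Perm D (act g) := fun h => hg' ⟨mem_decomp_iff.2 h, by tauto⟩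
  choose v hv hv0 using Proj.exists_ne hD.finrank_eq hD.pos
  have hs : ∀ i, D i = F ∙ v i := fun i => (Submodule.eq_of_le_of_finrank_eq
    ((Submodule.span_singleton_le_iff_mem _ _).2 (hv i))
    (by rw [finrank_span_singleton (hv0 i), hD.finrank_eq])).symm
  let b : Basis (Fin 4) F (Fin 4 → F) := Basis.mk (hD.indep.linearIndependent D hv hv0) (by
    rw [← hD.iSup_eq_top]
    exact iSup_le fun i => (hs i).le.trans (Submodule.span_mono (by simp)))
  have hb : ∀ i, b i = v i := fun i => Basis.mk_apply _ _ i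
  have key : ∀ g : GL (Fin 4) F, Mono b g ↔ Perm D (act g) := fun g => by
    refine ⟨fun h => P.perm_of hD.finrank_eq hD.pos fun i => ?_, fun h i => ?_⟩
    · obtain ⟨j, c, e⟩ := h i
      refine ⟨j, fun u hu => ?_⟩
      obtain ⟨a, rfl⟩ := Submodule.mem_span_singleton.1 (hs i ▸ hu)
      rw [map_smul, ← hb, e, hb]
      exact (D j).smul_mem _ ((D j).smul_mem _ (hv j))
    · obtain ⟨j, hj⟩ := h.exists_mem i
      obtain ⟨c, e⟩ := Submodule.mem_span_singleton.1 (hs j ▸ hj _ (hv i))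
      exact ⟨j, c, by rw [hb, hb, e]⟩
  exact SL_le_of_mono4 (b := b) h7 (fun g h2 h3 => hK g h2 ((key g).1 h3)) hg
    fun h => hg'' ((key g).1 h)

end CL.Four
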