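/-
Classical subgroups are maximal in the special linear group: statements for matrix groups.
-/
import Cfsg.Agent.CLAS.MaxSLO

set_option autoImplicit false

namespace CL.Root

open Module Cfsg Cfsg.Geo CL.Tv CL.Witt CL.Witt.Form

variable {ι : Type} [Fintype ι] [DecidableEq ι] {F : Type*} [Field F]

theorem isMaximalIn_SL_sp (hn : 3 ≤ Fintype.card ι) {f : (ι → F) → (ι → F) → F}
    (hf : IsSymplecticForm f) :
    IsMaximalIn (specialLinear ι F) (similarityGroup f ⊓ specialLinear ι F) := by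
  have hB : ∀ x, (∀ y, bilin hf.bilinear x y = 0) → x = 0 := by
    intro x hx
    by_contra h
    obtain ⟨y, hy⟩ := (hf.nondegenerate x h).2
    exact hy (hx y)
  refine isMaximalIn_of inf_le_right (fun h => not_SL_le_sp (B := bilin hf.bilinear)
    hf.alternating hB hn (h.trans inf_le_left)) ?_
  rintro K h1 h2 ⟨g, hg, hg'⟩
  refine SL_le_of_sp_lt (B := bilin hf.bilinear) hf.alternating hB ?_ hg fun h => hg' ⟨h, h2 hg⟩
  intro x c
  have h0 : (c • bilin hf.bilinear x) x = 0 := by simp [bilin_apply, hf.alternating]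
  refine (hasTv_iff h0).2 (h1 ⟨⟨1, fun u v => ?_⟩, tv_mem_SL _ _ _⟩)
  change bilin hf.bilinear (act _ u) (act _ v) = _ * bilin hf.bilinear u v
  rw [act_tv, act_tv]
  simp only [map_add, map_smul, LinearMap.add_apply, LinearMap.smul_apply, smul_eq_mul,
    bilin_apply, hf.alternating, hf.skew u x, Units.val_one]
  ring

theorem isMaximalIn_SL_herm_of {σ : F ≃+* F} {f : (ι → F) → (ι → F) → F} (hf : IsUnitaryForm σ f)
    (hne : ¬ specialLinear ι F ≤ similarityGroup f)
    (H : ∀ K : Subgroup (GL ι F), (∀ e ∈ (hermOfUnitary hf).O,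
      LinearMap.det (e : (ι → F) →ₗ[F] (ι → F)) = 1 → ofLin e ∈ K) → ∀ g ∈ K,
      g ∉ similarityGroup f → specialLinear ι F ≤ K) :
    IsMaximalIn (specialLinear ι F) (similarityGroup f ⊓ specialLinear ι F) := by
  refine isMaximalIn_of inf_le_right (fun h => hne (h.trans inf_le_left)) ?_
  rintro K h1 h2 ⟨g, hg, hg'⟩
  refine H K (fun e he hd => h1 ⟨⟨1, fun v w => ?_⟩, mem_SL_iff_act.2 (by rwa [act_ofLin])⟩) g hg
    fun h => hg' ⟨h, h2 hg⟩
  rw [Units.val_one, one_mul]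
  change f (act _ v) (act _ w) = _
  rw [act_ofLin]
  exact mem_O_B he w v

theorem isMaximalIn_SL_quad_of {Q : (ι → F) → F} (hQ : IsNondegenerateQuadraticForm Q)
    (hne : ¬ specialLinear ι F ≤ quadSimilarityGroup Q)
    (H : ∀ K : Subgroup (GL ι F), (∀ e ∈ (quadOfGeo hQ).O,
      LinearMap.det (e : (ι → F) →ₗ[F] (ι → F)) = 1 → ofLin e ∈ K) → ∀ g ∈ K,
      g ∉ quadSimilarityGroup Q → specialLinear ι F ≤ K) :
    IsMaximalIn (specialLinear ι F) (quadSimilarityGroup Q ⊓ specialLinear ι F) := by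
  refine isMaximalIn_of inf_le_right (fun h => hne (h.trans inf_le_left)) ?_
  rintro K h1 h2 ⟨g, hg, hg'⟩
  refine H K (fun e he hd => h1 ⟨(act_mem_toE _).2 (mem_toE_quadSim.2 ⟨1, fun v => ?_⟩),
    mem_SL_iff_act.2 (by rwa [act_ofLin])⟩) g hg fun h => hg' ⟨h, h2 hg⟩
  rw [act_ofLin, Units.val_one, one_mul]
  exact mem_O_q he v

theorem isMaximalIn_SL_herm [Finite F] (hn : 11 ≤ Fintype.card ι) {σ : F ≃+* F}
    {f : (ι → F) → (ι → F) → F} (hf : IsUnitaryForm σ f) :
    IsMaximalIn (specialLinear ι F) (similarityGroup f ⊓ specialLinear ι F) := by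
  have hσ := unitary_ne_id hf
  refine isMaximalIn_SL_herm_of hf (not_SL_le_herm hσ (hermOfUnitary_nondeg hf) hn)
    fun K hK g hg hg' => SL_le_of_herm_lt hσ (hermOfUnitary_nondeg hf) hn (fun u c hu hc => ?_) hg hg'
  have h0 : (c • (hermOfUnitary hf).B u) u = 0 := by simp [(hermOfUnitary hf).B_self_eq_zero hu]
  have := hK (act (tv u _ h0)) ((herm_isIsom_iff _ _ _).2 (herm_tv_isom hu hc h0))
    (mem_SL_iff_act.1 (tv_mem_SL _ _ _))
  exact ⟨_, this, fun v => by rw [act_ofLin, act_tv]⟩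

theorem isMaximalIn_SL_quad [Fintype F] (hn : 11 ≤ Fintype.card ι) (hodd : Odd (Fintype.card F))
    {Q : (ι → F) → F} (hQ : IsNondegenerateQuadraticForm Q) :
    IsMaximalIn (specialLinear ι F) (quadSimilarityGroup Q ⊓ specialLinear ι F) :=
  isMaximalIn_SL_quad_of hQ (not_SL_le_quad (quadOfGeo_nondeg hQ) (by omega))
    fun _ hK _ hg hg' => SL_le_of_quad_lt (quadOfGeo_nondeg hQ) (two_ne_zero_of_odd hodd) hn
      (fun e he => hK e (E_le_O he) (det_of_mem_E he)) hg hg'

end CL.Root
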