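/-
Overgroups of unitary and orthogonal groups in the special linear group, dimension at least five.
-/
import Cfsg.Agent.CLAS.MaxSLTab

set_option autoImplicit false

namespace CL.Root

open Module CL.Witt CL.Witt.Form CL.Tv Cfsg Cfsg.Geo

section Scalar

variable {F : Type*} [Field F] {T : FormType F} {V : Type*} [AddCommGroup V] [Module F V]
  [FiniteDimensional F V] {f : Form T V}

/-- Singular vectors generate the space additively. -/
theorem mem_of_singular (hf : f.Nondeg) (h3 : Sing3 f) (hn : 3 ≤ finrank F V) (D : AddSubgroup V)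
    (h : ∀ v, f.q v = 0 → v ∈ D) (v : V) : v ∈ D := by
  obtain ⟨e, e', -, -, he, he', h1⟩ := exists_hyp_perp hf h3 ⊥ (by simp; omega)
  exact induction_singular (Z := ⊤) he he' (by simp [h1]) trivial trivial D (fun v _ => h v) v trivial

/-- Singular vectors generate the hyperplane orthogonal to a vector additively. -/
theorem mem_of_singular_perp (hf : f.Nondeg) (h3 : Sing3 f) (hn : 5 ≤ finrank F V) (u : V)
    (D : AddSubgroup V) (h : ∀ v, f.B u v = 0 → f.q v = 0 → v ∈ D) (v : V) (hv : f.B u v = 0) :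
    v ∈ D := by
  obtain ⟨e, e', h2, h2', he, he', h1⟩ := exists_hyp_perp hf h3 (F ∙ u)
    (by have := finrank_span_single_le (F := F) u; omega)
  exact induction_singular he he' (by simp [h1]) h2 h2' D
    (fun v hv => h v (f.mem_perp_span_singleton.1 hv)) v (f.mem_perp_span_singleton.2 hv)

theorem exists_common_perp (hf : f.Nondeg) (h3 : Sing3 f) (hn : 5 ≤ finrank F V) (y z : V) :
    ∃ w, f.q w = 0 ∧ f.B y w = 0 ∧ f.B z w = 0 ∧ w ≠ 0 := by
  have h1 := hf.finrank_add_finrank_perp (Submodule.span F {y, z})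
  have h2 := finrank_span_pair_le (F := F) y z
  obtain ⟨w, hw, hw0, hwq⟩ := h3 (f.perp (Submodule.span F {y, z})) (by omega)
  exact ⟨w, hwq, (f.mem_perp_span_pair.1 hw).1, (f.mem_perp_span_pair.1 hw).2, hw0⟩

/-- A function on non-zero singular vectors which agrees on independent orthogonal pairs is
constant. -/
theorem const_of_singular (hf : f.Nondeg) (h3 : Sing3 f) (hn : 5 ≤ finrank F V)
    {P : V → V → Prop} (hP : ∀ y z, f.q y = 0 → f.q z = 0 → f.B y z = 0 → y ≠ 0 → z ∉ F ∙ y → P y z)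
    (hsymm : ∀ y z, P y z → P z y) (htrans : ∀ x y z, P x y → P y z → P x z) {y z : V}
    (hy : f.q y = 0) (hz : f.q z = 0) (hy0 : y ≠ 0) (hz0 : z ≠ 0) : P y z := by
  by_cases hyz : f.B y z = 0
  · by_cases h : z ∈ F ∙ y
    · obtain ⟨w, hw, hw0, hw'⟩ := exists_sol_zero hf h3 (F ∙ y)
        (by have := finrank_span_single_le (F := F) y; omega)
      refine htrans _ w _ (hP y w hy hw0 (hw y (Submodule.mem_span_singleton_self y)) hy0 hw')
        (hsymm _ _ (hP z w hz hw0 (hw z h) hz0 fun h' => hw' ?_))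
      exact (Submodule.span_singleton_le_iff_mem _ _).2 h h'
    · exact hP y z hy hz hyz hy0 h
  · obtain ⟨w, hw, h1, h2, hw0⟩ := exists_common_perp hf h3 hn y z
    refine htrans _ w _ (hP y w hy hw h1 hy0 fun h => ?_) (hsymm _ _ (hP z w hz hw h2 hz0 fun h => ?_))
    · obtain ⟨c, rfl⟩ := Submodule.mem_span_singleton.1 h
      rw [f.B_smul_right, mul_eq_zero, f.B_eq_zero_comm] at h2
      exact h2.elim (fun h => hw0 (by simp [h])) hyz
    · obtain ⟨c, rfl⟩ := Submodule.mem_span_singleton.1 h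
      rw [f.B_smul_right, mul_eq_zero] at h1
      exact h1.elim (fun h => hw0 (by simp [h])) hyz

/-- Two additive maps which are proportional on every singular vector are proportional. -/
theorem exists_scalar_of_singular5 (hf : f.Nondeg) (h3 : Sing3 f) (hn : 5 ≤ finrank F V)
    {R W : Type*} [Ring R] [AddCommGroup W] [Module R W] (A C : V →+ W)
    (hC : ∀ y z, y ≠ 0 → z ∉ F ∙ y → ∀ a b : R, a • C z + b • C y = 0 → a = 0 ∧ b = 0)
    (H : ∀ u, f.q u = 0 → ∃ c : R, A u = c • C u) : ∃ c : R, ∀ u, A u = c • C u := by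
  obtain ⟨y₀, -, hy₀, hy₀0⟩ := exists_sol_zero hf h3 ⊥ (by simp; omega)
  rw [Submodule.mem_bot] at hy₀0
  obtain ⟨a, ha⟩ := H y₀ hy₀
  have key : ∀ y, f.q y = 0 → y ≠ 0 → ∃ c : R, A y₀ = c • C y₀ ∧ A y = c • C y ∧
      ∀ c' : R, A y₀ = c' • C y₀ → c' = c := by
    intro y hy hy0
    have := const_of_singular hf h3 hn (P := fun y z => f.q y = 0 ∧ f.q z = 0 ∧
        ∀ a b : R, A y = a • C y → A z = b • C z → a = b) (fun y z hy hz hyz hy0 hzy => ?_)
      (fun y z h => ⟨h.2.1, h.1, fun a b ha hb => (h.2.2 b a hb ha).symm⟩)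
      (fun x y z h h' => ⟨h.1, h'.2.1, fun a b ha hb => ?_⟩) hy₀ hy hy₀0 hy0
    · obtain ⟨b, hb⟩ := H y hy
      exact ⟨b, by rw [← this.2.2 a b ha hb, ha], hb, fun c' hc' => this.2.2 c' b hc' hb⟩
    · refine ⟨hy, hz, fun a b ha hb => ?_⟩
      obtain ⟨d, hd⟩ := H (y + z) (by rw [f.q_add_of_B_eq_zero hyz, hy, hz, add_zero])
      rw [map_add, map_add, ha, hb] at hd
      obtain ⟨e1, e2⟩ := hC y z hy0 hzy (b - d) (a - d) (by
        rw [sub_smul, sub_smul]; rw [smul_add] at hd
        rw [← sub_eq_zero] at hd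
        rw [← hd]; abel)
      rw [sub_eq_zero] at e1 e2
      rw [e1, e2]
    · obtain ⟨d, hd⟩ := H y h.2.1
      rw [h.2.2 a d ha hd, h'.2.2 d b hd hb]
  let D : AddSubgroup V :=
    { carrier := {u | A u = a • C u}
      add_mem' := fun {x y} hx hy => by
        change A x = _ at hx
        change A y = _ at hy
        change A (x + y) = _
        rw [map_add, map_add, hx, hy, smul_add]
      zero_mem' := by simp
      neg_mem' := fun {x} hx => by
        change A x = _ at hx
        change A (-x) = _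
        rw [map_neg, map_neg, hx, smul_neg] }
  refine ⟨a, mem_of_singular hf h3 (by omega) D fun y hy => ?_⟩
  by_cases hy0 : y = 0
  · rw [hy0]; exact D.zero_mem
  obtain ⟨c, -, h2, h3⟩ := key y hy hy0
  change A y = _
  rw [h3 a ha, h2]

omit [FiniteDimensional F V] in
theorem dual_indep (hf : f.Nondeg) {y z : V} (hy : y ≠ 0) (hz : z ∉ F ∙ y) {a b : F}
    (hab : ∀ v, a * f.B z v + b * f.B y v = 0) : a = 0 ∧ b = 0 := by
  have h0 : T.σ a • z + T.σ b • y = 0 := hf _ fun v => by
    simpa [T.σσ] using hab v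
  obtain ⟨e1, e2⟩ := LinearIndependent.pair_iff.1 (li2 hy hz) _ _ h0
  exact ⟨T.σ_eq_zero.1 e1, T.σ_eq_zero.1 e2⟩

/-- A map which multiplies the functionals of singular vectors by scalars is a similarity. -/
theorem exists_sim_of_eigen (hf : f.Nondeg) (h3 : Sing3 f) (hn : 5 ≤ finrank F V)
    {g : V →ₗ[F] V} (H : ∀ u, f.q u = 0 → ∃ c : F, ∀ v, f.B (g u) (g v) = c * f.B u v) :
    ∃ c : F, ∀ u v, f.B (g u) (g v) = c * f.B u v := by
  obtain ⟨c, hc⟩ := exists_scalar_of_singular5 hf h3 hn (R := F) (W := Dual F V)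
    (f.comap g).B.toAddMonoidHom f.B.toAddMonoidHom (fun y z hy hz a b hab =>
      dual_indep hf hy hz fun v => congrArg (fun φ : Dual F V => φ v) hab) (fun u hu => by
      obtain ⟨c, hc⟩ := H u hu
      exact ⟨c, LinearMap.ext hc⟩)
  exact ⟨c, fun u v => congrArg (fun φ : Dual F V => φ v) (hc u)⟩

/-- A map preserving orthogonality of singular vectors is a similarity. -/
theorem exists_sim_of_singular5 (hf : f.Nondeg) (h3 : Sing3 f) (hn : 5 ≤ finrank F V)
    {g : V →ₗ[F] V} (H : ∀ u v, f.q u = 0 → f.q v = 0 → f.B u v = 0 → f.B (g u) (g v) = 0) :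
    ∃ c : F, ∀ u v, f.B (g u) (g v) = c * f.B u v := by
  refine exists_sim_of_eigen hf h3 hn fun u hu => ?_
  obtain ⟨c, hc⟩ := exists_eq_smul_of_ker_le (φ := f.B u) (ψ := (f.comap g).B u) fun v hv =>
    mem_of_singular_perp hf h3 hn u ((f.comap g).B u).toAddMonoidHom.ker
      (fun w hw hw' => H u w hu hw' hw) v hv
  exact ⟨c, fun v => congrArg (fun φ : Dual F V => φ v) hc⟩

omit [FiniteDimensional F V] in
theorem restrict_nondeg_single {x : V} (hx : f.B x x ≠ 0) : (f.restrict (F ∙ x)).Nondeg := by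
  rw [restrict_nondeg_iff, Submodule.disjoint_def]
  intro y hy hy'
  obtain ⟨c, rfl⟩ := Submodule.mem_span_singleton.1 hy
  rw [f.mem_perp_span_singleton, f.B_smul_right, mul_eq_zero] at hy'
  simp [hy'.resolve_right hx]

end Scalar

section Gen

variable {ι : Type} [Fintype ι] [DecidableEq ι] {F : Type*} [Field F] {T : FormType F}
  {f : Form T (ι → F)} {K : Subgroup (GL ι F)}

/-- A group containing `E` and a transvection which is not an isometry up to the choice of the
coefficient contains `SL`. -/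
theorem SL_le_of_form_tv (hf : f.Nondeg) (h3 : Sing3 f) (hn : 5 ≤ Fintype.card ι)
    (hq : ∀ x, f.B x x = 0 → f.q x = 0) (hK : ∀ e ∈ f.E, ofLin e ∈ K) {u w : ι → F} (hu0 : u ≠ 0)
    (hw : w ∉ F ∙ u) (hwu : f.B w u = 0) (h : HasTv K u (f.B w)) : specialLinear ι F ≤ K := by
  have hdim : finrank F (ι → F) = Fintype.card ι := Module.finrank_fintype_fun_eq_card F
  let S : AddSubgroup (ι → F) :=
    { carrier := {z | f.B z u = 0 ∧ HasTv K u (f.B z)}
      add_mem' := fun {a b} ha hb => ⟨by rw [f.B_add_left, ha.1, hb.1, add_zero], by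
        rw [map_add]; exact ha.2.add_right hb.2 ha.1⟩
      zero_mem' := ⟨by simp, by rw [map_zero]; exact HasTv.zero_right u⟩
      neg_mem' := fun {a} ha => ⟨by rw [f.B_neg_left, ha.1, neg_zero], by
        rw [map_neg]; exact ha.2.neg_right ha.1⟩ }
  have hS : ∀ e ∈ f.E, e u = u → ∀ z ∈ S, e z ∈ S := by
    intro e he heu z hz
    refine ⟨by rw [← hz.1, ← mem_O_B (E_le_O he) z u, heu], hz.2.conj' (hK e he) ?_ fun v => ?_⟩
    · rw [act_ofLin, heu]
    · rw [act_ofLin, mem_O_B (E_le_O he)]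
  have hwS : w ∈ S := ⟨hwu, h⟩
  have hall : ∀ z, f.B u z = 0 → z ∈ S := by
    by_cases hu : f.q u = 0
    · have h1 : ∀ c : F, c • u ∈ S := by
        intro c
        obtain ⟨v, hv, hv'⟩ := hf.exists_perp_eq hw (T.ε * c)
        have huv := f.B_eq_zero_symm (hv u (Submodule.mem_span_singleton_self u))
        obtain ⟨a, ok⟩ := exists_eichOK hu huv
        have := S.sub_mem hwS (hS _ (ei_mem_E u v a) ok.ei_apply_u w hwS)
        rw [ok.ei_apply_of_perp (f.B_eq_zero_symm hwu), hv', T.ε_mul_ε_mul] at this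
        simpa using this
      obtain ⟨u', hu', huu'⟩ := hf.exists_partner' hu hu0
      set W := f.perp (Submodule.span F {u, u'}) with hW
      have hWn : (f.restrict W).Nondeg := hf.restrict_perp (f.restrict_nondeg_pair hu hu' huu')
      have hWr : finrank F W + 2 = finrank F (ι → F) := by
        have := hf.finrank_add_finrank_perp (Submodule.span F {u, u'})
        rw [f.finrank_span_pair hu hu' huu'] at this
        rw [hW]; omega
      have hproj : ∀ z, f.B u z = 0 → z - (T.ε * f.B u' z) • u ∈ W := by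
        intro z hz
        have := hyp_proj hu hu' huu' z
        rw [hz, zero_smul, sub_zero] at this
        exact f.mem_perp_span_pair.2 this
      obtain ⟨x, hxW, hx0, hx⟩ := h3 W (by omega)
      have h2 : ∀ z ∈ W, z ∈ S := by
        refine mem_of_ei_invariant hWn (by omega) hxW hx hx0 (D := S)
          (fun a b c ok ha hb d hd _ => hS _ (ei_mem_E a b c) ?_ d hd)
          (S.sub_mem hwS (h1 _)) (hproj w (f.B_eq_zero_symm hwu)) fun h0 => hw ?_
        · exact ok.ei_apply_fix (f.B_eq_zero_symm (f.mem_perp_span_pair.1 ha).1)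
            (f.B_eq_zero_symm (f.mem_perp_span_pair.1 hb).1)
        · exact Submodule.mem_span_singleton.2 ⟨_, (sub_eq_zero.1 h0).symm⟩
      intro z hz
      have := S.add_mem (h2 _ (hproj z hz)) (h1 (T.ε * f.B u' z))
      rwa [sub_add_cancel] at this
    · have huu : f.B u u ≠ 0 := fun h => hu (hq u h)
      have hWn : (f.restrict (f.perp (F ∙ u))).Nondeg :=
        hf.restrict_perp (restrict_nondeg_single huu)
      have hWr := hf.finrank_add_finrank_perp (F ∙ u)
      have := finrank_span_single_le (F := F) u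
      obtain ⟨x, hxW, hx0, hx⟩ := h3 (f.perp (F ∙ u)) (by omega)
      intro z hz
      refine mem_of_ei_invariant hWn (by omega) hxW hx hx0 (D := S)
        (fun a b c ok ha hb d hd _ => hS _ (ei_mem_E a b c) ?_ d hd) hwS
        (f.mem_perp_span_singleton.2 (f.B_eq_zero_symm hwu))
        (fun h0 => hw (h0 ▸ Submodule.zero_mem _)) z (f.mem_perp_span_singleton.2 hz)
      exact ok.ei_apply_fix (f.B_eq_zero_symm (f.mem_perp_span_singleton.1 ha))
        (f.B_eq_zero_symm (f.mem_perp_span_singleton.1 hb))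
  have hfull : u ∈ full K := by
    intro φ hφ
    obtain ⟨z, hz⟩ := hf.exists_rep φ
    have e : φ = f.B z := (LinearMap.ext hz).symm
    subst e
    exact (hall z (f.B_eq_zero_symm hφ)).2
  apply SL_le_of_full
  obtain ⟨x, -, hx0, hx⟩ := h3 ⊤ (by rw [finrank_top]; omega)
  refine hf.submodule_eq_top (Or.inr (by omega)) hx hx0 (fun a b c _ d hd => ?_) fun h0 => hu0 ?_
  · have := act_mem_full hd (hK _ (ei_mem_E a b c))
    rwa [act_ofLin] at this
  · rwa [h0, Submodule.mem_bot] at hfull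

end Gen

section Herm

variable {ι : Type} [Fintype ι] [DecidableEq ι] {F : Type*} [Field F] [Finite F]
  {σ : F →+* F} {hσ2 : ∀ a, σ (σ a) = a} {f : Form (FormType.herm σ hσ2) (ι → F)}
  {K : Subgroup (GL ι F)}

/-- A group containing `SU` and a non-similarity contains `SL`. -/
theorem SL_le_of_herm_lt5 (hσ : σ ≠ RingHom.id F) (hf : f.Nondeg) (hn : 5 ≤ Fintype.card ι)
    (hK : ∀ e ∈ f.E, ofLin e ∈ K) {g : GL ι F} (hg : g ∈ K)
    (hg' : g ∉ similarityGroup fun u v => f.B v u) : specialLinear ι F ≤ K := by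
  have hdim : finrank F (ι → F) = Fintype.card ι := Module.finrank_fintype_fun_eq_card F
  obtain ⟨c, hc0, hc⟩ := FormType.exists_add_σ_eq_zero hσ hσ2
  by_contra hcon
  apply hg'
  obtain ⟨a, ha⟩ := exists_sim_of_eigen hf (sing3_herm hσ f) (by omega)
    (g := (act g : (ι → F) →ₗ[F] (ι → F))) fun y hy => by
      by_cases hy0 : y = 0
      · exact ⟨0, by simp [hy0]⟩
      obtain ⟨w, hw⟩ := hf.exists_rep
        ((c • f.B y) ∘ₗ (act g⁻¹ : (ι → F) →ₗ[F] (ι → F)))
      have h0 : HasTv K y (c • f.B y) := ⟨_, hK _ (ei_mem_E y 0 (-c)), fun v => by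
        rw [act_ofLin, ei_zero_apply hy (by rw [map_neg, FormType.herm_π, hc, neg_zero])]
        simp [FormType.herm_ε]⟩
      have h1 := h0.conj hg
      rw [← LinearMap.ext hw] at h1
      have hw' : ∀ v, f.B w (act g v) = c * f.B y v := fun v => by
        rw [hw]; simp [act_inv_act]
      by_cases h : w ∈ F ∙ act g y
      · obtain ⟨a, rfl⟩ := Submodule.mem_span_singleton.1 h
        have ha0 : σ a ≠ 0 := by
          intro h0
          apply hy0
          refine hf _ fun v => ?_
          have := hw' v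
          rw [herm_B_smul_left, h0, zero_mul] at this
          exact (mul_eq_zero.1 this.symm).resolve_left hc0
        refine ⟨c / σ a, fun v => ?_⟩
        have := hw' v
        rw [herm_B_smul_left] at this
        change f.B (act g y) (act g v) = _
        field_simp
        linear_combination this
      · exact absurd (SL_le_of_form_tv hf (sing3_herm hσ f) hn (fun x hx => by rw [f.herm_q, hx])
          hK (by simpa using hy0) h (by rw [hw', f.B_self_eq_zero hy, mul_zero]) h1) hcon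
  have ha0 : a ≠ 0 := by
    rintro rfl
    obtain ⟨e, e', -, -, -, -, h⟩ := exists_hyp_perp hf (sing3_herm hσ f) ⊥ (by simp; omega)
    have := ha (act g⁻¹ e) (act g⁻¹ e')
    simp [act_act_inv, h] at this
  exact ⟨Units.mk0 a ha0, fun u v => ha v u⟩

theorem not_SL_le_herm3 (hσ : σ ≠ RingHom.id F) (hf : f.Nondeg) (hn : 3 ≤ Fintype.card ι) :
    ¬ specialLinear ι F ≤ similarityGroup fun u v => f.B v u := by
  intro H
  have hdim : finrank F (ι → F) = Fintype.card ι := Module.finrank_fintype_fun_eq_card F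
  obtain ⟨x, -, hx⟩ := herm_exists_perp_q_ne hσ hf ⊥ (by simp; omega)
  have h1 := hf.finrank_add_finrank_perp (F ∙ x)
  have h2 := finrank_span_single_le (F := F) x
  obtain ⟨u, hu, hu00, hu0⟩ := herm_iso2 hσ f (f.perp (F ∙ x)) (by omega)
  have hxu : f.B x u = 0 := f.mem_perp_span_singleton.1 hu
  have hux : u ∉ F ∙ x := by
    intro h
    obtain ⟨c, rfl⟩ := Submodule.mem_span_singleton.1 h
    rw [f.B_smul_right, ← f.herm_q, mul_eq_zero] at hxu
    exact hxu.elim (fun h => hu00 (by simp [h])) hx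
  obtain ⟨φ, hφ1, hφ0⟩ := exists_dual_one_zero hux
  obtain ⟨c, hc⟩ := H (tv_mem_SL x φ hφ0)
  have := hc u u
  change f.B (act _ u) (act _ u) = c * f.B u u at this
  rw [act_tv, hφ1, one_smul, ← f.herm_q, ← f.herm_q,
    f.q_add_of_B_eq_zero (f.B_eq_zero_symm hxu), hu0] at this
  exact hx (by simpa using this)

end Herm

section Quad

variable {ι : Type} [Fintype ι] [DecidableEq ι] {F : Type*} [Field F] [Finite F]
  {f : Form (FormType.quad F) (ι → F)} {K : Subgroup (GL ι F)}

omit [Finite F] [DecidableEq ι] [Fintype ι] in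
theorem q_eq_zero_of_B (h2 : (2 : F) ≠ 0) (x : ι → F) (h : f.B x x = 0) : f.q x = 0 := by
  rw [f.quad_B_self] at h
  exact (mul_eq_zero.1 h).resolve_left h2

theorem SL_le_of_quad_tv_self (hf : f.Nondeg) (h2 : (2 : F) ≠ 0) (hn : 5 ≤ Fintype.card ι)
    (hK : ∀ e ∈ f.E, ofLin e ∈ K) {u : ι → F} (hu : f.q u = 0) (hu0 : u ≠ 0) {d : F} (hd : d ≠ 0)
    (h : HasTv K u (d • f.B u)) : specialLinear ι F ≤ K := by
  have hdim : finrank F (ι → F) = Fintype.card ι := Module.finrank_fintype_fun_eq_card F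
  obtain ⟨u', hu', huu'⟩ := hf.exists_partner' hu hu0
  have hu'u : f.B u' u = 1 := by rw [f.quad_symm, huu']
  have huu := f.B_self_eq_zero hu
  have hu'u' := f.B_self_eq_zero hu'
  obtain ⟨e, he, heu⟩ := (Iso3.idx2 (sing3_quad f) hf (by omega)).exists_E_apply_eq hf hu0
    (p' := u') (by rintro rfl; simp at huu') (by rw [hu, hu'])
  have h' : HasTv K u' (d • f.B u') := h.conj' (hK e he) (by rw [act_ofLin, heu]) fun v => by
    rw [act_ofLin, ← heu]; simp [mem_O_B (E_le_O he)]
  have h1 := h.conj_tv h' (by simp [hu'u'])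
  refine SL_le_of_form_tv hf (sing3_quad f) hn (q_eq_zero_of_B h2) hK (u := u + d • u')
    (w := d • u - (d * d) • u') (fun h0 => ?_) (fun h0 => ?_) ?_ ?_
  · have := congrArg (f.B u') h0
    simp [hu'u, hu'u'] at this
  · obtain ⟨c, hc⟩ := Submodule.mem_span_singleton.1 h0
    have e1 := congrArg (f.B u') hc
    have e2 := congrArg (f.B u) hc
    simp [hu'u, hu'u', huu, huu'] at e1 e2
    rw [e1] at e2
    exact mul_ne_zero h2 (mul_ne_zero hd hd) (by linear_combination e2)
  · simp [hu'u, hu'u', huu, huu', FormType.quad_σ]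
  · convert h1 using 1
    · simp [hu'u]
    · ext v
      simp [huu', FormType.quad_σ, mul_assoc]

/-- First half of the eigenvector lemma. -/
theorem sim_on_perp (hf : f.Nondeg) (h2 : (2 : F) ≠ 0) (hn : 5 ≤ Fintype.card ι)
    (hK : ∀ e ∈ f.E, ofLin e ∈ K) (hcon : ¬ specialLinear ι F ≤ K) {k : GL ι F} (hk : k ∈ K)
    {u : ι → F} (hu : f.q u = 0) (hu0 : u ≠ 0) {c : F}
    (hc : ∀ x, f.B (act k u) (act k x) = c * f.B u x) :
    ∀ v, f.B u v = 0 → ∀ x, f.B (act k v) (act k x) = c * f.B v x := by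
  have hku0 : act k u ≠ 0 := by simpa using hu0
  have hc0 : c ≠ 0 := by
    rintro rfl
    exact hku0 (hf _ fun x => by rw [← act_act_inv k x, hc, zero_mul])
  have hku : f.q (act k u) = 0 := q_eq_zero_of_B h2 _ (by rw [hc, f.B_self_eq_zero hu, mul_zero])
  -- the transvection
  have key : ∀ v, f.B u v = 0 → ∃ d : F, ∀ x, f.B (act k v) (act k x) - c * f.B v x +
      (c⁻¹ * f.q (act k v) - f.q v) * c * f.B u x = d * f.B u x ∧
        HasTv K (act k u) ((c⁻¹ * c⁻¹ * d) • f.B (act k u)) := by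
    intro v huv
    have ok : f.EichOK u v (f.q v) := ⟨hu, huv, rfl⟩
    have ok' : f.EichOK (act k u) (c⁻¹ • act k v) (f.q (c⁻¹ • act k v)) :=
      ⟨hku, by rw [f.B_smul_right, hc, huv, mul_zero, mul_zero], rfl⟩
    obtain ⟨w, hw⟩ := hf.exists_rep (f.B (c⁻¹ • act k v) + f.q (c⁻¹ • act k v) • f.B (act k u) -
      (f.B v + f.q v • f.B u) ∘ₗ (act k⁻¹ : (ι → F) →ₗ[F] (ι → F)))
    have hw' : ∀ x, f.B w (act k x) = c⁻¹ * (f.B (act k v) (act k x) - c * f.B v x +
        (c⁻¹ * f.q (act k v) - f.q v) * c * f.B u x) := by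
      intro x
      rw [hw]
      simp only [LinearMap.sub_apply, LinearMap.add_apply, LinearMap.smul_apply, smul_eq_mul,
        LinearMap.comp_apply, LinearEquiv.coe_coe, act_inv_act, f.B_smul_left, FormType.quad_σ,
        f.quad_q_smul, hc]
      field_simp
      ring
    have htv : HasTv K (act k u) (f.B w) := by
      refine ⟨(ofLin (f.ei (act k u) (c⁻¹ • act k v) (f.q (c⁻¹ • act k v))))⁻¹ *
        (k * ofLin (f.ei u v (f.q v)) * k⁻¹), K.mul_mem (K.inv_mem (hK _ (ei_mem_E _ _ _)))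
          (K.mul_mem (K.mul_mem hk (hK _ (ei_mem_E _ _ _))) (K.inv_mem hk)), fun x => ?_⟩
      obtain ⟨x, rfl⟩ := (act k).surjective x
      rw [act_mul, act_inv (ofLin _), act_ofLin, LinearEquiv.symm_apply_eq, act_mul, act_mul,
        act_inv_act, act_ofLin, map_add, map_smul, ok'.ei_apply_u, ok'.ei_apply, ok.ei_apply, hw,
        map_sub, map_add, map_smul, map_smul, hc]
      simp only [LinearMap.sub_apply, LinearMap.add_apply, LinearMap.smul_apply, smul_eq_mul,
        LinearMap.comp_apply, LinearEquiv.coe_coe, act_inv_act, FormType.quad_ε, hc, smul_smul]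
      rw [show c * f.B u x * c⁻¹ = f.B u x by field_simp]
      module
    have hwu : f.B w (act k u) = 0 := by
      rw [hw', f.quad_symm (act k u), hc, huv, f.B_eq_zero_symm huv, f.B_self_eq_zero hu]
      simp
    by_cases h : w ∈ F ∙ act k u
    · obtain ⟨d, rfl⟩ := Submodule.mem_span_singleton.1 h
      refine ⟨d * c * c, fun x => ⟨?_, ?_⟩⟩
      · have := hw' x
        rw [f.B_smul_left, hc, FormType.quad_σ] at this
        field_simp at this
        field_simp
        linear_combination -this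
      · convert htv using 1
        ext x
        simp only [LinearMap.comp_apply, LinearMap.smul_apply, smul_eq_mul, f.B_smul_left,
          FormType.quad_σ]
        field_simp
    · exact absurd (SL_le_of_form_tv hf (sing3_quad f) hn (q_eq_zero_of_B h2) hK hku0 h hwu htv) hcon
  intro v huv x
  obtain ⟨d, hd⟩ := key v huv
  have hd0 : d = 0 := by
    by_contra h0
    exact hcon (SL_le_of_quad_tv_self hf h2 hn hK hku hku0
      (mul_ne_zero (mul_ne_zero (inv_ne_zero hc0) (inv_ne_zero hc0)) h0) (hd x).2)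
  have e1 := (hd v).1
  have e2 := (hd x).1
  rw [huv, f.quad_B_self, f.quad_B_self] at e1
  have e3 : f.q (act k v) = c * f.q v := by
    apply mul_left_cancel₀ h2
    linear_combination e1
  rw [hd0, e3, inv_mul_cancel_left₀ hc0] at e2
  linear_combination e2

/-- An element with a singular eigenvector is a similarity. -/
theorem sim_of_eigen (hf : f.Nondeg) (h2 : (2 : F) ≠ 0) (hn : 5 ≤ Fintype.card ι)
    (hK : ∀ e ∈ f.E, ofLin e ∈ K) (hcon : ¬ specialLinear ι F ≤ K) {k : GL ι F} (hk : k ∈ K)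
    {u : ι → F} (hu : f.q u = 0) (hu0 : u ≠ 0) {c : F}
    (hc : ∀ x, f.B (act k u) (act k x) = c * f.B u x) :
    ∀ v x, f.B (act k v) (act k x) = c * f.B v x := by
  have hdim : finrank F (ι → F) = Fintype.card ι := Module.finrank_fintype_fun_eq_card F
  have h1 := sim_on_perp hf h2 hn hK hcon hk hu hu0 hc
  obtain ⟨z, hz, hz0, hz'⟩ := exists_sol_zero hf (sing3_quad f) (F ∙ u)
    (by have := finrank_span_single_le (F := F) u; omega)
  have h2 := sim_on_perp hf h2 hn hK hcon hk hz0 (by rintro rfl; exact hz' (Submodule.zero_mem _))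
    (h1 z (hz u (Submodule.mem_span_singleton_self u)))
  obtain ⟨t, ht, ht'⟩ := hf.exists_perp_eq' hz' 1
  have htu := ht u (Submodule.mem_span_singleton_self u)
  intro v x
  have e : v = (v - f.B z v • t) + f.B z v • t := by abel
  rw [e, map_add, f.B_add_left, f.B_add_left, h2 _ (by simp [ht']), h1 _ (by simp [htu]), mul_add]

omit [DecidableEq ι] in
theorem exists_sing_nonsing (hf : f.Nondeg) (h2 : (2 : F) ≠ 0) (hn : 5 ≤ Fintype.card ι)
    (X : Submodule F (ι → F)) (hX : finrank F X ≤ 2) :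
    ∃ x ∈ f.perp X, ∃ a ∈ f.perp X, x ≠ 0 ∧ f.q x = 0 ∧ f.q a ≠ 0 ∧ f.B x a = 0 := by
  have hdim : finrank F (ι → F) = Fintype.card ι := Module.finrank_fintype_fun_eq_card F
  have d1 := hf.finrank_add_finrank_perp X
  by_cases h : ∃ x ∈ X, x ≠ 0 ∧ x ∈ f.perp X
  · obtain ⟨x, hx, hx0, hx'⟩ := h
    by_contra! H
    have : f.TotSing (f.perp X) := (f.quad_totSing_iff _).2 fun a ha => by
      by_contra h0
      exact H x hx' a ha hx0 (q_eq_zero_of_B h2 x (hx' x hx)) h0 (ha x hx)
    have := this.two_mul_finrank_le hf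
    omega
  · obtain ⟨x, hx, hx0, hxq⟩ := sing3_quad f (f.perp X) (by omega)
    by_contra! H
    have hts : f.TotSing (f.perp (X ⊔ F ∙ x)) := (f.quad_totSing_iff _).2 fun a ha => by
      by_contra h0
      rw [perp_sup] at ha
      exact H x hx a ha.1 hx0 hxq h0 (f.mem_perp_span_singleton.1 ha.2)
    have hle : f.perp (X ⊔ F ∙ x) ≤ F ∙ x := by
      intro z hz
      have hz' := hts.le_perp hz
      rw [hf.perp_perp] at hz'
      obtain ⟨y, hy, w, hw, rfl⟩ := Submodule.mem_sup.1 hz'
      by_cases hy0 : y = 0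
      · simpa [hy0] using hw
      · refine absurd ⟨y, hy, hy0, ?_⟩ h
        have := (f.perp X).sub_mem (f.perp_anti le_sup_left hz)
          ((Submodule.span_singleton_le_iff_mem _ _).2 hx hw)
        simpa using this
    have d2 := Submodule.finrank_mono hle
    have d3 := finrank_span_single_le (F := F) x
    have d4 := hf.finrank_add_finrank_perp (X ⊔ F ∙ x)
    have d5 := finrank_sup_span_le X x
    omega

/-- A group containing `E` and a non-similarity contains `SL`. -/
theorem SL_le_of_quad_lt5 (hf : f.Nondeg) (h2 : (2 : F) ≠ 0) (hn : 5 ≤ Fintype.card ι)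
    (hK : ∀ e ∈ f.E, ofLin e ∈ K) {g : GL ι F} (hg : g ∈ K) (hg' : g ∉ quadSimilarityGroup f.q) :
    specialLinear ι F ≤ K := by
  have hdim : finrank F (ι → F) = Fintype.card ι := Module.finrank_fintype_fun_eq_card F
  by_contra hcon
  apply hg'
  obtain ⟨u, -, hu0, hu⟩ := sing3_quad f ⊤ (by rw [finrank_top]; omega)
  obtain ⟨s', hs'⟩ := hf.exists_rep (f.B u ∘ₗ (act g : (ι → F) →ₗ[F] (ι → F)))
  obtain ⟨x, hx, a, ha, hx0, hxq, haq, hxa⟩ := exists_sing_nonsing hf h2 hn
    (Submodule.span F {act g⁻¹ u, s'}) (finrank_span_pair_le _ _)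
  rw [f.mem_perp_span_pair] at hx ha
  have ok : f.EichOK x a (f.q a) := ⟨hxq, hxa, rfl⟩
  set t := f.ei x a (f.q a) with ht
  have htO : t ∈ f.O := ei_mem_O _ _ _
  have h1 := sim_of_eigen hf h2 hn hK hcon (k := g * ofLin t * g⁻¹)
    (K.mul_mem (K.mul_mem hg (hK _ (ei_mem_E _ _ _))) (K.inv_mem hg)) hu hu0 (c := 1) fun y => by
      simp only [act_mul, act_ofLin]
      rw [ok.ei_apply_fix (f.B_eq_zero_symm hx.1) (f.B_eq_zero_symm ha.1), act_act_inv, one_mul]
      have e1 := hs' (t (act g⁻¹ y))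
      have e2 := hs' (act g⁻¹ y)
      simp only [LinearMap.comp_apply, LinearEquiv.coe_coe, act_act_inv] at e1 e2
      rw [← e1, ← e2, ← mem_O_B htO s' (act g⁻¹ y),
        ok.ei_apply_fix (f.B_eq_zero_symm hx.2) (f.B_eq_zero_symm ha.2)]
  have h3 : ∀ y z, f.B x z = 0 → f.B a z = 0 → f.B (act g (t y - y)) (act g z) = 0 := by
    intro y z h h'
    have := h1 (act g y) (act g z)
    simp only [act_mul, act_ofLin, act_inv_act, one_mul] at this
    rw [ok.ei_apply_fix h h'] at this
    rw [map_sub, f.B_sub_left, this, sub_self]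
  have haa : f.B a a ≠ 0 := fun h => haq (q_eq_zero_of_B h2 a h)
  have h4 : ∀ z, f.B x z = 0 → f.B a z = 0 → f.B (act g x) (act g z) = 0 := by
    intro z h h'
    have := h3 a z h h'
    rw [ok.ei_apply_of_perp hxa] at this
    simpa [haa, FormType.quad_ε] using this
  have h5 : f.B (act g a) (act g x) = 0 := by
    obtain ⟨x', hx'⟩ := hf.exists_B_eq hx0 1
    have := h3 x' x ok.huu ok.hvu
    rw [ok.ei_apply, hx'] at this
    simpa [h4 x ok.huu ok.hvu] using this
  obtain ⟨c, hc⟩ := exists_eq_smul_of_ker_le (φ := f.B x)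
    (ψ := (f.comap (act g : (ι → F) →ₗ[F] (ι → F))).B x) fun z hz => by
      have e : z = (z - (f.B a z / f.B a a) • a) + (f.B a z / f.B a a) • a := by abel
      change f.B (act g x) (act g z) = 0
      rw [e, map_add, f.B_add_right, h4 _ (by simp [hz, hxa]) (by simp [haa]), map_smul,
        f.B_smul_right, f.B_eq_zero_symm h5]
      simp
  have h6 := sim_of_eigen hf h2 hn hK hcon hg hxq hx0 (c := c)
    fun y => congrArg (fun φ : Dual F (ι → F) => φ y) hc
  have hc0 : c ≠ 0 := by
    rintro rfl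
    obtain ⟨e, e', -, -, -, -, h⟩ := exists_hyp_perp hf (sing3_quad f) ⊥ (by simp; omega)
    have := h6 (act g⁻¹ e) (act g⁻¹ e')
    simp [act_act_inv, h] at this
  refine ⟨Units.mk0 c hc0, fun v => ?_⟩
  have := h6 v v
  rw [f.quad_B_self, f.quad_B_self] at this
  apply mul_left_cancel₀ h2
  change 2 * f.q (act g v) = _
  rw [Units.val_mk0]
  linear_combination this

end Quad

variable {ι : Type} [Fintype ι] [DecidableEq ι] {F : Type*} [Field F]

theorem isMaximalIn_SL_herm5 [Finite F] (hn : 5 ≤ Fintype.card ι) {σ : F ≃+* F}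
    {f : (ι → F) → (ι → F) → F} (hf : IsUnitaryForm σ f) :
    IsMaximalIn (specialLinear ι F) (similarityGroup f ⊓ specialLinear ι F) :=
  isMaximalIn_SL_herm_of hf
    (not_SL_le_herm3 (unitary_ne_id hf) (hermOfUnitary_nondeg hf) (by omega))
    fun _ hK _ hg hg' => SL_le_of_herm_lt5 (unitary_ne_id hf) (hermOfUnitary_nondeg hf) hn
      (fun e he => hK e (E_le_O he) (det_of_mem_E he)) hg hg'

theorem isMaximalIn_SL_quad5 [Fintype F] (hn : 5 ≤ Fintype.card ι) (hodd : Odd (Fintype.card F))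
    {Q : (ι → F) → F} (hQ : IsNondegenerateQuadraticForm Q) :
    IsMaximalIn (specialLinear ι F) (quadSimilarityGroup Q ⊓ specialLinear ι F) :=
  isMaximalIn_SL_quad_of hQ (not_SL_le_quad (quadOfGeo_nondeg hQ) hn)
    fun _ hK _ hg hg' => SL_le_of_quad_lt5 (quadOfGeo_nondeg hQ) (two_ne_zero_of_odd hodd) hn
      (fun e he => hK e (E_le_O he) (det_of_mem_E he)) hg hg'

end CL.Root
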