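/-
Overgroups of unitary and orthogonal groups in the special linear group, dimension four.
-/
import Cfsg.Agent.CLAS.LowSL
import Cfsg.Agent.CLAS.Ref5

set_option autoImplicit false
set_option linter.unusedSectionVars false

namespace CL.Four

open Module CL.Witt CL.Witt.Form CL.Tv CL.Root Cfsg Cfsg.Geo

section Gen

variable {ι : Type} [Fintype ι] [DecidableEq ι] {F : Type*} [Field F] {T : FormType F}
  {f : Form T (ι → F)} {K : Subgroup (GL ι F)} (hf : f.Nondeg) (h3 : Sing3 f)
  (hn : 4 ≤ Fintype.card ι) (hK : ∀ e ∈ f.E, ofLin e ∈ K)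
include hf h3 hn hK

theorem SL_le_of_tv_nonsing {u w : ι → F} (huu : f.B u u ≠ 0) (hw : w ≠ 0) (hwu : f.B w u = 0)
    (h : HasTv K u (f.B w)) : specialLinear ι F ≤ K := by
  have hdim : finrank F (ι → F) = Fintype.card ι := Module.finrank_fintype_fun_eq_card F
  let S : AddSubgroup (ι → F) :=
    { carrier := {z | f.B z u = 0 ∧ HasTv K u (f.B z)}
      add_mem' := fun {a b} ha hb => ⟨by rw [f.B_add_left, ha.1, hb.1, add_zero], by
        rw [map_add]; exact ha.2.add_right hb.2 ha.1⟩
      zero_mem' := ⟨by simp, by rw [map_zero]; exact HasTv.zero_right u⟩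
      neg_mem' := fun {a} ha => ⟨by rw [f.B_neg_left, ha.1, neg_zero], by
        rw [map_neg]; exact ha.2.neg_right ha.1⟩ }
  have hS : ∀ e ∈ f.E, e u = u → ∀ z ∈ S, e z ∈ S := by
    intro e he heu z hz
    refine ⟨by rw [← hz.1, ← mem_O_B (E_le_O he) z u, heu], hz.2.conj' (hK e he) ?_ fun v => ?_⟩
    · rw [act_ofLin, heu]
    · rw [act_ofLin, mem_O_B (E_le_O he)]
  have hall : ∀ z, f.B u z = 0 → z ∈ S := by
    have hWn : (f.restrict (f.perp (F ∙ u))).Nondeg :=
      hf.restrict_perp (restrict_nondeg_single huu)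
    have hWr := hf.finrank_add_finrank_perp (F ∙ u)
    have := finrank_span_single_le (F := F) u
    obtain ⟨x, hxW, hx0, hx⟩ := h3 (f.perp (F ∙ u)) (by omega)
    intro z hz
    refine mem_of_ei_invariant hWn (by omega) hxW hx hx0 (D := S)
      (fun a b c ok ha hb d hd _ => hS _ (ei_mem_E a b c) ?_ d hd) ⟨hwu, h⟩
      (f.mem_perp_span_singleton.2 (f.B_eq_zero_symm hwu)) hw z (f.mem_perp_span_singleton.2 hz)
    exact ok.ei_apply_fix (f.B_eq_zero_symm (f.mem_perp_span_singleton.1 ha))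
      (f.B_eq_zero_symm (f.mem_perp_span_singleton.1 hb))
  have hfull : u ∈ full K := by
    intro φ hφ
    obtain ⟨z, hz⟩ := hf.exists_rep φ
    have e : φ = f.B z := (LinearMap.ext hz).symm
    subst e
    exact (hall z (f.B_eq_zero_symm hφ)).2
  apply SL_le_of_full
  obtain ⟨x, -, hx0, hx⟩ := h3 ⊤ (by rw [finrank_top]; omega)
  refine hf.submodule_eq_top (Or.inr (by omega)) hx hx0 (fun a b c _ d hd => ?_) fun h0 => huu ?_
  · have := act_mem_full hd (hK _ (ei_mem_E a b c))
    rwa [act_ofLin] at this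
  · rw [h0, Submodule.mem_bot] at hfull
    simp [hfull]

theorem SL_le_of_tv_sing (hq : ∀ x, f.B x x = 0 → f.q x = 0) {u w y : ι → F} (hu : f.q u = 0)
    (hw : w ≠ 0) (hwu : f.B w u = 0) (h : HasTv K u (f.B w)) (hy : f.q y = 0)
    (hπ : T.π (f.B w y * f.B y u) ≠ 0) : specialLinear ι F ≤ K := by
  have hdim : finrank F (ι → F) = Fintype.card ι := Module.finrank_fintype_fun_eq_card F
  obtain ⟨e, he, c, c0, hc⟩ := hf.exists_mem_E_apply_eq_smul (Or.inr (by omega)) hu
    (by rintro rfl; simp at hπ) hy (by rintro rfl; simp at hπ)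
  have h1 : HasTv K (c • y) (f.B (e w)) := h.conj' (hK e he) (by rw [act_ofLin, hc]) fun v => by
    rw [act_ofLin, mem_O_B (E_le_O he)]
  have h2 := h1.conj_tv h hwu
  have h4 : f.B (e w) (c • y) = 0 := by rw [← hc, mem_O_B (E_le_O he), hwu]
  refine SL_le_of_tv_nonsing hf h3 hn hK (u := c • y + f.B w (c • y) • u)
    (w := e w - T.σ (f.B (e w) u) • w) (fun e0 => ?_) (fun e0 => ?_) ?_ ?_
  · have := hq _ e0
    rw [f.q_add_smul, f.q_smul_eq_zero hy, hu, f.B_smul_right, f.B_smul_left,
      show c * f.B w y * (T.σ c * f.B y u) = T.σ c * c * (f.B w y * f.B y u) by ring,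
      T.π_norm] at this
    simp [c0, hπ] at this
  · have e1 := congrArg (fun z => f.B z u) e0
    simp only [B_sub_left, B_smul_left, hwu, mul_zero, sub_zero, B_zero_left] at e1
    rw [e1, map_zero, zero_smul, sub_zero] at e0
    exact hw (by simpa using e0)
  · simp only [B_sub_left, B_add_right, B_smul_left, T.σσ, h4, f.B_smul_right (f.B w (c • y)), hwu]
    ring
  · convert h2 using 1
    refine LinearMap.ext fun v => ?_
    simp only [B_sub_left, B_smul_left, T.σσ, LinearMap.sub_apply, LinearMap.smul_apply,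
      smul_eq_mul]

end Gen

section Herm

variable {ι : Type} [Fintype ι] [DecidableEq ι] {F : Type*} [Field F] [Finite F]
  {σ : F →+* F} {hσ2 : ∀ a, σ (σ a) = a} {f : Form (FormType.herm σ hσ2) (ι → F)}
  {K : Subgroup (GL ι F)}

theorem SL_le_of_herm_tv4 (hσ : σ ≠ RingHom.id F) (hf : f.Nondeg) (hn : 4 ≤ Fintype.card ι)
    (hK : ∀ e ∈ f.E, ofLin e ∈ K) {u w : ι → F} (hu0 : u ≠ 0) (hw : w ∉ F ∙ u)
    (hwu : f.B w u = 0) (h : HasTv K u (f.B w)) : specialLinear ι F ≤ K := by
  have hw0 : w ≠ 0 := by rintro rfl; exact hw (Submodule.zero_mem _)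
  by_cases hu : f.q u = 0
  · obtain ⟨u', hu', huu'⟩ := hf.exists_partner' hu hu0
    obtain ⟨τ, hτ⟩ := FormType.exists_add_σ_eq_one hσ hσ2
    obtain ⟨v, hv, hv'⟩ := hf.exists_perp_eq' hw (τ - f.B w u')
    obtain ⟨a, ok⟩ := exists_eichOK hu (hv u (Submodule.mem_span_singleton_self u))
    refine SL_le_of_tv_sing hf (sing3_herm hσ f) hn hK (fun x hx => by rw [f.herm_q, hx]) hu hw0
      hwu h (y := f.ei u v a u') (by rw [mem_O_q (ei_mem_O _ _ _), hu']) ?_
    rw [f.symm u, ok.B_u_ei, huu', ok.ei_apply, huu', B_sub_right, B_add_right, B_smul_right,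
      B_smul_right, hwu, hv']
    simp [FormType.herm_ε, FormType.herm_π, hτ]
  · exact SL_le_of_tv_nonsing hf (sing3_herm hσ f) hn hK (by rwa [← f.herm_q]) hw0 hwu h

theorem herm_sim_of_eigen (hσ : σ ≠ RingHom.id F) (hf : f.Nondeg) (hn : 2 ≤ Fintype.card ι)
    {g : (ι → F) →ₗ[F] (ι → F)} (H : ∀ u, f.q u = 0 → ∃ c : F, ∀ v, f.B (g u) (g v) = c * f.B u v) :
    ∃ c : F, ∀ u v, f.B (g u) (g v) = c * f.B u v := by
  have hdim : finrank F (ι → F) = Fintype.card ι := Module.finrank_fintype_fun_eq_card F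
  choose t ht using fun u => hf.exists_rep ((f.comap g).B u)
  let θ : (ι → F) →ₗ[F] (ι → F) :=
    { toFun := t
      map_add' := fun x y => hf.ext_left fun v => by simp [ht]
      map_smul' := fun c x => hf.ext_left fun v => by simp [ht] }
  obtain ⟨a, a0, ha⟩ := herm_pi (hσ2 := hσ2) hσ
  obtain ⟨u, -, u0, hu⟩ := herm_iso2 hσ f ⊤ (by rw [finrank_top]; omega)
  obtain ⟨c, hc⟩ := hf.exists_eq_smul_of_singular a0 ha hu u0 (g := θ) fun x hx => by
    obtain ⟨c, hc⟩ := H x hx
    exact ⟨σ c, hf.ext_left fun v => by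
      rw [herm_B_smul_left, hσ2, ← hc]; exact ht x v⟩
  exact ⟨σ c, fun u v => by rw [← herm_B_smul_left, ← hc]; exact (ht u v).symm⟩

/-- A group containing `SU` and a non-similarity contains `SL`. -/
theorem SL_le_of_herm_lt4 (hσ : σ ≠ RingHom.id F) (hf : f.Nondeg) (hn : 4 ≤ Fintype.card ι)
    (hK : ∀ e ∈ f.E, ofLin e ∈ K) {g : GL ι F} (hg : g ∈ K)
    (hg' : g ∉ similarityGroup fun u v => f.B v u) : specialLinear ι F ≤ K := by
  have hdim : finrank F (ι → F) = Fintype.card ι := Module.finrank_fintype_fun_eq_card F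
  obtain ⟨c, hc0, hc⟩ := FormType.exists_add_σ_eq_zero hσ hσ2
  by_contra hcon
  apply hg'
  obtain ⟨a, ha⟩ := herm_sim_of_eigen hσ hf (by omega)
    (g := (act g : (ι → F) →ₗ[F] (ι → F))) fun y hy => by
      by_cases hy0 : y = 0
      · exact ⟨0, by simp [hy0]⟩
      obtain ⟨w, hw⟩ := hf.exists_rep
        ((c • f.B y) ∘ₗ (act g⁻¹ : (ι → F) →ₗ[F] (ι → F)))
      have h0 : HasTv K y (c • f.B y) := ⟨_, hK _ (ei_mem_E y 0 (-c)), fun v => by
        rw [act_ofLin, ei_zero_apply hy (by rw [map_neg, FormType.herm_π, hc, neg_zero])]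
        simp [FormType.herm_ε]⟩
      have h1 := h0.conj hg
      rw [← LinearMap.ext hw] at h1
      have hw' : ∀ v, f.B w (act g v) = c * f.B y v := fun v => by
        rw [hw]; simp [act_inv_act]
      by_cases h : w ∈ F ∙ act g y
      · obtain ⟨a, rfl⟩ := Submodule.mem_span_singleton.1 h
        have ha0 : σ a ≠ 0 := by
          intro h0
          apply hy0
          refine hf _ fun v => ?_
          have := hw' v
          rw [herm_B_smul_left, h0, zero_mul] at this
          exact (mul_eq_zero.1 this.symm).resolve_left hc0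
        refine ⟨c / σ a, fun v => ?_⟩
        have := hw' v
        rw [herm_B_smul_left] at this
        change f.B (act g y) (act g v) = _
        field_simp
        linear_combination this
      · exact absurd (SL_le_of_herm_tv4 hσ hf hn hK (by simpa using hy0) h
          (by rw [hw', f.B_self_eq_zero hy, mul_zero]) h1) hcon
  have ha0 : a ≠ 0 := by
    rintro rfl
    obtain ⟨e, e', -, -, -, -, h⟩ := exists_hyp_perp hf (sing3_herm hσ f) ⊥ (by simp; omega)
    have := ha (act g⁻¹ e) (act g⁻¹ e')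
    simp [act_act_inv, h] at this
  exact ⟨Units.mk0 a ha0, fun u v => ha v u⟩

end Herm

section Quad

variable {ι : Type} [Fintype ι] [DecidableEq ι] {F : Type*} [Field F] [Finite F]
  {f : Form (FormType.quad F) (ι → F)} {K : Subgroup (GL ι F)} (hf : f.Nondeg) (h2 : (2 : F) ≠ 0)
  (hn : 4 ≤ Fintype.card ι) (hK : ∀ e ∈ f.E, ofLin e ∈ K) (hcon : ¬ specialLinear ι F ≤ K)
include hf h2 hn hK hcon

theorem quad_no_tv {u w : ι → F} (hu0 : u ≠ 0) (hwu : f.B w u = 0) (h : HasTv K u (f.B w)) :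
    w = 0 := by
  by_contra hw
  by_cases hu : f.q u = 0
  · obtain ⟨y, hy, h3, h4⟩ := hf.exists_common_partner hu hu0 hw (f.B_eq_zero_symm hwu)
    exact hcon (SL_le_of_tv_sing hf (sing3_quad f) hn hK (q_eq_zero_of_B h2) hu hw hwu h hy
      (mul_ne_zero h4 fun e => h3 (f.B_eq_zero_symm e)))
  · exact hcon (SL_le_of_tv_nonsing hf (sing3_quad f) hn hK
      (fun e => hu (q_eq_zero_of_B h2 u e)) hw hwu h)

theorem sim_on_perp4 {k : GL ι F} (hk : k ∈ K) {u : ι → F} (hu : f.q u = 0) (hu0 : u ≠ 0) {c : F}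
    (hc : ∀ x, f.B (act k u) (act k x) = c * f.B u x) :
    ∀ v, f.B u v = 0 → ∀ x, f.B (act k v) (act k x) = c * f.B v x := by
  have hku0 : act k u ≠ 0 := by simpa using hu0
  have hc0 : c ≠ 0 := by
    rintro rfl
    exact hku0 (hf _ fun x => by rw [← act_act_inv k x, hc, zero_mul])
  have hku : f.q (act k u) = 0 := q_eq_zero_of_B h2 _ (by rw [hc, f.B_self_eq_zero hu, mul_zero])
  have key : ∀ v, f.B u v = 0 → ∀ x, f.B (act k v) (act k x) - c * f.B v x +
      (c⁻¹ * f.q (act k v) - f.q v) * c * f.B u x = 0 := by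
    intro v huv
    have ok : f.EichOK u v (f.q v) := ⟨hu, huv, rfl⟩
    have ok' : f.EichOK (act k u) (c⁻¹ • act k v) (f.q (c⁻¹ • act k v)) :=
      ⟨hku, by rw [f.B_smul_right, hc, huv, mul_zero, mul_zero], rfl⟩
    obtain ⟨w, hw⟩ := hf.exists_rep (f.B (c⁻¹ • act k v) + f.q (c⁻¹ • act k v) • f.B (act k u) -
      (f.B v + f.q v • f.B u) ∘ₗ (act k⁻¹ : (ι → F) →ₗ[F] (ι → F)))
    have hw' : ∀ x, f.B w (act k x) = c⁻¹ * (f.B (act k v) (act k x) - c * f.B v x +
        (c⁻¹ * f.q (act k v) - f.q v) * c * f.B u x) := by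
      intro x
      rw [hw]
      simp only [LinearMap.sub_apply, LinearMap.add_apply, LinearMap.smul_apply, smul_eq_mul,
        LinearMap.comp_apply, LinearEquiv.coe_coe, act_inv_act, f.B_smul_left, FormType.quad_σ,
        f.quad_q_smul, hc]
      field_simp
      ring
    have htv : HasTv K (act k u) (f.B w) := by
      refine ⟨(ofLin (f.ei (act k u) (c⁻¹ • act k v) (f.q (c⁻¹ • act k v))))⁻¹ *
        (k * ofLin (f.ei u v (f.q v)) * k⁻¹), K.mul_mem (K.inv_mem (hK _ (ei_mem_E _ _ _)))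
          (K.mul_mem (K.mul_mem hk (hK _ (ei_mem_E _ _ _))) (K.inv_mem hk)), fun x => ?_⟩
      obtain ⟨x, rfl⟩ := (act k).surjective x
      rw [act_mul, act_inv (ofLin _), act_ofLin, LinearEquiv.symm_apply_eq, act_mul, act_mul,
        act_inv_act, act_ofLin, map_add, map_smul, ok'.ei_apply_u, ok'.ei_apply, ok.ei_apply, hw,
        map_sub, map_add, map_smul, map_smul, hc]
      simp only [LinearMap.sub_apply, LinearMap.add_apply, LinearMap.smul_apply, smul_eq_mul,
        LinearMap.comp_apply, LinearEquiv.coe_coe, act_inv_act, FormType.quad_ε, hc, smul_smul]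
      rw [show c * f.B u x * c⁻¹ = f.B u x by field_simp]
      module
    have hwu : f.B w (act k u) = 0 := by
      rw [hw', f.quad_symm (act k u), hc, huv, f.B_eq_zero_symm huv, f.B_self_eq_zero hu]
      simp
    intro x
    have := hw' x
    rw [quad_no_tv hf h2 hn hK hcon hku0 hwu htv, B_zero_left] at this
    exact (mul_eq_zero.1 this.symm).resolve_left (inv_ne_zero hc0)
  intro v huv x
  have e1 := key v huv v
  have e2 := key v huv x
  rw [huv, f.quad_B_self, f.quad_B_self] at e1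
  have e3 : f.q (act k v) = c * f.q v := by
    apply mul_left_cancel₀ h2
    linear_combination e1
  rw [e3, inv_mul_cancel_left₀ hc0] at e2
  linear_combination e2

theorem perp_of_fix {k : GL ι F} (hk : k ∈ K) {u : ι → F} (hu : f.q u = 0) (hu0 : u ≠ 0) {c : F}
    (hc : act k u = c • u) {v : ι → F} (hv : f.B u v = 0) : f.B u (act k⁻¹ v) = 0 := by
  have hdim : finrank F (ι → F) = Fintype.card ι := Module.finrank_fintype_fun_eq_card F
  by_contra h0
  have uu := f.B_self_eq_zero hu
  have c0 : c ≠ 0 := by rintro rfl; exact hu0 (by simpa using hc)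
  have hc' : act k⁻¹ u = c⁻¹ • u := by
    rw [← act_inv_act k (c⁻¹ • u), map_smul, hc, smul_smul, inv_mul_cancel₀ c0, one_smul]
  obtain ⟨s, hs⟩ := hf.exists_rep (f.B u ∘ₗ (act k).toLinearMap)
  obtain ⟨w, hw, hw'⟩ := exists_not_mem_of_lt (Y := f.perp (Submodule.span F {u, s})) (A := F ∙ u)
    (by
      have h3 := hf.finrank_add_finrank_perp (Submodule.span F {u, s})
      have h4 := Tv.finrank_span_pair_le (F := F) u s
      have h5 := finrank_span_single_le (F := F) u
      omega)
  obtain ⟨uw, sw⟩ := f.mem_perp_span_pair.1 hw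
  rw [hs, LinearMap.comp_apply, LinearEquiv.coe_coe] at sw
  have ok : f.EichOK u w (f.q w) := ⟨hu, uw, rfl⟩
  have em : ∀ x, act (k * ofLin (f.ei u w (f.q w)) * k⁻¹) x = x + f.B u (act k⁻¹ x) • act k w -
      ((f.B w (act k⁻¹ x) + f.q w * f.B u (act k⁻¹ x)) * c) • u := fun x => by
    rw [act_mul, act_mul, act_ofLin, quad_ei_apply ok, map_sub, map_add, map_smul, map_smul, hc,
      act_act_inv, smul_smul]
  have h1 := sim_on_perp4 hf h2 hn hK hcon (K.mul_mem (K.mul_mem hk (hK _ (ei_mem_E u w (f.q w))))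
    (K.inv_mem hk)) hu hu0 (c := 1) fun x => by
      rw [em, em, hc']
      simp [uu, sw, f.B_eq_zero_symm uw, f.B_eq_zero_symm sw]
  have h3 : ∀ x, f.B u x = 0 → 2 * f.B u (act k⁻¹ x) * f.B x (act k w) +
      f.B u (act k⁻¹ x) ^ 2 * f.B (act k w) (act k w) = 0 := fun x hx => by
    have := h1 x hx x
    rw [em] at this
    simp only [B_sub_left, B_add_left, B_sub_right, B_add_right, qB_smul_left, B_smul_right, hx,
      sw, uu, f.B_eq_zero_symm hx, f.B_eq_zero_symm sw, f.quad_symm x (act k w)] at this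
    linear_combination this
  have h4 := h3 v hv
  have h5 := h3 (v + act k w) (by rw [B_add_right, hv, sw, add_zero])
  rw [map_add, act_inv_act, B_add_right, uw, add_zero, B_add_left] at h5
  have h6 : f.B (act k w) (act k w) = 0 :=
    (mul_eq_zero.1 (show 2 * f.B u (act k⁻¹ v) * _ = 0 by linear_combination h5 - h4)).resolve_left
      (mul_ne_zero h2 h0)
  have h7 : ∀ x, f.B u x = 0 → f.B u (act k⁻¹ x) ≠ 0 → f.B x (act k w) = 0 := fun x hx hx' =>
    (mul_eq_zero.1 (show 2 * f.B u (act k⁻¹ x) * _ = 0 by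
      linear_combination h3 x hx - f.B u (act k⁻¹ x) ^ 2 * h6)).resolve_left (mul_ne_zero h2 hx')
  have h8 : act k w ∈ F ∙ u := by
    rw [← hf.perp_perp (F ∙ u)]
    intro x hx
    have hx' := f.mem_perp_span_singleton.1 hx
    by_cases e : f.B u (act k⁻¹ x) = 0
    · have := h7 (x + v) (by rw [B_add_right, hx', hv, add_zero])
        (by rwa [map_add, B_add_right, e, zero_add])
      rwa [B_add_left, h7 v hv h0, add_zero] at this
    · exact h7 x hx' e
  obtain ⟨a, ha⟩ := Submodule.mem_span_singleton.1 h8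
  refine hw' (Submodule.mem_span_singleton.2 ⟨a * c⁻¹, ?_⟩)
  rw [← act_inv_act k w, ← ha, map_smul, hc', smul_smul]

theorem sing_map {g : GL ι F} (hg : g ∈ K) {u : ι → F} (hu : f.q u = 0) : f.q (act g u) = 0 := by
  have hdim : finrank F (ι → F) = Fintype.card ι := Module.finrank_fintype_fun_eq_card F
  by_contra hx
  have hu0 : u ≠ 0 := by rintro rfl; simp [f.q_zero] at hx
  have xx : f.B (act g u) (act g u) ≠ 0 := fun e => hx (q_eq_zero_of_B h2 _ e)
  have uu := f.B_self_eq_zero hu
  have hWn := hf.restrict_perp (restrict_nondeg_single xx)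
  have hWr := hf.finrank_add_finrank_perp (F ∙ act g u)
  have h3 := finrank_span_single_le (F := F) (act g u)
  obtain ⟨x, hxW, hx0, hx⟩ := sing3_quad f (f.perp (F ∙ act g u)) (by omega)
  obtain ⟨t, ht, ht'⟩ := exists_not_mem_of_lt (Y := f.perp (F ∙ u)) (A := F ∙ u) (by
    have h3 := hf.finrank_add_finrank_perp (F ∙ u)
    have h5 := finrank_span_single_le (F := F) u
    omega)
  have H := mem_of_ei_invariant hWn (by omega) hxW hx hx0
    (D := (LinearMap.ker (f.B u ∘ₗ (act g⁻¹).toLinearMap)).toAddSubgroup)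
    (fun a b c ok ha hb d hd _ => by
      have := perp_of_fix hf h2 hn hK hcon (K.mul_mem (K.mul_mem (K.inv_mem hg)
        (K.inv_mem (hK _ (ei_mem_E a b c)))) hg) hu hu0 (c := 1) (by
          rw [act_mul, act_mul, one_smul, ← act_inv_act g u]
          congr 1
          rw [act_act_inv, act_inv, act_ofLin, LinearEquiv.symm_apply_eq,
            ok.ei_apply_fix (f.B_eq_zero_symm (f.mem_perp_span_singleton.1 ha))
              (f.B_eq_zero_symm (f.mem_perp_span_singleton.1 hb))]) hd
      simp only [mul_inv_rev, inv_inv, act_mul, act_ofLin, LinearEquiv.coe_coe,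
        act_act_inv] at this
      exact this)
    (d := act g (t - (f.B (act g u) (act g t) / f.B (act g u) (act g u)) • u))
    (by
      change f.B u (act g⁻¹ _) = 0
      rw [act_inv_act, B_sub_right, B_smul_right, uu, f.mem_perp_span_singleton.1 ht]; simp)
    (by rw [f.mem_perp_span_singleton, map_sub, map_smul, B_sub_right, B_smul_right]; simp [xx])
    (fun e => ht' (Submodule.mem_span_singleton.2
      ⟨_, (sub_eq_zero.1 ((act g).injective (e.trans (map_zero _).symm))).symm⟩))
  refine hu0 (hf _ fun z => ?_)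
  have : f.B u (act g⁻¹ _) = 0 :=
    H (act g (z - (f.B (act g u) (act g z) / f.B (act g u) (act g u)) • u)) (by
      rw [f.mem_perp_span_singleton, map_sub, map_smul, B_sub_right, B_smul_right]; simp [xx])
  rwa [act_inv_act, B_sub_right, B_smul_right, uu, mul_zero, sub_zero] at this

theorem eigen_of_sing {g : GL ι F} (hg : g ∈ K) {u : ι → F} (hu : f.q u = 0) (hu0 : u ≠ 0) :
    ∃ c : F, ∀ x, f.B (act g u) (act g x) = c * f.B u x := by
  have hdim : finrank F (ι → F) = Fintype.card ι := Module.finrank_fintype_fun_eq_card F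
  obtain ⟨e, he, a, a0, ha⟩ := hf.exists_mem_E_apply_eq_smul (Or.inr (by omega))
    (sing_map hf h2 hn hK hcon hg hu) (by simpa using hu0) hu hu0
  obtain ⟨c, hc⟩ := exists_eq_smul_of_ker_le (φ := f.B u)
    (ψ := (f.comap (act g).toLinearMap).B u) fun z hz => by
      have := perp_of_fix hf h2 hn hK hcon (K.inv_mem (K.mul_mem (hK e he) hg)) hu hu0 (c := a⁻¹)
        (by rw [← act_inv_act (ofLin e * g) (a⁻¹ • u), map_smul, act_mul, act_ofLin, ha, smul_smul,
          inv_mul_cancel₀ a0, one_smul]) hz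
      rw [inv_inv, act_mul, act_ofLin] at this
      change f.B (act g u) (act g z) = 0
      rw [← mem_O_B (E_le_O he), ha, B_smul_left, this, mul_zero]
  exact ⟨c, fun y => congrArg (fun φ : Dual F (ι → F) => φ y) hc⟩

theorem mem_quadSim {g : GL ι F} (hg : g ∈ K) : g ∈ quadSimilarityGroup f.q := by
  have hdim : finrank F (ι → F) = Fintype.card ι := Module.finrank_fintype_fun_eq_card F
  obtain ⟨u, u', -, -, hu, hu', huu'⟩ := exists_hyp_perp hf (sing3_quad f) ⊥ (by simp; omega)
  have u0 : u ≠ 0 := by rintro rfl; simp at huu'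
  have u0' : u' ≠ 0 := by rintro rfl; simp at huu'
  obtain ⟨c, hc⟩ := eigen_of_sing hf h2 hn hK hcon hg hu u0
  obtain ⟨c', hc'⟩ := eigen_of_sing hf h2 hn hK hcon hg hu' u0'
  have e : c' = c := by
    have h3 := hc u'
    have h4 := hc' u
    rw [f.quad_symm, h3, f.quad_symm u, huu'] at h4
    linear_combination -h4
  have h1 := sim_on_perp4 hf h2 hn hK hcon hg hu u0 hc
  have h6 : ∀ v x, f.B (act g v) (act g x) = c * f.B v x := fun v x => by
    have e1 : v = (v - f.B u v • u') + f.B u v • u' := by abel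
    rw [e1, map_add, map_smul, B_add_left, B_add_left, h1 _ (by simp [huu']), qB_smul_left,
      qB_smul_left, hc', e]
    ring
  have hc0 : c ≠ 0 := by
    rintro rfl
    have := h6 (act g⁻¹ u) (act g⁻¹ u')
    simp [act_act_inv, huu'] at this
  refine ⟨Units.mk0 c hc0, fun v => ?_⟩
  have := h6 v v
  rw [f.quad_B_self, f.quad_B_self] at this
  apply mul_left_cancel₀ h2
  change 2 * f.q (act g v) = _
  rw [Units.val_mk0]
  linear_combination this

omit hK hcon in
theorem not_SL_le_quad4 : ¬ specialLinear ι F ≤ quadSimilarityGroup f.q := by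
  intro H
  have hdim : finrank F (ι → F) = Fintype.card ι := Module.finrank_fintype_fun_eq_card F
  obtain ⟨e, e', -, -, he, he', hee⟩ := exists_hyp_perp hf (sing3_quad f) ⊥ (by simp; omega)
  have hx : f.q (e + e') = 1 := by rw [f.q_add, he, he', hee]; simp [FormType.quad_π]
  have h3 := hf.finrank_add_finrank_perp (F ∙ (e + e'))
  have h5 := finrank_span_single_le (F := F) (e + e')
  obtain ⟨u, hu, u0, hu0⟩ := sing3_quad f (f.perp (F ∙ (e + e'))) (by omega)
  have hxu := f.mem_perp_span_singleton.1 hu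
  obtain ⟨φ, hφ1, hφ0⟩ := exists_dual_one_zero (F := F) (x := u) (u := e + e') fun h => by
    obtain ⟨c, rfl⟩ := Submodule.mem_span_singleton.1 h
    rw [f.quad_q_smul, hx] at hu0
    exact u0 (by simp [show c = 0 by simpa using hu0])
  obtain ⟨c, hc⟩ := H (tv_mem_SL (e + e') φ hφ0)
  have := hc u
  change f.q (act _ u) = c * f.q u at this
  rw [act_tv, hφ1, one_smul, f.q_add_of_B_eq_zero (f.B_eq_zero_symm hxu), hu0, hx] at this
  simp at this

end Quad

variable {ι : Type} [Fintype ι] [DecidableEq ι] {F : Type*} [Field F]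

theorem isMaximalIn_SL_herm4 [Finite F] (hn : 4 ≤ Fintype.card ι) {σ : F ≃+* F}
    {f : (ι → F) → (ι → F) → F} (hf : IsUnitaryForm σ f) :
    IsMaximalIn (specialLinear ι F) (similarityGroup f ⊓ specialLinear ι F) :=
  isMaximalIn_SL_herm_of hf
    (not_SL_le_herm3 (unitary_ne_id hf) (hermOfUnitary_nondeg hf) (by omega))
    fun _ hK _ hg hg' => SL_le_of_herm_lt4 (unitary_ne_id hf) (hermOfUnitary_nondeg hf) hn
      (fun e he => hK e (E_le_O he) (det_of_mem_E he)) hg hg'

theorem isMaximalIn_SL_quad4 [Fintype F] (hn : 4 ≤ Fintype.card ι) (hodd : Odd (Fintype.card F))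
    {Q : (ι → F) → F} (hQ : IsNondegenerateQuadraticForm Q) :
    IsMaximalIn (specialLinear ι F) (quadSimilarityGroup Q ⊓ specialLinear ι F) :=
  isMaximalIn_SL_quad_of hQ (not_SL_le_quad4 (quadOfGeo_nondeg hQ) (two_ne_zero_of_odd hodd) hn)
    fun _ hK _ hg hg' => by_contra fun hcon => hg' (mem_quadSim (quadOfGeo_nondeg hQ)
      (two_ne_zero_of_odd hodd) hn (fun e he => hK e (E_le_O he) (det_of_mem_E he)) hcon hg)

end CL.Four
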