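/-
Overgroups of subfield subgroups of odd prime index: the types with transvections.
-/
import Cfsg.Agent.CLAS.RatStd
import Cfsg.Agent.CLAS.TwoRoots

set_option autoImplicit false

namespace CL.Root

open Module CL.Witt CL.Witt.Form CL.Tv

theorem finrank_range_le_of_perp {F : Type*} [Field F] {T : FormType F} {V W : Type*}
    [AddCommGroup V] [Module F V] [FiniteDimensional F V] [AddCommGroup W] [Module F W]
    {f : Form T V} (hf : f.Nondeg) (h3 : Sing3 f) (Ψ : V →ₗ[F] W) (H : Submodule F V)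
    (hH : 2 * finrank F H + 3 ≤ finrank F V) (D : Submodule F W) [FiniteDimensional F D]
    (h : ∀ b ∈ f.perp H, f.q b = 0 → Ψ b ∈ D) :
    finrank F (LinearMap.range Ψ) ≤ finrank F D + finrank F H := by
  obtain ⟨p, p', hp, hp', hp0, hp'0, hpp'⟩ := exists_hyp_perp hf h3 H hH
  have h1 : f.perp H ≤ D.comap Ψ :=
    le_of_singular hp0 hp'0 (by rw [hpp']; exact one_ne_zero) hp hp' h
  obtain ⟨C, hC⟩ := (f.perp H).exists_isCompl
  have h2 := Submodule.finrank_add_eq_of_isCompl hC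
  have h3 := hf.finrank_add_finrank_perp H
  have h4 : LinearMap.range Ψ ≤ D ⊔ C.map Ψ := by
    rw [← Submodule.map_top, ← hC.sup_eq_top, Submodule.map_sup]
    exact sup_le_sup_right (Submodule.map_le_iff_le_comap.2 h1) _
  have h5 := Submodule.finrank_mono h4
  have h6 := Submodule.finrank_add_le_finrank_add_finrank D (C.map Ψ)
  have h7 := Submodule.finrank_map_le Ψ C
  omega

theorem oppPair_tv {F : Type*} [Field F] {T : FormType F} {V : Type*} [AddCommGroup V] [Module F V]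
    {f : Form T V} {x u : V} (hx : f.q x = 0) (hu : f.q u = 0) {c d : F} (hc : T.π c = 0)
    (hd : T.π d = 0) :
    OppPair (f.ei x 0 c) (f.ei u 0 d) (F ∙ x) (F ∙ u) (c * d * (f.B u x * f.B x u)) where
  yX s := by
    rw [ei_zero_apply hx hc, sub_sub_cancel_left]
    exact Submodule.neg_mem _ (Submodule.smul_mem _ _ (Submodule.mem_span_singleton_self x))
  yfix ξ hξ := by
    obtain ⟨s, rfl⟩ := Submodule.mem_span_singleton.1 hξ
    rw [map_smul, (eichOK_zero hx hc).ei_apply_u]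
  eJ s := by
    rw [ei_zero_apply hu hd, sub_sub_cancel_left]
    exact Submodule.neg_mem _ (Submodule.smul_mem _ _ (Submodule.mem_span_singleton_self u))
  efix ξ hξ := by
    obtain ⟨s, rfl⟩ := Submodule.mem_span_singleton.1 hξ
    rw [map_smul, (eichOK_zero hu hd).ei_apply_u]
  par ξ hξ := by
    obtain ⟨s, rfl⟩ := Submodule.mem_span_singleton.1 hξ
    rw [ei_zero_apply hu hd, sub_sub_cancel_left, ei_zero_apply hx hc, f.B_neg_right,
      f.B_smul_right, f.B_smul_right]
    linear_combination (norm := module) (c * d * s * f.B u x * f.B x u * T.εε) • x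

theorem mem_range_of_sq_eq_neg_one {F₀ F : Type*} [Field F₀] [Field F] [Algebra F₀ F]
    (hr : (finrank F₀ F).Prime) (hr2 : finrank F₀ F ≠ 2) {l : F} (hl : l ^ 2 = -1) :
    l ∈ Set.range (algebraMap F₀ F) := by
  have := Subalgebra.isSimpleOrder_of_finrank_prime F₀ F hr
  let A : Subalgebra F₀ F :=
    { carrier := Submodule.span F₀ {1, l}
      add_mem' := fun ha hb => Submodule.add_mem _ ha hb
      mul_mem' := fun {a b} ha hb => by
        obtain ⟨s, t, rfl⟩ := Submodule.mem_span_pair.1 ha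
        obtain ⟨s', t', rfl⟩ := Submodule.mem_span_pair.1 hb
        refine Submodule.mem_span_pair.2 ⟨s * s' - t * t', s * t' + t * s', ?_⟩
        simp only [Algebra.smul_def, map_sub, map_add, map_mul]
        linear_combination (-(algebraMap F₀ F t * algebraMap F₀ F t')) * hl
      algebraMap_mem' := fun c => Submodule.mem_span_pair.2 ⟨c, 0, by simp [Algebra.smul_def]⟩ }
  rcases eq_bot_or_eq_top A with h | h
  · have : l ∈ A := Submodule.subset_span (by simp)
    rwa [h, Algebra.mem_bot] at this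
  · have h1 : Submodule.span F₀ {1, l} = ⊤ := eq_top_iff.2 fun a _ => by
      have : a ∈ A := by rw [h]; trivial
      exact this
    have h2 := finrank_span_pair_le (F := F₀) (1 : F) l
    rw [h1, finrank_top] at h2
    have := hr.two_le
    omega

namespace RatExt

variable {F₀ F : Type*} [Field F₀] [Field F] [Algebra F₀ F] {T₀ : FormType F₀}
  {T : FormType F} {V₀ V : Type*} [AddCommGroup V₀] [Module F₀ V₀] [AddCommGroup V] [Module F V]
  {f₀ : Form T₀ V₀} {f : Form T V} {R : RatExt f₀ f} [FiniteDimensional F₀ V₀]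
  {K : Subgroup (V ≃ₗ[F] V)}

local notation "ι₀" => algebraMap F₀ F

omit [FiniteDimensional F₀ V₀] in
theorem ei_zero (u : V₀) (a : F₀) : R.ei u 0 a = f.ei (R.j u) 0 (T.σ R.η * ι₀ a) := by
  rw [ei, map_zero, smul_zero]

omit [FiniteDimensional F₀ V₀] in
theorem π_ση {a : F₀} (ha : T₀.π a = 0) : T.π (T.σ R.η * ι₀ a) = 0 := by
  rw [R.hq 0 a (by rw [ha, f₀.q_zero]), map_zero, f.q_zero, mul_zero]

theorem mem_of_j_mem (hf₀ : f₀.Nondeg) {H : Submodule F₀ V₀} {w : V₀}
    (h : R.j w ∈ Submodule.span F (R.j '' H)) : w ∈ H := by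
  rw [← hf₀.perp_perp H]
  intro u hu
  have : Submodule.span F (R.j '' H) ≤ LinearMap.ker (f.B (R.j u)) := by
    rw [Submodule.span_le]
    rintro _ ⟨v, hv, rfl⟩
    exact R.B_j_eq_zero_iff.2 (f₀.B_eq_zero_symm (hu v hv))
  exact R.B_j_eq_zero_iff.1 (this h)

theorem Small.param_mem (hs : R.Small K) (hK : R.Over K) (hKO : K ≤ f.O) (hf₀ : f₀.Nondeg)
    (h3 : Sing3 f₀) (hn : 13 ≤ finrank F₀ V₀) {a b : V₀} {t : F₀} (ok : f₀.EichOK a b t)
    {v : V₀} (hv : f₀.ei a b t v ≠ v) {k : V ≃ₗ[F] V} (hk : k ∈ K) {l : F}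
    (h : ∀ s, k s = s + l • (R.ei a b t s - s)) : l ∈ Set.range (algebraMap F₀ F) := by
  obtain ⟨w, hw⟩ := hs.rat_of_fix hK hKO hf₀ h3 hn hk (H := Submodule.span F₀ {a, b})
    (by have := finrank_span_pair_le (F := F₀) a b; omega) (fun u hu => by
      rw [mem_perp_span_pair] at hu
      rw [h, R.ei_fix ok hu.1 hu.2, sub_self, smul_zero, add_zero]) v
  refine R.mem_range_of_smul hf₀ (sub_ne_zero.2 hv) (v' := w - v) ?_
  rw [map_sub, map_sub, hw, h, R.ei_j ok, add_sub_cancel_left]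

theorem Small.of_central (hs : R.Small K) (hK : R.Over K) (hKO : K ≤ f.O) (hf₀ : f₀.Nondeg)
    (hf : f.Nondeg) (h3 : Sing3 f₀) (hn : 13 ≤ finrank F₀ V₀) {z : V ≃ₗ[F] V} (hz : z ∈ K)
    (hzz : z * z = 1) {H : Submodule F₀ V₀} (hH : finrank F₀ H ≤ 4)
    (h : ∀ s, z s - s ∈ Submodule.span F (R.j '' H)) (v : V₀) :
    ∃ w ∈ H, z (R.j v) = R.j v + R.j w := by
  obtain ⟨w, hw⟩ := hs.rat_of_fix hK hKO hf₀ h3 hn hz hH (fun u hu => by
    refine sub_eq_zero.1 (hf _ fun s => ?_)
    have : Submodule.span F (R.j '' H) ≤ LinearMap.ker (f.B (R.j u)) := by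
      rw [Submodule.span_le]
      rintro _ ⟨v, hv, rfl⟩
      exact R.B_j_eq_zero_iff.2 (f₀.B_eq_zero_symm (hu v hv))
    have h1 : f.B (R.j u) (z s - s) = 0 := this (h s)
    rw [f.B_sub_left, B_apply_left (hKO hz), inv_eq_of_mul_eq_one_right hzz, ← f.B_sub_right, h1])
    v
  refine ⟨w - v, mem_of_j_mem (R := R) hf₀ ?_, by rw [map_sub, hw]; abel⟩
  rw [map_sub, hw]; exact h _

omit [FiniteDimensional F₀ V₀] in
theorem exists_j_ne {z : V ≃ₗ[F] V} (hz : z ≠ 1) : ∃ v, z (R.j v) ≠ R.j v := by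
  by_contra! H
  exact hz (LinearEquiv.toLinearMap_injective (R.ext_j H))

/-- Odd characteristic: a transvection in `K` has a centre of small support. -/
theorem Small.rank_tv_odd (hs : R.Small K) (hK : R.Over K) (hKO : K ≤ f.O) (hf₀ : f₀.Nondeg)
    (h3 : Sing3 f₀) (hn : 13 ≤ finrank F₀ V₀) {a₀ : F₀} (ha₀ : a₀ ≠ 0) (ha₀' : T₀.π a₀ = 0)
    (hT : (∀ a, T.σ a = a) ∨ ∃ θ, T₀.σ θ ≠ θ) (h2 : (2 : F) ≠ 0) (hD : DicksonProp F)
    (hsq : ∀ l : F, l ^ 2 = -1 → l ∈ Set.range (algebraMap F₀ F)) {x : V} {c : F}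
    (hx : f.q x = 0) (hc : T.π c = 0) (hc0 : c ≠ 0) (hy : f.ei x 0 c ∈ K) {a : V₀}
    (ha : f₀.q a = 0) (hxa : f.B x (R.j a) ≠ 0) : finrank F₀ (LinearMap.range (R.ψ x)) ≤ 2 := by
  set d := T.σ R.η * ι₀ a₀ with hd
  have hd' : T.π d = 0 := π_ση ha₀'
  have hd0 : d ≠ 0 := mul_ne_zero R.ση_ne ((map_ne_zero _).2 ha₀)
  have key : ∀ u, f₀.q u = 0 →
      c * d * (f.B (R.j u) x * f.B x (R.j u)) ∈ (algebraMap F₀ F).range := by
    intro u hu
    set l := c * d * (f.B (R.j u) x * f.B x (R.j u)) with hl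
    by_cases h0 : l = 0
    · rw [h0]; exact zero_mem _
    by_cases h1 : l ^ 2 = -1
    · exact hsq l h1
    have hu0 : u ≠ 0 := by rintro rfl; simp [hl] at h0
    have ok := eichOK_zero hu ha₀'
    obtain ⟨k, hk, hk'⟩ := (oppPair_tv hx (R.q_j hu) hc hd').exists_param hD (fun ω hω => by
      rw [(oppPair_tv (R.q_j hu) hx hd' hc).par ω hω]; congr 2; ring) h0 h1 hy
      (by rw [← ei_zero]; exact hK _ _ _ ok)
    obtain ⟨v, hv⟩ := hf₀.exists_B_eq hu0 1
    refine hs.param_mem hK hKO hf₀ h3 hn ok (v := v) ?_ hk (by rw [ei_zero]; exact hk')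
    rw [ei_zero_apply hu ha₀', hv, Ne, sub_eq_self]
    simp [T₀.ε_ne_zero, ha₀, hu0]
  have hσc : T.σ c = -(T.ε * c) := by
    have := T.π_ker c hc
    linear_combination T.ε * this - T.σ c * T.εε
  have hσd : T.σ d = -(T.ε * d) := by
    have := T.π_ker d hd'
    linear_combination T.ε * this - T.σ d * T.εε
  set γ := c * d * f.B (R.j a) x with hγ
  have hγ0 : γ ≠ 0 := mul_ne_zero (mul_ne_zero hc0 hd0) fun h => hxa (f.B_eq_zero_symm h)
  have h1 := finrank_range_le_of_perp hf₀ h3 (R.ψ x) (F₀ ∙ a)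
    (by have := finrank_span_single_le (F := F₀) a; omega) (F₀ ∙ γ⁻¹) fun b hb hb0 => by
      rw [mem_perp_span_singleton] at hb
      set β := γ * f.B x (R.j b) with hβ
      have hσβ : T.σ β = c * d * (f.B (R.j b) x * f.B x (R.j a)) := by
        rw [hβ, hγ, map_mul, map_mul, map_mul, hσc, hσd, f.σ_B, f.σ_B]
        linear_combination (c * d * f.B (R.j b) x * f.B x (R.j a) * (T.ε * T.ε + 1)) * T.εε
      have e : ∀ t : F₀, ι₀ t * β + ι₀ (T₀.σ t) * T.σ β ∈ (algebraMap F₀ F).range := by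
        intro t
        have := sub_mem (sub_mem (key (a + t • b) (by
          rw [f₀.q_add_of_B_eq_zero (by rw [f₀.B_smul_right, hb, mul_zero]), ha,
            f₀.q_smul_eq_zero hb0, add_zero])) (key a ha)) (key (t • b) (f₀.q_smul_eq_zero hb0 t))
        convert this using 1
        rw [hσβ, hβ, hγ]
        simp only [map_add, R.j_smul, LinearMap.add_apply, B_smul_left, B_smul_right, R.hσ]
        ring
      obtain ⟨m, hm⟩ : β ∈ (algebraMap F₀ F).range := by
        rcases hT with hT | ⟨θ, hθ⟩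
        · obtain ⟨m, hm⟩ := e 1
          have h2' : (2 : F₀) ≠ 0 := fun h => h2 (by rw [← map_ofNat ι₀ 2, h, map_zero])
          refine ⟨m / 2, ?_⟩
          rw [map_div₀, hm, hT, map_ofNat]
          simp only [map_one]
          field_simp; ring
        · obtain ⟨m, hm⟩ := e 1
          obtain ⟨m', hm'⟩ := e θ
          have : ι₀ θ - ι₀ (T₀.σ θ) ≠ 0 := by
            rw [← map_sub]; exact (map_ne_zero _).2 (sub_ne_zero.2 hθ.symm)
          refine ⟨(m' - T₀.σ θ * m) / (θ - T₀.σ θ), ?_⟩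
          rw [map_div₀, map_sub, map_sub, map_mul, hm, hm', div_eq_iff this]
          simp only [map_one]
          ring
      refine Submodule.mem_span_singleton.2 ⟨m, ?_⟩
      rw [Algebra.smul_def, hm, hβ, ψ_apply]
      field_simp
  have := finrank_span_single_le (F := F₀) a
  have := finrank_span_single_le (F := F₀) γ⁻¹
  omega

/-- Characteristic two: a transvection in `K` has a centre of small support. -/
theorem Small.rank_tv_two [Finite V] (hs : R.Small K) (hK : R.Over K) (hKO : K ≤ f.O)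
    (hf₀ : f₀.Nondeg) (hf : f.Nondeg)
    (h3 : Sing3 f₀) (hn : 13 ≤ finrank F₀ V₀) {a₀ : F₀} (ha₀ : a₀ ≠ 0) (ha₀' : T₀.π a₀ = 0)
    (hT : (∀ a, T.σ a = a) ∨ ∃ θ, T₀.σ θ ≠ θ) (h2 : (2 : F) = 0) {x : V} {c : F}
    (hx : f.q x = 0) (hc : T.π c = 0) (hc0 : c ≠ 0) (hy : f.ei x 0 c ∈ K) {a : V₀}
    (ha : f₀.q a = 0) (hxa : f.B x (R.j a) ≠ 0) : finrank F₀ (LinearMap.range (R.ψ x)) ≤ 2 := by
  set d := T.σ R.η * ι₀ a₀ with hd
  have hd' : T.π d = 0 := π_ση ha₀'
  have hd0 : d ≠ 0 := mul_ne_zero R.ση_ne ((map_ne_zero _).2 ha₀)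
  have ha0 : a ≠ 0 := by rintro rfl; simp at hxa
  have key : ∀ b, f₀.q b = 0 → f₀.B a b = 0 →
      f.B (R.j a) x * f.B x (R.j a) + f.B (R.j b) x * f.B x (R.j b) ≠ 0 →
      R.ψ x b ∈ F₀ ∙ R.ψ x a := by
    intro b hb hab hl
    by_cases hba : b ∈ F₀ ∙ a
    · obtain ⟨s, rfl⟩ := Submodule.mem_span_singleton.1 hba
      rw [map_smul]; exact Submodule.smul_mem _ _ (Submodule.mem_span_singleton_self _)
    have hab' : f.B (R.j a) (R.j b) = 0 := R.B_j_eq_zero_iff.2 hab
    have hba' : f.B (R.j b) (R.j a) = 0 := f.B_eq_zero_symm hab'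
    have haa := f.B_self_eq_zero (R.q_j ha)
    have hbb := f.B_self_eq_zero (R.q_j hb)
    set e := f.ei (R.j a) 0 d * f.ei (R.j b) 0 d with he
    have heK : e ∈ K := K.mul_mem (by rw [← ei_zero]; exact hK _ _ _ (eichOK_zero ha ha₀'))
      (by rw [← ei_zero]; exact hK _ _ _ (eichOK_zero hb ha₀'))
    have he' : ∀ s, e s - s =
        -((T.ε * d * f.B (R.j a) s) • R.j a + (T.ε * d * f.B (R.j b) s) • R.j b) := by
      intro s
      rw [he, LinearEquiv.mul_apply, ei_zero_apply (R.q_j ha) hd', ei_zero_apply (R.q_j hb) hd',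
        f.B_sub_right, f.B_smul_right, hab']
      module
    set H := Submodule.span F₀ {a, b} with hH
    have haH : R.j a ∈ Submodule.span F (R.j '' H) :=
      Submodule.subset_span ⟨a, Submodule.subset_span (by simp), rfl⟩
    have hbH : R.j b ∈ Submodule.span F (R.j '' H) :=
      Submodule.subset_span ⟨b, Submodule.subset_span (by simp), rfl⟩
    have op : OppPair (f.ei x 0 c) e (F ∙ x) (Submodule.span F (R.j '' H))
        (c * d * (f.B (R.j a) x * f.B x (R.j a) + f.B (R.j b) x * f.B x (R.j b))) :=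
      { yX := (oppPair_tv hx hx hc hc).yX
        yfix := (oppPair_tv hx hx hc hc).yfix
        eJ := fun s => by
          rw [he']
          exact Submodule.neg_mem _ (Submodule.add_mem _ (Submodule.smul_mem _ _ haH)
            (Submodule.smul_mem _ _ hbH))
        efix := fun ω hω => by
          have : Submodule.span F (R.j '' H) ≤
              LinearMap.ker (f.B (R.j a)) ⊓ LinearMap.ker (f.B (R.j b)) := by
            rw [Submodule.span_le]
            rintro _ ⟨v, hv, rfl⟩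
            obtain ⟨s, t, rfl⟩ := Submodule.mem_span_pair.1 hv
            simp [R.j_smul, haa, hbb, hab', hba']
          have h1 : f.B (R.j a) ω = 0 := (this hω).1
          have h2 : f.B (R.j b) ω = 0 := (this hω).2
          rw [← sub_eq_zero, he', h1, h2]; simp
        par := fun ξ hξ => by
          obtain ⟨s, rfl⟩ := Submodule.mem_span_singleton.1 hξ
          rw [he', ei_zero_apply hx hc]
          simp only [B_neg_right, B_add_right, B_smul_right]
          linear_combination (norm := module) (c * d * s * (f.B (R.j a) x * f.B x (R.j a) +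
            f.B (R.j b) x * f.B x (R.j b)) * T.εε) • x }
    have hnc : ¬ IsConj (f.ei x 0 c) e := by
      intro hcj
      obtain ⟨g, hg⟩ := isConj_iff.1 hcj
      have h1 : ∀ s, ∃ t : F, e s - s = t • g x := fun s => by
        obtain ⟨t, ht⟩ := Submodule.mem_span_singleton.1 (op.yX (g⁻¹ s))
        refine ⟨t, ?_⟩
        rw [← map_smul, ht, map_sub, ← hg, ← LinearEquiv.mul_apply g g⁻¹, mul_inv_cancel]
        rfl
      obtain ⟨v, hv⟩ := hf₀.exists_B_eq_family' (li2 ha0 hba) ![0, 1]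
      obtain ⟨v', hv'⟩ := hf₀.exists_B_eq_family' (li2 ha0 hba) ![1, 0]
      have v0 : f.B (R.j b) (R.j v) = 0 := R.B_j_eq_zero_iff.2 (hv 0)
      have v1 : f.B (R.j a) (R.j v) ≠ 0 := fun h => by
        have := (hv 1).symm.trans (R.B_j_eq_zero_iff.1 h); simp at this
      have v'0 : f.B (R.j a) (R.j v') = 0 := R.B_j_eq_zero_iff.2 (hv' 1)
      have v'1 : f.B (R.j b) (R.j v') ≠ 0 := fun h => by
        have := (hv' 0).symm.trans (R.B_j_eq_zero_iff.1 h); simp at this
      obtain ⟨t, ht⟩ := h1 (R.j v)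
      obtain ⟨t', ht'⟩ := h1 (R.j v')
      rw [he', v0] at ht
      rw [he', v'0] at ht'
      have e1 := congrArg (f.B (R.j v)) ht
      have e2 := congrArg (f.B (R.j v)) ht'
      have e3 := congrArg (f.B (R.j v')) ht'
      simp only [B_neg_right, B_add_right, B_smul_right, f.B_eq_zero_symm v0, mul_zero, zero_mul,
        add_zero, zero_add, neg_zero] at e1 e2 e3
      have n1 : f.B (R.j v) (R.j a) ≠ 0 := fun h => v1 (f.B_eq_zero_symm h)
      have n2 : f.B (R.j v') (R.j b) ≠ 0 := fun h => v'1 (f.B_eq_zero_symm h)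
      rcases mul_eq_zero.1 e2.symm with h | h
      · rw [h, zero_mul] at e3
        simp [T.ε_ne_zero, hd0, v'1, n2] at e3
      · rw [h, mul_zero] at e1
        simp [T.ε_ne_zero, hd0, v1, n1] at e1
    obtain ⟨m, hz1, hzz, hzX, hzJ⟩ := op.exists_central h2
      (mul_ne_zero (mul_ne_zero hc0 hd0) hl) hnc
    have hzK : (f.ei x 0 c * e) ^ m ∈ K := K.pow_mem (K.mul_mem hy heK) m
    set z := (f.ei x 0 c * e) ^ m
    obtain ⟨v, hv⟩ := exists_j_ne (R := R) hz1
    obtain ⟨w, hwH, hw⟩ := hs.of_central hK hKO hf₀ hf h3 hn hzK hzz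
      (by have := finrank_span_pair_le (F := F₀) a b; rw [hH]; omega) hzJ v
    have hw0 : w ≠ 0 := by rintro rfl; simp [hw] at hv
    have hψ : R.ψ x w = 0 := by
      have := mem_O_B (hKO hzK) x (R.j v)
      rw [hzX x (Submodule.mem_span_singleton_self x), hw, f.B_add_right] at this
      rw [ψ_apply]; linear_combination this
    obtain ⟨s, t, rfl⟩ := Submodule.mem_span_pair.1 hwH
    rw [map_add, map_smul, map_smul] at hψ
    have ht : t ≠ 0 := by
      rintro rfl
      have : s = 0 := by simpa [ψ_apply, hxa] using hψ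
      simp [this] at hw0
    refine Submodule.mem_span_singleton.2 ⟨-(t⁻¹ * s), ?_⟩
    apply smul_right_injective F ht
    dsimp only
    rw [smul_smul, mul_neg, mul_inv_cancel_left₀ ht, neg_smul]
    exact neg_eq_of_add_eq_zero_right hψ
  have h1 := finrank_range_le_of_perp hf₀ h3 (R.ψ x) (F₀ ∙ a)
    (by have := finrank_span_single_le (F := F₀) a; omega) (F₀ ∙ R.ψ x a) fun b hb hb0 => by
      rw [mem_perp_span_singleton] at hb
      by_cases hxb : f.B x (R.j b) = 0
      · rw [ψ_apply x b, hxb]; exact Submodule.zero_mem _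
      have hxb' : f.B (R.j b) x ≠ 0 := fun h => hxb (f.B_eq_zero_symm h)
      obtain ⟨t, ht0, ht⟩ : ∃ t : F₀, t ≠ 0 ∧ f.B (R.j a) x * f.B x (R.j a) +
          f.B (R.j (a + t • b)) x * f.B x (R.j (a + t • b)) ≠ 0 := by
        by_contra! H
        have H' : ∀ t : F₀, ι₀ (T₀.σ t) * ι₀ t * (f.B (R.j b) x * f.B x (R.j b)) +
            ι₀ t * (f.B (R.j a) x * f.B x (R.j b)) +
            ι₀ (T₀.σ t) * (f.B (R.j b) x * f.B x (R.j a)) = 0 := by
          intro t
          by_cases ht : t = 0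
          · simp [ht]
          have := H t ht
          simp only [map_add, R.j_smul, LinearMap.add_apply, B_smul_left, B_smul_right, R.hσ] at this
          linear_combination this - (f.B (R.j a) x * f.B x (R.j a)) * h2
        rcases hT with hT | ⟨θ, hθ⟩
        · have := H' 1
          rw [f.symm x (R.j a), f.symm x (R.j b), hT, hT] at this
          simp only [map_one] at this
          refine mul_ne_zero (mul_ne_zero T.ε_ne_zero hxb) hxb ?_
          linear_combination this - (T.ε * f.B x (R.j a) * f.B x (R.j b)) * h2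
        · have e1 := H' 1
          have e2 := H' θ
          have e3 := H' (1 + θ)
          simp only [map_one, map_add] at e1 e3
          have : ι₀ θ - ι₀ (T₀.σ θ) ≠ 0 := by
            rw [← map_sub]; exact (map_ne_zero _).2 (sub_ne_zero.2 hθ.symm)
          refine mul_ne_zero this (mul_ne_zero hxb' hxb) ?_
          linear_combination e3 - e1 - e2 -
            (ι₀ (T₀.σ θ) * (f.B (R.j b) x * f.B x (R.j b))) * h2
      have := key (a + t • b) (by
          rw [f₀.q_add_of_B_eq_zero (by rw [f₀.B_smul_right, hb, mul_zero]), ha,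
            f₀.q_smul_eq_zero hb0, add_zero])
        (by rw [f₀.B_add_right, f₀.B_smul_right, hb, f₀.B_self_eq_zero ha]; simp) ht
      rw [map_add, map_smul] at this
      have := Submodule.smul_mem _ t⁻¹
        (Submodule.sub_mem _ this (Submodule.mem_span_singleton_self _))
      rwa [add_sub_cancel_left, smul_smul, inv_mul_cancel₀ ht0, one_smul] at this
  have := finrank_span_single_le (F := F₀) a
  have := finrank_span_single_le (F := F₀) (R.ψ x a)
  omega

/-- Overgroups of subfield subgroups of odd prime index, for the types with transvections. -/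
theorem Over.E_le_or_mem_tv [Finite V₀] [Finite V] [FiniteDimensional F V] (hK : R.Over K)
    (hKO : K ≤ f.O) (hf₀ : f₀.Nondeg) (hf : f.Nondeg) (h3 : Sing3 f₀) (hn : 13 ≤ finrank F₀ V₀)
    (hr : (finrank F₀ F).Prime) (hc : R.CenOK) {a₀ : F₀} (ha₀ : a₀ ≠ 0) (ha₀' : T₀.π a₀ = 0)
    (hT : (∀ a, T.σ a = a) ∨ ∃ θ, T₀.σ θ ≠ θ) (hD : (2 : F) ≠ 0 → DicksonProp F)
    {g : V ≃ₗ[F] V} (hg : g ∈ K) : f.E ≤ K ∨ g ∈ R.stab := by
  by_cases hr2 : finrank F₀ F = 2
  · exact hK.E_le_or_mem_two hKO hf₀ hf h3 hn hr2 hc hg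
  refine (hK.E_le_or_small hKO hf₀ hf h3 (by omega) hr hc).imp_right
    fun hs => mem_stab_of_conj' hf₀ hf h3 (by omega) (fun _ v _ => v = 0)
      (fun M hM => (Iso3.idx2 h3 hf₀ (by omega)).E_le_of_tv hf₀ ha₀ ha₀'
        fun u a hu ha => hM u 0 a (eichOK_zero hu ha) rfl) ?_
  rintro u _ a ok rfl v
  have ha : T₀.π a = 0 := by rw [ok.ha, f₀.q_zero]
  have hc' : T.π (T.σ R.η * ι₀ a) = 0 := π_ση ha
  have e : g * R.ei u 0 a * g⁻¹ = f.ei (g (R.j u)) 0 (T.σ R.η * ι₀ a) := by
    rw [ei_zero, (eichOK_zero (R.q_j ok.hu) hc').conj_ei (hKO hg), map_zero]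
  have hy : f.ei (g (R.j u)) 0 (T.σ R.η * ι₀ a) ∈ K :=
    e ▸ K.mul_mem (K.mul_mem hg (hK u 0 a ok)) (K.inv_mem hg)
  rw [e]
  have hx : f.q (g (R.j u)) = 0 := by rw [mem_O_q (hKO hg), R.q_j ok.hu]
  set x := g (R.j u)
  set c := T.σ R.η * ι₀ a
  by_cases hc0 : c = 0
  · rw [hc0, Form.ei_zero]; exact ⟨v, rfl⟩
  by_cases H : ∀ b, f₀.q b = 0 → f.B x (R.j b) = 0
  · obtain ⟨b, b', rfl, hb, hb'⟩ := eq_add_singular hf₀ h3 (by omega) v
    rw [ei_zero_apply hx hc', map_add, f.B_add_right, H b hb, H b' hb', ← map_add]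
    exact ⟨b + b', by simp⟩
  push Not at H
  obtain ⟨b, hb, hxb⟩ := H
  have hrk : finrank F₀ (LinearMap.range (R.ψ x)) ≤ 2 := by
    by_cases h2 : (2 : F) = 0
    · exact hs.rank_tv_two hK hKO hf₀ hf h3 hn ha₀ ha₀' hT h2 hx hc' hc0 hy hb hxb
    · exact hs.rank_tv_odd hK hKO hf₀ h3 hn ha₀ ha₀' hT h2 (hD h2)
        (fun l hl => mem_range_of_sq_eq_neg_one hr hr2 hl) hx hc' hc0 hy hb hxb
  refine hs.rat_of_fix' hK hKO hf₀ h3 hn hy (Z := LinearMap.ker (R.ψ x))
    (by have := LinearMap.finrank_range_add_finrank_ker (R.ψ x); omega) (fun w hw => ?_) v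
  have : f.B x (R.j w) = 0 := hw
  rw [ei_zero_apply hx hc', this]; simp

theorem cenOK_alt [Finite F] {f₀ : Form (FormType.alt F₀) V₀} {f : Form (FormType.alt F) V}
    (R : RatExt f₀ f) (hf₀ : f₀.Nondeg) (hn : 7 ≤ finrank F₀ V₀) : R.CenOK := by
  by_cases h2 : (2 : F) = 0
  swap
  · refine cenOK_of_π hf₀ (sing3_alt f₀) (by omega) fun a _ => ⟨a / 2, ?_⟩
    rw [FormType.alt_ε, FormType.alt_σ]; field_simp; ring
  intro K hK hKO u hu _ h c _
  obtain ⟨l, hl⟩ := exists_sq_eq_of_two_eq_zero h2 (-(c * R.η))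
  have key : ∀ b, f₀.B u b = 0 → b ∉ F₀ ∙ u → f.ei (R.j u) (l • R.j b) c ∈ K := by
    intro b hub hb
    obtain ⟨v, hv, hbv⟩ := hf₀.exists_perp_eq' hb 1
    have huv : f₀.B u v = 0 := hv u (Submodule.mem_span_singleton_self u)
    obtain ⟨a, ok, ha⟩ := h (l • R.j v) (by rw [f.B_smul_right, R.B_j_eq_zero_iff.2 huv, mul_zero])
    have ok1 : f₀.EichOK b 0 1 := eichOK_zero (f₀.alt_q b) rfl
    have hg := hK _ _ _ ok1
    have e := (ok.commutator_fix_ei (R.ei_mem_O b 0 1)
      (R.ei_fix ok1 (f₀.B_eq_zero_symm hub) (f₀.B_zero_left u))).2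
    have e0 : R.η * f.B (R.j b) (R.j v) = 1 := by rw [← R.hB, hbv, map_one]
    have e1 : R.ei b 0 1 (l • R.j v) = l • R.j v + l • R.j b := by
      rw [R.ei_apply ok1, map_zero, f.B_zero_left, f.B_smul_right, FormType.alt_ε]
      simp only [map_neg, map_one]
      linear_combination (norm := module) (l * e0) • R.j b
    have e2 : f.B (l • R.j v - (l • R.j v + l • R.j b)) (l • R.j v) = c := by
      rw [sub_add_cancel_left, f.B_neg_left, f.B_smul_left, f.B_smul_right, FormType.alt_σ]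
      linear_combination (-f.B (R.j b) (R.j v)) * hl + c * e0
    rw [e1, e2, add_sub_cancel_left] at e
    rw [← e, commutatorElement_def]
    exact K.mul_mem (K.mul_mem (K.mul_mem hg ha) (K.inv_mem hg)) (K.inv_mem ha)
  obtain ⟨b, hb, -, hbH⟩ := exists_sol_zero hf₀ (sing3_alt f₀) (F₀ ∙ u)
    (by have := finrank_span_single_le (F := F₀) u; omega)
  obtain ⟨b', hb', -, hb'H⟩ := exists_sol_zero hf₀ (sing3_alt f₀) (Submodule.span F₀ {u, b})
    (by have := finrank_span_pair_le (F := F₀) u b; omega)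
  have hub : f₀.B u b = 0 := hb u (Submodule.mem_span_singleton_self u)
  have hub' : f₀.B u b' = 0 := hb' u (Submodule.subset_span (by simp))
  have hbb' : f₀.B b b' = 0 := hb' b (Submodule.subset_span (by simp))
  have ok : ∀ v a, f₀.B u v = 0 → f.EichOK (R.j u) (l • R.j v) a := fun v a hv =>
    ⟨f.alt_q _, by rw [f.B_smul_right, R.B_j_eq_zero_iff.2 hv, mul_zero], (f.alt_q _).symm⟩
  have k1 := key b hub hbH
  have k2 := key b' hub' fun h => hb'H (Submodule.span_mono (by simp) h)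
  have hubb' : f₀.B u (b + b') = 0 := by rw [f₀.B_add_right, hub, hub', add_zero]
  have k3 := key (b + b') hubb' fun h => hb'H (by
    have h1 : b + b' ∈ Submodule.span F₀ {u, b} := Submodule.span_mono (by simp) h
    have := Submodule.sub_mem _ h1 (Submodule.subset_span (s := {u, b}) (a := b) (by simp))
    rwa [add_sub_cancel_left] at this)
  have k4 := K.mul_mem k1 k2
  rw [(ok b c hub).ei_mul (ok b' c hub'), ← smul_add, ← map_add, f.B_smul_left, f.B_smul_right,
    R.B_j_eq_zero_iff.2 hbb', mul_zero, mul_zero, add_zero,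
    ((ok _ c hubb').ei_eq_mul (ok _ (c + c) hubb')).2, add_sub_cancel_right] at k4
  exact (K.mul_mem_cancel_left k3).1 k4

end RatExt

theorem exists_pow_ne_of_odd {F : Type*} [Field F] [Fintype F] {q r : ℕ}
    (hF : Fintype.card F = q ^ 2) {F₀ : Subfield F} (hro : Odd r)
    (hcard : Fintype.card F = Nat.card F₀ ^ r) : ∃ θ : F₀, (θ : F) ^ q ≠ θ := by
  by_contra! H
  have hle : F₀ ≤ CL.SqField.fixedSubfield hF := fun x hx => H ⟨x, hx⟩
  let := (Subfield.inclusion hle).toAlgebra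
  have h1 := Module.natCard_eq_pow_finrank (K := F₀) (V := CL.SqField.fixedSubfield hF)
  rw [CL.SqField.card_fixedSubfield] at h1
  rw [hF, h1, ← pow_mul] at hcard
  have := Nat.pow_right_injective (Finite.one_lt_card (α := F₀)) hcard
  rw [← this] at hro
  exact Nat.not_odd_iff_even.2 (even_two.mul_left _) hro

end CL.Root
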