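/-
Overgroups of subfield subgroups of odd prime index: orthogonal groups.
-/
import Cfsg.Agent.CLAS.RatTv

set_option autoImplicit false

namespace CL.Root

open Module CL.Witt CL.Witt.Form CL.Tv

section
variable {F : Type*} [Field F] {V : Type*} [AddCommGroup V] [Module F V]
  {f : Form (FormType.quad F) V}

theorem quad_ei_apply {x y : V} (ok : f.EichOK x y 0) (s : V) :
    f.ei x y 0 s - s = f.B x s • y - f.B y s • x := by
  rw [ok.ei_apply, FormType.quad_ε]; module

theorem quad_ei_fix {x y : V} (ok : f.EichOK x y 0) {ξ : V} (hξ : ξ ∈ Submodule.span F {x, y}) :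
    f.ei x y 0 ξ = ξ := by
  obtain ⟨s, t, rfl⟩ := Submodule.mem_span_pair.1 hξ
  have hyy : f.B y y = 0 := by simpa using ok.hvv
  refine ok.ei_apply_fix ?_ ?_ <;> simp [ok.huu, ok.huv, ok.hvu, hyy]

theorem quad_ei_sub_mem {x y : V} (ok : f.EichOK x y 0) (s : V) :
    f.ei x y 0 s - s ∈ Submodule.span F {x, y} := by
  rw [quad_ei_apply ok]
  exact Submodule.mem_span_pair.2 ⟨-f.B y s, f.B x s, by module⟩

theorem quad_ei_par {x y u v : V} (ok : f.EichOK x y 0) {ξ : V}
    (hξ : ξ ∈ Submodule.span F {x, y}) :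
    f.ei x y 0 (f.B u ξ • v - f.B v ξ • u) = (f.B u ξ • v - f.B v ξ • u) +
      (f.B x v * f.B y u - f.B x u * f.B y v) • ξ := by
  obtain ⟨s, t, rfl⟩ := Submodule.mem_span_pair.1 hξ
  rw [← sub_eq_iff_eq_add', quad_ei_apply ok]
  simp only [B_add_right, B_sub_right, B_smul_right, f.quad_symm x, f.quad_symm y]
  module

theorem oppPair_quad {x y u v : V} (ok : f.EichOK x y 0) (ok' : f.EichOK u v 0) :
    OppPair (f.ei x y 0) (f.ei u v 0) (Submodule.span F {x, y}) (Submodule.span F {u, v})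
      (f.B x v * f.B y u - f.B x u * f.B y v) where
  yX := quad_ei_sub_mem ok
  yfix _ := quad_ei_fix ok
  eJ := quad_ei_sub_mem ok'
  efix _ := quad_ei_fix ok'
  par ξ hξ := by rw [quad_ei_apply ok', quad_ei_par ok hξ]

end

namespace RatExt

variable {F₀ F : Type*} [Field F₀] [Field F] [Algebra F₀ F]
  {V₀ V : Type*} [AddCommGroup V₀] [Module F₀ V₀] [AddCommGroup V] [Module F V]
  {f₀ : Form (FormType.quad F₀) V₀} {f : Form (FormType.quad F) V} {R : RatExt f₀ f}
  [FiniteDimensional F₀ V₀] {K : Subgroup (V ≃ₗ[F] V)}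

local notation "ι₀" => algebraMap F₀ F

omit [FiniteDimensional F₀ V₀] in
theorem ei_zero' (a b : V₀) : R.ei a b 0 = f.ei (R.j a) (R.η • R.j b) 0 := by
  rw [ei, map_zero, mul_zero]

omit [FiniteDimensional F₀ V₀] in
theorem ok' {a b : V₀} (h : f₀.EichOK a b 0) : f.EichOK (R.j a) (R.η • R.j b) 0 := by
  simpa using R.ok h

variable (R) in
/-- The determinant of the products of `x, y` with two rational vectors. -/
def dd (x y : V) (a b : V₀) : F := f.B x (R.j a) * f.B y (R.j b) - f.B x (R.j b) * f.B y (R.j a)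

omit [FiniteDimensional F₀ V₀] in
theorem par_eq (x y : V) (a b : V₀) :
    f.B x (R.η • R.j b) * f.B y (R.j a) - f.B x (R.j a) * f.B y (R.η • R.j b) =
      -(R.η * R.dd x y a b) := by
  rw [f.B_smul_right, f.B_smul_right, dd]; ring

omit [FiniteDimensional F₀ V₀] in
theorem li_of_dd {x y : V} {a b : V₀} (h : R.dd x y a b ≠ 0) : a ≠ 0 ∧ b ∉ F₀ ∙ a := by
  refine ⟨?_, fun hb => h ?_⟩
  · rintro rfl; simp [dd] at h
  · obtain ⟨s, rfl⟩ := Submodule.mem_span_singleton.1 hb
    rw [dd, R.j_smul, f.B_smul_right, f.B_smul_right]; ring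

omit [FiniteDimensional F₀ V₀] in
theorem cramer {x y : V} {a b : V₀} (h : R.dd x y a b ≠ 0) {c : V₀} {s t : F₀}
    (hs : R.dd x y c b = ι₀ s * R.dd x y a b) (ht : R.dd x y a c = ι₀ t * R.dd x y a b) :
    (R.ψ x).prod (R.ψ y) c ∈
      Submodule.span F₀ {(R.ψ x).prod (R.ψ y) a, (R.ψ x).prod (R.ψ y) b} := by
  refine Submodule.mem_span_pair.2 ⟨s, t, Prod.ext ?_ ?_⟩
  · change s • f.B x (R.j a) + t • f.B x (R.j b) = f.B x (R.j c)
    rw [Algebra.smul_def, Algebra.smul_def]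
    apply mul_right_cancel₀ h
    have e1 := hs
    have e2 := ht
    rw [dd] at e1 e2
    rw [add_mul, mul_right_comm, ← e1, mul_right_comm, ← e2, dd]; ring
  · change s • f.B y (R.j a) + t • f.B y (R.j b) = f.B y (R.j c)
    rw [Algebra.smul_def, Algebra.smul_def]
    apply mul_right_cancel₀ h
    have e1 := hs
    have e2 := ht
    rw [dd] at e1 e2
    rw [add_mul, mul_right_comm, ← e1, mul_right_comm, ← e2, dd]; ring

theorem exists_dd_ne (hf₀ : f₀.Nondeg) (hf : f.Nondeg) (h3 : Sing3 f₀) (hn : 7 ≤ finrank F₀ V₀)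
    {x y : V} (ok : f.EichOK x y 0) (h : f.ei x y 0 ≠ 1) :
    ∃ a b, f₀.q a = 0 ∧ f₀.q b = 0 ∧ f₀.B a b = 0 ∧ R.dd x y a b ≠ 0 := by
  by_contra! H
  obtain ⟨a, ha, hxa⟩ : ∃ a, f₀.q a = 0 ∧ (f.B x (R.j a) ≠ 0 ∨ f.B y (R.j a) ≠ 0) := by
    by_contra! H'
    obtain ⟨v, hv⟩ := exists_j_ne (R := R) h
    obtain ⟨a, a', rfl, ha, ha'⟩ := eq_add_singular hf₀ h3 hn v
    refine hv (ok.ei_apply_fix ?_ ?_)
    · rw [map_add, f.B_add_right, (H' a ha).1, (H' a' ha').1, add_zero]
    · rw [map_add, f.B_add_right, (H' a ha).2, (H' a' ha').2, add_zero]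
  have ha0 : a ≠ 0 := by rintro rfl; simp at hxa
  set w := f.B y (R.j a) • x - f.B x (R.j a) • y with hw
  obtain ⟨p, p', hp, hp', hp0, hp'0, hpp'⟩ := exists_hyp_perp hf₀ h3 (F₀ ∙ a)
    (by have := finrank_span_single_le (F := F₀) a; omega)
  have h1 : f₀.perp (F₀ ∙ a) ≤ LinearMap.ker (R.ψ w) :=
    le_of_singular hp0 hp'0 (by rw [hpp']; exact one_ne_zero) hp hp' fun b hb hb0 => by
      have := H a b ha hb0 (f₀.mem_perp_span_singleton.1 hb)
      rw [LinearMap.mem_ker, ψ_apply, hw, f.B_sub_left, f.B_smul_left, f.B_smul_left,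
        FormType.quad_σ, FormType.quad_σ]
      rw [dd] at this
      linear_combination -this
  obtain ⟨a', -, haa'⟩ := hf₀.exists_partner' ha ha0
  have h2 : w = R.φ w a' • R.j a := by
    refine sub_eq_zero.1 (R.eq_zero_of_B hf fun u => ?_)
    have e : u = (u - f₀.B a u • a') + f₀.B a u • a' := by abel
    have e1 : f.B w (R.j (u - f₀.B a u • a')) = 0 := h1 (f₀.mem_perp_span_singleton.2 (by
      rw [f₀.B_sub_right, f₀.B_smul_right, haa', mul_one, sub_self]))
    have e2 : f.B w (R.j u) = ι₀ (f₀.B a u) * f.B w (R.j a') := by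
      conv_lhs => rw [e, map_add, f.B_add_right, e1, R.j_smul, f.B_smul_right, zero_add]
    rw [f.B_sub_left, f.B_smul_left, FormType.quad_σ, e2, φ_apply, R.hB, f.quad_symm w]
    ring
  have hyy : f.B y y = 0 := by simpa using ok.hvv
  have hxw : f.B x w = 0 := by simp [hw, ok.huu, ok.huv]
  have hyw : f.B y w = 0 := by simp [hw, ok.hvu, hyy]
  have h3 : w = 0 := by
    rw [h2, f.B_smul_right] at hxw hyw
    rw [h2]
    rcases hxa with h | h
    · rw [(mul_eq_zero.1 hxw).resolve_right h, zero_smul]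
    · rw [(mul_eq_zero.1 hyw).resolve_right h, zero_smul]
  refine h (LinearEquiv.ext fun s => sub_eq_zero.1 ?_)
  have e := congrArg (fun t => f.B t s) h3
  simp only [hw, B_sub_left, B_smul_left, FormType.quad_σ, B_zero_left] at e
  change f.ei x y 0 s - s = 0
  rw [quad_ei_apply ok]
  rw [hw] at h3
  rcases hxa with h | h
  · apply smul_right_injective V h
    dsimp only
    linear_combination (norm := module) (-f.B x s) • h3 + e • x
  · apply smul_right_injective V h
    dsimp only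
    linear_combination (norm := module) (-f.B y s) • h3 + e • y

theorem rank_le_four (hf₀ : f₀.Nondeg) (h3 : Sing3 f₀) (hn : 7 ≤ finrank F₀ V₀) {x y : V}
    {a b : V₀} (h : ∀ c, f₀.q c = 0 → f₀.B a c = 0 → f₀.B b c = 0 → (R.ψ x).prod (R.ψ y) c ∈
      Submodule.span F₀ {(R.ψ x).prod (R.ψ y) a, (R.ψ x).prod (R.ψ y) b}) :
    finrank F₀ (LinearMap.range ((R.ψ x).prod (R.ψ y))) ≤ 4 := by
  have h2 := finrank_span_pair_le (F := F₀) a b
  have : FiniteDimensional F₀
      (Submodule.span F₀ {(R.ψ x).prod (R.ψ y) a, (R.ψ x).prod (R.ψ y) b}) :=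
    FiniteDimensional.span_of_finite F₀ (Set.toFinite _)
  have h1 := finrank_range_le_of_perp hf₀ h3 ((R.ψ x).prod (R.ψ y)) (Submodule.span F₀ {a, b})
    (by omega) (Submodule.span F₀ {(R.ψ x).prod (R.ψ y) a, (R.ψ x).prod (R.ψ y) b})
    fun c hc hc0 => h c hc0 (f₀.mem_perp_span_pair.1 hc).1 (f₀.mem_perp_span_pair.1 hc).2
  have := finrank_span_pair_le (F := F₀) ((R.ψ x).prod (R.ψ y) a) ((R.ψ x).prod (R.ψ y) b)
  omega

theorem Small.dd_mem_odd (hs : R.Small K) (hK : R.Over K) (hKO : K ≤ f.O) (hf₀ : f₀.Nondeg)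
    (h3 : Sing3 f₀) (hn : 13 ≤ finrank F₀ V₀) (hD : DicksonProp F)
    (hsq : ∀ l : F, l ^ 2 = -1 → l ∈ Set.range (algebraMap F₀ F)) {x y : V}
    (ok : f.EichOK x y 0) (hy : f.ei x y 0 ∈ K) {a b : V₀} (ha : f₀.q a = 0) (hb : f₀.q b = 0)
    (hab : f₀.B a b = 0) : -(R.η * R.dd x y a b) ∈ Set.range (algebraMap F₀ F) := by
  set l := -(R.η * R.dd x y a b) with hl
  by_cases h0 : l = 0
  · exact ⟨0, by rw [h0, map_zero]⟩
  by_cases h1 : l ^ 2 = -1
  · exact hsq l h1
  have ok₀ : f₀.EichOK a b 0 := ⟨ha, hab, hb.symm⟩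
  have op := oppPair_quad ok (ok' (R := R) ok₀)
  rw [par_eq] at op
  obtain ⟨k, hk, hk'⟩ := op.exists_param hD (fun ω hω => by
    rw [(oppPair_quad (ok' (R := R) ok₀) ok).par ω hω, ← par_eq, f.quad_symm x, f.quad_symm x,
      f.quad_symm y, f.quad_symm y]
    congr 2; ring) h0 h1 hy (by rw [← ei_zero']; exact hK _ _ _ ok₀)
  obtain ⟨ha0, hba⟩ := li_of_dd (R := R) (x := x) (y := y) (a := a) (b := b)
    (fun h => h0 (by rw [hl, h, mul_zero, neg_zero]))
  obtain ⟨v, hv⟩ := hf₀.exists_B_eq_family' (li2 ha0 hba) ![0, 1]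
  have v0 : f₀.B b v = 0 := hv 0
  have v1 : f₀.B a v = 1 := hv 1
  refine hs.param_mem hK hKO hf₀ h3 hn ok₀ (v := v) ?_ hk (by rw [ei_zero']; exact hk')
  rw [← sub_ne_zero, quad_ei_apply ok₀, v0, v1]
  rintro h
  simp only [one_smul, zero_smul, sub_zero] at h
  exact hba (h ▸ Submodule.zero_mem _)

theorem Small.mem_two [Finite V] (hs : R.Small K) (hK : R.Over K) (hKO : K ≤ f.O)
    (hf₀ : f₀.Nondeg) (hf : f.Nondeg) (h3 : Sing3 f₀) (hn : 13 ≤ finrank F₀ V₀) (h2 : (2 : F) = 0)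
    {x y : V} (ok : f.EichOK x y 0) (hy : f.ei x y 0 ∈ K) {a b c d : V₀} (ha : f₀.q a = 0)
    (hb : f₀.q b = 0) (hc : f₀.q c = 0) (hd : f₀.q d = 0) (hab : f₀.B a b = 0)
    (hac : f₀.B a c = 0) (had : f₀.B a d = 0) (hbc : f₀.B b c = 0) (hbd : f₀.B b d = 0)
    (hcd : f₀.B c d = 0) (h0 : R.dd x y a b ≠ 0) (hc' : c ∉ Submodule.span F₀ {a, b})
    (hd' : d ∉ Submodule.span F₀ {a, b, c}) (hl : R.dd x y a b + R.dd x y c d ≠ 0) :
    (R.ψ x).prod (R.ψ y) c ∈
      Submodule.span F₀ {(R.ψ x).prod (R.ψ y) a, (R.ψ x).prod (R.ψ y) b} := by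
  obtain ⟨ha0, hba⟩ := li_of_dd h0
  have li := li4 ha0 hba hc' hd'
  have ok1 : f₀.EichOK a b 0 := ⟨ha, hab, hb.symm⟩
  have ok2 : f₀.EichOK c d 0 := ⟨hc, hcd, hd.symm⟩
  set H := Submodule.span F₀ {a, b, c, d} with hH
  have hHts : f₀.TotSing H := by
    have hba := f₀.B_eq_zero_symm hab
    have hca := f₀.B_eq_zero_symm hac
    have hda := f₀.B_eq_zero_symm had
    have hcb := f₀.B_eq_zero_symm hbc
    have hdb := f₀.B_eq_zero_symm hbd
    have hdc := f₀.B_eq_zero_symm hcd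
    have haa := f₀.B_self_eq_zero ha
    have hbb := f₀.B_self_eq_zero hb
    have hcc := f₀.B_self_eq_zero hc
    have hdd := f₀.B_self_eq_zero hd
    refine f₀.totSing_span ?_ ?_ <;> simp [*]
  set J := Submodule.span F (R.j '' H) with hJ
  have hJts : f.TotSing J := by
    refine f.totSing_span ?_ ?_
    · rintro _ ⟨v, hv, rfl⟩; exact R.q_j (hHts.1 v hv)
    · rintro _ ⟨v, hv, rfl⟩ _ ⟨w, hw, rfl⟩; exact R.B_j_eq_zero_iff.2 (hHts.2 v hv w hw)
  have hmem : ∀ v ∈ ({a, b, c, d} : Set V₀), R.j v ∈ J := fun v hv =>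
    Submodule.subset_span ⟨v, Submodule.subset_span hv, rfl⟩
  have haJ := hmem a (by simp)
  have hbJ := hmem b (by simp)
  have hcJ := hmem c (by simp)
  have hdJ := hmem d (by simp)
  set e := R.ei a b 0 * R.ei c d 0 with he
  have heK : e ∈ K := K.mul_mem (hK _ _ _ ok1) (hK _ _ _ ok2)
  have he' : ∀ s, e s - s = (f.B (R.j a) s • R.η • R.j b - f.B (R.η • R.j b) s • R.j a) +
      (f.B (R.j c) s • R.η • R.j d - f.B (R.η • R.j d) s • R.j c) := by
    intro s
    have e1 := quad_ei_apply (ok' (R := R) ok2) s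
    have e2 := quad_ei_apply (ok' (R := R) ok1) (f.ei (R.j c) (R.η • R.j d) 0 s)
    have hm : f.ei (R.j c) (R.η • R.j d) 0 s - s ∈ J := by
      rw [e1]
      exact J.sub_mem (J.smul_mem _ (J.smul_mem _ hdJ)) (J.smul_mem _ hcJ)
    have e3 := hJts.2 _ haJ _ hm
    have e4 := hJts.2 _ (J.smul_mem R.η hbJ) _ hm
    rw [f.B_sub_right, sub_eq_zero] at e3 e4
    rw [e3, e4] at e2
    rw [he, LinearEquiv.mul_apply, ei_zero', ei_zero', ← e1, ← e2]; abel
  have op : OppPair (f.ei x y 0) e (Submodule.span F {x, y}) J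
      (-(R.η * (R.dd x y a b + R.dd x y c d))) :=
    { yX := quad_ei_sub_mem ok
      yfix := fun _ => quad_ei_fix ok
      eJ := fun s => by
        rw [he']
        exact J.add_mem (J.sub_mem (J.smul_mem _ (J.smul_mem _ hbJ)) (J.smul_mem _ haJ))
          (J.sub_mem (J.smul_mem _ (J.smul_mem _ hdJ)) (J.smul_mem _ hcJ))
      efix := fun ω hω => by
        rw [← sub_eq_zero, he', hJts.2 _ haJ _ hω, hJts.2 _ hcJ _ hω,
          hJts.2 _ (J.smul_mem R.η hbJ) _ hω, hJts.2 _ (J.smul_mem R.η hdJ) _ hω]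
        simp
      par := fun ξ hξ => by
        rw [he', map_add, quad_ei_par ok hξ, quad_ei_par ok hξ, par_eq, par_eq]
        module }
  have hnc : ¬ IsConj (f.ei x y 0) e := by
    intro hcj
    obtain ⟨g, hg⟩ := isConj_iff.1 hcj
    have h1 : ∀ s, e s - s ∈ Submodule.span F {g x, g y} := fun s => by
      obtain ⟨t, t', ht⟩ := Submodule.mem_span_pair.1 (op.yX (g⁻¹ s))
      refine Submodule.mem_span_pair.2 ⟨t, t', ?_⟩
      rw [← map_smul, ← map_smul, ← map_add, ht, map_sub, ← hg, ← LinearEquiv.mul_apply g g⁻¹,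
        mul_inv_cancel]
      rfl
    have dual : ∀ i : Fin 4, ∃ v, ∀ k, f₀.B (![d, c, b, a] k) v = (Pi.single i 1 : Fin 4 → F₀) k :=
      fun i => hf₀.exists_B_eq_family' li _
    choose v hv using dual
    have hB : ∀ i k, R.η * f.B (R.j (![d, c, b, a] k)) (R.j (v i)) =
        (Pi.single i 1 : Fin 4 → F) k := fun i k => by
      rw [← R.hB, hv]
      by_cases h : k = i
      · subst h; simp
      · simp [h]
    have hN : ∀ i, e (R.j (v i)) - R.j (v i) =
        (Pi.single i 1 : Fin 4 → F) 3 • R.j b - (Pi.single i 1 : Fin 4 → F) 2 • R.j a +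
        ((Pi.single i 1 : Fin 4 → F) 1 • R.j d - (Pi.single i 1 : Fin 4 → F) 0 • R.j c) := by
      intro i
      rw [he', ← hB i 0, ← hB i 1, ← hB i 2, ← hB i 3, f.B_smul_left, f.B_smul_left,
        FormType.quad_σ]
      simp only [Matrix.cons_val_zero, Matrix.cons_val_one, Matrix.cons_val]
      module
    have m3 := h1 (R.j (v 3))
    have m2 := h1 (R.j (v 2))
    have m1 := h1 (R.j (v 1))
    rw [hN] at m1 m2 m3
    simp only [Fin.isValue, ne_eq, Fin.reduceEq, not_false_eq_true, Pi.single_eq_of_ne, zero_smul,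
      sub_self, Pi.single_eq_same, one_smul, sub_zero, zero_add, add_zero, zero_sub,
      Submodule.neg_mem_iff] at m1 m2 m3
    have li' : LinearIndependent F ![R.j d, R.j b, R.j a] := by
      rw [Fintype.linearIndependent_iff]
      intro s hs' i
      have E := fun k => congrArg (fun t => R.η * f.B t (R.j (v k))) hs'
      simp only [Fin.sum_univ_three, B_add_left, B_smul_left, FormType.quad_σ, B_zero_left,
        Matrix.cons_val_zero, Matrix.cons_val_one, Matrix.cons_val, mul_zero] at E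
      have B0 := fun k => hB k 0
      have B2 := fun k => hB k 2
      have B3 := fun k => hB k 3
      simp only [Matrix.cons_val_zero, Matrix.cons_val] at B0 B2 B3
      have E' : ∀ k : Fin 4, s 0 * (Pi.single k 1 : Fin 4 → F) 0 + s 1 * (Pi.single k 1 : Fin 4 → F) 2
          + s 2 * (Pi.single k 1 : Fin 4 → F) 3 = 0 := fun k => by
        rw [← B0, ← B2, ← B3]; linear_combination E k
      fin_cases i
      · simpa using E' 0
      · simpa using E' 2
      · simpa using E' 3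
    have hle : Submodule.span F (Set.range ![R.j d, R.j b, R.j a]) ≤ Submodule.span F {g x, g y} := by
      rw [Submodule.span_le]
      rintro _ ⟨i, rfl⟩
      fin_cases i
      · exact m1
      · exact m3
      · exact m2
    have := Submodule.finrank_mono hle
    rw [finrank_span_eq_card li'] at this
    have := finrank_span_pair_le (F := F) (g x) (g y)
    simp only [Fintype.card_fin] at *
    omega
  obtain ⟨m, hz1, hzz, hzX, hzJ⟩ := op.exists_central h2
    (neg_ne_zero.2 (mul_ne_zero R.η_ne hl)) hnc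
  have hzK : (f.ei x y 0 * e) ^ m ∈ K := K.pow_mem (K.mul_mem hy heK) m
  set z := (f.ei x y 0 * e) ^ m
  have hH4 : finrank F₀ H ≤ 4 := finrank_span_four_le a b c d
  choose N hNH hN using hs.of_central hK hKO hf₀ hf h3 hn hzK hzz hH4 hzJ
  have hψ : ∀ v, (R.ψ x).prod (R.ψ y) (N v) = 0 := fun v => by
    have e1 := mem_O_B (hKO hzK) x (R.j v)
    have e2 := mem_O_B (hKO hzK) y (R.j v)
    rw [hzX x (Submodule.subset_span (by simp)), hN, f.B_add_right] at e1
    rw [hzX y (Submodule.subset_span (by simp)), hN, f.B_add_right] at e2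
    exact Prod.ext (add_eq_left.1 e1) (add_eq_left.1 e2)
  have halt : ∀ s, f.B s (z s - s) = 0 := fun s => by
    have e1 := f.quad_q_add s (z s - s)
    rw [add_sub_cancel, mem_O_q (hKO hzK), hJts.1 _ (hzJ s)] at e1
    linear_combination -e1
  have hN' : ∀ v, z (R.j v) - R.j v = R.j (N v) := fun v => by rw [hN, add_sub_cancel_left]
  obtain ⟨v, hv⟩ := exists_j_ne (R := R) hz1
  have hw0 : N v ≠ 0 := fun h => hv (by rw [hN, h, map_zero, add_zero])
  obtain ⟨v', hv'⟩ := hf₀.exists_B_eq hw0 1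
  have hw' : N v' ∉ F₀ ∙ N v := by
    intro h
    obtain ⟨t, ht⟩ := Submodule.mem_span_singleton.1 h
    have e1 := halt (R.j v)
    have e2 := halt (R.j v')
    have e3 := halt (R.j v + R.j v')
    rw [map_add z, add_sub_add_comm, hN', hN'] at e3
    rw [hN'] at e1 e2
    rw [f.B_add_left, f.B_add_right, f.B_add_right, e1, e2, ← ht, R.j_smul, f.B_smul_right, e1]
      at e3
    have e4 : f.B (R.j v') (R.j (N v)) = 0 := by linear_combination e3
    rw [R.B_j_eq_zero_iff, f₀.quad_symm, hv'] at e4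
    exact one_ne_zero e4
  set Ψ := (R.ψ x).prod (R.ψ y) with hΨ
  have hΨa : ∀ s t : F₀, Ψ (s • a + t • b) = 0 → s = 0 ∧ t = 0 := by
    intro s t h
    rw [map_add, map_smul, map_smul, Prod.ext_iff] at h
    have e1 : s • f.B x (R.j a) + t • f.B x (R.j b) = 0 := h.1
    have e2 : s • f.B y (R.j a) + t • f.B y (R.j b) = 0 := h.2
    rw [Algebra.smul_def, Algebra.smul_def] at e1 e2
    have e3 : ι₀ s * R.dd x y a b = 0 := by
      rw [dd]; linear_combination f.B y (R.j b) * e1 - f.B x (R.j b) * e2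
    have e4 : ι₀ t * R.dd x y a b = 0 := by
      rw [dd]; linear_combination f.B x (R.j a) * e2 - f.B y (R.j a) * e1
    simpa [h0] using And.intro e3 e4
  have hsup : Submodule.span F₀ {N v, N v'} ⊔ Submodule.span F₀ {a, b} = H := by
    apply Submodule.eq_of_le_of_finrank_le
    · refine sup_le ?_ (Submodule.span_mono (by simp [Set.insert_subset_iff]))
      rw [Submodule.span_le]
      simp [Set.insert_subset_iff, hNH]
    · have hdis : Submodule.span F₀ {N v, N v'} ⊓ Submodule.span F₀ {a, b} = ⊥ := by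
        rw [eq_bot_iff]
        rintro w ⟨h1, h2⟩
        obtain ⟨s, t, rfl⟩ := Submodule.mem_span_pair.1 h2
        obtain ⟨s', t', h1⟩ := Submodule.mem_span_pair.1 h1
        obtain ⟨rfl, rfl⟩ := hΨa s t (by rw [← h1, map_add, map_smul, map_smul, hψ, hψ]; simp)
        simp
      have e1 := Submodule.finrank_sup_add_finrank_inf_eq (Submodule.span F₀ {N v, N v'})
        (Submodule.span F₀ {a, b})
      have e2 := finrank_span_eq_card (li2 hw0 hw')
      have e3 := finrank_span_eq_card (li2 ha0 hba)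
      rw [Matrix.range_cons, Matrix.range_cons, Matrix.range_empty, Set.union_empty,
        Set.singleton_union, Set.pair_comm, Fintype.card_fin] at e2 e3
      rw [hdis, finrank_bot, e2, e3] at e1
      omega
  have hcH : c ∈ H := Submodule.subset_span (by simp)
  rw [← hsup] at hcH
  obtain ⟨w1, h1, w2, h2, rfl⟩ := Submodule.mem_sup.1 hcH
  obtain ⟨s, t, rfl⟩ := Submodule.mem_span_pair.1 h2
  obtain ⟨s', t', rfl⟩ := Submodule.mem_span_pair.1 h1
  refine Submodule.mem_span_pair.2 ⟨s, t, ?_⟩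
  simp only [map_add, map_smul, hψ, smul_zero, zero_add]

/-- Overgroups of subfield subgroups of prime index in orthogonal groups. -/
theorem Over.E_le_or_mem_quad [Finite F₀] [Finite V₀] [Finite V] [FiniteDimensional F V]
    (hK : R.Over K) (hKO : K ≤ f.O) (hf₀ : f₀.Nondeg) (hf : f.Nondeg) (hn : 13 ≤ finrank F₀ V₀)
    (hr : (finrank F₀ F).Prime) (hD : (2 : F) ≠ 0 → DicksonProp F)
    {g : V ≃ₗ[F] V} (hg : g ∈ K) : f.E ≤ K ∨ g ∈ R.stab := by
  have h3 := sing3_quad f₀
  have hc : R.CenOK := cenOK_of_π hf₀ h3 (by omega) hπ_quad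
  by_cases hr2 : finrank F₀ F = 2
  · exact hK.E_le_or_mem_two hKO hf₀ hf h3 hn hr2 hc hg
  refine (hK.E_le_or_small hKO hf₀ hf h3 (by omega) hr hc).imp_right
    fun hs => mem_stab_of_conj' hf₀ hf h3 (by omega) (fun _ _ a => a = 0)
      (fun M hM => (Iso3.idx2 h3 hf₀ (by omega)).E_le hf₀
        (fun u a hu ha => hM u 0 a (eichOK_zero hu ha) ha)
        fun u v hu hv huv => hM u v 0 ⟨hu, huv, hv.symm⟩ rfl) ?_
  rintro u v _ ok₀ rfl s
  have e : g * R.ei u v 0 * g⁻¹ = f.ei (g (R.j u)) (g (R.η • R.j v)) 0 := by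
    rw [ei_zero', (ok' ok₀).conj_ei (hKO hg)]
  have hy : f.ei (g (R.j u)) (g (R.η • R.j v)) 0 ∈ K :=
    e ▸ K.mul_mem (K.mul_mem hg (hK u v 0 ok₀)) (K.inv_mem hg)
  rw [e]
  have ok := (ok' (R := R) ok₀).map (hKO hg)
  set x := g (R.j u)
  set y := g (R.η • R.j v)
  by_cases h1 : f.ei x y 0 = 1
  · rw [h1]; exact ⟨s, rfl⟩
  obtain ⟨a, b, ha, hb, hab, h0⟩ := exists_dd_ne (R := R) hf₀ hf h3 (by omega) ok h1
  refine hs.rat_ei hK hKO hf₀ h3 hn ok hy
    (rank_le_four hf₀ h3 (by omega) (a := a) (b := b) fun c hc hac hbc => ?_) s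
  by_cases h2 : (2 : F) = 0
  · by_cases hc' : c ∈ Submodule.span F₀ {a, b}
    · obtain ⟨s, t, rfl⟩ := Submodule.mem_span_pair.1 hc'
      exact Submodule.mem_span_pair.2 ⟨s, t, by simp only [map_add, map_smul]⟩
    obtain ⟨d, hd, hd0, hdH⟩ := exists_sol_zero hf₀ h3 (Submodule.span F₀ {a, b, c})
      (by have := finrank_span_triple_le (F := F₀) a b c; omega)
    have had : f₀.B a d = 0 := hd a (Submodule.subset_span (by simp))
    have hbd : f₀.B b d = 0 := hd b (Submodule.subset_span (by simp))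
    have hcd : f₀.B c d = 0 := hd c (Submodule.subset_span (by simp))
    have step : ∀ w ∈ Submodule.span F₀ {a, b}, f₀.q w = 0 → f₀.B a w = 0 → f₀.B b w = 0 →
        f₀.B c w = 0 → f₀.B d w = 0 → R.dd x y a b + R.dd x y c (d + w) ≠ 0 →
        (R.ψ x).prod (R.ψ y) c ∈
          Submodule.span F₀ {(R.ψ x).prod (R.ψ y) a, (R.ψ x).prod (R.ψ y) b} := by
      intro w hw hw0 haw hbw hcw hdw hl
      refine hs.mem_two hK hKO hf₀ hf h3 hn h2 ok hy ha hb hc (d := d + w)
        (by rw [f₀.q_add_of_B_eq_zero hdw, hd0, hw0, add_zero]) hab hac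
        (by rw [f₀.B_add_right, had, haw, add_zero]) hbc
        (by rw [f₀.B_add_right, hbd, hbw, add_zero])
        (by rw [f₀.B_add_right, hcd, hcw, add_zero]) h0 hc' (fun h => hdH ?_) hl
      have := Submodule.sub_mem _ h
        (Submodule.span_mono (s := {a, b}) (by simp [Set.insert_subset_iff]) hw)
      rwa [add_sub_cancel_right] at this
    have dadd : ∀ w, R.dd x y c (d + w) = R.dd x y c d + R.dd x y c w := fun w => by
      simp only [dd, map_add]; ring
    by_cases l0 : R.dd x y a b + R.dd x y c (d + 0) = 0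
    swap
    · exact step 0 (Submodule.zero_mem _) f₀.q_zero (by simp) (by simp) (by simp) (by simp) l0
    by_cases l1 : R.dd x y a b + R.dd x y c (d + a) = 0
    swap
    · exact step a (Submodule.subset_span (by simp)) ha (f₀.B_self_eq_zero ha)
        (f₀.B_eq_zero_symm hab) (f₀.B_eq_zero_symm hac) (f₀.B_eq_zero_symm had) l1
    by_cases l2 : R.dd x y a b + R.dd x y c (d + b) = 0
    swap
    · exact step b (Submodule.subset_span (by simp)) hb hab (f₀.B_self_eq_zero hb)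
        (f₀.B_eq_zero_symm hbc) (f₀.B_eq_zero_symm hbd) l2
    rw [add_zero] at l0
    rw [dadd] at l1 l2
    refine cramer h0 (s := 0) (t := 0) ?_ ?_
    · rw [map_zero, zero_mul]; linear_combination l2 - l0
    · rw [map_zero, zero_mul]
      have : R.dd x y a c = -R.dd x y c a := by simp only [dd]; ring
      rw [this]; linear_combination l0 - l1
  · have key := fun a b => hs.dd_mem_odd hK hKO hf₀ h3 hn (hD h2)
      (fun l hl => mem_range_of_sq_eq_neg_one hr hr2 hl) ok hy (a := a) (b := b)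
    obtain ⟨m, hm⟩ := key a b ha hb hab
    obtain ⟨s, hs'⟩ := key c b hc hb (f₀.B_eq_zero_symm hbc)
    obtain ⟨t, ht⟩ := key a c ha hc hac
    have hm0 : ι₀ m ≠ 0 := by rw [hm]; exact neg_ne_zero.2 (mul_ne_zero R.η_ne h0)
    refine cramer h0 (s := s / m) (t := t / m) ?_ ?_
    · rw [map_div₀, div_mul_eq_mul_div, eq_div_iff hm0, hm, hs']; ring
    · rw [map_div₀, div_mul_eq_mul_div, eq_div_iff hm0, hm, ht]; ring

end RatExt

theorem isMaximalIn_subfield_quad {ι : Type} [Fintype ι] [DecidableEq ι] {F : Type*} [Field F]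
    [Fintype F] (hD : (2 : F) ≠ 0 → DicksonProp F) (hn : 13 ≤ Fintype.card ι)
    {Q : (ι → F) → F} (hQ : Cfsg.Geo.IsNondegenerateQuadraticForm Q) (F₀ : Subfield F) {r : ℕ}
    (hr : r.Prime) (hcard : Fintype.card F = Nat.card F₀ ^ r) (P : GL ι F) {ζ : F} (hζ : ζ ≠ 0)
    (hP : Cfsg.Geo.IsQuadFormRationalStructure (fun v => ζ * Q v) F₀ P) :
    Cfsg.Geo.IsMaximalIn (Cfsg.Geo.omegaGL Q)
      (Cfsg.Geo.subfieldSubgroup F₀ P ⊓ Cfsg.Geo.omegaGL Q) := by
  have hq : ∀ u, ζ * (quadOfGeo hQ).q (ratMap F₀ P u) ∈ F₀ := fun u => hP _ fun i => (u i).2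
  obtain ⟨f₀, R, hR, -⟩ := exists_ratExt_quad (ratMap_smul F₀ P) (ratMap_span F₀ P) (quadOfGeo hQ)
    hζ (fun _ => rfl) (by rw [FormType.quad_ε, FormType.quad_σ, one_mul])
    (fun u v => by
      rw [quad_B, ← map_add, mul_sub, mul_sub]
      exact F₀.sub_mem (F₀.sub_mem (hq _) (hq _)) (hq _))
    (fun u => ⟨_, hq u⟩)
    (fun u v => by simp only [map_add, quad_q_add]; ring)
    (fun c u => Subtype.ext (by
      change ζ * (quadOfGeo hQ).q (ratMap F₀ P (c • u)) =
        (c : F) * c * (ζ * (quadOfGeo hQ).q (ratMap F₀ P u))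
      rw [ratMap_smul, quad_q_smul]
      change ζ * ((c : F) ^ 2 * _) = _
      ring))
    (fun v => by simp only [FormType.quad_π, FormType.quad_σ]; ring)
  have hf₀ : f₀.Nondeg := R.nondeg (quadOfGeo_nondeg hQ) (hR ▸ ratMap_injective F₀ P)
  have hr' : (finrank F₀ F).Prime := by rwa [finrank_eq_of_card F₀ hcard]
  exact isMaximalIn_subfield R hR hf₀ (sing3_quad f₀) (by omega) hr'
    (mem_omegaGL_iff_E (quadOfGeo_nondeg hQ) (by omega))
    fun K hK hKO g hg => hK.E_le_or_mem_quad hKO hf₀ (quadOfGeo_nondeg hQ) (by simpa using hn) hr'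
      hD hg

end CL.Root
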