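/-
Overgroups of subfield subgroups in small dimensions: the common part.
-/
import Cfsg.Agent.CLAS.RatQuad
import Cfsg.Agent.CLAS.LowSL

set_option autoImplicit false

namespace CL.Root

open Module CL.Witt CL.Witt.Form CL.Tv

namespace RatExt

variable {F₀ F : Type*} [Field F₀] [Field F] [Algebra F₀ F] {T₀ : FormType F₀}
  {T : FormType F} {V₀ V : Type*} [AddCommGroup V₀] [Module F₀ V₀] [AddCommGroup V] [Module F V]
  {f₀ : Form T₀ V₀} {f : Form T V} {R : RatExt f₀ f} {K : Subgroup (V ≃ₗ[F] V)}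

local notation "ι₀" => algebraMap F₀ F

variable (R K) in
/-- Every coordinate of an element of a radical is a parameter. -/
def Extract : Prop := ∀ u, f₀.q u = 0 → u ≠ 0 → ∀ w, Rad f K (R.j u) w → ∀ a, f₀.B u a = 0 →
  ∀ u', f₀.q u' = 0 → u' ≠ 0 → ∀ v, f₀.B u' v = 0 → Rad f K (R.j u') (R.φ w a • R.j v)

variable (R K) in
/-- The parameters of the root elements in `K`. -/
def Par (c : F) : Prop := ∀ u, f₀.q u = 0 → u ≠ 0 → ∀ v, f₀.B u v = 0 →
  Rad f K (R.j u) ((c * R.η) • R.j v)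

theorem Over.rad_sub' (hK : R.Over K) {u a b : V₀} {t : F₀} (ok : f₀.EichOK a b t)
    (hau : f₀.B a u = 0) (hbu : f₀.B b u = 0) {w : V} (hw : Rad f K (R.j u) w) :
    Rad f K (R.j u) (R.φ w a • R.j b - (ι₀ T₀.ε * (R.φ w b + ι₀ t * R.φ w a)) • R.j a) := by
  have := hw.sub_fix (hK _ _ _ ok) (R.ei_mem_O _ _ _) (R.ei_fix ok hau hbu)
  rw [R.ei_apply ok] at this
  convert this using 1
  rw [φ_apply, φ_apply]; module

theorem φ_smul_j (c : F) (v u : V₀) : R.φ (c • R.j v) u = c * ι₀ (f₀.B u v) := by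
  rw [φ_apply, f.B_smul_right, R.hB]; ring

theorem φ_sub (x y : V) (u : V₀) : R.φ (x - y) u = R.φ x u - R.φ y u := by
  rw [φ_apply, φ_apply, φ_apply, f.B_sub_right, mul_sub]

theorem φ_add (x y : V) (u : V₀) : R.φ (x + y) u = R.φ x u + R.φ y u := by
  rw [φ_apply, φ_apply, φ_apply, f.B_add_right, mul_add]

theorem φ_smul' (c : F) (x : V) (u : V₀) : R.φ (c • x) u = c * R.φ x u := by
  rw [φ_apply, φ_apply, f.B_smul_right]; ring

variable [FiniteDimensional F₀ V₀]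

theorem Over.extract5 (hK : R.Over K) (hf₀ : f₀.Nondeg) (h3 : Sing3 f₀)
    (hn : 5 ≤ finrank F₀ V₀) : R.Extract K := by
  intro u hu hu0 w hw a hua u' hu' hu0' v hv
  let D : AddSubgroup V₀ := (radGrp f K (R.q_j hu')).comap
    (((LinearMap.toSpanSingleton F V (R.j v)).toAddMonoidHom).comp (R.φ w))
  have hD : ∀ a, a ∈ D ↔ Rad f K (R.j u') (R.φ w a • R.j v) := fun a => Iff.rfl
  refine (hD a).1 (mem_of_singular_perp hf₀ h3 hn u D (fun a hua ha => ?_) a hua)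
  rw [hD]
  by_cases hau : a ∈ F₀ ∙ u
  · obtain ⟨c, rfl⟩ := Submodule.mem_span_singleton.1 hau
    rw [R.φ_smul, R.φ_eq_zero_iff.2 hw.B_eq, mul_zero, zero_smul]
    exact Rad.zero (R.q_j hu')
  obtain ⟨b, hb, hbX⟩ : ∃ b ∈ f₀.perp (Submodule.span F₀ {u, a}), b ∉ Submodule.span F₀ {u, a} := by
    by_contra! H
    have h1 := Submodule.finrank_mono (show f₀.perp _ ≤ _ from H)
    have h2 := hf₀.finrank_add_finrank_perp (Submodule.span F₀ {u, a})
    have h3 := finrank_span_pair_le (F := F₀) u a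
    omega
  obtain ⟨b', hb', hbb'⟩ := hf₀.exists_perp_eq' hbX (-T₀.ε)
  rw [mem_perp_span_pair] at hb
  have hub' : f₀.B u b' = 0 := hb' u (Submodule.subset_span (by simp))
  have hab' : f₀.B a b' = 0 := hb' a (Submodule.subset_span (by simp))
  obtain ⟨t, ok⟩ := exists_eichOK ha hb.2
  obtain ⟨t', ok'⟩ := exists_eichOK ha hab'
  have h1 := hK.rad_sub' ok (f₀.B_eq_zero_symm hua) (f₀.B_eq_zero_symm hb.1)
    (hK.rad_sub' ok' (f₀.B_eq_zero_symm hua) (f₀.B_eq_zero_symm hub') hw)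
  rw [φ_sub, φ_sub, φ_smul_j, φ_smul_j, φ_smul_j, φ_smul_j, hab', ok.huu, ok.hvu, hbb'] at h1
  have e : ι₀ T₀.ε * ι₀ T₀.ε = 1 := by rw [← map_mul, T₀.εε, map_one]
  refine hK.spread hf₀ h3 hn hu hu0 hau (c := R.φ w a) ?_ hua u' hu' hu0' v hv
  convert h1 using 1
  simp only [map_zero, map_neg]
  linear_combination (norm := module) (-R.φ w a * e) • R.j a

theorem Over.par_mul5 (hKO : K ≤ f.O) (hf₀ : f₀.Nondeg) (h3 : Sing3 f₀)
    (hn : 5 ≤ finrank F₀ V₀) (hE : R.Extract K) {c d : F} (hc : R.Par K c) (hd : R.Par K d) :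
    R.Par K (c * d) := by
  obtain ⟨u, hu0, hu⟩ := Iso3.exists_singular h3 (by omega)
  obtain ⟨p, p', hp, hp', hp0, hp'0, hpp'⟩ := exists_hyp_perp hf₀ h3 (F₀ ∙ u)
    (by have := finrank_span_single_le (F := F₀) u; omega)
  rw [mem_perp_span_singleton] at hp hp'
  obtain ⟨s, hs, hsu⟩ : ∃ s ∈ f₀.perp (Submodule.span F₀ {u, p, p'}), s ∉ F₀ ∙ u := by
    by_contra! H
    have h1 := Submodule.finrank_mono (show f₀.perp _ ≤ _ from H)
    have h2 := hf₀.finrank_add_finrank_perp (Submodule.span F₀ {u, p, p'})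
    have h3 := finrank_span_triple_le (F := F₀) u p p'
    have h4 := finrank_span_single_le (F := F₀) u
    omega
  rw [mem_perp_span] at hs
  obtain ⟨s', hs', hss'⟩ := hf₀.exists_perp_eq' (H := Submodule.span F₀ {u, p}) (x := s) (fun h => by
    obtain ⟨α, β, rfl⟩ := Submodule.mem_span_pair.1 h
    have := hs p' (by simp)
    rw [f₀.B_add_right, f₀.B_smul_right, f₀.B_smul_right, f₀.B_eq_zero_symm hp', hyp_B_swap hpp',
      mul_zero, zero_add, mul_eq_zero, or_iff_left T₀.ε_ne_zero] at this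
    exact hsu (Submodule.mem_span_singleton.2 ⟨α, by simp [this]⟩)) 1
  have hp00 : p ≠ 0 := by rintro rfl; simp at hpp'
  obtain ⟨a, ok, hy⟩ := hd p hp0 hp00 s' (hs' p (Submodule.subset_span (by simp)))
  have hyu : f.ei (R.j p) ((d * R.η) • R.j s') a (R.j u) = R.j u :=
    ok.ei_apply_fix (R.B_j_eq_zero_iff.2 (f₀.B_eq_zero_symm hp)) (by
      rw [f.B_smul_left, R.B_j_eq_zero_iff.2
        (f₀.B_eq_zero_symm (hs' u (Submodule.subset_span (by simp)))), mul_zero])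
  have h1 := (hc u hu hu0 p' hp').conj_fix hy (hKO hy) hyu
  have h2 := hE u hu hu0 _ h1 s (hs u (by simp))
  have e : R.φ (f.ei (R.j p) ((d * R.η) • R.j s') a ((c * R.η) • R.j p')) s = c * d * R.η := by
    have e1 : R.η * f.B (R.j p) (R.j p') = 1 := by rw [← R.hB, hpp', map_one]
    have e2 : R.η * f.B (R.j s) (R.j s') = 1 := by rw [← R.hB, hss', map_one]
    rw [φ_apply, map_smul, ok.ei_apply, f.B_smul_right, f.B_sub_right, f.B_add_right,
      f.B_smul_right, f.B_smul_right, f.B_smul_right,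
      R.B_j_eq_zero_iff.2 (f₀.B_eq_zero_symm (hs p' (by simp))),
      R.B_j_eq_zero_iff.2 (f₀.B_eq_zero_symm (hs p (by simp)))]
    linear_combination (c * d * R.η * (R.η * f.B (R.j s) (R.j s'))) * e1 + c * d * R.η * e2
  rwa [e] at h2

omit [FiniteDimensional F₀ V₀] in
theorem Par.add {c d : F} (hc : R.Par K c) (hd : R.Par K d) : R.Par K (c + d) :=
  fun u hu hu0 v hv => by rw [add_mul, add_smul]; exact (hc u hu hu0 v hv).add (hd u hu hu0 v hv)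

omit [FiniteDimensional F₀ V₀] in
theorem Over.par_map (hK : R.Over K) (c : F₀) : R.Par K (ι₀ c) := fun u hu _ v hv => by
  rw [mul_comm, mul_smul, ← R.j_smul]
  exact hK.rad hu (by rw [f₀.B_smul_right, hv, mul_zero])

theorem small_of_par' (hf₀ : f₀.Nondeg) (hf : f.Nondeg) (hE : R.Extract K)
    (h : ∀ c, R.Par K c → c ∈ Set.range (algebraMap F₀ F)) : R.Small K := by
  intro u hu hu0 w hw
  have h2 : ∀ a, f₀.B u a = 0 → R.φ (R.η⁻¹ • w) a ∈ Set.range (algebraMap F₀ F) := by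
    intro a hau
    refine h _ ?_
    have e : R.φ (R.η⁻¹ • w) a * R.η = R.φ w a := by
      rw [φ_apply, φ_apply, f.B_smul_right]; field_simp [R.η_ne]
    unfold Par
    rw [e]
    exact hE u hu hu0 w hw a hau
  obtain ⟨u', hu', huu'⟩ := hf₀.exists_partner' hu hu0
  have hu'u : f₀.B u' u = T₀.ε := hyp_B_swap huu'
  set c := ι₀ T₀.ε * R.φ (R.η⁻¹ • w) u' with hc
  obtain ⟨v, hv⟩ := R.exists_eq_j hf₀ hf (x := R.η⁻¹ • w - c • R.j u) fun a => by
    have e : ∀ z, R.φ (R.η⁻¹ • w - c • R.j u) z = R.φ (R.η⁻¹ • w) z - c * ι₀ (f₀.B z u) := by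
      intro z
      rw [φ_sub, φ_smul_j]
    have ha : a = (a - f₀.B u a • u') + f₀.B u a • u' := by abel
    have hau : f₀.B u (a - f₀.B u a • u') = 0 := by
      rw [f₀.B_sub_right, f₀.B_smul_right, huu', mul_one, sub_self]
    have e' : c * ι₀ T₀.ε = R.φ (R.η⁻¹ • w) u' := by
      rw [hc, mul_right_comm, ← map_mul, T₀.εε, map_one, one_mul]
    rw [ha, map_add, R.φ_smul, e u', e, f₀.B_eq_zero_symm hau, hu'u, e']
    simpa using h2 _ hau
  refine ⟨v, R.η * c, ?_⟩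
  rw [← hv, smul_sub, smul_smul, smul_smul, mul_inv_cancel₀ R.η_ne, one_smul, sub_add_cancel]

theorem rad_of_par' (hf₀ : f₀.Nondeg) (h : ∀ c, R.Par K c) {u : V₀}
    (hu : f₀.q u = 0) (hu0 : u ≠ 0) {w : V} (hw : f.B (R.j u) w = 0) : Rad f K (R.j u) w := by
  obtain ⟨u', hu', huu'⟩ := hf₀.exists_partner' hu hu0
  let S : Submodule F V :=
    { carrier := {w | ∀ c : F, Rad f K (R.j u) (c • (w - R.φ w u • R.j u'))}
      add_mem' := fun {a b} ha hb c => by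
        have := (ha c).add (hb c)
        convert this using 1
        rw [φ_add]; module
      zero_mem' := fun c => by
        rw [φ_apply, f.B_zero_right]; simpa using Rad.zero (R.q_j hu)
      smul_mem' := fun t a ha c => by
        have := ha (c * t)
        convert this using 1
        rw [φ_smul']; module }
  have hS : S = ⊤ := by
    rw [eq_top_iff, ← R.span, Submodule.span_le]
    rintro _ ⟨v, rfl⟩ c
    have := h (c * R.η⁻¹) u hu hu0 (v - f₀.B u v • u')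
      (by rw [f₀.B_sub_right, f₀.B_smul_right, huu', mul_one, sub_self])
    rwa [inv_mul_cancel_right₀ R.η_ne, map_sub, R.j_smul, ← R.φ_j] at this
  have : w ∈ S := by rw [hS]; trivial
  have := this 1
  rwa [φ_apply, hw, mul_zero, zero_smul, sub_zero, one_smul] at this

variable (R K) in
/-- The centres of the unipotent radicals follow from the rest. -/
def CenOK' : Prop := (∀ u, f₀.q u = 0 → u ≠ 0 → ∀ w, f.B (R.j u) w = 0 → Rad f K (R.j u) w) →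
  ∀ u, f₀.q u = 0 → u ≠ 0 → Cen f K (R.j u)

theorem cenOK'_of_π (hf₀ : f₀.Nondeg) (h2 : f₀.Idx2)
    (hπ : ∀ a, T.π a = 0 → ∃ c, a = c - T.ε * T.σ c) : R.CenOK' K := by
  intro h u hu hu0 a ha
  obtain ⟨c, rfl⟩ := hπ a ha
  obtain ⟨u', hu', huu'⟩ := hf₀.exists_partner' hu hu0
  obtain ⟨p, p', -, -, hpp', hp, hp', -⟩ := h2.exists_hyp_perp hf₀ hu hu' huu'
  have := (h u hu hu0 (R.j p) (R.B_j_eq_zero_iff.2 hp)).comm (h u hu hu0 ((c * R.η) • R.j p')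
    (by rw [f.B_smul_right, R.B_j_eq_zero_iff.2 hp', mul_zero]))
  have e : f.B (R.j p) ((c * R.η) • R.j p') = c := by
    rw [f.B_smul_right, mul_assoc, ← R.hB, hpp', map_one, mul_one]
  rwa [f.symm (R.j p), e] at this

theorem Over.E_le_or_small' [FiniteDimensional F V] (hK : R.Over K) (hf₀ : f₀.Nondeg)
    (hf : f.Nondeg) (h2 : f₀.Idx2) (hE : R.Extract K)
    (hm : ∀ c d, R.Par K c → R.Par K d → R.Par K (c * d)) (hr : (finrank F₀ F).Prime)
    (hc : R.CenOK' K) : f.E ≤ K ∨ R.Small K := by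
  have := Subalgebra.isSimpleOrder_of_finrank_prime F₀ F hr
  let A : Subalgebra F₀ F :=
    { carrier := {c | R.Par K c}
      add_mem' := Par.add
      algebraMap_mem' := hK.par_map
      mul_mem' := fun {c d} => hm c d }
  rcases eq_bot_or_eq_top A with h | h
  · exact Or.inr (small_of_par' hf₀ hf hE fun c hc => by
      have : c ∈ A := hc
      rwa [h, Algebra.mem_bot] at this)
  · left
    have hA : ∀ c, R.Par K c := fun c => by
      have : c ∈ A := by rw [h]; trivial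
      exact this
    have key : ∀ u, f₀.q u = 0 → u ≠ 0 → f.U (R.j u) ≤ K := fun u hu hu0 =>
      U_le_of_rad (hc (fun u hu hu0 w hw => rad_of_par' hf₀ hA hu hu0 hw) u hu hu0)
        fun w hw => rad_of_par' hf₀ hA hu hu0 hw
    obtain ⟨u, hu0, hu⟩ := h2.exists_singular
    obtain ⟨u', hu', huu'⟩ := hf₀.exists_partner' hu hu0
    exact hf.E_le_of_B_ne (R.q_j hu) (R.q_j hu')
      (fun h => by rw [R.B_j_eq_zero_iff, huu'] at h; exact one_ne_zero h) (key u hu hu0)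
      (key u' hu' (by rintro rfl; simp at huu'))

theorem Small.rat_cen (hs : R.Small K) (hK : R.Over K) (hf₀ : f₀.Nondeg)
    (h2 : f₀.Idx2) {u : V₀} (hu : f₀.q u = 0) (hu0 : u ≠ 0) {c : F} (hc : T.π c = 0)
    (h : f.ei (R.j u) 0 c ∈ K) (v : V₀) : f.ei (R.j u) 0 c (R.j v) ∈ Set.range R.j := by
  obtain ⟨u', hu', huu'⟩ := hf₀.exists_partner' hu hu0
  obtain ⟨x, y, hx, -, hxy, hux, -, hu'x, -⟩ := h2.exists_hyp_perp hf₀ hu hu' huu'
  have ok := eichOK_zero (R.q_j hu) hc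
  have h1 := (hK.rad hx (f₀.B_eq_zero_symm hu'x)).sub_fix h (Form.ei_mem_O _ _ _)
    (ok.ei_apply_fix (R.B_j_eq_zero_iff.2 hux) (f.B_zero_left _))
  obtain ⟨w, d, hw⟩ := hs x hx (by rintro rfl; simp at hxy) _ h1
  rw [ei_zero_apply (R.q_j hu) hc, R.B_j_η, huu', map_one, mul_one, sub_sub_cancel_left] at hw
  have e := congrArg (fun z => R.φ z u') hw
  rw [← neg_smul, φ_add, φ_smul_j, φ_smul_j, φ_smul_j, hyp_B_swap huu', hu'x] at e
  have e2 : ι₀ T₀.ε * ι₀ T₀.ε = 1 := by rw [← map_mul, T₀.εε, map_one]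
  refine ⟨v + (T₀.ε * f₀.B u' w * f₀.B u v) • u, ?_⟩
  rw [ei_zero_apply (R.q_j hu) hc, map_add, R.j_smul, map_mul, map_mul, R.hB u v, sub_eq_add_neg,
    ← neg_smul]
  congr 2
  rw [map_zero] at e
  linear_combination (-ι₀ T₀.ε * f.B (R.j u) (R.j v)) * e +
    (-T.ε * c * f.B (R.j u) (R.j v)) * e2

theorem Small.rat_U (hs : R.Small K) (hK : R.Over K) (hf₀ : f₀.Nondeg)
    (h2 : f₀.Idx2) {u : V₀} (hu : f₀.q u = 0) (hu0 : u ≠ 0) {w : V} {a : F}
    (ok : f.EichOK (R.j u) w a) (h : f.ei (R.j u) w a ∈ K) (v : V₀) :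
    f.ei (R.j u) w a (R.j v) ∈ Set.range R.j := by
  obtain ⟨v₀, c, rfl⟩ := hs u hu hu0 w ⟨a, ok, h⟩
  have huv : f₀.B u v₀ = 0 := by
    have := ok.huv
    rw [f.B_add_right, f.B_smul_right c, ok.huu, mul_zero, add_zero, R.B_j_η] at this
    simpa using this
  obtain ⟨a₀, ok₀⟩ := exists_eichOK hu huv
  have ok1 : f.EichOK (R.j u) (R.η • R.j v₀) a := by
    have := ok.add_smul_u (-c)
    rwa [neg_smul, add_neg_cancel_right] at this
  have ok2 : f.EichOK (R.j u) (R.η • R.j v₀) (a + (T.σ c - T.ε * c)) :=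
    ⟨ok1.hu, ok1.huv, by
      rw [map_add, ok1.ha, map_sub, T.π_ε_mul, sub_self, add_zero]⟩
  obtain ⟨h1, h3⟩ := (R.ok ok₀).ei_eq_mul ok2
  rw [ok1.ei_add_smul_u, h3] at h ⊢
  obtain ⟨v', hv'⟩ := hs.rat_cen hK hf₀ h2 hu hu0 h1
    ((K.mul_mem_cancel_left (hK _ _ _ ok₀)).1 h) v
  rw [LinearEquiv.mul_apply, ← hv']
  exact ⟨_, (R.ei_j ok₀ v').symm⟩

omit [FiniteDimensional F₀ V₀] in
theorem over_of_le [Finite V₀] (hf₀ : f₀.Nondeg) (hH : R.stab ⊓ f.E ≤ K) : R.Over K :=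
  fun u v a ok => hH ⟨R.ei_mem_stab hf₀ ok, R.ei_mem_E u v a⟩

/-- An element of `K` fixing a rational singular point is rational. -/
theorem Small.rat_of_line [Finite V₀] (hs : R.Small K) (hH : R.stab ⊓ f.E ≤ K) (hKE : K ≤ f.E)
    (hf₀ : f₀.Nondeg) (h2 : f₀.Idx2) {u : V₀} (hu : f₀.q u = 0) (hu0 : u ≠ 0)
    {k : V ≃ₗ[F] V} (hk : k ∈ K) {μ : F} (h : k (R.j u) = μ • R.j u) (v : V₀) :
    T.σ μ • k (R.j v) ∈ Set.range R.j := by
  have hK := over_of_le hf₀ hH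
  have hkO := E_le_O (hKE hk)
  have hμ : μ ≠ 0 := by
    rintro rfl
    exact R.j_ne_zero hf₀ hu0 (by simpa using h)
  have hσμ : T.σ μ ≠ 0 := fun h => hμ (T.σ_eq_zero.1 h)
  have h1 : ∀ v, f₀.B u v = 0 → ∃ (v' : V₀) (c : F), T.σ μ • k (R.j v) = R.j v' + c • R.j u := by
    intro v hv
    have := (hK.rad hu hv).conj hk hkO
    rw [h, Rad.smul_left_iff hμ] at this
    obtain ⟨v', c, e⟩ := hs u hu hu0 _ this
    refine ⟨v', R.η⁻¹ * c, smul_right_injective V R.η_ne ?_⟩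
    dsimp only
    rw [smul_add, smul_smul R.η (R.η⁻¹ * c), mul_inv_cancel_left₀ R.η_ne, ← e, map_smul, smul_comm]
  have hBu : ∀ x, T.σ μ * f.B (R.j u) (k x) = f.B (R.j u) x := fun x => by
    rw [← f.B_smul_left, ← h, mem_O_B hkO]
  obtain ⟨u', hu', huu'⟩ := hf₀.exists_partner' hu hu0
  obtain ⟨m, hm⟩ : μ * T.σ μ ∈ Set.range (algebraMap F₀ F) := by
    obtain ⟨p, p', -, -, hpp', hp, hp', -⟩ := h2.exists_hyp_perp hf₀ hu hu' huu'
    obtain ⟨v₁, c₁, e₁⟩ := h1 p hp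
    obtain ⟨v₂, c₂, e₂⟩ := h1 p' hp'
    have a1 : f.B (R.j u) (R.j v₂ + c₂ • R.j u) = 0 := by
      rw [← e₂, f.B_smul_right, hBu, R.B_j_eq_zero_iff.2 hp']
    have a2 : f.B (R.j u) (R.j v₁) = 0 := by
      have : f.B (R.j u) (R.j v₁ + c₁ • R.j u) = 0 := by
        rw [← e₁, f.B_smul_right, hBu, R.B_j_eq_zero_iff.2 hp]
      simpa [f.B_self_eq_zero (R.q_j hu)] using this
    have a3 : f.B (T.σ μ • k (R.j p)) (T.σ μ • k (R.j p')) = f.B (R.j v₁) (R.j v₂) := by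
      rw [e₁, e₂, f.B_add_left, f.B_smul_left, a1, f.B_add_right, f.B_smul_right,
        f.B_eq_zero_symm a2]
      simp
    rw [f.B_smul_left, f.B_smul_right, mem_O_B hkO, T.σσ] at a3
    refine ⟨f₀.B v₁ v₂, ?_⟩
    have e1 : R.η * f.B (R.j p) (R.j p') = 1 := by rw [← R.hB, hpp', map_one]
    rw [R.hB, ← a3]
    linear_combination (μ * T.σ μ) * e1
  obtain ⟨w, a, ok, he, -⟩ := exists_ei_apply_eq (f := f) (u := R.j u) (w := (T.σ μ)⁻¹ • R.j u')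
    (w' := k (R.j u')) (R.q_j hu) (by rw [mem_O_q hkO, f.q_smul_eq_zero (R.q_j hu'), R.q_j hu'])
    (by rw [f.B_smul_right, ← hBu, inv_mul_cancel_left₀ hσμ]) (by
      rw [f.B_smul_right]
      refine mul_ne_zero (inv_ne_zero hσμ) fun h => ?_
      rw [R.B_j_eq_zero_iff, huu'] at h
      exact one_ne_zero h)
  set e := f.ei (R.j u) w a with hedef
  have heE : e ∈ f.E := Form.ei_mem_E _ _ _
  have hhE : e⁻¹ * k ∈ f.E := f.E.mul_mem (f.E.inv_mem heE) (hKE hk)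
  have hu'h : T.σ μ • (e⁻¹ * k) (R.j u') = R.j u' := by
    rw [LinearEquiv.mul_apply, ← he, ← LinearEquiv.mul_apply, inv_mul_cancel]
    change T.σ μ • (T.σ μ)⁻¹ • R.j u' = _
    rw [smul_smul, mul_inv_cancel₀ hσμ, one_smul]
  have h3 : ∀ v, T.σ μ • (e⁻¹ * k) (R.j v) ∈ Set.range R.j := by
    have h4 : ∀ v, f₀.B u v = 0 → T.σ μ • (e⁻¹ * k) (R.j v) ∈ Set.range R.j := by
      intro v hv
      obtain ⟨v', c, hv'⟩ := h1 v hv
      have a1 : f.B (R.j u) (R.j v' + c • R.j u) = 0 := by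
        rw [← hv', f.B_smul_right, hBu, R.B_j_eq_zero_iff.2 hv]
      obtain ⟨c', hc'⟩ : ∃ c' : F, T.σ μ • (e⁻¹ * k) (R.j v) = R.j v' + c' • R.j u := by
        refine ⟨c - T.ε * f.B (-w) (R.j v' + c • R.j u), ?_⟩
        rw [LinearEquiv.mul_apply, ← map_smul, hv', hedef, ok.ei_inv, ok.neg.ei_apply_of_perp a1]
        module
      have a2 := mem_O_B (E_le_O hhE) (R.j u') (R.j v)
      have a3 : R.φ (T.σ μ • (e⁻¹ * k) (R.j v)) u' = ι₀ m * ι₀ (f₀.B u' v) := by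
        rw [φ_apply, ← hu'h, f.B_smul_left, f.B_smul_right, a2, T.σσ, hm, R.hB]; ring
      rw [hc', φ_add, φ_smul_j, φ_j, hyp_B_swap huu'] at a3
      have e2 : ι₀ T₀.ε * ι₀ T₀.ε = 1 := by rw [← map_mul, T₀.εε, map_one]
      refine ⟨v' + (T₀.ε * (m * f₀.B u' v - f₀.B u' v')) • u, ?_⟩
      rw [hc', map_add, R.j_smul]
      congr 2
      rw [map_mul, map_sub, map_mul]
      linear_combination (-ι₀ T₀.ε) * a3 + c' * e2
    intro v
    obtain ⟨v', hv'⟩ := h4 (v - f₀.B u v • u')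
      (by rw [f₀.B_sub_right, f₀.B_smul_right, huu', mul_one, sub_self])
    refine ⟨v' + f₀.B u v • u', ?_⟩
    rw [map_add, hv', R.j_smul, map_sub, R.j_smul, map_sub, map_smul, smul_sub,
      smul_comm (T.σ μ), hu'h, sub_add_cancel]
  have hhK : e⁻¹ * k ∈ K := hH ⟨R.mem_stab_of_le hf₀ hσμ h3, hhE⟩
  have heK : e ∈ K := by
    have := K.mul_mem hk (K.inv_mem hhK)
    rwa [mul_inv_rev, inv_inv, mul_inv_cancel_left] at this
  obtain ⟨v', hv'⟩ := h3 v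
  have := hs.rat_U hK hf₀ h2 hu hu0 ok heK v'
  rwa [hv', map_smul, ← LinearEquiv.mul_apply, mul_inv_cancel_left] at this

theorem Small.rat_of_fix1 [Finite V₀] (hs : R.Small K) (hH : R.stab ⊓ f.E ≤ K) (hKE : K ≤ f.E)
    (hf₀ : f₀.Nondeg) (h2 : f₀.Idx2) {u : V₀} (hu : f₀.q u = 0) (hu0 : u ≠ 0)
    {k : V ≃ₗ[F] V} (hk : k ∈ K) (h : k (R.j u) = R.j u) (v : V₀) :
    k (R.j v) ∈ Set.range R.j := by
  have := hs.rat_of_line hH hKE hf₀ h2 hu hu0 hk (μ := 1) (by rw [h, one_smul]) v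
  rwa [map_one, one_smul] at this

/-- An element of `K` mapping a rational singular point to a rational point is rational. -/
theorem Small.mem_of_point [Finite V₀] (hs : R.Small K) (hH : R.stab ⊓ f.E ≤ K) (hKE : K ≤ f.E)
    (hf₀ : f₀.Nondeg) (h2 : f₀.Idx2) (hq : ∀ v, f.q (R.j v) = 0 → f₀.q v = 0) {u : V₀}
    (hu : f₀.q u = 0) (hu0 : u ≠ 0) {g : V ≃ₗ[F] V} (hg : g ∈ K) {μ : F} (hμ : μ ≠ 0)
    (h : μ • g (R.j u) ∈ Set.range R.j) : g ∈ R.stab := by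
  obtain ⟨w, hw⟩ := h
  have hw0 : w ≠ 0 := by
    rintro rfl
    rw [map_zero, eq_comm, smul_eq_zero, or_iff_right hμ, g.map_eq_zero_iff] at hw
    exact R.j_ne_zero hf₀ hu0 hw
  have hwq : f₀.q w = 0 := hq w (by
    rw [hw, f.q_smul_eq_zero]; rw [mem_O_q (E_le_O (hKE hg)), R.q_j hu])
  obtain ⟨e₀, he₀, he₀'⟩ := h2.exists_E_apply_eq hf₀ hw0 hu0 (by rw [hwq, hu])
  obtain ⟨e, ⟨he1, he2⟩, he⟩ := exists_lift_of (R := R) (S := R.stab ⊓ f.E)
    (fun u v a ok => ⟨R.ei_mem_stab hf₀ ok, R.ei_mem_E u v a⟩) he₀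
  have h1 : e * g ∈ R.stab := R.mem_stab_of_le hf₀
    (fun h => inv_ne_zero hμ (T.σ_eq_zero.1 h))
    (hs.rat_of_line hH hKE hf₀ h2 hu hu0 (K.mul_mem (hH ⟨he1, he2⟩) hg) (μ := μ⁻¹) (by
      conv_rhs => rw [← he₀', ← he, hw, map_smul, smul_smul, inv_mul_cancel₀ hμ, one_smul]
      rfl))
  exact (R.stab.mul_mem_cancel_left he1).1 h1

/-- Two rational conjugates of Eichler elements with a common centre. -/
theorem Small.mem_of_two [Finite V₀] (hs : R.Small K) (hH : R.stab ⊓ f.E ≤ K) (hKE : K ≤ f.E)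
    (hf₀ : f₀.Nondeg) (hf : f.Nondeg) (h2 : f₀.Idx2) (hq : ∀ v, f.q (R.j v) = 0 → f₀.q v = 0)
    {a b b' : V₀} {t t' : F₀} (ok : f₀.EichOK a b t) (ok' : f₀.EichOK a b' t') (ha : a ≠ 0)
    (hbb' : f₀.B b b' ≠ 0) {g : V ≃ₗ[F] V} (hg : g ∈ K)
    (h : ∀ v, (g * R.ei a b t * g⁻¹) (R.j v) ∈ Set.range R.j)
    (h' : ∀ v, (g * R.ei a b' t' * g⁻¹) (R.j v) ∈ Set.range R.j) : g ∈ R.stab := by
  obtain ⟨v, hv⟩ : ∃ v, R.φ (g⁻¹ (R.j v)) a ≠ 0 := by
    by_contra! H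
    refine R.j_ne_zero hf₀ ha (g.map_eq_zero_iff.1 (R.eq_zero_of_B hf fun v => ?_))
    rw [B_apply_left (E_le_O (hKE hg))]
    exact R.φ_eq_zero_iff.1 (H v)
  obtain ⟨v₁, h1⟩ := h' v
  obtain ⟨v₂, h3⟩ := h (v₁ - v)
  refine hs.mem_of_point hH hKE hf₀ h2 hq ok.hu ha hg
    (μ := -(ι₀ T₀.ε * (R.φ (g⁻¹ (R.j v)) a * ι₀ (f₀.B b b'))))
    (neg_ne_zero.2 (mul_ne_zero ((map_ne_zero _).2 T₀.ε_ne_zero)
      (mul_ne_zero hv ((map_ne_zero _).2 hbb')))) ⟨v₂ - (v₁ - v), ?_⟩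
  have e : ∀ {b t}, f₀.EichOK a b t → ∀ x, (g * R.ei a b t * g⁻¹) x - x =
      g (R.φ (g⁻¹ x) a • R.j b -
        (ι₀ T₀.ε * (R.φ (g⁻¹ x) b + ι₀ t * R.φ (g⁻¹ x) a)) • R.j a) := by
    intro b t ok x
    conv_lhs => rw [LinearEquiv.mul_apply, LinearEquiv.mul_apply, R.ei_apply ok]
    nth_rewrite 5 [show x = g (g⁻¹ x) by rw [← LinearEquiv.mul_apply, mul_inv_cancel]; rfl]
    rw [← map_sub, φ_apply, φ_apply]
    congr 1
    module
  have e1 : g⁻¹ (R.j (v₁ - v)) = R.φ (g⁻¹ (R.j v)) a • R.j b' -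
      (ι₀ T₀.ε * (R.φ (g⁻¹ (R.j v)) b' + ι₀ t' * R.φ (g⁻¹ (R.j v)) a)) • R.j a := by
    rw [map_sub R.j, h1, e ok', ← LinearEquiv.mul_apply, inv_mul_cancel]; rfl
  rw [map_sub R.j, h3, e ok, e1, φ_sub, φ_sub, φ_smul_j, φ_smul_j, φ_smul_j, φ_smul_j, ok'.huv,
    ok.huu, ok.hvu, ← map_smul g]
  congr 1
  simp only [map_zero]
  module

theorem not_E_le_stab' (hf₀ : f₀.Nondeg) (h2 : f₀.Idx2) (hr : (finrank F₀ F).Prime) :
    ¬ f.E ≤ R.stab := by
  intro h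
  obtain ⟨c, hc⟩ : ∃ c : F, c ∉ Set.range (algebraMap F₀ F) := by
    by_contra! H
    have : (⊥ : Subalgebra F₀ F) = ⊤ := eq_top_iff.2 fun c _ => Algebra.mem_bot.2 (H c)
    rw [Subalgebra.bot_eq_top_iff_finrank_eq_one] at this
    rw [this] at hr
    exact Nat.not_prime_one hr
  obtain ⟨u, u', b, b', hu, hu', huu', hb0, -, hbb', hub, -, hu'b, -⟩ := h2
  have hb00 : b ≠ 0 := by rintro rfl; simp at hbb'
  have ok : f.EichOK (R.j u) ((c * R.η) • R.j b) 0 :=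
    ⟨R.q_j hu, by rw [f.B_smul_right, R.B_j_eq_zero_iff.2 hub, mul_zero], by
      rw [map_zero, f.q_smul_eq_zero (R.q_j hb0)]⟩
  obtain ⟨μ, hμ, hμ'⟩ := h (Form.ei_mem_E (R.j u) ((c * R.η) • R.j b) 0)
  obtain ⟨v, hv⟩ := (hμ' (R.j u)).1 ⟨u, rfl⟩
  rw [ok.ei_apply_u] at hv
  obtain ⟨m, rfl⟩ := R.mem_range_of_smul hf₀ (by rintro rfl; simp at huu') hv.symm
  obtain ⟨w, hw⟩ := (hμ' (R.j u')).1 ⟨u', rfl⟩
  have e1 : f.B (R.j u) (R.j u') * (c * R.η) = c := by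
    rw [mul_comm, mul_assoc, ← R.hB, huu', map_one, mul_one]
  rw [ok.ei_apply, f.B_smul_left, R.B_j_eq_zero_iff.2 (f₀.B_eq_zero_symm hu'b), smul_smul, e1]
    at hw
  simp only [mul_zero, zero_mul, add_zero, zero_smul, sub_zero, smul_add, smul_smul] at hw
  obtain ⟨d, hd⟩ := R.mem_range_of_smul hf₀ (c := ι₀ m * c) (v' := w - m • u') hb00
    (by rw [map_sub, hw, R.j_smul]; abel)
  exact hc ⟨m⁻¹ * d, by rw [map_mul, hd, map_inv₀, inv_mul_cancel_left₀ hμ]⟩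

end RatExt

open Cfsg Cfsg.Geo in
theorem isMaximalIn_subfield' {ι : Type} [Fintype ι] [DecidableEq ι] {F : Type*} [Field F]
    {F₀ : Subfield F} {T₀ : FormType F₀} {T : FormType F}
    {f₀ : Form T₀ (ι → F₀)} {f : Form T (ι → F)} (R : RatExt f₀ f) {P : GL ι F}
    (hR : R.j = ratMap F₀ P) (hf₀ : f₀.Nondeg) (h2 : f₀.Idx2)
    (hr : (finrank F₀ F).Prime) {L : Subgroup (GL ι F)} (hL : ∀ g, g ∈ L ↔ act g ∈ f.E)
    (h : ∀ K, R.stab ⊓ f.E ≤ K → K ≤ f.E → R.Small K → ∀ g ∈ K, g ∈ R.stab)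
    (h' : ∀ K, R.stab ⊓ f.E ≤ K → K ≤ f.E → f.E ≤ K ∨ R.Small K) :
    IsMaximalIn L (subfieldSubgroup F₀ P ⊓ L) := by
  refine isMaximalIn_of_act (H' := R.stab) hL
    (fun g => by rw [mem_subfieldSubgroup_iff, R.mem_stab, hR])
    (RatExt.not_E_le_stab' hf₀ h2 hr) ?_
  rintro K h1 h2 ⟨g, hg, hg'⟩
  exact (h' K h1 h2).resolve_right fun hs => hg' (h K h1 h2 hs g hg)

end CL.Root
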