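/-
Overgroups of subfield subgroups in small dimensions: the types with transvections.
-/
import Cfsg.Agent.CLAS.LowRat

set_option autoImplicit false

namespace CL.Root

open Module CL.Witt CL.Witt.Form CL.Tv

theorem alt_idx2 {F V : Type*} [Field F] [AddCommGroup V] [Module F V] [FiniteDimensional F V]
    {f : Form (FormType.alt F) V} (hf : f.Nondeg) (hn : 4 ≤ finrank F V) : f.Idx2 := by
  obtain ⟨x, hx0, hx⟩ := Iso3.exists_singular (alt_iso3 f) (by omega)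
  obtain ⟨y, hy, hxy⟩ := hf.exists_partner' hx hx0
  have h1 := hf.finrank_add_finrank_perp (Submodule.span F {x, y})
  rw [f.finrank_span_pair hx hy hxy] at h1
  obtain ⟨x', hx', hx'0⟩ := (Submodule.ne_bot_iff (f.perp (Submodule.span F {x, y}))).1 (by
    intro h; rw [h, finrank_bot] at h1; omega)
  obtain ⟨y', hy', -, hxy'⟩ := hf.exists_partner (H := Submodule.span F {x, y}) (f.alt_q x')
    (fun h => hx'0 (Submodule.disjoint_def.1 (f.isCompl_perp_pair hx hy hxy).disjoint _ h hx')) hx'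
  rw [mem_perp_span_pair] at hx' hy'
  exact ⟨x, y, x', y', hx, hy, hxy, f.alt_q _, f.alt_q _, hxy', hx'.1, hy'.1, hx'.2, hy'.2⟩

namespace RatExt

section Gen

variable {F₀ F : Type*} [Field F₀] [Field F] [Algebra F₀ F] {T₀ : FormType F₀}
  {T : FormType F} {V₀ V : Type*} [AddCommGroup V₀] [Module F₀ V₀] [AddCommGroup V] [Module F V]
  {f₀ : Form T₀ V₀} {f : Form T V} {R : RatExt f₀ f} [FiniteDimensional F₀ V₀] [Finite V₀]
  {K : Subgroup (V ≃ₗ[F] V)}

local notation "ι₀" => algebraMap F₀ F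

/-- The standing hypotheses. -/
structure Sm (R : RatExt f₀ f) (K : Subgroup (V ≃ₗ[F] V)) : Prop where
  hs : R.Small K
  hH : R.stab ⊓ f.E ≤ K
  hKE : K ≤ f.E
  hf₀ : f₀.Nondeg
  hf : f.Nondeg
  h2 : f₀.Idx2
  hq : ∀ v, f.q (R.j v) = 0 → f₀.q v = 0

namespace Sm

variable (h : R.Sm K)
include h

omit [FiniteDimensional F₀ V₀] in
theorem hK : R.Over K := over_of_le h.hf₀ h.hH

omit [FiniteDimensional F₀ V₀] [Finite V₀] in
theorem hO {k : V ≃ₗ[F] V} (hk : k ∈ K) : k ∈ f.O := E_le_O (h.hKE hk)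

theorem rat {u : V₀} (hu : f₀.q u = 0) (hu0 : u ≠ 0) {k : V ≃ₗ[F] V} (hk : k ∈ K)
    (e : k (R.j u) = R.j u) (v : V₀) : k (R.j v) ∈ Set.range R.j :=
  h.hs.rat_of_fix1 h.hH h.hKE h.hf₀ h.h2 hu hu0 hk e v

theorem param_mem {a b : V₀} {t : F₀} (ok : f₀.EichOK a b t) (ha : a ≠ 0)
    {v : V₀} (hv : f₀.ei a b t v ≠ v) {k : V ≃ₗ[F] V} (hk : k ∈ K) {l : F}
    (e : ∀ s, k s = s + l • (R.ei a b t s - s)) : l ∈ Set.range (algebraMap F₀ F) := by
  obtain ⟨w, hw⟩ := h.rat ok.hu ha hk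
    (by rw [e, R.ei_fix ok ok.huu ok.hvu, sub_self, smul_zero, add_zero]) v
  refine R.mem_range_of_smul h.hf₀ (sub_ne_zero.2 hv) (v' := w - v) ?_
  rw [map_sub, map_sub, hw, e, R.ei_j ok, add_sub_cancel_left]

/-- A transvection in `K` whose centre is orthogonal to a rational singular vector. -/
theorem mem_of_perp {u : V₀} (hu : f₀.q u = 0) (hu0 : u ≠ 0) {a₀ : F₀} (ha₀ : a₀ ≠ 0)
    (ha₀' : T₀.π a₀ = 0) {g : V ≃ₗ[F] V} (hg : g ∈ K) {w : V₀} (hw : f₀.q w = 0) (hw0 : w ≠ 0)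
    (hx : f.B (g (R.j u)) (R.j w) = 0) : g ∈ R.stab := by
  have hc : T.π (T.σ R.η * ι₀ a₀) = 0 := π_ση ha₀'
  have hxq : f.q (g (R.j u)) = 0 := by rw [mem_O_q (h.hO hg), R.q_j hu]
  have hy : f.ei (g (R.j u)) 0 (T.σ R.η * ι₀ a₀) ∈ K :=
    ei_zero_conj (R.q_j hu) hc (by rw [← ei_zero]; exact h.hK _ _ _ (eichOK_zero hu ha₀')) hg
      (h.hO hg)
  obtain ⟨v, hv⟩ : ∃ v, f.B (g (R.j u)) (R.j v) ≠ 0 := by
    by_contra! H
    exact R.j_ne_zero h.hf₀ hu0 (g.map_eq_zero_iff.1 (R.eq_zero_of_B h.hf H))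
  obtain ⟨v', hv'⟩ := h.rat hw hw0 hy (by rw [ei_zero_apply hxq hc, hx]; simp) v
  rw [ei_zero_apply hxq hc] at hv'
  exact h.hs.mem_of_point h.hH h.hKE h.hf₀ h.h2 h.hq hu hu0 hg
    (mul_ne_zero (mul_ne_zero T.ε_ne_zero (mul_ne_zero R.ση_ne ((map_ne_zero _).2 ha₀))) hv)
    ⟨v - v', by rw [map_sub, hv', sub_sub_cancel]⟩

theorem exists_perp_odd {a₀ : F₀} (ha₀ : a₀ ≠ 0) (ha₀' : T₀.π a₀ = 0)
    (hT : (∀ a, T.σ a = a) ∨ ∃ θ, T₀.σ θ ≠ θ) (h2 : (2 : F) ≠ 0) (hD : DicksonProp F)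
    (hsq : ∀ l : F, l ^ 2 = -1 → l ∈ Set.range (algebraMap F₀ F)) {x : V} {c : F}
    (hx : f.q x = 0) (hc : T.π c = 0) (hc0 : c ≠ 0) (hy : f.ei x 0 c ∈ K) :
    ∃ w, f₀.q w = 0 ∧ w ≠ 0 ∧ f.B x (R.j w) = 0 := by
  set d := T.σ R.η * ι₀ a₀ with hd
  have hd' : T.π d = 0 := π_ση ha₀'
  have hd0 : d ≠ 0 := mul_ne_zero R.ση_ne ((map_ne_zero _).2 ha₀)
  have key : ∀ u, f₀.q u = 0 →
      c * d * (f.B (R.j u) x * f.B x (R.j u)) ∈ (algebraMap F₀ F).range := by
    intro u hu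
    set l := c * d * (f.B (R.j u) x * f.B x (R.j u)) with hl
    by_cases h0 : l = 0
    · rw [h0]; exact zero_mem _
    by_cases h1 : l ^ 2 = -1
    · exact hsq l h1
    have hu0 : u ≠ 0 := by rintro rfl; simp [hl] at h0
    have ok := eichOK_zero hu ha₀'
    obtain ⟨k, hk, hk'⟩ := (oppPair_tv hx (R.q_j hu) hc hd').exists_param hD (fun ω hω => by
      rw [(oppPair_tv (R.q_j hu) hx hd' hc).par ω hω]; congr 2; ring) h0 h1 hy
      (by rw [← ei_zero]; exact h.hK _ _ _ ok)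
    obtain ⟨v, hv⟩ := h.hf₀.exists_B_eq hu0 1
    refine h.param_mem ok hu0 (v := v) ?_ hk (by rw [ei_zero]; exact hk')
    rw [ei_zero_apply hu ha₀', hv, Ne, sub_eq_self]
    simp [T₀.ε_ne_zero, ha₀, hu0]
  have hσc : T.σ c = -(T.ε * c) := by
    have := T.π_ker c hc
    linear_combination T.ε * this - T.σ c * T.εε
  have hσd : T.σ d = -(T.ε * d) := by
    have := T.π_ker d hd'
    linear_combination T.ε * this - T.σ d * T.εε
  obtain ⟨a, a', b, b', ha, -, haa', hb0, -, hbb', hb, hab', -⟩ := h.h2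
  by_cases hxa : f.B x (R.j a) = 0
  · exact ⟨a, ha, by rintro rfl; simp at haa', hxa⟩
  set γ := c * d * f.B (R.j a) x with hγ
  have hγ0 : γ ≠ 0 := mul_ne_zero (mul_ne_zero hc0 hd0) fun h => hxa (f.B_eq_zero_symm h)
  set β := γ * f.B x (R.j b) with hβ
  have hσβ : T.σ β = c * d * (f.B (R.j b) x * f.B x (R.j a)) := by
    rw [hβ, hγ, map_mul, map_mul, map_mul, hσc, hσd, f.σ_B, f.σ_B]
    linear_combination (c * d * f.B (R.j b) x * f.B x (R.j a) * (T.ε * T.ε + 1)) * T.εε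
  have e : ∀ t : F₀, ι₀ t * β + ι₀ (T₀.σ t) * T.σ β ∈ (algebraMap F₀ F).range := by
    intro t
    have := sub_mem (sub_mem (key (a + t • b) (by
      rw [f₀.q_add_of_B_eq_zero (by rw [f₀.B_smul_right, hb, mul_zero]), ha,
        f₀.q_smul_eq_zero hb0, add_zero])) (key a ha)) (key (t • b) (f₀.q_smul_eq_zero hb0 t))
    convert this using 1
    rw [hσβ, hβ, hγ]
    simp only [map_add, R.j_smul, LinearMap.add_apply, B_smul_left, B_smul_right, R.hσ]
    ring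
  obtain ⟨m, hm⟩ : β ∈ (algebraMap F₀ F).range := by
    rcases hT with hT | ⟨θ, hθ⟩
    · obtain ⟨m, hm⟩ := e 1
      have h2' : (2 : F₀) ≠ 0 := fun h => h2 (by rw [← map_ofNat ι₀ 2, h, map_zero])
      refine ⟨m / 2, ?_⟩
      rw [map_div₀, hm, hT, map_ofNat]
      simp only [map_one]
      field_simp; ring
    · obtain ⟨m, hm⟩ := e 1
      obtain ⟨m', hm'⟩ := e θ
      have : ι₀ θ - ι₀ (T₀.σ θ) ≠ 0 := by
        rw [← map_sub]; exact (map_ne_zero _).2 (sub_ne_zero.2 hθ.symm)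
      refine ⟨(m' - T₀.σ θ * m) / (θ - T₀.σ θ), ?_⟩
      rw [map_div₀, map_sub, map_sub, map_mul, hm, hm', div_eq_iff this]
      simp only [map_one]
      ring
  obtain ⟨m₁, hm₁⟩ := key a ha
  have hm₁' : ι₀ m₁ = γ * f.B x (R.j a) := by rw [hm₁, hγ]; ring
  refine ⟨m • a - m₁ • b, ?_, fun h0 => ?_, ?_⟩
  · rw [f₀.q_sub, f₀.q_smul_eq_zero ha, f₀.q_smul_eq_zero hb0, f₀.B_smul_left, f₀.B_smul_right, hb]
    simp
  · have := congrArg (fun z => f₀.B z b') h0
    simp only [B_sub_left, B_smul_left, hab', hbb', B_zero_left, mul_zero, mul_one, zero_sub,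
      neg_eq_zero, T₀.σ_eq_zero] at this
    rw [this, map_zero] at hm₁'
    exact mul_ne_zero hγ0 hxa hm₁'.symm
  · rw [map_sub, R.j_smul, R.j_smul, f.B_sub_right, f.B_smul_right, f.B_smul_right, hm, hm₁', hβ]
    ring

theorem of_central {z : V ≃ₗ[F] V} (hz : z ∈ K) (hzz : z * z = 1) {H : Submodule F₀ V₀}
    (hH : f₀.TotSing H) {u : V₀} (hu : u ∈ H) (hu0 : u ≠ 0)
    (e : ∀ s, z s - s ∈ Submodule.span F (R.j '' H)) (v : V₀) :
    ∃ w ∈ H, z (R.j v) = R.j v + R.j w := by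
  obtain ⟨w, hw⟩ := h.rat (hH.1 u hu) hu0 hz (by
    refine sub_eq_zero.1 (h.hf _ fun s => ?_)
    have : Submodule.span F (R.j '' H) ≤ LinearMap.ker (f.B (R.j u)) := by
      rw [Submodule.span_le]
      rintro _ ⟨v, hv, rfl⟩
      exact R.B_j_eq_zero_iff.2 (hH.2 u hu v hv)
    have h1 : f.B (R.j u) (z s - s) = 0 := this (e s)
    rw [f.B_sub_left, B_apply_left (h.hO hz), inv_eq_of_mul_eq_one_right hzz, ← f.B_sub_right, h1])
    v
  refine ⟨w - v, mem_of_j_mem (R := R) h.hf₀ ?_, by rw [map_sub, hw]; abel⟩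
  rw [map_sub, hw]; exact e _

theorem exists_perp_two [Finite V] {a₀ : F₀} (ha₀ : a₀ ≠ 0) (ha₀' : T₀.π a₀ = 0)
    (hT : (∀ a, T.σ a = a) ∨ ∃ θ, T₀.σ θ ≠ θ) (h2 : (2 : F) = 0) {x : V} {c : F}
    (hx : f.q x = 0) (hc : T.π c = 0) (hc0 : c ≠ 0) (hy : f.ei x 0 c ∈ K) :
    ∃ w, f₀.q w = 0 ∧ w ≠ 0 ∧ f.B x (R.j w) = 0 := by
  set d := T.σ R.η * ι₀ a₀ with hd
  have hd' : T.π d = 0 := π_ση ha₀'
  have hd0 : d ≠ 0 := mul_ne_zero R.ση_ne ((map_ne_zero _).2 ha₀)
  have key : ∀ a b, f₀.q a = 0 → a ≠ 0 → f₀.q b = 0 → f₀.B a b = 0 → b ∉ F₀ ∙ a →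
      f.B (R.j a) x * f.B x (R.j a) + f.B (R.j b) x * f.B x (R.j b) ≠ 0 →
      ∃ w, f₀.q w = 0 ∧ w ≠ 0 ∧ f.B x (R.j w) = 0 := by
    intro a b ha ha0 hb hab hba hl
    have hab' : f.B (R.j a) (R.j b) = 0 := R.B_j_eq_zero_iff.2 hab
    have hba' : f.B (R.j b) (R.j a) = 0 := f.B_eq_zero_symm hab'
    have haa := f.B_self_eq_zero (R.q_j ha)
    have hbb := f.B_self_eq_zero (R.q_j hb)
    set e := f.ei (R.j a) 0 d * f.ei (R.j b) 0 d with he
    have heK : e ∈ K := K.mul_mem (by rw [← ei_zero]; exact h.hK _ _ _ (eichOK_zero ha ha₀'))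
      (by rw [← ei_zero]; exact h.hK _ _ _ (eichOK_zero hb ha₀'))
    have he' : ∀ s, e s - s =
        -((T.ε * d * f.B (R.j a) s) • R.j a + (T.ε * d * f.B (R.j b) s) • R.j b) := by
      intro s
      rw [he, LinearEquiv.mul_apply, ei_zero_apply (R.q_j ha) hd', ei_zero_apply (R.q_j hb) hd',
        f.B_sub_right, f.B_smul_right, hab']
      module
    set H := Submodule.span F₀ {a, b} with hH
    have hHts : f₀.TotSing H := f₀.totSing_span (by simp [ha, hb]) (by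
      simp [f₀.B_self_eq_zero ha, f₀.B_self_eq_zero hb, hab, f₀.B_eq_zero_symm hab])
    have haH : R.j a ∈ Submodule.span F (R.j '' H) :=
      Submodule.subset_span ⟨a, Submodule.subset_span (by simp), rfl⟩
    have hbH : R.j b ∈ Submodule.span F (R.j '' H) :=
      Submodule.subset_span ⟨b, Submodule.subset_span (by simp), rfl⟩
    have op : OppPair (f.ei x 0 c) e (F ∙ x) (Submodule.span F (R.j '' H))
        (c * d * (f.B (R.j a) x * f.B x (R.j a) + f.B (R.j b) x * f.B x (R.j b))) :=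
      { yX := (oppPair_tv hx hx hc hc).yX
        yfix := (oppPair_tv hx hx hc hc).yfix
        eJ := fun s => by
          rw [he']
          exact Submodule.neg_mem _ (Submodule.add_mem _ (Submodule.smul_mem _ _ haH)
            (Submodule.smul_mem _ _ hbH))
        efix := fun ω hω => by
          have : Submodule.span F (R.j '' H) ≤
              LinearMap.ker (f.B (R.j a)) ⊓ LinearMap.ker (f.B (R.j b)) := by
            rw [Submodule.span_le]
            rintro _ ⟨v, hv, rfl⟩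
            obtain ⟨s, t, rfl⟩ := Submodule.mem_span_pair.1 hv
            simp [R.j_smul, haa, hbb, hab', hba']
          have h1 : f.B (R.j a) ω = 0 := (this hω).1
          have h2 : f.B (R.j b) ω = 0 := (this hω).2
          rw [← sub_eq_zero, he', h1, h2]; simp
        par := fun ξ hξ => by
          obtain ⟨s, rfl⟩ := Submodule.mem_span_singleton.1 hξ
          rw [he', ei_zero_apply hx hc]
          simp only [B_neg_right, B_add_right, B_smul_right]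
          linear_combination (norm := module) (c * d * s * (f.B (R.j a) x * f.B x (R.j a) +
            f.B (R.j b) x * f.B x (R.j b)) * T.εε) • x }
    have hnc : ¬ IsConj (f.ei x 0 c) e := by
      intro hcj
      obtain ⟨g, hg⟩ := isConj_iff.1 hcj
      have h1 : ∀ s, ∃ t : F, e s - s = t • g x := fun s => by
        obtain ⟨t, ht⟩ := Submodule.mem_span_singleton.1 (op.yX (g⁻¹ s))
        refine ⟨t, ?_⟩
        rw [← map_smul, ht, map_sub, ← hg, ← LinearEquiv.mul_apply g g⁻¹, mul_inv_cancel]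
        rfl
      obtain ⟨v, hv⟩ := h.hf₀.exists_B_eq_family' (li2 ha0 hba) ![0, 1]
      obtain ⟨v', hv'⟩ := h.hf₀.exists_B_eq_family' (li2 ha0 hba) ![1, 0]
      have v0 : f.B (R.j b) (R.j v) = 0 := R.B_j_eq_zero_iff.2 (hv 0)
      have v1 : f.B (R.j a) (R.j v) ≠ 0 := fun h => by
        have := (hv 1).symm.trans (R.B_j_eq_zero_iff.1 h); simp at this
      have v'0 : f.B (R.j a) (R.j v') = 0 := R.B_j_eq_zero_iff.2 (hv' 1)
      have v'1 : f.B (R.j b) (R.j v') ≠ 0 := fun h => by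
        have := (hv' 0).symm.trans (R.B_j_eq_zero_iff.1 h); simp at this
      obtain ⟨t, ht⟩ := h1 (R.j v)
      obtain ⟨t', ht'⟩ := h1 (R.j v')
      rw [he', v0] at ht
      rw [he', v'0] at ht'
      have e1 := congrArg (f.B (R.j v)) ht
      have e2 := congrArg (f.B (R.j v)) ht'
      have e3 := congrArg (f.B (R.j v')) ht'
      simp only [B_neg_right, B_add_right, B_smul_right, f.B_eq_zero_symm v0, mul_zero, zero_mul,
        add_zero, zero_add, neg_zero] at e1 e2 e3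
      have n1 : f.B (R.j v) (R.j a) ≠ 0 := fun h => v1 (f.B_eq_zero_symm h)
      have n2 : f.B (R.j v') (R.j b) ≠ 0 := fun h => v'1 (f.B_eq_zero_symm h)
      rcases mul_eq_zero.1 e2.symm with h | h
      · rw [h, zero_mul] at e3
        simp [T.ε_ne_zero, hd0, v'1, n2] at e3
      · rw [h, mul_zero] at e1
        simp [T.ε_ne_zero, hd0, v1, n1] at e1
    obtain ⟨m, hz1, hzz, hzX, hzJ⟩ := op.exists_central h2
      (mul_ne_zero (mul_ne_zero hc0 hd0) hl) hnc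
    have hzK : (f.ei x 0 c * e) ^ m ∈ K := K.pow_mem (K.mul_mem hy heK) m
    set z := (f.ei x 0 c * e) ^ m
    obtain ⟨v, hv⟩ := exists_j_ne (R := R) hz1
    obtain ⟨w, hwH, hw⟩ := h.of_central hzK hzz hHts (Submodule.subset_span (by simp)) ha0 hzJ v
    refine ⟨w, hHts.1 w hwH, by rintro rfl; simp [hw] at hv, ?_⟩
    have := mem_O_B (h.hO hzK) x (R.j v)
    rw [hzX x (Submodule.mem_span_singleton_self x), hw, f.B_add_right] at this
    linear_combination this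
  obtain ⟨a, a', b, b', ha, -, haa', hb0, -, hbb', hb, hab', ha'b, -⟩ := h.h2
  by_cases hxb : f.B x (R.j b) = 0
  · exact ⟨b, hb0, by rintro rfl; simp at hbb', hxb⟩
  have hxb' : f.B (R.j b) x ≠ 0 := fun h => hxb (f.B_eq_zero_symm h)
  obtain ⟨t, ht0, ht⟩ : ∃ t : F₀, t ≠ 0 ∧ f.B (R.j a) x * f.B x (R.j a) +
      f.B (R.j (a + t • b)) x * f.B x (R.j (a + t • b)) ≠ 0 := by
    by_contra! H
    have H' : ∀ t : F₀, ι₀ (T₀.σ t) * ι₀ t * (f.B (R.j b) x * f.B x (R.j b)) +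
        ι₀ t * (f.B (R.j a) x * f.B x (R.j b)) +
        ι₀ (T₀.σ t) * (f.B (R.j b) x * f.B x (R.j a)) = 0 := by
      intro t
      by_cases ht : t = 0
      · simp [ht]
      have := H t ht
      simp only [map_add, R.j_smul, LinearMap.add_apply, B_smul_left, B_smul_right, R.hσ] at this
      linear_combination this - (f.B (R.j a) x * f.B x (R.j a)) * h2
    rcases hT with hT | ⟨θ, hθ⟩
    · have := H' 1
      rw [f.symm x (R.j a), f.symm x (R.j b), hT, hT] at this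
      simp only [map_one] at this
      refine mul_ne_zero (mul_ne_zero T.ε_ne_zero hxb) hxb ?_
      linear_combination this - (T.ε * f.B x (R.j a) * f.B x (R.j b)) * h2
    · have e1 := H' 1
      have e2 := H' θ
      have e3 := H' (1 + θ)
      simp only [map_one, map_add] at e1 e3
      have : ι₀ θ - ι₀ (T₀.σ θ) ≠ 0 := by
        rw [← map_sub]; exact (map_ne_zero _).2 (sub_ne_zero.2 hθ.symm)
      refine mul_ne_zero this (mul_ne_zero hxb' hxb) ?_
      linear_combination e3 - e1 - e2 -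
        (ι₀ (T₀.σ θ) * (f.B (R.j b) x * f.B x (R.j b))) * h2
  refine key a (a + t • b) ha (by rintro rfl; simp at haa') (by
      rw [f₀.q_add_of_B_eq_zero (by rw [f₀.B_smul_right, hb, mul_zero]), ha,
        f₀.q_smul_eq_zero hb0, add_zero])
    (by rw [f₀.B_add_right, f₀.B_smul_right, hb, f₀.B_self_eq_zero ha]; simp) (fun h0 => ?_) ht
  obtain ⟨s, hs⟩ := Submodule.mem_span_singleton.1 h0
  have := congrArg (fun z => f₀.B z b') hs
  simp [hab', hbb'] at this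
  exact ht0 (T₀.σ_eq_zero.1 this.symm)

/-- Types with transvections, odd prime index. -/
theorem mem_tv [Finite V] (hr : (finrank F₀ F).Prime) (hr2 : finrank F₀ F ≠ 2) {a₀ : F₀}
    (ha₀ : a₀ ≠ 0) (ha₀' : T₀.π a₀ = 0) (hT : (∀ a, T.σ a = a) ∨ ∃ θ, T₀.σ θ ≠ θ)
    (hD : (2 : F) ≠ 0 → DicksonProp F) {g : V ≃ₗ[F] V} (hg : g ∈ K) : g ∈ R.stab := by
  obtain ⟨u, hu0, hu⟩ := h.h2.exists_singular
  have hc : T.π (T.σ R.η * ι₀ a₀) = 0 := π_ση ha₀'
  have hc0 := mul_ne_zero R.ση_ne ((map_ne_zero ι₀).2 ha₀)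
  have hxq : f.q (g (R.j u)) = 0 := by rw [mem_O_q (h.hO hg), R.q_j hu]
  have hy : f.ei (g (R.j u)) 0 (T.σ R.η * ι₀ a₀) ∈ K :=
    ei_zero_conj (R.q_j hu) hc (by rw [← ei_zero]; exact h.hK _ _ _ (eichOK_zero hu ha₀')) hg
      (h.hO hg)
  obtain ⟨w, hw, hw0, hxw⟩ : ∃ w, f₀.q w = 0 ∧ w ≠ 0 ∧ f.B (g (R.j u)) (R.j w) = 0 := by
    by_cases h2 : (2 : F) = 0
    · exact h.exists_perp_two ha₀ ha₀' hT h2 hxq hc hc0 hy
    · exact h.exists_perp_odd ha₀ ha₀' hT h2 (hD h2)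
        (fun l hl => mem_range_of_sq_eq_neg_one hr hr2 hl) hxq hc hc0 hy
  exact h.mem_of_perp hu hu0 ha₀ ha₀' hg hw hw0 hxw

end Sm

end Gen

section Alt

variable {F₀ F : Type*} [Field F₀] [Field F] [Algebra F₀ F] {T : FormType F}
  {V₀ V : Type*} [AddCommGroup V₀] [Module F₀ V₀] [AddCommGroup V] [Module F V]
  {f₀ : Form (FormType.alt F₀) V₀} {f : Form T V} {R : RatExt f₀ f} [FiniteDimensional F₀ V₀]
  {K : Subgroup (V ≃ₗ[F] V)}

local notation "ι₀" => algebraMap F₀ F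

/-- Symplectic rational structure, quadratic extension. -/
theorem Sm.mem_alt_two [Finite V₀] (h : R.Sm K) (hr : finrank F₀ F = 2) {g : V ≃ₗ[F] V}
    (hg : g ∈ K) : g ∈ R.stab := by
  obtain ⟨u, hu0, hu⟩ := h.h2.exists_singular
  have : FiniteDimensional F₀ F := Module.finite_of_finrank_pos (by omega)
  have h1 := LinearMap.finrank_range_add_finrank_ker (R.ψ (g (R.j u)))
  have h2 := Submodule.finrank_le (LinearMap.range (R.ψ (g (R.j u))))
  have h3 := h.h2.four_le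
  obtain ⟨w, hw, hw0⟩ := (Submodule.ne_bot_iff (LinearMap.ker (R.ψ (g (R.j u))))).1 (by
    intro e; rw [e, finrank_bot] at h1; omega)
  exact h.mem_of_perp hu hu0 one_ne_zero rfl hg (f₀.alt_q w) hw0 hw

theorem Over.spread_alt (hK : R.Over K) (hf₀ : f₀.Nondeg) {u b : V₀} (hu0 : u ≠ 0)
    (hb : b ∉ F₀ ∙ u) {c : F} (h : Rad f K (R.j u) (c • R.j b)) (hub : f₀.B u b = 0) :
    ∀ u', f₀.q u' = 0 → u' ≠ 0 → ∀ v, f₀.B u' v = 0 → Rad f K (R.j u') (c • R.j v) := by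
  intro u' hu' hu0' v hv
  by_cases hvu : v ∈ F₀ ∙ u'
  · obtain ⟨s, rfl⟩ := Submodule.mem_span_singleton.1 hvu
    rw [R.j_smul, smul_smul]
    exact Rad.smul_self (R.q_j hu') _
  obtain ⟨e₀, he₀, h1, h2⟩ := hf₀.witt_pair (li2 hu0 hb) (li2 hu0' hvu)
    (by rw [f₀.alt_q, f₀.alt_q]) (by rw [f₀.alt_q, f₀.alt_q])
    (by rw [f₀.B_eq_zero_symm hv, f₀.B_eq_zero_symm hub])
  obtain ⟨e, heK, heO, he⟩ := hK.exists_lift (hf₀.alt_E_eq_O ▸ he₀)
  have := h.conj heK heO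
  rwa [map_smul, he, he, h1, h2] at this

theorem Over.extract_alt (hK : R.Over K) (hf₀ : f₀.Nondeg) : R.Extract K := by
  intro u hu hu0 w hw a hua u' hu' hu0' v hv
  by_cases hau : a ∈ F₀ ∙ u
  · obtain ⟨c, rfl⟩ := Submodule.mem_span_singleton.1 hau
    rw [R.φ_smul, R.φ_eq_zero_iff.2 hw.B_eq, mul_zero, zero_smul]
    exact Rad.zero (R.q_j hu')
  have h1 := hK.rad_sub' (eichOK_zero (f₀.alt_q a) (a := 1) rfl) (f₀.B_eq_zero_symm hua)
    (f₀.B_zero_left u) hw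
  refine hK.spread_alt hf₀ hu0 hau (c := R.φ w a) ?_ hua u' hu' hu0' v hv
  convert h1 using 1
  simp [FormType.alt_ε]

variable {f : Form (FormType.alt F) V} {R : RatExt f₀ f}

theorem Over.par_mul_odd (hK : R.Over K) (hf₀ : f₀.Nondeg) (hn : 4 ≤ finrank F₀ V₀)
    (h2 : (2 : F) ≠ 0) {c d : F} (hc : R.Par K c) (hd : R.Par K d) : R.Par K (c * d) := by
  obtain ⟨u, u', p, p', -, -, huu', -, -, hpp', hup, hup', hu'p, -⟩ := alt_idx2 hf₀ hn
  have hp0 : p ≠ 0 := by rintro rfl; simp at hpp'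
  have hu0 : u ≠ 0 := by rintro rfl; simp at huu'
  have h1 := (hc p (f₀.alt_q _) hp0 u (f₀.B_eq_zero_symm hup)).comm
    (hd p (f₀.alt_q _) hp0 u' (f₀.B_eq_zero_symm hu'p))
  have h2' : (2 : F₀) ≠ 0 := fun h => h2 (by rw [← map_ofNat ι₀ 2, h, map_zero])
  have h3 := rad_of_transvection (f.alt_q _) rfl h1
    (hK.rad (f₀.alt_q u) (v := (-2⁻¹ : F₀) • p') (by rw [f₀.B_smul_right, hup', mul_zero]))
    (R.B_j_eq_zero_iff.2 hup)
  refine hK.spread_alt hf₀ hu0 (b := p) (fun h => ?_) ?_ hup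
  · obtain ⟨s, rfl⟩ := Submodule.mem_span_singleton.1 h
    rw [f₀.B_smul_left, hup', mul_zero] at hpp'
    exact zero_ne_one hpp'
  · convert h3 using 2
    have e1 : R.η * f.B (R.j u) (R.j u') = 1 := by rw [← R.hB, huu', map_one]
    rw [R.B_j_η, f₀.B_smul_right, hpp', f.alt_symm ((c * R.η) • R.j u), f.B_smul_left,
      f.B_smul_right, FormType.alt_ε, FormType.alt_σ, mul_one, map_neg, map_inv₀, map_ofNat]
    field_simp
    linear_combination (-2 * c * d * R.η) * e1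

theorem Over.ei_sq (hK : R.Over K) (hf₀ : f₀.Nondeg) (h2 : (2 : F) = 0) {u b : V₀}
    (hub : f₀.B u b = 0) (hb : b ∉ F₀ ∙ u) {m : F}
    (hm : ∀ v, f₀.B u v = 0 → Rad f K (R.j u) ((m * R.η) • R.j v)) :
    f.ei (R.j u) ((m * R.η) • R.j b) (m * m * R.η) ∈ K := by
  obtain ⟨v, hv, hbv⟩ := hf₀.exists_perp_eq' hb 1
  have huv : f₀.B u v = 0 := hv u (Submodule.mem_span_singleton_self u)
  obtain ⟨a, ok, ha⟩ := hm v huv
  have ok1 : f₀.EichOK b 0 1 := eichOK_zero (f₀.alt_q b) rfl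
  have hg := hK _ _ _ ok1
  have e := (ok.commutator_fix_ei (R.ei_mem_O b 0 1)
    (R.ei_fix ok1 (f₀.B_eq_zero_symm hub) (f₀.B_zero_left u))).2
  have e0 : R.η * f.B (R.j b) (R.j v) = 1 := by rw [← R.hB, hbv, map_one]
  have e1 : R.ei b 0 1 ((m * R.η) • R.j v) = (m * R.η) • R.j v + (m * R.η) • R.j b := by
    rw [R.ei_apply ok1, map_zero, f.B_zero_left, f.B_smul_right, FormType.alt_ε]
    simp only [map_neg, map_one]
    linear_combination (norm := module) (m * R.η * e0) • R.j b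
  have e2 : f.B ((m * R.η) • R.j v - ((m * R.η) • R.j v + (m * R.η) • R.j b))
      ((m * R.η) • R.j v) = m * m * R.η := by
    rw [sub_add_cancel_left, f.B_neg_left, f.B_smul_left, f.B_smul_right, FormType.alt_σ]
    linear_combination (-m * m * R.η) * e0 - m * m * R.η * h2
  rw [e1, e2, add_sub_cancel_left] at e
  rw [← e, commutatorElement_def]
  exact K.mul_mem (K.mul_mem (K.mul_mem hg ha) (K.inv_mem hg)) (K.inv_mem ha)

omit [FiniteDimensional F₀ V₀] in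
theorem ok_alt {u v : V₀} (huv : f₀.B u v = 0) (l a : F) : f.EichOK (R.j u) (l • R.j v) a :=
  ⟨f.alt_q _, by rw [f.B_smul_right, R.B_j_eq_zero_iff.2 huv, mul_zero], (f.alt_q _).symm⟩

omit [FiniteDimensional F₀ V₀] in
theorem ei_sq_apply {u b v : V₀} (hub : f₀.B u b = 0) (huv : f₀.B u v = 0) (hbv : f₀.B b v = 1)
    (m d : F) : f.ei (R.j b) ((m * R.η) • R.j u) (m * m * R.η) ((d * R.η) • R.j v) -
      (d * R.η) • R.j v = (m * m * d * R.η) • R.j b + (m * d * R.η) • R.j u := by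
  have e0 : R.η * f.B (R.j b) (R.j v) = 1 := by rw [← R.hB, hbv, map_one]
  rw [(ok_alt (f₀.B_eq_zero_symm hub) _ _).ei_apply, f.B_smul_left, f.B_smul_right,
    f.B_smul_right, R.B_j_eq_zero_iff.2 huv, FormType.alt_ε]
  linear_combination (norm := module) (m * m * d * R.η * e0) • R.j b + (m * d * R.η * e0) • R.j u

theorem Over.par_mul_two [Finite F] (hK : R.Over K) (hKO : K ≤ f.O) (hf₀ : f₀.Nondeg)
    (hn : 4 ≤ finrank F₀ V₀) (h2 : (2 : F) = 0) {c d : F} (hc : R.Par K c) (hd : R.Par K d) :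
    R.Par K (c * d) := by
  obtain ⟨u, u', p, p', -, -, huu', -, -, hpp', hup, hup', hu'p, -⟩ := alt_idx2 hf₀ hn
  have hp0 : p ≠ 0 := by rintro rfl; simp at hpp'
  have hu0 : u ≠ 0 := by rintro rfl; simp at huu'
  have key : ∀ m d, R.Par K m → R.Par K d → R.Par K (m * m * d) := by
    intro m d hm hd
    have hy := hK.ei_sq hf₀ h2 (f₀.B_eq_zero_symm hup) (fun h => by
      obtain ⟨s, rfl⟩ := Submodule.mem_span_singleton.1 h
      rw [f₀.B_smul_left, f₀.B_eq_zero_symm hu'p, mul_zero] at huu'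
      exact zero_ne_one huu') (hm p (f₀.alt_q _) hp0)
    have h1 := (hd u (f₀.alt_q _) hu0 p' hup').sub_fix hy (hKO hy)
      ((ok_alt (f₀.B_eq_zero_symm hup) _ _).ei_apply_fix
        (R.B_j_eq_zero_iff.2 (f₀.B_eq_zero_symm hup)) (by simp [f.alt_B_self]))
    rw [ei_sq_apply hup hup' hpp'] at h1
    have h3 := h1.add_smul (-(m * d * R.η))
    rw [neg_smul, add_neg_cancel_right] at h3
    refine hK.spread_alt hf₀ hu0 (b := p) (fun h => ?_) h3 hup
    obtain ⟨s, rfl⟩ := Submodule.mem_span_singleton.1 h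
    rw [f₀.B_smul_left, hup', mul_zero] at hpp'
    exact zero_ne_one hpp'
  have h1 : R.Par K 1 := by simpa using hK.par_map 1
  let sq : {m // R.Par K m} → {m // R.Par K m} := fun m => ⟨m * m * 1, key _ _ m.2 h1⟩
  have hinj : Function.Injective sq := fun a b e => by
    have e' : (a : F) * a * 1 = b * b * 1 := congrArg Subtype.val e
    have : ((a : F) - b) ^ 2 = 0 := by linear_combination e' + (b * b - a * b) * h2
    exact Subtype.ext (sub_eq_zero.1 (pow_eq_zero_iff two_ne_zero |>.1 this))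
  obtain ⟨m, hm⟩ := Finite.injective_iff_surjective.1 hinj ⟨c, hc⟩
  have hm' : (m : F) * m * 1 = c := congrArg Subtype.val hm
  rw [← hm', mul_one]
  exact key _ _ m.2 hd

theorem Over.cenOK'_alt [Finite F] (hK : R.Over K) (hKO : K ≤ f.O) (hf₀ : f₀.Nondeg)
    (hn : 4 ≤ finrank F₀ V₀) (hr : (finrank F₀ F).Prime) : R.CenOK' K := by
  by_cases h2 : (2 : F) = 0
  swap
  · refine cenOK'_of_π hf₀ (alt_idx2 hf₀ hn) fun a _ => ⟨a / 2, ?_⟩
    rw [FormType.alt_ε, FormType.alt_σ]; field_simp; ring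
  intro h u hu hu0 c _
  obtain ⟨θ, hθ⟩ : ∃ c : F, c ∉ Set.range (algebraMap F₀ F) := by
    by_contra! H
    have : (⊥ : Subalgebra F₀ F) = ⊤ := eq_top_iff.2 fun c _ => Algebra.mem_bot.2 (H c)
    rw [Subalgebra.bot_eq_top_iff_finrank_eq_one] at this
    rw [this] at hr
    exact Nat.not_prime_one hr
  have hθ0 : θ ≠ 0 := fun e => hθ ⟨0, by rw [e, map_zero]⟩
  have hθ1 : 1 + θ ≠ 0 := fun e => hθ ⟨-1, by rw [map_neg, map_one]; linear_combination -e⟩
  obtain ⟨u', hu', huu'⟩ := hf₀.exists_partner' hu hu0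
  obtain ⟨p, p', -, -, hpp', hup, hup', hu'p, -⟩ :=
    (alt_idx2 hf₀ hn).exists_hyp_perp hf₀ hu hu' huu'
  have hp0 : p ≠ 0 := by rintro rfl; simp at hpp'
  have key : ∀ γ β : F, β ≠ 0 → f.ei (R.j u) ((γ * R.η) • R.j p) (γ * β * R.η) ∈ K := by
    intro γ β hβ
    obtain ⟨m, hm⟩ := exists_sq_eq_of_two_eq_zero h2 (γ / β)
    have hγ : m * m * β = γ := by rw [hm]; field_simp
    have hy := hK.ei_sq hf₀ h2 (f₀.B_eq_zero_symm hup) (m := m) (fun h => by
      obtain ⟨s, rfl⟩ := Submodule.mem_span_singleton.1 h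
      rw [f₀.B_smul_left, f₀.B_eq_zero_symm hu'p, mul_zero] at huu'
      exact zero_ne_one huu') fun v hv => h p (f₀.alt_q _) hp0 _ (by
        rw [f.B_smul_right, R.B_j_eq_zero_iff.2 hv, mul_zero])
    obtain ⟨a, ok, ha⟩ := h u hu hu0 ((β * R.η) • R.j p') (by
      rw [f.B_smul_right, R.B_j_eq_zero_iff.2 hup', mul_zero])
    have e := (ok.commutator_fix_ei (hKO hy) ((ok_alt (f₀.B_eq_zero_symm hup) _ _).ei_apply_fix
        (R.B_j_eq_zero_iff.2 (f₀.B_eq_zero_symm hup)) (by simp [f.alt_B_self]))).2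
    have e0 : R.η * f.B (R.j p) (R.j p') = 1 := by rw [← R.hB, hpp', map_one]
    rw [← neg_sub _ ((β * R.η) • R.j p'), ei_sq_apply hup hup' hpp', hγ,
      (ok_alt hup _ _).ei_add_smul_u] at e
    have := K.mul_mem (K.mul_mem (K.mul_mem hy ha) (K.inv_mem hy)) (K.inv_mem ha)
    rw [← commutatorElement_def, e] at this
    convert this using 2
    rw [f.B_neg_left, f.B_add_left, f.B_smul_left, f.B_smul_left, f.B_smul_right, f.B_smul_right,
      R.B_j_eq_zero_iff.2 hup', FormType.alt_ε]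
    simp only [FormType.alt_σ]
    linear_combination (-γ * β * R.η) * e0 + (γ * β * R.η * R.η * f.B (R.j p) (R.j p')
      - m * β * R.η) * h2
  have := K.mul_mem (key (c / ((1 + θ) * R.η)) 1 one_ne_zero) (key (c / ((1 + θ) * R.η)) θ hθ0)
  rw [(ok_alt hup _ _).ei_mul (ok_alt hup _ _), ← two_smul F, h2, zero_smul, f.alt_B_self] at this
  convert this using 2
  have := R.η_ne
  field_simp
  ring

end Alt

end RatExt

end CL.Root
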