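/-
Overgroups of subfield subgroups in small dimensions: orthogonal rational structures.
-/
import Cfsg.Agent.CLAS.LowRat2
import Cfsg.Agent.CLAS.DicksonProp
import Cfsg.Agent.CLAS.SpForm

set_option autoImplicit false

namespace CL.Root

open Module CL.Witt CL.Witt.Form CL.Tv

section
variable {F V : Type*} [Field F] [AddCommGroup V] [Module F V] [FiniteDimensional F V]
  {f : Form (FormType.quad F) V}

theorem exists_nonsing_perp (hf : f.Nondeg) (X : Submodule F V)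
    (hX : 2 * finrank F X < finrank F V) : ∃ a ∈ f.perp X, f.q a ≠ 0 := by
  by_contra! H
  have h1 := ((f.quad_totSing_iff _).2 H).two_mul_finrank_le hf
  have h2 := hf.finrank_add_finrank_perp X
  omega

theorem exists_sing_nonsing' [Finite F] (hf : f.Nondeg) (h2 : (2 : F) ≠ 0) (hn : 5 ≤ finrank F V)
    (X : Submodule F V) (hX : finrank F X ≤ 2) :
    ∃ x ∈ f.perp X, ∃ a ∈ f.perp X, x ≠ 0 ∧ f.q x = 0 ∧ f.q a ≠ 0 ∧ f.B x a = 0 := by
  have d1 := hf.finrank_add_finrank_perp X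
  by_cases h : ∃ x ∈ X, x ≠ 0 ∧ x ∈ f.perp X
  · obtain ⟨x, hx, hx0, hx'⟩ := h
    obtain ⟨a, ha, ha'⟩ := exists_nonsing_perp hf X (by omega)
    refine ⟨x, hx', a, ha, hx0, ?_, ha', ha x hx⟩
    have := hx' x hx
    rw [f.quad_B_self] at this
    exact (mul_eq_zero.1 this).resolve_left h2
  · obtain ⟨x, hx, hx0, hxq⟩ := sing3_quad f (f.perp X) (by omega)
    by_contra! H
    have hts : f.TotSing (f.perp (X ⊔ F ∙ x)) := (f.quad_totSing_iff _).2 fun a ha => by
      by_contra h0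
      rw [perp_sup] at ha
      exact H x hx a ha.1 hx0 hxq h0 (f.mem_perp_span_singleton.1 ha.2)
    have hle : f.perp (X ⊔ F ∙ x) ≤ F ∙ x := by
      intro z hz
      have hz' := hts.le_perp hz
      rw [hf.perp_perp] at hz'
      obtain ⟨y, hy, w, hw, rfl⟩ := Submodule.mem_sup.1 hz'
      by_cases hy0 : y = 0
      · simpa [hy0] using hw
      · refine absurd ⟨y, hy, hy0, ?_⟩ h
        have := (f.perp X).sub_mem (f.perp_anti le_sup_left hz)
          ((Submodule.span_singleton_le_iff_mem _ _).2 hx hw)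
        simpa using this
    have d2 := Submodule.finrank_mono hle
    have d3 := finrank_span_single_le (F := F) x
    have d4 := hf.finrank_add_finrank_perp (X ⊔ F ∙ x)
    have d5 := finrank_sup_span_le X x
    omega

end

/-- The dihedral dichotomy inside a subgroup. -/
theorem exists_central_of_not_conj {F V : Type*} [Field F] [AddCommGroup V] [Module F V] [Finite V]
    {G : Subgroup (V ≃ₗ[F] V)} {y e : V ≃ₗ[F] V} (hy : y ∈ G) (he : e ∈ G) (hyy : y * y = 1)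
    (hee : e * e = 1) (hc : ∀ c ∈ G, c * y * c⁻¹ ≠ e) {W : Submodule F V}
    (h1 : ∀ s, y s - s ∈ W) (h2 : ∀ s, e s - s ∈ W) :
    ∃ m : ℕ, (y * e) ^ m ≠ 1 ∧ (y * e) ^ m * (y * e) ^ m = 1 ∧ Commute y ((y * e) ^ m) ∧
      Commute e ((y * e) ^ m) ∧ ∀ s, ((y * e) ^ m) s - s ∈ W := by
  have : Finite (V ≃ₗ[F] V) := Finite.of_injective _ DFunLike.coe_injective
  obtain ⟨m, hm⟩ := CL.Inv.even_orderOf_of_not_isConj (s := (⟨y, hy⟩ : G)) (t := ⟨e, he⟩)
    (Subtype.ext hyy) (Subtype.ext hee) fun h => by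
      obtain ⟨c, hc'⟩ := isConj_iff.1 h
      exact hc c c.2 (congrArg Subtype.val hc')
  rw [← Subgroup.orderOf_coe] at hm
  change orderOf (y * e) = _ at hm
  have hm0 : m ≠ 0 := by
    rintro rfl
    exact (orderOf_pos (y * e)).ne' hm
  obtain ⟨hz, cy, ce⟩ := CL.Inv.central_involution_of_even hyy hee (hm.trans (two_mul m).symm) hm0
  refine ⟨m, CL.Inv.ne_one_of_orderOf_two hz, CL.Inv.mul_self_of_orderOf_two hz, cy, ce, ?_⟩
  generalize m = n
  induction n with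
  | zero => simp
  | succ n ih =>
    intro s
    rw [pow_succ, LinearEquiv.mul_apply, LinearEquiv.mul_apply]
    have := W.add_mem (ih (y (e s))) (W.add_mem (h1 (e s)) (h2 s))
    convert this using 1; abel

namespace RatExt

section Two

variable {F₀ F : Type*} [Field F₀] [Field F] [Algebra F₀ F] {T : FormType F}
  {V₀ V : Type*} [AddCommGroup V₀] [Module F₀ V₀] [AddCommGroup V] [Module F V]
  {f₀ : Form (FormType.quad F₀) V₀} {f : Form T V} {R : RatExt f₀ f} [FiniteDimensional F₀ V₀]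
  [Finite V₀] {K : Subgroup (V ≃ₗ[F] V)}

/-- Orthogonal rational structure, quadratic extension, odd characteristic. -/
theorem Sm.mem_quad_two [Finite F₀] (h : R.Sm K) (hn : 5 ≤ finrank F₀ V₀) (h2 : (2 : F₀) ≠ 0)
    (hr : finrank F₀ F = 2) {g : V ≃ₗ[F] V} (hg : g ∈ K) : g ∈ R.stab := by
  obtain ⟨u, hu0, hu⟩ := h.h2.exists_singular
  have : FiniteDimensional F₀ F := Module.finite_of_finrank_pos (by omega)
  have h1 := LinearMap.finrank_range_add_finrank_ker (R.ψ (g⁻¹ (R.j u)))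
  have h3 := Submodule.finrank_le (LinearMap.range (R.ψ (g⁻¹ (R.j u))))
  have h4 := h.hf₀.finrank_add_finrank_perp (LinearMap.ker (R.ψ (g⁻¹ (R.j u))))
  obtain ⟨a, ha, b, hb, ha0, haq, hbq, hab⟩ := exists_sing_nonsing' h.hf₀ h2 hn
    (f₀.perp (LinearMap.ker (R.ψ (g⁻¹ (R.j u))))) (by omega)
  rw [h.hf₀.perp_perp] at ha hb
  have ok : f₀.EichOK a b (f₀.q b) := ⟨haq, hab, rfl⟩
  have h5 : ∀ v, (g * R.ei a b (f₀.q b) * g⁻¹) (R.j v) ∈ Set.range R.j :=
    h.rat hu hu0 (K.mul_mem (K.mul_mem hg (h.hK _ _ _ ok)) (K.inv_mem hg)) (by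
      rw [LinearEquiv.mul_apply, LinearEquiv.mul_apply, R.ei_apply ok, f.B_eq_zero_symm ha,
        f.B_eq_zero_symm hb]
      simp)
  exact h.hs.mem_of_two h.hH h.hKE h.hf₀ h.hf h.h2 h.hq ok ok ha0
    (by rw [f₀.quad_B_self]; exact mul_ne_zero h2 hbq) hg h5 h5

end Two

variable {F₀ F : Type*} [Field F₀] [Field F] [Algebra F₀ F]
  {V₀ V : Type*} [AddCommGroup V₀] [Module F₀ V₀] [AddCommGroup V] [Module F V]
  {f₀ : Form (FormType.quad F₀) V₀} {f : Form (FormType.quad F) V} {R : RatExt f₀ f}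
  [FiniteDimensional F₀ V₀] [Finite V₀] [Finite F₀] {K : Subgroup (V ≃ₗ[F] V)}

local notation "ι₀" => algebraMap F₀ F

omit [FiniteDimensional F₀ V₀] [Finite V₀] [Finite F₀] in
theorem q_j_quad (R : RatExt f₀ f) (v : V₀) : ι₀ (f₀.q v) = R.η * f.q (R.j v) := by
  have := R.hq v (f₀.q v) rfl
  simp only [FormType.quad_π, FormType.quad_σ] at this
  apply mul_left_cancel₀ R.η_ne
  rw [this, mul_assoc]

omit [FiniteDimensional F₀ V₀] [Finite V₀] [Finite F₀] in
theorem hq_quad (R : RatExt f₀ f) (v : V₀) (h : f.q (R.j v) = 0) : f₀.q v = 0 := by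
  have := q_j_quad R v
  rwa [h, mul_zero, map_eq_zero] at this

namespace Sm

variable (h : R.Sm K)
include h

theorem exists_perp_quad_odd (hn : 7 ≤ finrank F₀ V₀) (hD : DicksonProp F)
    (hsq : ∀ l : F, l ^ 2 = -1 → l ∈ Set.range (algebraMap F₀ F)) {x y : V}
    (ok : f.EichOK x y 0) (hy : f.ei x y 0 ∈ K) (h1 : f.ei x y 0 ≠ 1) :
    ∃ w, f₀.q w = 0 ∧ w ≠ 0 ∧ f.B x (R.j w) = 0 ∧ f.B y (R.j w) = 0 := by
  have key : ∀ a b, f₀.q a = 0 → f₀.q b = 0 → f₀.B a b = 0 →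
      -(R.η * R.dd x y a b) ∈ Set.range (algebraMap F₀ F) := by
    intro a b ha hb hab
    set l := -(R.η * R.dd x y a b) with hl
    by_cases h0 : l = 0
    · exact ⟨0, by rw [h0, map_zero]⟩
    by_cases h1 : l ^ 2 = -1
    · exact hsq l h1
    have ok₀ : f₀.EichOK a b 0 := ⟨ha, hab, hb.symm⟩
    have op := oppPair_quad ok (ok' (R := R) ok₀)
    rw [par_eq] at op
    obtain ⟨k, hk, hk'⟩ := op.exists_param hD (fun ω hω => by
      rw [(oppPair_quad (ok' (R := R) ok₀) ok).par ω hω, ← par_eq, f.quad_symm x, f.quad_symm x,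
        f.quad_symm y, f.quad_symm y]
      congr 2; ring) h0 h1 hy (by rw [← ei_zero']; exact h.hK _ _ _ ok₀)
    obtain ⟨ha0, hba⟩ := li_of_dd (R := R) (x := x) (y := y) (a := a) (b := b)
      (fun h => h0 (by rw [hl, h, mul_zero, neg_zero]))
    obtain ⟨v, hv⟩ := h.hf₀.exists_B_eq_family' (li2 ha0 hba) ![0, 1]
    have v0 : f₀.B b v = 0 := hv 0
    have v1 : f₀.B a v = 1 := hv 1
    refine h.param_mem ok₀ ha0 (v := v) ?_ hk (by rw [ei_zero']; exact hk')
    rw [← sub_ne_zero, quad_ei_apply ok₀, v0, v1]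
    rintro h
    simp only [one_smul, zero_smul, sub_zero] at h
    exact hba (h ▸ Submodule.zero_mem _)
  obtain ⟨a, b, ha, hb, hab, h0⟩ := exists_dd_ne (R := R) h.hf₀ h.hf (sing3_quad f₀) hn ok h1
  obtain ⟨c, hc', hc, hcH⟩ := exists_sol_zero h.hf₀ (sing3_quad f₀) (Submodule.span F₀ {a, b})
    (by have := finrank_span_pair_le (F := F₀) a b; omega)
  have hac : f₀.B a c = 0 := hc' a (Submodule.subset_span (by simp))
  have hbc : f₀.B b c = 0 := hc' b (Submodule.subset_span (by simp))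
  obtain ⟨m, hm⟩ := key a b ha hb hab
  obtain ⟨s, hs'⟩ := key c b hc hb (f₀.B_eq_zero_symm hbc)
  obtain ⟨t, ht⟩ := key a c ha hc hac
  have hm0 : ι₀ m ≠ 0 := by rw [hm]; exact neg_ne_zero.2 (mul_ne_zero R.η_ne h0)
  obtain ⟨s', t', e⟩ := Submodule.mem_span_pair.1 (cramer h0 (c := c) (s := s / m) (t := t / m)
    (by rw [map_div₀, div_mul_eq_mul_div, eq_div_iff hm0, hm, hs']; ring)
    (by rw [map_div₀, div_mul_eq_mul_div, eq_div_iff hm0, hm, ht]; ring))
  rw [← map_smul, ← map_smul, ← map_add, ← sub_eq_zero, ← map_sub, Prod.ext_iff] at e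
  refine ⟨s' • a + t' • b - c, ?_, fun h0 => hcH ?_, e.1, e.2⟩
  · have hts : f₀.TotSing (Submodule.span F₀ {a, b, c}) := f₀.totSing_span (by simp [ha, hb, hc])
      (by simp [f₀.B_self_eq_zero ha, f₀.B_self_eq_zero hb, f₀.B_self_eq_zero hc, hab, hac, hbc,
        f₀.B_eq_zero_symm hab, f₀.B_eq_zero_symm hac, f₀.B_eq_zero_symm hbc])
    exact hts.1 _ (Submodule.sub_mem _ (Submodule.add_mem _
      (Submodule.smul_mem _ _ (Submodule.subset_span (by simp)))
      (Submodule.smul_mem _ _ (Submodule.subset_span (by simp)))) (Submodule.subset_span (by simp)))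
  · exact Submodule.mem_span_pair.2 ⟨s', t', sub_eq_zero.1 h0⟩

theorem support_two [Finite V] (hn : 5 ≤ finrank F₀ V₀) (h2 : (2 : F) = 0) {x y : V}
    (ok : f.EichOK x y 0) (hy : f.ei x y 0 ∈ K) {a : V₀} (ha : f₀.q a = 0) (ha0 : a ≠ 0)
    (hne : f.B x (R.j a) ≠ 0 ∨ f.B y (R.j a) ≠ 0) :
    ∃ w, f₀.q w = 0 ∧ f₀.B a w = 0 ∧ ∃ s t : F,
      f.B x (R.j a) • y - f.B y (R.j a) • x = s • R.j w + t • R.j a := by
  set p := f.B x (R.j a) • y - f.B y (R.j a) • x with hp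
  have hyy : f.B y y = 0 := by simpa using ok.hvv
  have hap : f.B (R.j a) p = 0 := by
    rw [hp, f.B_sub_right, f.B_smul_right, f.B_smul_right, f.quad_symm y, f.quad_symm x]; ring
  have hxp : f.B x p = 0 := by simp [hp, ok.huu, ok.huv]
  have hyp : f.B y p = 0 := by simp [hp, ok.hvu, hyy]
  have hpq : f.q p = 0 := by
    rw [hp, f.q_sub, f.q_smul_eq_zero ok.hu, f.q_smul_eq_zero ok.ha.symm]
    simp [ok.hvu]
  obtain ⟨a', ha', haa'⟩ := h.hf₀.exists_partner' ha ha0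
  have haa'' : R.η * f.B (R.j a) (R.j a') = 1 := by rw [← R.hB, haa', map_one]
  by_cases H : ∀ b, f₀.B a b = 0 → f₀.q b ≠ 0 → f.B p (R.j b) = 0
  · have H1 : ∀ b, f₀.B a b = 0 → f.B p (R.j b) = 0 := by
      intro b hab
      by_cases hb : f₀.q b = 0
      · obtain ⟨c, hc, hc'⟩ := exists_nonsing_perp h.hf₀ (Submodule.span F₀ {a, b})
          (by have := finrank_span_pair_le (F := F₀) a b; omega)
        rw [mem_perp_span_pair] at hc
        have := H (b + c) (by rw [f₀.B_add_right, hab, hc.1, add_zero])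
          (by rwa [f₀.q_add_of_B_eq_zero hc.2, hb, zero_add])
        rwa [map_add, f.B_add_right, H c hc.1 hc', add_zero] at this
      · exact H b hab hb
    refine ⟨0, f₀.q_zero, f₀.B_zero_right a, 0, R.φ p a', ?_⟩
    rw [zero_smul, zero_add]
    refine sub_eq_zero.1 (R.eq_zero_of_B h.hf fun u => ?_)
    have e : u = (u - f₀.B a u • a') + f₀.B a u • a' := by abel
    have e1 : f.B p (R.j (u - f₀.B a u • a')) = 0 := H1 _ (by
      rw [f₀.B_sub_right, f₀.B_smul_right, haa', mul_one, sub_self])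
    have e2 : f.B p (R.j u) = ι₀ (f₀.B a u) * f.B p (R.j a') := by
      conv_lhs => rw [e, map_add, f.B_add_right, e1, R.j_smul, f.B_smul_right, zero_add]
    rw [f.B_sub_left, f.B_smul_left, FormType.quad_σ, e2, φ_apply, R.hB, f.quad_symm p]
    ring
  push Not at H
  obtain ⟨b, hab, hb, hpb⟩ := H
  have h2' : (2 : F₀) = 0 := (map_eq_zero ι₀).1 (by rw [map_ofNat, h2])
  have hbb : f₀.B b b = 0 := by rw [f₀.quad_B_self, h2', zero_mul]
  have hbq : f.q (R.j b) ≠ 0 := fun e => hb (h.hq b e)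
  have ok₀ : f₀.EichOK a b (f₀.q b) := ⟨ha, hab, rfl⟩
  have two : ∀ v : V, v + v = 0 := fun v => by rw [← two_smul F, h2, zero_smul]
  have sq : ∀ (g : V ≃ₗ[F] V), (∀ s, g (g s - s) = g s - s) → g * g = 1 := fun g hg => by
    ext s
    have := hg s
    rw [map_sub] at this
    change g (g s) = s
    linear_combination (norm := module) this + two (g s) - two s
  set e := R.ei a b (f₀.q b) with he
  have he' : ∀ s, e s - s = R.φ s a • R.j b - (R.φ s b + ι₀ (f₀.q b) * R.φ s a) • R.j a := by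
    intro s
    rw [he, R.ei_apply ok₀, φ_apply, φ_apply, FormType.quad_ε, map_one]; module
  have hJ : ∀ s, e s - s ∈ Submodule.span F {R.j a, R.j b} := fun s =>
    Submodule.mem_span_pair.2 ⟨-(R.φ s b + ι₀ (f₀.q b) * R.φ s a), R.φ s a, by rw [he']; module⟩
  have hqJ : ∀ α β : F, f.q (α • R.j a + β • R.j b) = β ^ 2 * f.q (R.j b) := fun α β => by
    rw [f.quad_q_add, f.q_smul_eq_zero (R.q_j ha), f.quad_q_smul, f.B_smul_left, f.B_smul_right,
      R.B_j_eq_zero_iff.2 hab]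
    ring
  obtain ⟨m, hz1, hzz, cy, ce, hzW⟩ := exists_central_of_not_conj (G := f.O) (Form.ei_mem_O x y 0)
    (R.ei_mem_O a b (f₀.q b)) (sq _ fun s => quad_ei_fix ok (quad_ei_sub_mem ok s))
    (sq _ fun s => by
      obtain ⟨α, β, e⟩ := Submodule.mem_span_pair.1 (hJ s)
      rw [← he, ← e, map_add, map_smul, map_smul, he, R.ei_fix ok₀ ok₀.huu ok₀.hvu,
        R.ei_fix ok₀ hab hbb])
    (fun c hc e1 => by
      have e2 := he' (R.j a')
      rw [he, ← e1, φ_j, haa', map_one, sub_eq_add_neg (_ • _), add_comm (_ • R.j b),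
        ← neg_smul] at e2
      have e3 := congrArg f.q e2
      rw [hqJ, ok.conj_ei hc] at e3
      obtain ⟨α, β, e4⟩ := Submodule.mem_span_pair.1 (quad_ei_sub_mem (ok.map hc) (R.j a'))
      rw [← e4, f.quad_q_add, f.q_smul_eq_zero (ok.map hc).hu, f.q_smul_eq_zero (ok.map hc).ha.symm,
        f.B_smul_left, f.B_smul_right, (ok.map hc).huv] at e3
      exact hbq (by simpa using e3.symm))
    (W := Submodule.span F {x, y} ⊔ Submodule.span F {R.j a, R.j b})
    (fun s => Submodule.mem_sup_left (quad_ei_sub_mem ok s))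
    (fun s => Submodule.mem_sup_right (hJ s))
  have hzK : (f.ei x y 0 * e) ^ m ∈ K := K.pow_mem (K.mul_mem hy (h.hK _ _ _ ok₀)) m
  set z := (f.ei x y 0 * e) ^ m
  have hzO := h.hO hzK
  have hza : z (R.j a) = R.j a := by
    obtain ⟨v, hv, hv'⟩ := h.hf₀.exists_perp_eq' (H := F₀ ∙ a) (x := b) (fun h => by
      obtain ⟨c, rfl⟩ := Submodule.mem_span_singleton.1 h
      exact hb (f₀.q_smul_eq_zero ha c)) (-1)
    have e1 := he' (R.j v)
    rw [φ_j, φ_j, hv', hv a (Submodule.mem_span_singleton_self a)] at e1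
    have e2 : e (R.j v) - R.j v = R.j a := by rw [e1]; simp
    obtain ⟨α, β, e3⟩ := Submodule.mem_span_pair.1 (hJ (z (R.j v)))
    rw [← LinearEquiv.mul_apply, ce.eq, LinearEquiv.mul_apply, ← map_sub, e2] at e3
    have e4 := congrArg f.q e3
    rw [hqJ, mem_O_q hzO, R.q_j ha] at e4
    have hβ : β = 0 := by simpa [hbq] using e4
    rw [hβ, zero_smul, add_zero] at e3
    have e5 : z (z (R.j a)) = R.j a := by rw [← LinearEquiv.mul_apply, hzz]; rfl
    rw [← e3, map_smul, ← e3, smul_smul] at e5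
    have e6 : ((α - 1) ^ 2) • R.j a = 0 := by
      linear_combination (norm := module) e5 + ((1 - α) * h2) • R.j a
    have : α = 1 := by simpa [R.j_ne_zero h.hf₀ ha0, sub_eq_zero] using e6
    rw [← e3, this, one_smul]
  have hzp : z p = p := by
    rw [hp, ← quad_ei_apply ok, map_sub, ← LinearEquiv.mul_apply, ← cy.eq, LinearEquiv.mul_apply,
      hza]
  have hN : ∀ s, ∃ l α : F, z s - s = l • p + α • R.j a := by
    intro s
    obtain ⟨ξ, hξ, ω, hω, e1⟩ := Submodule.mem_sup.1 (hzW s)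
    obtain ⟨s₁, t₁, rfl⟩ := Submodule.mem_span_pair.1 hξ
    obtain ⟨α, β, rfl⟩ := Submodule.mem_span_pair.1 hω
    have e2 : f.B (R.j a) (z s - s) = 0 := by
      rw [f.B_sub_right, ← mem_O_B hzO (R.j a) s, hza, sub_self]
    have e3 : f.B p (z s - s) = 0 := by
      rw [f.B_sub_right, ← mem_O_B hzO p s, hzp, sub_self]
    rw [← e1] at e2 e3 ⊢
    simp only [B_add_right, B_smul_right, f.B_eq_zero_symm hxp, f.B_eq_zero_symm hyp,
      f.B_eq_zero_symm hap, f.B_self_eq_zero (R.q_j ha), R.B_j_eq_zero_iff.2 hab, mul_zero,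
      add_zero, zero_add, mul_eq_zero, hpb, or_false, f.quad_symm x, f.quad_symm y] at e2 e3
    rcases hne with h0 | h0
    · refine ⟨t₁ / f.B x (R.j a), α, ?_⟩
      have : s₁ = -(t₁ / f.B x (R.j a) * f.B y (R.j a)) := by field_simp; linear_combination e2
      rw [e3, hp, this, smul_sub, smul_smul, smul_smul, div_mul_cancel₀ _ h0]
      module
    · refine ⟨-(s₁ / f.B y (R.j a)), α, ?_⟩
      have : t₁ = -(s₁ / f.B y (R.j a) * f.B x (R.j a)) := by field_simp; linear_combination e2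
      rw [e3, hp, this, smul_sub, smul_smul, smul_smul, neg_mul, neg_mul, div_mul_cancel₀ _ h0]
      module
  obtain ⟨v, l, α, hl, hv⟩ : ∃ (v : V₀) (l α : F), l ≠ 0 ∧ z (R.j v) - R.j v = l • p + α • R.j a := by
    by_contra! H
    have H1 : ∀ v, ∃ α : F, z (R.j v) = R.j v + α • R.j a := fun v => by
      obtain ⟨l, α, e⟩ := hN (R.j v)
      by_cases hl : l = 0
      · exact ⟨α, by rw [← sub_eq_iff_eq_add', e, hl, zero_smul, zero_add]⟩
      · exact absurd e (H v l α hl)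
    have hB : f.B (R.j a') (R.j a) ≠ 0 := by
      rw [f.quad_symm]; intro e; rw [e, mul_zero] at haa''; exact zero_ne_one haa''
    obtain ⟨α', e1⟩ := H1 a'
    have e2 := mem_O_q hzO (R.j a')
    rw [e1, f.quad_q_add, f.q_smul_eq_zero (R.q_j ha), f.B_smul_right, add_zero, add_eq_left,
      mul_eq_zero, or_iff_left hB] at e2
    rw [e2, zero_smul, add_zero] at e1
    obtain ⟨v, hv⟩ := exists_j_ne (R := R) hz1
    obtain ⟨α, e3⟩ := H1 v
    have e4 := mem_O_B hzO (R.j a') (R.j v)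
    rw [e1, e3, f.B_add_right, f.B_smul_right, add_eq_left, mul_eq_zero, or_iff_left hB] at e4
    exact hv (by rw [e3, e4, zero_smul, add_zero])
  obtain ⟨v', hv'⟩ := h.rat ha ha0 hzK hza v
  rw [← hv', ← map_sub] at hv
  refine ⟨v' - v, h.hq _ ?_, R.B_j_eq_zero_iff.1 ?_, l⁻¹, -(l⁻¹ * α), ?_⟩
  · rw [hv, f.quad_q_add, f.q_smul_eq_zero hpq, f.q_smul_eq_zero (R.q_j ha), f.B_smul_left,
      f.B_smul_right, f.B_eq_zero_symm hap]
    simp
  · rw [hv, f.B_add_right, f.B_smul_right, f.B_smul_right, hap, f.B_self_eq_zero (R.q_j ha)]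
    simp
  · rw [hv, smul_add, smul_smul, inv_mul_cancel₀ hl]
    module

theorem exists_perp_quad_two [Finite V] (hn : 7 ≤ finrank F₀ V₀) (h2 : (2 : F) = 0) {x y : V}
    (ok : f.EichOK x y 0) (hy : f.ei x y 0 ∈ K) (h1 : f.ei x y 0 ≠ 1) :
    ∃ w, f₀.q w = 0 ∧ w ≠ 0 ∧ f.B x (R.j w) = 0 ∧ f.B y (R.j w) = 0 := by
  by_contra! H
  have H1 : ∀ w, f₀.q w = 0 → w ≠ 0 → f.B x (R.j w) ≠ 0 ∨ f.B y (R.j w) ≠ 0 := fun w hw hw0 => by
    by_cases e : f.B x (R.j w) = 0
    exacts [Or.inr (H w hw hw0 e), Or.inl e]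
  have hyy : f.B y y = 0 := by simpa using ok.hvv
  obtain ⟨a, ha0, ha⟩ := h.h2.exists_singular
  obtain ⟨w, hw, haw, s, t, e⟩ := h.support_two (by omega) h2 ok hy ha ha0 (H1 a ha ha0)
  obtain ⟨c, hc', hc, hcH⟩ := exists_sol_zero h.hf₀ (sing3_quad f₀) (Submodule.span F₀ {a, w})
    (by have := finrank_span_pair_le (F := F₀) a w; omega)
  have hc0 : c ≠ 0 := by rintro rfl; exact hcH (Submodule.zero_mem _)
  obtain ⟨w', hw', hcw', s', t', e'⟩ := h.support_two (by omega) h2 ok hy hc hc0 (H1 c hc hc0)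
  have hperp : ∀ r, (∀ v ∈ Submodule.span F₀ {a, w}, f₀.B v r = 0) →
      f.B x (R.j a) * f.B y (R.j r) - f.B y (R.j a) * f.B x (R.j r) = 0 := by
    intro r hr
    have := congrArg (fun z => f.B z (R.j r)) e
    simpa [FormType.quad_σ, R.B_j_eq_zero_iff.2 (hr a (Submodule.subset_span (by simp))),
      R.B_j_eq_zero_iff.2 (hr w (Submodule.subset_span (by simp)))] using this
  obtain ⟨r, hr, hcr⟩ := h.hf₀.exists_perp_eq' hcH 1
  have e1 := hperp c hc'
  have e2 := hperp r hr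
  have e3 : f.B x (R.j c) * f.B y (R.j r) - f.B y (R.j c) * f.B x (R.j r) = 0 := by
    rcases H1 a ha ha0 with h0 | h0
    · apply mul_left_cancel₀ h0
      linear_combination f.B x (R.j c) * e2 - f.B x (R.j r) * e1
    · apply mul_left_cancel₀ h0
      linear_combination f.B y (R.j c) * e2 - f.B y (R.j r) * e1
  have e4 := congrArg (fun z => R.η * f.B z (R.j r)) e'
  simp only [B_sub_left, B_add_left, B_smul_left, FormType.quad_σ, e3, mul_zero] at e4
  rw [mul_add, mul_left_comm, ← R.hB, mul_left_comm, ← R.hB, hcr, map_one, mul_one] at e4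
  have e5 : f.B x (R.j c) • y - f.B y (R.j c) • x = s' • R.j (w' - f₀.B w' r • c) := by
    rw [e', map_sub, R.j_smul]
    linear_combination (norm := module) (-e4) • R.j c
  have e6 : f.B x (R.j c) • y - f.B y (R.j c) • x ≠ 0 := by
    intro h3
    refine h1 (LinearEquiv.ext fun s => sub_eq_zero.1 ?_)
    have e := congrArg (fun t => f.B t s) h3
    simp only [B_sub_left, B_smul_left, FormType.quad_σ, B_zero_left] at e
    change f.ei x y 0 s - s = 0
    rw [quad_ei_apply ok]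
    rcases H1 c hc hc0 with h | h
    · apply smul_right_injective V h
      dsimp only
      linear_combination (norm := module) (f.B x s) • h3 - e • x
    · apply smul_right_injective V h
      dsimp only
      linear_combination (norm := module) (f.B y s) • h3 - e • y
  have hs' : s' ≠ 0 := fun h => e6 (by rw [e5, h, zero_smul])
  have a1 := congrArg (f.B x) e5
  have a2 := congrArg (f.B y) e5
  simp only [B_sub_right, B_smul_right, ok.huu, ok.huv, ok.hvu, hyy, mul_zero, sub_zero,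
    zero_eq_mul, hs', false_or] at a1 a2
  refine H _ ?_ (fun h => e6 (by rw [e5, h, map_zero, smul_zero])) a1 a2
  rw [f₀.q_sub, hw', f₀.q_smul_eq_zero hc, f₀.B_smul_right, f₀.B_eq_zero_symm hcw']
  simp

theorem mem_quad [Finite V] (hn : 7 ≤ finrank F₀ V₀) (hr : (finrank F₀ F).Prime)
    (hD : (2 : F) ≠ 0 → DicksonProp F) {g : V ≃ₗ[F] V} (hg : g ∈ K) : g ∈ R.stab := by
  by_cases hr2 : (2 : F) ≠ 0 ∧ finrank F₀ F = 2
  · exact h.mem_quad_two (by omega)
      (fun e => hr2.1 (by rw [← map_ofNat ι₀ 2, e, map_zero])) hr2.2 hg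
  have key : ∀ a b, f₀.EichOK a b 0 → ∀ v, (g * R.ei a b 0 * g⁻¹) (R.j v) ∈ Set.range R.j := by
    intro a b ok₀ v
    have e : g * R.ei a b 0 * g⁻¹ = f.ei (g (R.j a)) (g (R.η • R.j b)) 0 := by
      rw [ei_zero', (ok' ok₀).conj_ei (h.hO hg)]
    have hy : f.ei (g (R.j a)) (g (R.η • R.j b)) 0 ∈ K :=
      e ▸ K.mul_mem (K.mul_mem hg (h.hK a b 0 ok₀)) (K.inv_mem hg)
    rw [e]
    have ok := (ok' (R := R) ok₀).map (h.hO hg)
    by_cases h1 : f.ei (g (R.j a)) (g (R.η • R.j b)) 0 = 1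
    · rw [h1]; exact ⟨v, rfl⟩
    obtain ⟨w, hw, hw0, e1, e2⟩ : ∃ w, f₀.q w = 0 ∧ w ≠ 0 ∧ f.B (g (R.j a)) (R.j w) = 0 ∧
        f.B (g (R.η • R.j b)) (R.j w) = 0 := by
      by_cases h2 : (2 : F) = 0
      · exact h.exists_perp_quad_two hn h2 ok hy h1
      · exact h.exists_perp_quad_odd hn (hD h2)
          (fun l hl => mem_range_of_sq_eq_neg_one hr (fun e => hr2 ⟨h2, e⟩) hl) ok hy h1
    exact h.rat hw hw0 hy (ok.ei_apply_fix e1 e2) v
  obtain ⟨a, a', b, b', ha, -, haa', hb, hb', hbb', hab, hab', -⟩ := h.h2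
  exact h.hs.mem_of_two h.hH h.hKE h.hf₀ h.hf h.h2 h.hq (t := 0) (t' := 0) ⟨ha, hab, hb.symm⟩
    ⟨ha, hab', hb'.symm⟩ (by rintro rfl; simp at haa') (by simp [hbb']) hg
    (key a b ⟨ha, hab, hb.symm⟩) (key a b' ⟨ha, hab', hb'.symm⟩)

end Sm

end RatExt

section Std

open Cfsg Cfsg.Geo RatExt

theorem isMaximalIn_subfield5 {ι : Type} [Fintype ι] [DecidableEq ι] {F : Type*} [Field F]
    [Finite F] {F₀ : Subfield F} {T₀ : FormType F₀} {T : FormType F}
    {f₀ : Form T₀ (ι → F₀)} {f : Form T (ι → F)} (R : RatExt f₀ f) {P : GL ι F}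
    (hR : R.j = ratMap F₀ P) (hf : f.Nondeg) (h3 : Sing3 f₀) (hn : 5 ≤ Fintype.card ι)
    (hr : (finrank F₀ F).Prime) {L : Subgroup (GL ι F)} (hL : ∀ g, g ∈ L ↔ act g ∈ f.E)
    (hπ : ∀ a, T.π a = 0 → ∃ c, a = c - T.ε * T.σ c) (hq : ∀ v, f.q (R.j v) = 0 → f₀.q v = 0)
    (h : ∀ K, R.Sm K → ∀ g ∈ K, g ∈ R.stab) : IsMaximalIn L (subfieldSubgroup F₀ P ⊓ L) := by
  have hf₀ : f₀.Nondeg := R.nondeg hf (hR ▸ ratMap_injective F₀ P)
  have hn' : 5 ≤ finrank F₀ (ι → F₀) := by simpa using hn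
  have h2 := Iso3.idx2 h3 hf₀ hn'
  refine isMaximalIn_subfield' R hR hf₀ h2 hr hL
    (fun K h1 h2' hs => h K ⟨hs, h1, h2', hf₀, hf, h2, hq⟩) fun K h1 h2' => ?_
  have hK := over_of_le hf₀ h1
  have hE := hK.extract5 hf₀ h3 hn'
  exact hK.E_le_or_small' hf₀ hf h2 hE
    (fun c d => Over.par_mul5 (h2'.trans E_le_O) hf₀ h3 hn' hE) hr (cenOK'_of_π hf₀ h2 hπ)

variable {F : Type*} [Field F] [Fintype F]

theorem isMaximalIn_subfield_sp {m : ℕ} (hm : 2 ≤ m) (F₀ : Subfield F) {r : ℕ} (hr : r.Prime)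
    (hcard : Fintype.card F = Nat.card F₀ ^ r) (P : GL (Fin m ⊕ Fin m) F) {ζ : F} (hζ : ζ ≠ 0)
    (hP : IsFormRationalStructure (sympForm m F) F₀ ζ P) :
    IsMaximalIn (spGL m F) (subfieldSubgroup F₀ P ⊓ spGL m F) := by
  obtain ⟨f₀, R, hR, -⟩ := exists_ratExt_alt (ratMap_smul F₀ P) (ratMap_span F₀ P)
    (CL.Sp.spForm m F) hζ (fun _ => rfl) (by rw [FormType.alt_ε, FormType.alt_σ, neg_one_mul])
    (fun _ => rfl)
    (fun u v => by rw [CL.Sp.spForm_B]; exact hP _ _ (fun i => (u i).2) fun i => (v i).2)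
    (fun u => alt_q _ _)
  have hf := CL.Sp.spForm_nondeg m F
  have hf₀ : f₀.Nondeg := R.nondeg hf (hR ▸ ratMap_injective F₀ P)
  have hr' : (finrank F₀ F).Prime := by rwa [finrank_eq_of_card F₀ hcard]
  have hn : 4 ≤ finrank F₀ (Fin m ⊕ Fin m → F₀) := by simp; omega
  have h2 := alt_idx2 hf₀ hn
  refine isMaximalIn_subfield' R hR hf₀ h2 hr' mem_spGL_iff_E (fun K h1 h2' hs g hg => ?_)
    fun K h1 h2' => ?_
  · have h : R.Sm K := ⟨hs, h1, h2', hf₀, hf, h2, fun v _ => f₀.alt_q v⟩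
    by_cases hr2 : finrank F₀ F = 2
    · exact h.mem_alt_two hr2 hg
    · exact h.mem_tv hr' hr2 one_ne_zero rfl (Or.inl fun _ => rfl) dicksonProp hg
  · have hK := over_of_le hf₀ h1
    refine hK.E_le_or_small' hf₀ hf h2 (hK.extract_alt hf₀) (fun c d hc hd => ?_) hr'
      (hK.cenOK'_alt (h2'.trans E_le_O) hf₀ hn hr')
    by_cases h : (2 : F) = 0
    · exact hK.par_mul_two (h2'.trans E_le_O) hf₀ hn h hc hd
    · exact hK.par_mul_odd hf₀ hn h hc hd

theorem isMaximalIn_subfield_su {n q : ℕ} (hF : Fintype.card F = q ^ 2) (hn : 5 ≤ n)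
    (F₀ : Subfield F) {r : ℕ} (hr : r.Prime) (hro : Odd r)
    (hcard : Fintype.card F = Nat.card F₀ ^ r) (P : GL (Fin n) F)
    (hP : IsFormRationalStructure (hermForm n F q) F₀ 1 P) :
    IsMaximalIn (GU n F q ⊓ specialLinear (Fin n) F)
      (subfieldSubgroup F₀ P ⊓ (GU n F q ⊓ specialLinear (Fin n) F)) := by
  let σ₀ : F₀ →+* F₀ := ((conjHom hF).comp F₀.subtype).codRestrict F₀ fun c => F₀.pow_mem c.2 q
  have hσ : ∀ c : F₀, conjHom hF c = σ₀ c := fun _ => rfl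
  have hσ2 : ∀ c, σ₀ (σ₀ c) = c := fun c => Subtype.ext (conjHom_invol hF c)
  obtain ⟨θ, hθ⟩ := exists_pow_ne_of_odd hF hro hcard
  have hθ' : σ₀ θ ≠ θ := fun h => hθ (congrArg Subtype.val h)
  have hσ₀ : σ₀ ≠ RingHom.id F₀ := fun h => hθ' (by rw [h]; rfl)
  obtain ⟨f₀, R, hR, -⟩ := exists_ratExt_herm (ratMap_smul F₀ P) (ratMap_span F₀ P) (hermStd hF n)
    hσ₀ hσ2 hσ (fun u v => hP _ _ (fun i => (v i).2) fun i => (u i).2)
  have hr' := finrank_eq_of_card F₀ hcard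
  obtain ⟨a₀, ha₀, ha₀'⟩ := FormType.exists_add_σ_eq_zero hσ₀ hσ2
  refine isMaximalIn_subfield5 R hR (hermStd_nondeg hF n) (sing3_herm hσ₀ f₀) (by simpa using hn)
    (hr' ▸ hr) (mem_SU_iff_E hF (by omega)) (hπ_herm (hermStd_ne_id hF)) (fun v hv => ?_)
    fun K h g hg => h.mem_tv (hr' ▸ hr) (by rw [hr']; rintro rfl; exact absurd hro (by decide)) ha₀ ha₀'
      (Or.inr ⟨θ, hθ'⟩) dicksonProp hg
  rw [herm_q] at hv ⊢
  exact R.B_j_eq_zero_iff.1 hv

theorem isMaximalIn_subfield_su_quad {n q : ℕ} (hF : Fintype.card F = q ^ 2) (hn : 5 ≤ n)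
    (hodd : Odd q) (F₀ : Subfield F) (hcard : Fintype.card F = Nat.card F₀ ^ 2)
    (P : GL (Fin n) F) (hP : IsFormRationalStructure (hermForm n F q) F₀ 1 P) :
    IsMaximalIn (GU n F q ⊓ specialLinear (Fin n) F)
      (subfieldSubgroup F₀ P ⊓ (GU n F q ⊓ specialLinear (Fin n) F)) := by
  have hσ : ∀ c : F₀, conjHom hF c = c := pow_eq_of_card hF hcard
  have h2 : (2 : F) ≠ 0 := two_ne_zero_of_odd (by rw [hF]; exact hodd.pow)
  have hB : ∀ u v, 1 * (hermStd hF n).B (ratMap F₀ P u) (ratMap F₀ P v) ∈ F₀ :=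
    fun u v => hP _ _ (fun i => (v i).2) fun i => (u i).2
  have hs : ∀ u v, conjHom hF ((hermStd hF n).B (ratMap F₀ P u) (ratMap F₀ P v)) =
      (hermStd hF n).B (ratMap F₀ P u) (ratMap F₀ P v) := fun u v => by
    simpa using hσ ⟨_, hB u v⟩
  obtain ⟨f₀, R, hR, -⟩ := exists_ratExt_quad (ratMap_smul F₀ P) (ratMap_span F₀ P) (hermStd hF n)
    one_ne_zero hσ (by simp [FormType.herm_ε]) hB
    (fun u => ⟨1 * (hermStd hF n).B (ratMap F₀ P u) (ratMap F₀ P u) / 2,
      F₀.div_mem (hB u u) (by simp)⟩)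
    (fun u v => by
      have := (hermStd hF n).herm_symm (ratMap F₀ P u) (ratMap F₀ P v)
      rw [hs] at this
      simp only [map_add, LinearMap.add_apply, this]
      field_simp; ring)
    (fun c u => Subtype.ext (by
      simp only [ratMap_smul, B_smul_left, B_smul_right, FormType.herm_σ, Subfield.coe_mul]
      change 1 * ((c : F) * (conjHom hF c * _)) / 2 = _
      rw [hσ]; ring))
    (fun v => by
      simp only [map_one, one_mul, FormType.herm_π, herm_q, map_div₀, hs, map_ofNat]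
      field_simp; ring)
  have hr := finrank_eq_of_card F₀ hcard
  have h2' : (2 : F₀) ≠ 0 := fun h => h2 (congrArg Subtype.val h)
  refine isMaximalIn_subfield5 R hR (hermStd_nondeg hF n) (sing3_quad f₀) (by simpa using hn)
    (by rw [hr]; exact Nat.prime_two) (mem_SU_iff_E hF (by omega)) (hπ_herm (hermStd_ne_id hF))
    (fun v hv => ?_) fun K h g hg => h.mem_quad_two (by simpa using hn) h2' hr hg
  rw [herm_q, R.B_j_eq_zero_iff, quad_B_self] at hv
  exact (mul_eq_zero.1 hv).resolve_left h2'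

theorem isMaximalIn_subfield_su_alt {n q : ℕ} (hF : Fintype.card F = q ^ 2) (hn : 5 ≤ n)
    (F₀ : Subfield F) (hcard : Fintype.card F = Nat.card F₀ ^ 2) {ζ : F} (hζ0 : ζ ≠ 0)
    (hζ : ζ + ζ ^ q = 0) (P : GL (Fin n) F) (hP : IsFormRationalStructure (hermForm n F q) F₀ ζ P)
    (halt : ∀ u : Fin n → F, (∀ i, u i ∈ F₀) → hermForm n F q
      (Matrix.mulVec (P : Matrix (Fin n) (Fin n) F) u)
      (Matrix.mulVec (P : Matrix (Fin n) (Fin n) F) u) = 0) :
    IsMaximalIn (GU n F q ⊓ specialLinear (Fin n) F)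
      (subfieldSubgroup F₀ P ⊓ (GU n F q ⊓ specialLinear (Fin n) F)) := by
  have hσ : ∀ c : F₀, conjHom hF c = c := pow_eq_of_card hF hcard
  have hζ' : conjHom hF ζ = -ζ := by rw [conjHom_apply]; linear_combination hζ
  obtain ⟨f₀, R, hR, -⟩ := exists_ratExt_alt (ratMap_smul F₀ P) (ratMap_span F₀ P) (hermStd hF n)
    hζ0 hσ (by rw [FormType.herm_ε, FormType.herm_σ, one_mul, hζ'])
    (fun c => by
      rw [FormType.herm_π, FormType.herm_σ, map_mul, conjHom_invol, hσ, hζ']; ring)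
    (fun u v => hP _ _ (fun i => (v i).2) fun i => (u i).2)
    (fun u => by rw [herm_q]; exact halt _ fun i => (u i).2)
  have hr := finrank_eq_of_card F₀ hcard
  exact isMaximalIn_subfield5 R hR (hermStd_nondeg hF n) (sing3_alt f₀) (by simpa using hn)
    (by rw [hr]; exact Nat.prime_two) (mem_SU_iff_E hF (by omega)) (hπ_herm (hermStd_ne_id hF))
    (fun v _ => f₀.alt_q v) fun K h g hg => h.mem_alt_two hr hg

theorem isMaximalIn_subfield_quad7 {ι : Type} [Fintype ι] [DecidableEq ι]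
    (hn : 7 ≤ Fintype.card ι) {Q : (ι → F) → F} (hQ : IsNondegenerateQuadraticForm Q)
    (F₀ : Subfield F) {r : ℕ} (hr : r.Prime) (hcard : Fintype.card F = Nat.card F₀ ^ r)
    (P : GL ι F) {ζ : F} (hζ : ζ ≠ 0) (hP : IsQuadFormRationalStructure (fun v => ζ * Q v) F₀ P) :
    IsMaximalIn (omegaGL Q) (subfieldSubgroup F₀ P ⊓ omegaGL Q) := by
  have hq : ∀ u, ζ * (quadOfGeo hQ).q (ratMap F₀ P u) ∈ F₀ := fun u => hP _ fun i => (u i).2
  obtain ⟨f₀, R, hR, -⟩ := exists_ratExt_quad (ratMap_smul F₀ P) (ratMap_span F₀ P) (quadOfGeo hQ)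
    hζ (fun _ => rfl) (by rw [FormType.quad_ε, FormType.quad_σ, one_mul])
    (fun u v => by
      rw [quad_B, ← map_add, mul_sub, mul_sub]
      exact F₀.sub_mem (F₀.sub_mem (hq _) (hq _)) (hq _))
    (fun u => ⟨_, hq u⟩)
    (fun u v => by simp only [map_add, quad_q_add]; ring)
    (fun c u => Subtype.ext (by
      change ζ * (quadOfGeo hQ).q (ratMap F₀ P (c • u)) =
        (c : F) * c * (ζ * (quadOfGeo hQ).q (ratMap F₀ P u))
      rw [ratMap_smul, quad_q_smul]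
      change ζ * ((c : F) ^ 2 * _) = _
      ring))
    (fun v => by simp only [FormType.quad_π, FormType.quad_σ]; ring)
  have hr' : (finrank F₀ F).Prime := by rwa [finrank_eq_of_card F₀ hcard]
  exact isMaximalIn_subfield5 R hR (quadOfGeo_nondeg hQ) (sing3_quad f₀) (by omega) hr'
    (mem_omegaGL_iff_E (quadOfGeo_nondeg hQ) (by omega)) hπ_quad (hq_quad R)
    fun K h g hg => h.mem_quad (by simpa using hn) hr' dicksonProp hg

end Std

end CL.Root
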