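/-
Subfield subgroups of `SU_4`: the unitary and symplectic rational structures.
-/
import Cfsg.Agent.CLAS.LowRat3
import Cfsg.Agent.CLAS.UniGen

set_option autoImplicit false

namespace CL.Root

open Module CL.Witt CL.Witt.Form CL.Tv

theorem exists_shear {F : Type*} [Field F] {T : FormType F} {V : Type*} [AddCommGroup V]
    [Module F V] [FiniteDimensional F V] {f : Form T V} (hf : f.Nondeg) {u a : V} (hu : f.q u = 0)
    (hua : f.B u a = 0) (hau : a ∉ F ∙ u) (y : F) : ∃ e ∈ f.E, e u = u ∧ e a = a + y • u := by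
  obtain ⟨w, hw, haw⟩ := hf.exists_perp_eq' hau (-T.σ y)
  obtain ⟨t, ok⟩ := exists_eichOK hu (hw u (Submodule.mem_span_singleton_self u))
  refine ⟨_, Form.ei_mem_E u w t, ok.ei_apply_u, ?_⟩
  rw [ok.ei_apply_of_perp hua, f.symm a w, haw, map_neg, T.σσ, T.ε_mul_ε_mul]
  module

theorem exists_eq_add_mul_two {F₀ F : Type*} [Field F₀] [Field F] [Algebra F₀ F]
    (hr : finrank F₀ F = 2) {c : F} (hc : c ∉ Set.range (algebraMap F₀ F)) (x : F) :
    ∃ a b : F₀, x = algebraMap F₀ F a + algebraMap F₀ F b * c := by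
  have hli : LinearIndependent F₀ ![(1 : F), c] := by
    rw [LinearIndependent.pair_iff' one_ne_zero]
    intro a ha
    exact hc ⟨a, by rw [← ha, Algebra.algebraMap_eq_smul_one]⟩
  have hs := hli.span_eq_top_of_card_eq_finrank (by simp [hr])
  have : x ∈ Submodule.span F₀ {(1 : F), c} := by
    have e : Set.range ![(1 : F), c] = {1, c} := by simp [Set.pair_comm]
    rw [← e, hs]; trivial
  obtain ⟨a, b, rfl⟩ := Submodule.mem_span_pair.1 this
  exact ⟨a, b, by rw [Algebra.smul_def, Algebra.smul_def, mul_one]⟩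

namespace RatExt

section Gen

variable {F₀ F : Type*} [Field F₀] [Field F] [Algebra F₀ F] {T₀ : FormType F₀}
  {T : FormType F} {V₀ V : Type*} [AddCommGroup V₀] [Module F₀ V₀] [AddCommGroup V] [Module F V]
  {f₀ : Form T₀ V₀} {f : Form T V} {R : RatExt f₀ f} {K : Subgroup (V ≃ₗ[F] V)}

local notation "ι₀" => algebraMap F₀ F

theorem Par.smul {c : F} (hc : R.Par K c) (t : F₀) : R.Par K (ι₀ t * c) := fun u hu hu0 v hv => by
  have := hc u hu hu0 (t • v) (by rw [f₀.B_smul_right, hv, mul_zero])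
  rwa [R.j_smul, smul_smul, mul_comm, ← mul_assoc] at this

theorem Over.par_mul_deg2 (hK : R.Over K) (hr : finrank F₀ F = 2) {c d : F} (hc : R.Par K c)
    (hd : R.Par K d) : R.Par K (c * d) := by
  by_cases h : c ∈ Set.range (algebraMap F₀ F)
  · obtain ⟨t, rfl⟩ := h
    exact hd.smul t
  · obtain ⟨a, b, e⟩ := exists_eq_add_mul_two hr h (c * d)
    rw [e]
    exact (hK.par_map a).add (hc.smul b)

variable (R K) in
/-- A rational direction of a radical. -/
def Dir (c : F) (u a : V₀) : Prop := Rad f K (R.j u) (c • R.j a)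

variable {c : F} {u a b : V₀}

theorem Dir.move (h : R.Dir K c u a) (hK : R.Over K) {e : V₀ ≃ₗ[F₀] V₀} (he : e ∈ f₀.E) :
    R.Dir K c (e u) (e a) := by
  obtain ⟨e', h1, h2, h3⟩ := hK.exists_lift he
  have := Rad.conj h h1 h2
  rwa [map_smul, h3, h3] at this

theorem Dir.left {y : F₀} (hy : y ≠ 0) (h : R.Dir K c (y • u) a) : R.Dir K c u (T₀.σ y • a) := by
  unfold Dir at h ⊢
  rw [R.j_smul, Rad.smul_left_iff ((map_ne_zero _).2 hy), R.hσ, smul_comm] at h
  rwa [R.j_smul]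

theorem Dir.add (h : R.Dir K c u a) (h' : R.Dir K c u b) : R.Dir K c u (a + b) := by
  unfold Dir
  rw [map_add, smul_add]
  exact Rad.add h h'

theorem Dir.neg (h : R.Dir K c u a) : R.Dir K c u (-a) := by
  unfold Dir
  rw [map_neg, smul_neg]
  exact Rad.neg h

theorem Dir.sub (h : R.Dir K c u a) (h' : R.Dir K c u b) : R.Dir K c u (a - b) := by
  rw [sub_eq_add_neg]; exact h.add h'.neg

theorem Dir.self (hu : f₀.q u = 0) (c : F) (t : F₀) : R.Dir K c u (t • u) := by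
  unfold Dir
  rw [R.j_smul, smul_smul]
  exact Rad.smul_self (R.q_j hu) _

theorem Dir.tv (h : R.Dir K c u a) (hK : R.Over K) {p : V₀} (hp : f₀.q p = 0)
    (hpu : f₀.B p u = 0) {s : F₀} (hs : T₀.π s = 0) :
    R.Dir K c u ((T₀.ε * s * f₀.B p a) • p) := by
  have h1 := h.move hK (Form.ei_mem_E p 0 s)
  rw [(eichOK_zero hp hs).ei_apply_fix hpu (f₀.B_zero_left u), ei_zero_apply hp hs] at h1
  simpa using h.sub h1

variable [FiniteDimensional F₀ V₀]

theorem Dir.swap (h : R.Dir K c u a) (hK : R.Over K) (hf₀ : f₀.Nondeg) (hu : f₀.q u = 0)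
    (ha : f₀.q a = 0) (hua : f₀.B u a = 0) (hau : a ∉ F₀ ∙ u) (hau' : u ∉ F₀ ∙ a) {y : F₀}
    (hy : y ≠ 0) : R.Dir K c a ((-(T₀.σ y * y⁻¹)) • u) := by
  obtain ⟨e, he, h1, h2⟩ := exists_shear hf₀ ha (f₀.B_eq_zero_symm hua) hau' y
  obtain ⟨e', he', h1', h2'⟩ := exists_shear hf₀ hu hua hau (-y⁻¹)
  have h3 := h.move hK he
  rw [h1, h2] at h3
  have h4 := h3.add (Dir.self (u := u + y • a) (by rw [← h2, mem_O_q (E_le_O he), hu]) c (-y⁻¹))
  have e1 : a + -y⁻¹ • (u + y • a) = -y⁻¹ • u := by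
    rw [smul_add, smul_smul, neg_mul, inv_mul_cancel₀ hy]; module
  rw [e1] at h4
  have h5 := h4.move hK he'
  have e2 : e' (u + y • a) = y • a := by
    rw [map_add, map_smul, h1', h2', smul_add, smul_smul, mul_neg, mul_inv_cancel₀ hy]; module
  rw [e2, map_smul, h1'] at h5
  have h6 := h5.left hy
  rwa [smul_smul, mul_neg] at h6

end Gen

section Herm

variable {F₀ F : Type*} [Field F₀] [Finite F₀] [Field F] [Algebra F₀ F] {σ₀ : F₀ →+* F₀}
  {hσ₀ : ∀ a, σ₀ (σ₀ a) = a} {T : FormType F} {V₀ V : Type*} [AddCommGroup V₀] [Module F₀ V₀]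
  [AddCommGroup V] [Module F V] {f₀ : Form (FormType.herm σ₀ hσ₀) V₀} {f : Form T V}
  {R : RatExt f₀ f} {K : Subgroup (V ≃ₗ[F] V)} [FiniteDimensional F₀ V₀]
  (hK : R.Over K) (hf₀ : f₀.Nondeg) (hσ : σ₀ ≠ RingHom.id F₀) {c : F} {u a : V₀}

local notation "ι₀" => algebraMap F₀ F

include hK hf₀ hσ

theorem Over.dir_smul (h : R.Dir K c u a) (hu : f₀.q u = 0) (hu0 : u ≠ 0)
    (ha : f₀.q a = 0) (hua : f₀.B u a = 0) (t : F₀) : R.Dir K c u (t • a) := by
  by_cases hau : a ∈ F₀ ∙ u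
  · obtain ⟨s, rfl⟩ := Submodule.mem_span_singleton.1 hau
    rw [smul_smul]; exact Dir.self hu _ _
  have ha0 : a ≠ 0 := by rintro rfl; exact hau (Submodule.zero_mem _)
  have hau' : u ∉ F₀ ∙ a := fun h => by
    obtain ⟨s, rfl⟩ := Submodule.mem_span_singleton.1 h
    have hs : s ≠ 0 := by rintro rfl; simp at hu0
    exact hau (Submodule.mem_span_singleton.2 ⟨s⁻¹, by rw [smul_smul, inv_mul_cancel₀ hs, one_smul]⟩)
  obtain ⟨s, hs0, hs⟩ := FormType.exists_add_σ_eq_zero hσ hσ₀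
  obtain ⟨p, hp, hp', hap⟩ := hf₀.exists_partner (H := F₀ ∙ u) ha hau
    (f₀.mem_perp_span_singleton.2 hua)
  have hpu : f₀.B p u = 0 := f₀.B_eq_zero_symm (f₀.mem_perp_span_singleton.1 hp)
  have sq : ∀ y : F₀, R.Dir K c u ((y * y) • a) := by
    intro y
    by_cases hy : y = 0
    · simpa [hy] using Dir.self (R := R) (K := K) hu c 0
    have h1 : R.Dir K c a ((-(σ₀ y * y⁻¹)) • u) := h.swap hK hf₀ hu ha hua hau hau' hy
    have n1 : -(σ₀ y * y⁻¹) ≠ 0 := by simp [hy]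
    have h2 := h1.swap hK hf₀ ha (f₀.q_smul_eq_zero hu _)
      (by rw [f₀.B_smul_right, f₀.B_eq_zero_symm hua, mul_zero])
      (by rwa [Submodule.smul_mem_iff _ n1]) (by rwa [Submodule.span_singleton_smul_eq n1.isUnit])
      one_ne_zero
    have h3 := (Dir.left n1 h2).tv hK (f₀.q_smul_eq_zero hp' y)
      (by rw [f₀.B_smul_left, hpu, mul_zero]) (s := s) hs
    have h4 := h3.tv hK ha (f₀.B_eq_zero_symm hua) (s := s⁻¹) (by
      have : σ₀ s = -s := by linear_combination hs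
      rw [FormType.herm_π, map_inv₀, this, inv_neg, add_neg_cancel])
    convert h4 using 2
    have hpa : f₀.B p a = 1 := by rw [f₀.herm_symm, hap, map_one]
    have : σ₀ y ≠ 0 := (map_ne_zero _).2 hy
    simp only [B_smul_left, B_smul_right, hap, hpa, FormType.herm_ε, FormType.herm_σ, map_mul,
      map_neg, map_inv₀, hσ₀, map_one]
    field_simp
  by_cases h2 : (2 : F₀) = 0
  · obtain ⟨m, rfl⟩ := exists_sq_eq_of_two_eq_zero h2 t
    exact sq m
  · have := (sq ((t + 1) / 2)).sub (sq ((t - 1) / 2))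
    rw [← sub_smul] at this
    convert this using 2
    field_simp; ring

theorem Over.spread_herm (h2 : f₀.Idx2) (h : R.Dir K c u a) (hu : f₀.q u = 0) (hu0 : u ≠ 0)
    (ha : f₀.q a = 0) (hua : f₀.B u a = 0) (hau : a ∉ F₀ ∙ u) :
    ∀ u', f₀.q u' = 0 → u' ≠ 0 → ∀ v, f₀.B u' v = 0 → R.Dir K c u' v := by
  obtain ⟨s, hs0, hs⟩ := FormType.exists_add_σ_eq_zero hσ hσ₀
  obtain ⟨p, hp, hp', hap⟩ := hf₀.exists_partner (H := F₀ ∙ u) ha hau
    (f₀.mem_perp_span_singleton.2 hua)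
  have hup : f₀.B u p = 0 := f₀.mem_perp_span_singleton.1 hp
  have step : ∀ b v, R.Dir K c u b → f₀.q v = 0 → f₀.B u v = 0 → f₀.B v b ≠ 0 → R.Dir K c u v := by
    intro b v hb hv huv hvb
    have h1 := hb.tv hK hv (f₀.B_eq_zero_symm huv) (s := s) hs
    have := hK.dir_smul hf₀ hσ h1 hu hu0 (f₀.q_smul_eq_zero hv _)
      (by rw [f₀.B_smul_right, huv, mul_zero]) (s * f₀.B v b)⁻¹
    rwa [FormType.herm_ε, one_mul, smul_smul, inv_mul_cancel₀ (mul_ne_zero hs0 hvb),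
      one_smul] at this
  have hpa : f₀.B p a = 1 := by rw [f₀.herm_symm, hap, map_one]
  have hp1 : R.Dir K c u p := step a p h hp' hup (by simp [hpa])
  let D : AddSubgroup V₀ :=
    { carrier := {v | R.Dir K c u v}
      add_mem' := Dir.add
      zero_mem' := by simpa using Dir.self (R := R) (K := K) hu c 0
      neg_mem' := Dir.neg }
  have key : ∀ v ∈ f₀.perp (F₀ ∙ u), v ∈ D := by
    refine induction_singular ha hp' (by simp [hap]) (f₀.mem_perp_span_singleton.2 hua) hp D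
      fun v hv hv' => ?_
    rw [mem_perp_span_singleton] at hv
    change R.Dir K c u v
    by_cases e1 : f₀.B v a = 0
    swap
    · exact step a v h hv' hv e1
    by_cases e2 : f₀.B v p = 0
    swap
    · exact step p v hp1 hv' hv e2
    have := (step a (v + p) h (by rw [f₀.q_add_of_B_eq_zero e2, hv', hp', add_zero])
      (by rw [f₀.B_add_right, hv, hup, add_zero]) (by simp [e1, hpa])).sub hp1
    simpa using this
  intro u' hu' hu0' v hv
  obtain ⟨e, he, h1⟩ := h2.exists_E_apply_eq hf₀ hu0 hu0' (by rw [hu, hu'])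
  have h3 : R.Dir K c u (e⁻¹ v) := key _ (f₀.mem_perp_span_singleton.2 (by
    rw [← mem_O_B (E_le_O he), h1, ← LinearEquiv.mul_apply, mul_inv_cancel]; exact hv))
  have := h3.move hK he
  rwa [h1, ← LinearEquiv.mul_apply, mul_inv_cancel] at this

theorem Over.extract_herm (h2 : f₀.Idx2) : R.Extract K := by
  intro u hu hu0 w hw a hua u' hu' hu0' v hv
  let D : AddSubgroup V₀ := (radGrp f K (R.q_j hu')).comap
    (((LinearMap.toSpanSingleton F V (R.j v)).toAddMonoidHom).comp (R.φ w))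
  have hD : ∀ a, a ∈ D ↔ Rad f K (R.j u') (R.φ w a • R.j v) := fun a => Iff.rfl
  obtain ⟨x, hx, hux⟩ := hf₀.exists_partner' hu hu0
  obtain ⟨p, p', hp, hp', hpp', h1, h1', -⟩ := h2.exists_hyp_perp hf₀ hu hx hux
  refine (hD a).1 (induction_singular (Z := f₀.perp (F₀ ∙ u)) hp hp' (by simp [hpp'])
    (f₀.mem_perp_span_singleton.2 h1) (f₀.mem_perp_span_singleton.2 h1') D
    (fun a hua ha => ?_) a (f₀.mem_perp_span_singleton.2 hua))
  rw [mem_perp_span_singleton] at hua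
  rw [hD]
  by_cases hau : a ∈ F₀ ∙ u
  · obtain ⟨c, rfl⟩ := Submodule.mem_span_singleton.1 hau
    rw [R.φ_smul, R.φ_eq_zero_iff.2 hw.B_eq, mul_zero, zero_smul]
    exact Rad.zero (R.q_j hu')
  obtain ⟨s, hs0, hs⟩ := FormType.exists_add_σ_eq_zero hσ hσ₀
  have h3 := hK.rad_sub' (eichOK_zero ha (a := s) hs) (f₀.B_eq_zero_symm hua)
    (f₀.B_zero_left u) hw
  refine hK.spread_herm hf₀ hσ h2 (c := R.φ w a) (a := (-s) • a) ?_ hu hu0
    (f₀.q_smul_eq_zero ha _) (by rw [f₀.B_smul_right, hua, mul_zero])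
    (by rwa [Submodule.smul_mem_iff _ (neg_ne_zero.2 hs0)]) u' hu' hu0' v hv
  unfold Dir
  convert h3 using 1
  rw [R.j_smul, map_zero, map_zero, FormType.herm_ε, map_one, map_neg]
  module

end Herm

section Herm2

variable {F₀ F : Type*} [Field F₀] [Finite F₀] [Field F] [Algebra F₀ F] {σ₀ : F₀ →+* F₀}
  {hσ₀ : ∀ a, σ₀ (σ₀ a) = a} {τ : F →+* F} {hτ : ∀ a, τ (τ a) = a} {V₀ V : Type*}
  [AddCommGroup V₀] [Module F₀ V₀] [AddCommGroup V] [Module F V]
  {f₀ : Form (FormType.herm σ₀ hσ₀) V₀} {f : Form (FormType.herm τ hτ) V}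
  {R : RatExt f₀ f} {K : Subgroup (V ≃ₗ[F] V)} [FiniteDimensional F₀ V₀]

local notation "ι₀" => algebraMap F₀ F

theorem Over.par_mul_herm (hK : R.Over K) (hf₀ : f₀.Nondeg) (hσ : σ₀ ≠ RingHom.id F₀)
    (h2 : f₀.Idx2) {c d : F} (hc : R.Par K c) (hd : R.Par K d) : R.Par K (c * d) := by
  have hη : τ R.η = R.η := by simpa [FormType.herm_ε, FormType.herm_σ] using R.hε
  have hσ' : ∀ s, τ (ι₀ s) = ι₀ (σ₀ s) := R.hσ
  obtain ⟨θ, hθ⟩ : ∃ θ, σ₀ θ ≠ θ := by
    by_contra! H; exact hσ (RingHom.ext H)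
  have h2' := h2
  obtain ⟨u, u', p, p', hu, -, huu', hp, -, hpp', hup, hup', hu'p, -⟩ := h2'
  have hp0 : p ≠ 0 := by rintro rfl; simp at hpp'
  have hu0 : u ≠ 0 := by rintro rfl; simp at huu'
  have key : ∀ c d, R.Par K c → R.Par K d → R.Par K (τ c * d) := by
    intro c d hc hd
    have k1 : ∀ s : F₀, R.Par K (ι₀ s * (τ c * d) - ι₀ (σ₀ s) * (c * τ d)) := by
      intro s
      have h1 := (hc p hp hp0 u (f₀.B_eq_zero_symm hup)).comm
        (hd p hp hp0 (s • u') (by rw [f₀.B_smul_right, f₀.B_eq_zero_symm hu'p, mul_zero]))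
      have e1 : R.η * f.B (R.j u) (R.j u') = 1 := by rw [← R.hB, huu', map_one]
      have e : f.B ((c * R.η) • R.j u) ((d * R.η) • R.j (s • u')) -
          f.B ((d * R.η) • R.j (s • u')) ((c * R.η) • R.j u) =
          (ι₀ s * (τ c * d) - ι₀ (σ₀ s) * (c * τ d)) * R.η := by
        have e2 : f.B ((c * R.η) • R.j u) ((d * R.η) • R.j (s • u')) =
            ι₀ s * (τ c * d) * R.η := by
          rw [R.j_smul, f.B_smul_left, f.B_smul_right, f.B_smul_right, FormType.herm_σ, map_mul, hη]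
          linear_combination (ι₀ s * τ c * d * R.η) * e1
        rw [f.herm_symm ((c * R.η) • R.j u), e2]
        simp only [map_mul, hη, hσ', hτ]
        ring
      rw [e] at h1
      have h3 := rad_of_transvection (R.q_j hp) (by
        simp only [FormType.herm_π, map_mul, map_sub, hη, hσ', hτ, hσ₀]; ring) h1
        (hK.rad hu hup') (R.B_j_eq_zero_iff.2 hup)
      rw [R.B_j_η, hpp', map_one, mul_one, FormType.herm_ε, one_mul] at h3
      exact hK.spread_herm hf₀ hσ h2 h3 hu hu0 hp hup (fun h => by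
        obtain ⟨s, rfl⟩ := Submodule.mem_span_singleton.1 h
        rw [f₀.B_smul_left, hup', mul_zero] at hpp'
        exact zero_ne_one hpp')
    have := (((k1 θ).add ((k1 1).smul (-σ₀ θ))).smul (θ - σ₀ θ)⁻¹)
    convert this using 1
    have : ι₀ θ - ι₀ (σ₀ θ) ≠ 0 := by
      rw [← map_sub]; exact (map_ne_zero _).2 (sub_ne_zero.2 hθ.symm)
    simp only [map_inv₀, map_sub, map_neg, map_one]
    field_simp; ring
  have h1 := key c 1 hc (by simpa using hK.par_map 1)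
  have := key _ d h1 hd
  rwa [mul_one, hτ] at this

end Herm2

end RatExt

section Std

open Cfsg Cfsg.Geo RatExt

variable {F : Type*} [Field F] [Fintype F]

theorem isMaximalIn_subfield_su4 {n q : ℕ} (hF : Fintype.card F = q ^ 2) (hn : 4 ≤ n)
    (F₀ : Subfield F) {r : ℕ} (hr : r.Prime) (hro : Odd r)
    (hcard : Fintype.card F = Nat.card F₀ ^ r) (P : GL (Fin n) F)
    (hP : IsFormRationalStructure (hermForm n F q) F₀ 1 P) :
    IsMaximalIn (GU n F q ⊓ specialLinear (Fin n) F)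
      (subfieldSubgroup F₀ P ⊓ (GU n F q ⊓ specialLinear (Fin n) F)) := by
  let σ₀ : F₀ →+* F₀ := ((conjHom hF).comp F₀.subtype).codRestrict F₀ fun c => F₀.pow_mem c.2 q
  have hσ : ∀ c : F₀, conjHom hF c = σ₀ c := fun _ => rfl
  have hσ2 : ∀ c, σ₀ (σ₀ c) = c := fun c => Subtype.ext (conjHom_invol hF c)
  obtain ⟨θ, hθ⟩ := exists_pow_ne_of_odd hF hro hcard
  have hθ' : σ₀ θ ≠ θ := fun h => hθ (congrArg Subtype.val h)
  have hσ₀ : σ₀ ≠ RingHom.id F₀ := fun h => hθ' (by rw [h]; rfl)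
  obtain ⟨f₀, R, hR, -⟩ := exists_ratExt_herm (ratMap_smul F₀ P) (ratMap_span F₀ P) (hermStd hF n)
    hσ₀ hσ2 hσ (fun u v => hP _ _ (fun i => (v i).2) fun i => (u i).2)
  have hr' := finrank_eq_of_card F₀ hcard
  obtain ⟨a₀, ha₀, ha₀'⟩ := FormType.exists_add_σ_eq_zero hσ₀ hσ2
  have hf := hermStd_nondeg hF n
  have hf₀ : f₀.Nondeg := R.nondeg hf (hR ▸ ratMap_injective F₀ P)
  have h2 : f₀.Idx2 := CL.Uni.idx2 hσ₀ hf₀ (by simpa using hn)
  refine isMaximalIn_subfield' R hR hf₀ h2 (hr' ▸ hr) (mem_SU_iff_E hF (by omega))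
    (fun K h1 h2' hs g hg => ?_) fun K h1 h2' => ?_
  · have h : R.Sm K := ⟨hs, h1, h2', hf₀, hf, h2, fun v hv => by
      rw [herm_q] at hv ⊢
      exact R.B_j_eq_zero_iff.1 hv⟩
    exact h.mem_tv (hr' ▸ hr) (by rw [hr']; rintro rfl; exact absurd hro (by decide)) ha₀ ha₀'
      (Or.inr ⟨θ, hθ'⟩) dicksonProp hg
  · have hK := over_of_le hf₀ h1
    exact hK.E_le_or_small' hf₀ hf h2 (hK.extract_herm hf₀ hσ₀ h2)
      (fun c d => hK.par_mul_herm hf₀ hσ₀ h2) (hr' ▸ hr)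
      (cenOK'_of_π hf₀ h2 (hπ_herm (hermStd_ne_id hF)))

theorem isMaximalIn_subfield_su_alt4 {n q : ℕ} (hF : Fintype.card F = q ^ 2) (hn : 4 ≤ n)
    (F₀ : Subfield F) (hcard : Fintype.card F = Nat.card F₀ ^ 2) {ζ : F} (hζ0 : ζ ≠ 0)
    (hζ : ζ + ζ ^ q = 0) (P : GL (Fin n) F) (hP : IsFormRationalStructure (hermForm n F q) F₀ ζ P)
    (halt : ∀ u : Fin n → F, (∀ i, u i ∈ F₀) → hermForm n F q
      (Matrix.mulVec (P : Matrix (Fin n) (Fin n) F) u)
      (Matrix.mulVec (P : Matrix (Fin n) (Fin n) F) u) = 0) :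
    IsMaximalIn (GU n F q ⊓ specialLinear (Fin n) F)
      (subfieldSubgroup F₀ P ⊓ (GU n F q ⊓ specialLinear (Fin n) F)) := by
  have hσ : ∀ c : F₀, conjHom hF c = c := pow_eq_of_card hF hcard
  have hζ' : conjHom hF ζ = -ζ := by rw [conjHom_apply]; linear_combination hζ
  obtain ⟨f₀, R, hR, -⟩ := exists_ratExt_alt (ratMap_smul F₀ P) (ratMap_span F₀ P) (hermStd hF n)
    hζ0 hσ (by rw [FormType.herm_ε, FormType.herm_σ, one_mul, hζ'])
    (fun c => by
      rw [FormType.herm_π, FormType.herm_σ, map_mul, conjHom_invol, hσ, hζ']; ring)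
    (fun u v => hP _ _ (fun i => (v i).2) fun i => (u i).2)
    (fun u => by rw [herm_q]; exact halt _ fun i => (u i).2)
  have hr := finrank_eq_of_card F₀ hcard
  have hr' : (finrank F₀ F).Prime := by rw [hr]; exact Nat.prime_two
  have hf := hermStd_nondeg hF n
  have hf₀ : f₀.Nondeg := R.nondeg hf (hR ▸ ratMap_injective F₀ P)
  have h2 := alt_idx2 hf₀ (by simpa using hn)
  refine isMaximalIn_subfield' R hR hf₀ h2 hr' (mem_SU_iff_E hF (by omega))
    (fun K h1 h2' hs g hg => ?_) fun K h1 h2' => ?_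
  · have h : R.Sm K := ⟨hs, h1, h2', hf₀, hf, h2, fun v _ => f₀.alt_q v⟩
    exact h.mem_alt_two hr hg
  · have hK := over_of_le hf₀ h1
    exact hK.E_le_or_small' hf₀ hf h2 (hK.extract_alt hf₀) (fun c d => hK.par_mul_deg2 hr) hr'
      (cenOK'_of_π hf₀ h2 (hπ_herm (hermStd_ne_id hF)))

end Std

end CL.Root
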