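import Mathlib
import Cfsg.Agent.CLAS.Four6
import Cfsg.Agent.CLAS.MaxPair

/-!
The stabilisers of pairs of planes in `SU₄(q)`, by the Klein correspondence.
-/

set_option autoImplicit false
set_option linter.unusedSectionVars false

namespace CL.Four

open Module Matrix Cfsg Cfsg.Geo CL.Witt CL.Witt.Form CL.Orth CL.OrthE
open scoped MatrixGroups

section blk

variable {K : Type*} [Field K]

/-- Block diagonal or block antidiagonal. -/
def Blk (h : Matrix (Fin 4) (Fin 4) K) : Prop :=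
  ((h 0 2 = 0 ∧ h 0 3 = 0 ∧ h 1 2 = 0 ∧ h 1 3 = 0) ∧ h 2 0 = 0 ∧ h 2 1 = 0 ∧ h 3 0 = 0 ∧ h 3 1 = 0) ∨
  ((h 0 0 = 0 ∧ h 0 1 = 0 ∧ h 1 0 = 0 ∧ h 1 1 = 0) ∧ h 2 2 = 0 ∧ h 2 3 = 0 ∧ h 3 2 = 0 ∧ h 3 3 = 0)

theorem two_four {a₀ a₁ a₂ a₃ b₀ b₁ b₂ b₃ : K} (e1 : a₀ * b₂ - a₂ * b₀ = 0)
    (e2 : a₀ * b₃ - a₃ * b₀ = 0) (e3 : a₁ * b₂ - a₂ * b₁ = 0) (e4 : a₁ * b₃ - a₃ * b₁ = 0) :
    (a₀ = 0 ∧ a₁ = 0 ∧ b₀ = 0 ∧ b₁ = 0) ∨ (a₂ = 0 ∧ a₃ = 0 ∧ b₂ = 0 ∧ b₃ = 0) ∨
      (a₀ * b₁ - a₁ * b₀ = 0 ∧ a₂ * b₃ - a₃ * b₂ = 0) := by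
  by_cases h1 : a₀ * b₁ - a₁ * b₀ = 0
  · by_cases h2 : a₂ * b₃ - a₃ * b₂ = 0
    · exact Or.inr (Or.inr ⟨h1, h2⟩)
    · refine Or.inl ⟨mul_left_cancel₀ h2 ?_, mul_left_cancel₀ h2 ?_, mul_left_cancel₀ h2 ?_,
        mul_left_cancel₀ h2 ?_⟩
      · linear_combination a₂ * e2 - a₃ * e1
      · linear_combination a₂ * e4 - a₃ * e3
      · linear_combination b₂ * e2 - b₃ * e1
      · linear_combination b₂ * e4 - b₃ * e3
  · refine Or.inr (Or.inl ⟨mul_left_cancel₀ h1 ?_, mul_left_cancel₀ h1 ?_, mul_left_cancel₀ h1 ?_,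
      mul_left_cancel₀ h1 ?_⟩)
    · linear_combination a₁ * e1 - a₀ * e3
    · linear_combination a₁ * e2 - a₀ * e4
    · linear_combination b₁ * e1 - b₀ * e3
    · linear_combination b₁ * e2 - b₀ * e4

theorem blk_of {h : Matrix (Fin 4) (Fin 4) K} (hd : h.det ≠ 0)
    (H : ∀ b c d e : K,
      (h * alt4 0 b c d e 0 * hᵀ) 0 1 = 0 ∧ (h * alt4 0 b c d e 0 * hᵀ) 2 3 = 0) :
    Blk h := by
  simp only [alt4_conj_apply, zero_mul, zero_add, add_zero] at H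
  have a1 := H 1 0 0 0
  have a2 := H 0 1 0 0
  have a3 := H 0 0 1 0
  have a4 := H 0 0 0 1
  simp only [zero_mul, zero_add, add_zero, one_mul] at a1 a2 a3 a4
  rw [det_four] at hd
  rcases two_four a1.1 a2.1 a3.1 a4.1 with h1 | h1 | h1
  · rcases two_four a1.2 a2.2 a3.2 a4.2 with h2 | h2 | h2
    · simp [h1, h2] at hd
    · exact Or.inr ⟨h1, h2⟩
    · simp [h1, h2] at hd
  · rcases two_four a1.2 a2.2 a3.2 a4.2 with h2 | h2 | h2
    · exact Or.inl ⟨h1, h2⟩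
    · simp [h1, h2] at hd
    · simp [h1, h2] at hd
  · simp [h1, a1, a2, a3, a4] at hd

theorem diag_alt4 (x y z w a b c d e f : K) :
    diagonal ![x, y, z, w] * alt4 a b c d e f * (diagonal ![x, y, z, w])ᵀ =
      alt4 (x * y * a) (x * z * b) (x * w * c) (y * z * d) (y * w * e) (z * w * f) := by
  ext i j
  rw [diagonal_transpose, mul_diagonal, diagonal_mul]
  fin_cases i <;> fin_cases j <;> simp [alt4] <;> ring

end blk

/-- The data of the Klein correspondence in coordinates. -/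
structure Km {F K V L : Type*} [Field F] [Field K] [Algebra F K] [AddCommGroup V] [Module F V]
    [Group L] (Q : QuadraticForm F V) (κ : V →ₗ[F] Matrix (Fin 4) (Fin 4) K)
    (φ : L →* (V ≃ₗ[F] V)) (ρ : L → Matrix (Fin 4) (Fin 4) K) : Prop where
  nd : (ofQuad Q).Nondeg
  dim : finrank F V = 6
  range : φ.range = (ofQuad Q).E
  act : ∀ g v, κ (φ g v) = ρ g * κ v * (ρ g)ᵀ
  inj : Function.Injective κ
  span : ∀ a b c d e f, alt4 a b c d e f ∈ Submodule.span K (Set.range κ)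
  alt : ∀ v, κ v = alt4 (κ v 0 1) (κ v 0 2) (κ v 0 3) (κ v 1 2) (κ v 1 3) (κ v 2 3)
  det : ∀ g, (ρ g).det ≠ 0

section km

variable {F K V : Type*} [Field F] [Field K] [Algebra F K] [AddCommGroup V] [Module F V]
  {Q : QuadraticForm F V}

theorem Kl.conj {L : Subgroup (GL (Fin 4) K)} {κ : V →ₗ[F] Matrix (Fin 4) (Fin 4) K}
    {φ : L →* (V ≃ₗ[F] V)} (h : Kl Q L κ φ) (halt : ∀ v, ∃ a b c d e f, κ v = alt4 a b c d e f)
    (P : GL (Fin 4) K) : ∃ κ' : V →ₗ[F] Matrix (Fin 4) (Fin 4) K,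
      (∀ v, κ' v = (P⁻¹).1 * κ v * (P⁻¹).1ᵀ) ∧ Km Q κ' φ fun g => (P⁻¹ * g.1 * P).1 := by
  let κ' : V →ₗ[F] Matrix (Fin 4) (Fin 4) K :=
    { toFun := fun v => (P⁻¹).1 * κ v * (P⁻¹).1ᵀ
      map_add' := fun u v => by rw [map_add, Matrix.mul_add, Matrix.add_mul]
      map_smul' := fun c v => by rw [map_smul, Matrix.mul_smul, Matrix.smul_mul]; rfl }
  have e : ∀ v, κ' v = (P⁻¹).1 * κ v * (P⁻¹).1ᵀ := fun _ => rfl
  have e1 : ∀ X : Matrix (Fin 4) (Fin 4) K, P.1 * ((P⁻¹).1 * X * (P⁻¹).1ᵀ) * P.1ᵀ = X := fun X => by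
    simp only [← Matrix.mul_assoc, Units.mul_inv, Matrix.one_mul]
    rw [Matrix.mul_assoc, ← transpose_mul, Units.mul_inv, transpose_one, Matrix.mul_one]
  have e2 : ∀ X : Matrix (Fin 4) (Fin 4) K, (P⁻¹).1 * (P.1 * X * P.1ᵀ) * (P⁻¹).1ᵀ = X := fun X => by
    simp only [← Matrix.mul_assoc, Units.inv_mul, Matrix.one_mul]
    rw [Matrix.mul_assoc, ← transpose_mul, Units.inv_mul, transpose_one, Matrix.mul_one]
  refine ⟨κ', e, h.nd, h.dim, h.range, fun g v => ?_, fun u v huv => h.inj ?_,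
    fun a b c d e f => ?_, fun v => ?_, fun g => ?_⟩
  · rw [e, e, h.act, Units.val_mul, Units.val_mul, transpose_mul, transpose_mul,
      Matrix.mul_assoc _ P.1, ← Matrix.mul_assoc _ P.1ᵀ, Matrix.mul_assoc _ _ P.1ᵀ, e1]
    simp only [Matrix.mul_assoc]
  · rw [← e1 (κ u), ← e, huv, e, e1]
  · have : P.1 * alt4 a b c d e f * P.1ᵀ ∈ Submodule.span K (Set.range κ) := by
      rw [alt4_conj P.1 a b c d e f rfl]; exact h.span _ _ _ _ _ _
    rw [← e2 (alt4 a b c d e f)]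
    generalize P.1 * alt4 a b c d e f * P.1ᵀ = X at this
    induction this using Submodule.span_induction with
    | mem x hx => obtain ⟨v, rfl⟩ := hx; exact Submodule.subset_span ⟨v, rfl⟩
    | zero => simp
    | add x y _ _ hx hy => rw [Matrix.mul_add, Matrix.add_mul]; exact add_mem hx hy
    | smul a x _ hx => rw [Matrix.mul_smul, Matrix.smul_mul]; exact Submodule.smul_mem _ _ hx
  · obtain ⟨a, b, c, d, e', f, hv⟩ := halt v
    exact alt4_conj _ a b c d e' f (by rw [e, hv])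
  · exact (Matrix.isUnit_iff_isUnit_det _).1 (P⁻¹ * g.1 * P).isUnit |>.ne_zero

theorem finrank_le_of_span {U : Type*} [AddCommGroup U] [Module K U] [Module F U]
    [IsScalarTower F K U] [FiniteDimensional F V] (Z : Submodule F V) (ψ : V →ₗ[F] U)
    (h : ⊤ ≤ Submodule.span K (ψ '' Z)) : finrank K U ≤ finrank F Z := by
  let b := Module.finBasis F Z
  have : ⊤ ≤ Submodule.span K (Set.range fun i => ψ (b i)) := h.trans (Submodule.span_le.2 (by
    rintro _ ⟨z, hz, rfl⟩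
    have e := congrArg Z.subtype (b.sum_repr ⟨z, hz⟩).symm
    rw [map_sum] at e
    rw [show z = ∑ i, b.repr ⟨z, hz⟩ i • (b i : V) from e, map_sum]
    exact Submodule.sum_mem _ fun i _ => by
      rw [map_smul, ← algebraMap_smul K]
      exact Submodule.smul_mem _ _ (Submodule.subset_span ⟨i, rfl⟩)))
  simpa using finrank_le_of_span_eq_top (top_le_iff.1 this)

variable {L : Type*} [Group L] {κ : V →ₗ[F] Matrix (Fin 4) (Fin 4) K} {φ : L →* (V ≃ₗ[F] V)}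
  {ρ : L → Matrix (Fin 4) (Fin 4) K} (h : Km Q κ φ ρ)

include h

theorem Km.mem_O (g : L) : φ g ∈ (ofQuad Q).O := E_le_O (h.range.le ⟨g, rfl⟩)

theorem Km.pair [Finite F] [FiniteDimensional F V] {l : K} {t : L}
    (ht : ρ t = diagonal ![l, l, l⁻¹, l⁻¹]) (l0 : l ≠ 0) (hl : l * l ≠ 1) {s : F}
    (hs : algebraMap F K s = l * l + l⁻¹ * l⁻¹) (h3 : 3 ≤ Nat.card F)
    (h4 : 4 ≤ Nat.card F ∨ ∃ (t' : L) (m : K), m ∉ Set.range (algebraMap F K) ∧
      ρ t' = diagonal ![m, 1, 1, m⁻¹]) :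
    ∃ S : Subgroup (V ≃ₗ[F] V), (∀ g, φ g ∈ S → Blk (ρ g)) ∧
      ∀ M, S ⊓ (ofQuad Q).E ≤ M → M ≤ (ofQuad Q).E → ∀ g ∈ M, g ∉ S → (ofQuad Q).E ≤ M := by
  set f := ofQuad Q with hf
  let Z : Submodule F V :=
    { carrier := {v | κ v 0 1 = 0 ∧ κ v 2 3 = 0}
      add_mem' := fun ha hb => by simp [ha.1, ha.2, hb.1, hb.2]
      zero_mem' := by simp
      smul_mem' := fun c v hv => by simp [hv.1, hv.2] }
  have hZ : ∀ v, v ∈ Z ↔ κ v 0 1 = 0 ∧ κ v 2 3 = 0 := fun _ => Iff.rfl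
  have s2 : 2 - s ≠ 0 := fun e => by
    have : algebraMap F K (2 - s) = 0 := by rw [e, map_zero]
    rw [map_sub, map_ofNat, hs] at this
    field_simp at this
    exact hl (sub_eq_zero.1 (pow_eq_zero_iff two_ne_zero |>.1 (by linear_combination -this)))
  have s2' : algebraMap F K (2 - s) ≠ 0 := (map_ne_zero _).2 s2
  have hT : ∀ v, κ (φ t v) = alt4 (l * l * κ v 0 1) (κ v 0 2) (κ v 0 3) (κ v 1 2) (κ v 1 3)
      (l⁻¹ * l⁻¹ * κ v 2 3) := fun v => by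
    rw [h.act, ht, h.alt v, diag_alt4, mul_inv_cancel₀ l0]
    simp only [one_mul, alt4_01, alt4_02, alt4_03, alt4_12, alt4_13, alt4_23]
  let N : V →ₗ[F] V := (2 - s)⁻¹ • ((φ t : V →ₗ[F] V) ∘ₗ φ t - s • (φ t : V →ₗ[F] V) + LinearMap.id)
  have hN' : ∀ v, N v = (2 - s)⁻¹ • (φ t (φ t v) - s • φ t v + v) := fun _ => rfl
  have hN : ∀ v, κ (N v) = alt4 0 (κ v 0 2) (κ v 0 3) (κ v 1 2) (κ v 1 3) 0 := fun v => by
    rw [hN', sub_eq_add_neg (φ t _), ← neg_smul, map_smul, map_add, map_add, map_smul, hT, hT]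
    conv_lhs => rw [h.alt v]
    simp only [alt4_01, alt4_02, alt4_03, alt4_12, alt4_13, alt4_23, alt4_smul, alt4_add]
    simp only [Algebra.smul_def, map_inv₀, map_neg]
    have e : l * l⁻¹ = 1 := mul_inv_cancel₀ l0
    congr 1 <;> rw [inv_mul_eq_iff_eq_mul₀ s2', map_sub, map_ofNat, hs]
    · linear_combination -(κ v 0 1) * (l * l⁻¹ + 1) * e
    · ring
    · ring
    · ring
    · ring
    · linear_combination -(κ v 2 3) * (l * l⁻¹ + 1) * e
  have hNZ : ∀ v, N v ∈ Z := fun v => by rw [hZ, hN]; exact ⟨rfl, rfl⟩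
  have hfix : ∀ z ∈ Z, φ t z = z := fun z hz => h.inj (by
    rw [hT, hz.1, hz.2, mul_zero, mul_zero, h.alt z, hz.1, hz.2]; rfl)
  have hperp : ∀ v, v - N v ∈ f.perp Z := fun v z hz => by
    have e : ∀ w, f.B z (φ t w) = f.B z w := fun w => by
      conv_lhs => rw [← hfix z hz]
      exact mem_O_B (h.mem_O t) _ _
    rw [f.B_sub_right, hN', f.B_smul_right, f.B_add_right, f.B_sub_right, f.B_smul_right, e, e]
    field_simp; ring
  have hnd : (f.restrict Z).Nondeg := restrict_nondeg_iff'.2 fun z hz hz' => h.nd z fun v => by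
    have e : v = N v + (v - N v) := by abel
    rw [e, f.B_add_right, f.B_eq_zero_symm (hz' _ (hNZ v)), hperp v z hz, add_zero]
  have hW : ∀ w ∈ f.perp Z, κ w = alt4 (κ w 0 1) 0 0 0 0 (κ w 2 3) := fun w hw => by
    have : N w = 0 := restrict_nondeg_iff'.1 hnd _ (hNZ w) (by
      simpa using (f.perp Z).sub_mem hw (hperp w))
    have e := hN w
    rw [this, map_zero, ← alt4_zero] at e
    obtain ⟨-, e1, e2, e3, e4, -⟩ := alt4_inj e
    rw [h.alt w, ← e1, ← e2, ← e3, ← e4]; rfl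
  have hsp : ∀ b c d e, alt4 0 b c d e 0 ∈ Submodule.span K (κ '' Z) := fun b c d e => by
    have k : ∀ X ∈ Submodule.span K (Set.range κ),
        alt4 0 (X 0 2) (X 0 3) (X 1 2) (X 1 3) 0 ∈ Submodule.span K (κ '' Z) := fun X hX => by
      induction hX using Submodule.span_induction with
      | mem x hx => obtain ⟨v, rfl⟩ := hx; exact Submodule.subset_span ⟨N v, hNZ v, hN v⟩
      | zero => simp [alt4_zero]
      | add x y _ _ hx hy => simpa [alt4_add] using add_mem hx hy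
      | smul a x _ hx => simpa [alt4_smul] using Submodule.smul_mem _ a hx
    exact k _ (h.span 0 b c d e 0)
  have hdim : 4 ≤ finrank F Z := by
    let π : Matrix (Fin 4) (Fin 4) K →ₗ[K] (Fin 4 → K) :=
      { toFun := fun X => ![X 0 2, X 0 3, X 1 2, X 1 3]
        map_add' := fun _ _ => by ext i; fin_cases i <;> rfl
        map_smul' := fun _ _ => by ext i; fin_cases i <;> rfl }
    have := finrank_le_of_span (K := K) Z (π.restrictScalars F ∘ₗ κ) fun u _ => by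
      have h1 := Submodule.mem_map_of_mem (f := π) (hsp (u 0) (u 1) (u 2) (u 3))
      rw [Submodule.map_span, ← Set.image_comp] at h1
      have e : π (alt4 0 (u 0) (u 1) (u 2) (u 3) 0) = u := by funext i; fin_cases i <;> rfl
      rw [e] at h1
      exact h1
    simpa using this
  have hd : finrank F Z + finrank F (f.perp Z) = 6 := h.dim ▸ h.nd.finrank_add_finrank_perp Z
  have hirr : (f.restrict (f.perp Z)).OIrr := by
    rcases h4 with h4 | ⟨t', m, hm, ht'⟩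
    · exact quad_oIrr' (h.nd.restrict_perp hnd) (Or.inr (Or.inl h4))
    have m0 : m ≠ 0 := fun e => hm ⟨0, by rw [e, map_zero]⟩
    have hT' : ∀ v, κ (φ t' v) 0 1 = m * κ v 0 1 ∧ κ (φ t' v) 2 3 = m⁻¹ * κ v 2 3 := fun v => by
      rw [h.act, ht', h.alt v, diag_alt4]
      simp only [one_mul, mul_one, alt4_01, alt4_23, and_self]
    have hst : φ t' ∈ f.stab (f.perp Z) := f.stab_le_stab_perp Z ⟨h.mem_O t',
      mem_stab_of_le fun v hv => by rw [hZ, (hT' v).1, (hT' v).2, hv.1, hv.2]; simp⟩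
    intro D hD
    by_contra! H
    obtain ⟨d, hd, hd0⟩ := (Submodule.ne_bot_iff D).1 H.1
    have h1 := Submodule.finrank_lt H.2
    have h2 : D = F ∙ d := (Submodule.eq_of_le_of_finrank_le
      ((Submodule.span_singleton_le_iff_mem _ _).2 hd) (by rw [finrank_span_singleton hd0]; omega)).symm
    obtain ⟨c, hc⟩ := Submodule.mem_span_singleton.1 (h2.le (hD _ (f.stabRes _ ⟨_, hst⟩).2 d hd))
    have hc' : c • (d : V) = φ t' d := congrArg Subtype.val hc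
    obtain ⟨e1, e2⟩ := hT' d
    rw [← hc', map_smul, Matrix.smul_apply, Algebra.smul_def] at e1 e2
    by_cases a1 : κ d 0 1 = 0
    · by_cases a2 : κ d 2 3 = 0
      · exact hd0 (Subtype.ext (h.inj (by rw [hW _ d.2, a1, a2, alt4_zero]; simp)))
      · exact hm ⟨c⁻¹, by rw [map_inv₀, mul_right_cancel₀ a2 e2, inv_inv]⟩
    · exact hm ⟨c, mul_right_cancel₀ a1 e1⟩
  refine ⟨Witt.stab Z, fun g hg => blk_of (h.det g) fun b c d e => ?_, fun M h1 h2 g hg hg' =>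
    h.nd.quad_E_le_of_stab (by rw [h.dim]; omega) hnd hdim hirr (Or.inl h3) h1 (E_le_O (h2 hg)) hg
      hg' fun H => ?_⟩
  · have := hsp b c d e
    generalize alt4 0 b c d e 0 = X at this
    induction this using Submodule.span_induction with
    | mem x hx => obtain ⟨v, hv, rfl⟩ := hx; rw [← h.act]; exact (hg v).1 hv
    | zero => simp
    | add x y _ _ hx hy => simp [Matrix.mul_add, Matrix.add_mul, hx, hy]
    | smul a x _ hx => simp [hx]
  · have := Submodule.finrank_mono (show Z.map (g : V →ₗ[F] V) ≤ f.perp Z by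
      rintro _ ⟨z, hz, rfl⟩; exact H z hz)
    rw [LinearEquiv.finrank_map_eq] at this
    omega

end km

section geo

variable {K : Type*} [Field K]

/-- The matrix with the given columns. -/
def cols (x : Fin 4 → Fin 4 → K) : Matrix (Fin 4) (Fin 4) K := of fun i j => x j i

theorem cols_mulVec (x : Fin 4 → Fin 4 → K) (c : Fin 4 → K) :
    cols x *ᵥ c = c 0 • x 0 + c 1 • x 1 + c 2 • x 2 + c 3 • x 3 := by
  funext i
  simp [cols, mulVec, dotProduct, Fin.sum_univ_four, mul_comm]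

theorem exists_P {D : Fin 2 → Submodule K (Fin 4 → K)} (hD : IsMDecomposition 2 D)
    (b : Basis (Fin 2) K (D 0)) (b' : Basis (Fin 2) K (D 1)) : ∃ P : GL (Fin 4) K,
      P.1 = cols ![(b 0).1, (b 1).1, (b' 0).1, (b' 1).1] ∧
        ∀ g : GL (Fin 4) K, Blk (P⁻¹ * g * P).1 → g ∈ decompositionStabilizer D := by
  have hc := CL.Root.isCompl_of_decomp hD
  have k : ∀ {W : Submodule K (Fin 4 → K)} (b : Basis (Fin 2) K W), ∀ v ∈ W,
      ∃ s t : K, v = s • (b 0 : Fin 4 → K) + t • (b 1 : Fin 4 → K) := fun b v hv => by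
    have := b.sum_repr ⟨v, hv⟩
    rw [Fin.sum_univ_two] at this
    exact ⟨_, _, congrArg Subtype.val this.symm⟩
  obtain ⟨P, hP⟩ : IsUnit (cols ![(b 0).1, (b 1).1, (b' 0).1, (b' 1).1]) :=
    mulVec_surjective_iff_isUnit.1 fun v => by
      obtain ⟨x, hx, y, hy, rfl⟩ := Submodule.mem_sup.1 (hc.sup_eq_top.ge (Submodule.mem_top (x := v)))
      obtain ⟨s, t, rfl⟩ := k b x hx
      obtain ⟨s', t', rfl⟩ := k b' y hy
      exact ⟨![s, t, s', t'], by simp [cols_mulVec, add_assoc]⟩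
  refine ⟨P, hP, fun g hg => (CL.Root.act_mem_toE _).2 ((CL.Root.mem_toE_decomp_two hD).2 ?_)⟩
  have e : ∀ c, CL.Tv.act g (P.1 *ᵥ c) = P.1 *ᵥ ((P⁻¹ * g * P).1 *ᵥ c) := fun c => by
    rw [mulVec_mulVec, ← Units.val_mul, ← mul_assoc, mul_inv_cancel_left, Units.val_mul,
      ← mulVec_mulVec]; rfl
  have m0 : ∀ c : Fin 4 → K, c 2 = 0 → c 3 = 0 → P.1 *ᵥ c ∈ D 0 := fun c h2 h3 => by
    simpa [hP, cols_mulVec, h2, h3] using
      add_mem ((D 0).smul_mem (c 0) (b 0).2) ((D 0).smul_mem (c 1) (b 1).2)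
  have m1 : ∀ c : Fin 4 → K, c 0 = 0 → c 1 = 0 → P.1 *ᵥ c ∈ D 1 := fun c h2 h3 => by
    simpa [hP, cols_mulVec, h2, h3] using
      add_mem ((D 1).smul_mem (c 2) (b' 0).2) ((D 1).smul_mem (c 3) (b' 1).2)
  have n0 : ∀ v ∈ D 0, ∃ s t : K, v = P.1 *ᵥ ![s, t, 0, 0] := fun v hv => by
    obtain ⟨s, t, rfl⟩ := k b v hv
    exact ⟨s, t, by simp [hP, cols_mulVec]⟩
  have n1 : ∀ v ∈ D 1, ∃ s t : K, v = P.1 *ᵥ ![0, 0, s, t] := fun v hv => by
    obtain ⟨s, t, rfl⟩ := k b' v hv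
    exact ⟨s, t, by simp [hP, cols_mulVec]⟩
  generalize (P⁻¹ * g * P).1 = h at hg e
  rcases hg with ⟨h1, h2⟩ | ⟨h1, h2⟩
  · refine Or.inl ⟨fun x hx => ?_, fun x hx => ?_⟩
    · obtain ⟨s, t, rfl⟩ := n0 x hx
      rw [e]
      exact m0 _ (by simp [mulVec, dotProduct, Fin.sum_univ_four, h2])
        (by simp [mulVec, dotProduct, Fin.sum_univ_four, h2])
    · obtain ⟨s, t, rfl⟩ := n1 x hx
      rw [e]
      exact m1 _ (by simp [mulVec, dotProduct, Fin.sum_univ_four, h1])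
        (by simp [mulVec, dotProduct, Fin.sum_univ_four, h1])
  · refine Or.inr ⟨fun x hx => ?_, fun x hx => ?_⟩
    · obtain ⟨s, t, rfl⟩ := n0 x hx
      rw [e]
      exact m1 _ (by simp [mulVec, dotProduct, Fin.sum_univ_four, h1])
        (by simp [mulVec, dotProduct, Fin.sum_univ_four, h1])
    · obtain ⟨s, t, rfl⟩ := n1 x hx
      rw [e]
      exact m0 _ (by simp [mulVec, dotProduct, Fin.sum_univ_four, h2])
        (by simp [mulVec, dotProduct, Fin.sum_univ_four, h2])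

variable [Fintype K] {q : ℕ} (hK : Fintype.card K = q ^ 2)

include hK

/-- Elements of `SU₄(q)` diagonal in a given basis. -/
theorem exists_diag_su {x : Fin 4 → Fin 4 → K} {P : GL (Fin 4) K} (hP : P.1 = cols x)
    {δ : Fin 4 → K} (hδ : ∏ i, δ i = 1)
    (h : ∀ i j, (δ i * δ j ^ q - 1) * hermForm 4 K q (x i) (x j) = 0) :
    ∃ t : (GU 4 K q ⊓ specialLinear (Fin 4) K : Subgroup _), (P⁻¹ * t.1 * P).1 = diagonal δ := by
  let d : GL (Fin 4) K := GeneralLinearGroup.mkOfDetNeZero (diagonal δ) (by simp [hδ])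
  have hd : d.1 = diagonal δ := rfl
  refine ⟨⟨P * d * P⁻¹, fun u v => ?_, ?_⟩, by simp [mul_assoc, hd]⟩
  · obtain ⟨a, rfl⟩ := mulVec_surjective_iff_isUnit.2 P.isUnit u
    obtain ⟨c, rfl⟩ := mulVec_surjective_iff_isUnit.2 P.isUnit v
    have e : ∀ a, (P * d * P⁻¹).1 *ᵥ (P.1 *ᵥ a) = P.1 *ᵥ (diagonal δ *ᵥ a) := fun a => by
      rw [mulVec_mulVec, ← Units.val_mul, inv_mul_cancel_right, Units.val_mul, ← mulVec_mulVec, hd]
    change hermForm 4 K q ((P * d * P⁻¹).1 *ᵥ (P.1 *ᵥ a)) ((P * d * P⁻¹).1 *ᵥ (P.1 *ᵥ c)) = _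
    rw [e, e]
    simp only [← CL.Uni.std_B_eq_hermForm hK] at h ⊢
    simp only [hP, cols_mulVec, mulVec_diagonal, B_add_left, B_add_right, B_smul_left, B_smul_right,
      CL.Uni.HT_σ, mul_pow]
    linear_combination a 0 * c 0 ^ q * h 0 0 + a 0 * c 1 ^ q * h 0 1 + a 0 * c 2 ^ q * h 0 2 +
      a 0 * c 3 ^ q * h 0 3 + a 1 * c 0 ^ q * h 1 0 + a 1 * c 1 ^ q * h 1 1 + a 1 * c 2 ^ q * h 1 2 +
      a 1 * c 3 ^ q * h 1 3 + a 2 * c 0 ^ q * h 2 0 + a 2 * c 1 ^ q * h 2 1 + a 2 * c 2 ^ q * h 2 2 +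
      a 2 * c 3 ^ q * h 2 3 + a 3 * c 0 ^ q * h 3 0 + a 3 * c 1 ^ q * h 3 1 + a 3 * c 2 ^ q * h 3 2 +
      a 3 * c 3 ^ q * h 3 3
  · refine CL.Uni.mem_specialLinear_iff.2 ?_
    rw [Units.val_mul, Units.val_mul, det_mul, det_mul, hd,
      det_diagonal, hδ, mul_one, ← det_mul, Units.mul_inv, det_one]

theorem exists_norm_one_ne : ∃ m : K, m * m ^ q = 1 ∧ m * m ≠ 1 := by
  by_contra! H
  have h1 := SqField.card_norm_eq hK one_ne_zero (one_pow q)
  have h2 := Nat.card_le_card_of_injective (β := ({1, -1} : Set K))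
    (fun x : {x : K // x ^ (q + 1) = 1} => ⟨x.1, mul_self_eq_one_iff.1 (H _ (by rw [← pow_succ', x.2]))⟩)
    fun x y e => Subtype.ext (Subtype.mk.inj e)
  have h3 : Nat.card ({1, -1} : Set K) ≤ 2 := (Set.ncard_insert_le _ _).trans (by simp)
  have := SqField.two_le hK
  omega

theorem su4_pair_of {D : Fin 2 → Submodule K (Fin 4 → K)} (hD : IsMDecomposition 2 D)
    (b : Basis (Fin 2) K (D 0)) (b' : Basis (Fin 2) K (D 1)) {x : Fin 4 → Fin 4 → K}
    (hx : x = ![(b 0).1, (b 1).1, (b' 0).1, (b' 1).1]) (h3 : 3 ≤ q) {l : K} (l0 : l ≠ 0) (hl : l * l ≠ 1)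
    (hs : (l * l + l⁻¹ * l⁻¹) ^ q = l * l + l⁻¹ * l⁻¹)
    (h1 : ∀ i j, (![l, l, l⁻¹, l⁻¹] i * ![l, l, l⁻¹, l⁻¹] j ^ q - 1) * hermForm 4 K q (x i) (x j) = 0)
    (h2 : 4 ≤ q ∨ ∃ m : K, m ^ q ≠ m ∧
      ∀ i j, (![m, 1, 1, m⁻¹] i * ![m, 1, 1, m⁻¹] j ^ q - 1) * hermForm 4 K q (x i) (x j) = 0) :
    IsMaximalIn (GU 4 K q ⊓ specialLinear (Fin 4) K)
      (decompositionStabilizer D ⊓ (GU 4 K q ⊓ specialLinear (Fin 4) K)) := by
  obtain ⟨Q, φ, -, hφ⟩ := exists_kl_su hK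
  obtain ⟨P, hP, hP'⟩ := exists_P hD b b'
  rw [← hx] at hP
  obtain ⟨κ, -, h⟩ := hφ.conj (fun v => ⟨_, _, _, _, _, _, rfl⟩) P
  obtain ⟨t, ht⟩ := exists_diag_su hK hP (by simp [Fin.prod_univ_four]; field_simp) h1
  obtain ⟨S, hS, hS'⟩ := h.pair ht l0 hl (s := ⟨_, hs⟩) rfl (by rwa [SqField.card_fixedSubfield])
    (h2.imp (by rw [SqField.card_fixedSubfield]; exact id) fun ⟨m, hm, h2⟩ => by
      have m0 : m ≠ 0 := by rintro rfl; exact hm (zero_pow (by omega))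
      obtain ⟨t', ht'⟩ := exists_diag_su hK hP (by simp [Fin.prod_univ_four, m0]) h2
      exact ⟨t', m, by rintro ⟨c, rfl⟩; exact hm c.2, ht'⟩)
  refine transfer φ h.range (fun g hg => hP' _ (hS g hg)) ?_ hS'
  rw [Asch.GU_eq hK]
  exact (Asch.amb_su hK (fun _ => rfl) (by simp) (by simp) (Asch.herm_sig hK)).not_le_pair hD

theorem su4_pair_ts (h4 : 4 ≤ q) {D : Fin 2 → Submodule K (Fin 4 → K)} (hD : IsMDecomposition 2 D)
    (ht : ∀ i, IsTotallySingularFor (hermForm 4 K q) (D i)) :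
    IsMaximalIn (GU 4 K q ⊓ specialLinear (Fin 4) K)
      (decompositionStabilizer D ⊓ (GU 4 K q ⊓ specialLinear (Fin 4) K)) := by
  let b := Module.finBasisOfFinrankEq K (D 0) (hD.finrank_eq 0)
  let b' := Module.finBasisOfFinrankEq K (D 1) (hD.finrank_eq 1)
  have := Fintype.ofFinite (SqField.fixedSubfield hK)
  obtain ⟨l, l0, hl⟩ : ∃ l : SqField.fixedSubfield hK, l ≠ 0 ∧ l * l ≠ 1 := by
    by_contra! H
    have := FGL.card_le_three_of_sq H
    rw [← Nat.card_eq_fintype_card, SqField.card_fixedSubfield] at this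
    omega
  have e : (l : K) ^ q = l := l.2
  have l0' : (l : K) ≠ 0 := by simpa using l0
  refine su4_pair_of hK hD b b' rfl (by omega) l0' (fun e => hl (Subtype.ext e))
    (l * l + l⁻¹ * l⁻¹ : SqField.fixedSubfield hK).2 (fun i j => ?_) (Or.inl h4)
  fin_cases i <;> fin_cases j <;> simp [e, l0', ht 0 _ (b _).2 _ (b _).2, ht 1 _ (b' _).2 _ (b' _).2]

theorem su4_pair_nd (h3 : 3 ≤ q) {D : Fin 2 → Submodule K (Fin 4 → K)}
    (hD : IsNondegenerateMDecomposition (hermForm 4 K q) 2 D) :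
    IsMaximalIn (GU 4 K q ⊓ specialLinear (Fin 4) K)
      (decompositionStabilizer D ⊓ (GU 4 K q ⊓ specialLinear (Fin 4) K)) := by
  have hσ := CL.Uni.sig_ne_id hK
  have k : ∀ i, ∃ b : Basis (Fin 2) K (D i), hermForm 4 K q (b 0) (b 1) = 0 ∧
      hermForm 4 K q (b 1) (b 0) = 0 := fun i => by
    obtain ⟨b, hb⟩ := CL.Uni.exists_isON_basis hσ 
      (FGL.restrict_nondeg_of _ (FGL.uni_B_iff hK) (hD.nondegenerate i))
      (ι := Fin 2) (by simp [hD.decomp.finrank_eq i])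
    exact ⟨b, (CL.Uni.std_B_eq_hermForm hK _ _).symm.trans (hb.ne (by decide)),
      (CL.Uni.std_B_eq_hermForm hK _ _).symm.trans (hb.ne (by decide))⟩
  obtain ⟨b, hb, hb1⟩ := k 0
  obtain ⟨b', hb', hb1'⟩ := k 1
  obtain ⟨m, hm, hm'⟩ := exists_norm_one_ne hK
  have m0 : m ≠ 0 := by rintro rfl; simp at hm
  have e : m ^ q = m⁻¹ := eq_inv_of_mul_eq_one_right hm
  have o := fun i j => hD.orthogonal 0 1 (by decide) _ (b i).2 _ (b' j).2
  have o' := fun i j => hD.orthogonal 1 0 (by decide) _ (b' i).2 _ (b j).2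
  refine su4_pair_of hK hD.decomp b b' rfl h3 m0 hm' ?_ (fun i j => ?_)
    (Or.inr ⟨m, fun e' => hm' (by rwa [e'] at hm), fun i j => ?_⟩)
  · rw [SqField.add_pow_q hK, mul_pow, mul_pow, inv_pow, e, inv_inv, add_comm]
  · fin_cases i <;> fin_cases j <;> simp [e, m0, o, o']
  · fin_cases i <;> fin_cases j <;> simp [e, m0, o, o', hb, hb1, hb', hb1']

end geo

end CL.Four
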