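/-
Orthogonal subfield subgroups of `SU_n(q)`, `n ≥ 4`, `q ≥ 5` odd.
-/
import Cfsg.Agent.CLAS.Four7
import Cfsg.Agent.CLAS.Ref11

set_option autoImplicit false
set_option linter.unusedSectionVars false

namespace CL.Root

open Module CL.Witt CL.Witt.Form CL.Tv

theorem exists_skew_partner {F V : Type*} [Field F] [Finite F] [AddCommGroup V] [Module F V]
    [FiniteDimensional F V] {f : Form (FormType.quad F) V} (h2 : (2 : F) ≠ 0)
    (h4 : 4 ≤ Nat.card F) {Z : Submodule F V} (hZ : (f.restrict Z).Nondeg) (hd : 2 ≤ finrank F Z)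
    {v : V} (hv : v ∈ Z) (qv : f.q v ≠ 0) : ∃ w ∈ Z, f.q w ≠ 0 ∧ w ∉ F ∙ v ∧ f.B v w ≠ 0 := by
  have hvv : f.B v v ≠ 0 := by rw [qB_self]; exact mul_ne_zero h2 qv
  obtain ⟨z, hz, hz'⟩ : ∃ z ∈ Z, z ∉ F ∙ v := by
    by_contra! H
    have := (Submodule.finrank_mono (show Z ≤ F ∙ v from H)).trans (finrank_span_single_le v)
    omega
  obtain ⟨p, ⟨hp, hp'⟩, qp⟩ := exists_q_ne_zero_mem (restrict_nondeg_inf_perp hZ
    (restrict_nondeg_span_singleton hvv) ((Submodule.span_singleton_le_iff_mem _ _).2 hv))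
    ((Submodule.ne_bot_iff _).2 ⟨z - (f.B v z / f.B v v) • v, ⟨Z.sub_mem hz (Z.smul_mem _ hv),
      f.mem_perp_span_singleton.2 (by rw [f.B_sub_right, f.B_smul_right]; field_simp; ring)⟩,
      fun e => hz' (Submodule.mem_span_singleton.2 ⟨_, (sub_eq_zero.1 e).symm⟩)⟩)
  have hvp : f.B v p = 0 := f.mem_perp_span_singleton.1 hp'
  obtain ⟨t, t0, ht⟩ : ∃ t : F, t ≠ 0 ∧ f.q v + t * t * f.q p ≠ 0 := by
    by_contra! H
    have := Fintype.ofFinite F
    have := FGL.card_le_three_of_sq (F := F) fun t ht =>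
      mul_right_cancel₀ qp (by linear_combination H t ht - H 1 one_ne_zero)
    rw [Nat.card_eq_fintype_card] at h4; omega
  refine ⟨v + t • p, Z.add_mem hv (Z.smul_mem _ hp), ?_, fun e => ?_, ?_⟩
  · rwa [f.q_add_of_B_eq_zero (by rw [f.B_smul_right, hvp, mul_zero]), f.quad_q_smul, sq]
  · obtain ⟨s, hs⟩ := Submodule.mem_span_singleton.1 e
    have := congrArg (f.B p) hs
    rw [f.B_smul_right, f.B_add_right, f.B_smul_right, f.B_eq_zero_symm hvp, qB_self] at this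
    exact mul_ne_zero t0 (mul_ne_zero h2 qp) (by linear_combination -this)
  · rwa [f.B_add_right, f.B_smul_right, hvp, mul_zero, add_zero]

namespace RatExt

variable {F₀ F : Type*} [Field F₀] [Finite F₀] [Field F] [Finite F] [Algebra F₀ F] {τ : F →+* F}
  {hτ : ∀ a, τ (τ a) = a} {V₀ V : Type*} [AddCommGroup V₀] [Module F₀ V₀] [AddCommGroup V]
  [Module F V] [FiniteDimensional F₀ V₀] [Finite V₀] [FiniteDimensional F V]
  {f₀ : Form (FormType.quad F₀) V₀} {f : Form (FormType.herm τ hτ) V} {R : RatExt f₀ f}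
  {K : Subgroup (V ≃ₗ[F] V)} {ω : F}

local notation "ι₀" => algebraMap F₀ F

variable (R ω) in
/-- An orthogonal rational structure on a unitary space. -/
structure OQ : Prop where
  η : R.η = 1
  hf₀ : f₀.Nondeg
  hf : f.Nondeg
  two : (2 : F₀) ≠ 0
  four : 4 ≤ Nat.card F₀
  dim : 4 ≤ finrank F₀ V₀
  deg : finrank F₀ F = 2
  ω0 : ω ≠ 0
  hω : τ ω = -ω

variable (R) in
/-- The extended reflection. -/
noncomputable def ρ (a : V₀) : V ≃ₗ[F] V := f.rk (R.j a) (-(ι₀ (f₀.q a))⁻¹)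

namespace OQ

variable (h : R.OQ ω)
include h

theorem hB (u v : V₀) : f.B (R.j u) (R.j v) = ι₀ (f₀.B u v) := by rw [R.hB, h.η, one_mul]

theorem τι (c : F₀) : τ (ι₀ c) = ι₀ c := R.hσ c

theorem two' : (2 : F) ≠ 0 := by rw [← map_ofNat ι₀ 2]; exact (map_ne_zero _).2 h.two

theorem indep {s t : F₀} (e : ι₀ s + ι₀ t * ω = 0) : s = 0 ∧ t = 0 := by
  have e' := congrArg τ e
  rw [map_add, map_mul, h.τι, h.τι, h.hω, map_zero] at e'
  have h1 : 2 * ι₀ s = 0 := by linear_combination e + e'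
  have h2 : 2 * (ι₀ t * ω) = 0 := by linear_combination e - e'
  simpa [h.two', h.ω0] using And.intro h1 h2

theorem dec (z : F) : ∃ a b : F₀, z = ι₀ a + ι₀ b * ω := by
  refine exists_eq_add_mul_two h.deg ?_ z
  rintro ⟨c, hc⟩
  simpa using (h.indep (s := c) (t := -1) (by simp [hc])).2

theorem fix {z : F} (e : τ z = z) : ∃ c, z = ι₀ c := by
  obtain ⟨a, b, rfl⟩ := h.dec z
  rw [map_add, map_mul, h.τι, h.τι, h.hω] at e
  have := (h.indep (s := 0) (t := 2 * b) (by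
    rw [map_zero, map_mul, map_ofNat]; linear_combination -e)).2
  rw [(mul_eq_zero.1 this).resolve_left h.two]
  exact ⟨a, by simp⟩

theorem anti {z : F} (e : z + τ z = 0) : ∃ c, z = ι₀ c * ω := by
  obtain ⟨c, hc⟩ := h.fix (z := z / ω) (by
    rw [map_div₀, h.hω, show τ z = -z by linear_combination e, neg_div_neg_eq])
  exact ⟨c, by rw [← hc, div_mul_cancel₀ _ h.ω0]⟩

theorem ne_id : τ ≠ RingHom.id F := fun e => by
  have := h.hω
  rw [e, RingHom.id_apply] at this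
  exact mul_ne_zero h.two' h.ω0 (by linear_combination this)

theorem decV (x : V) : ∃ a b, x = R.j a + ω • R.j b := by
  obtain ⟨d, hd⟩ := h.fix (z := ω * ω) (by rw [map_mul, h.hω, neg_mul_neg])
  have : x ∈ Submodule.span F (Set.range R.j) := by rw [R.span]; trivial
  induction this using Submodule.span_induction with
  | mem x hx => obtain ⟨v, rfl⟩ := hx; exact ⟨v, 0, by simp⟩
  | zero => exact ⟨0, 0, by simp⟩
  | add x y _ _ hx hy =>
    obtain ⟨a, b, rfl⟩ := hx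
    obtain ⟨a', b', rfl⟩ := hy
    exact ⟨a + a', b + b', by rw [map_add, map_add]; module⟩
  | smul c x _ hx =>
    obtain ⟨a, b, rfl⟩ := hx
    obtain ⟨s, t, rfl⟩ := h.dec c
    refine ⟨s • a + (t * d) • b, t • a + s • b, ?_⟩
    simp only [map_add, R.j_smul, map_mul, ← hd]
    module

theorem perp_dec {u a b : V₀} (e : f.B (R.j u) (R.j a + ω • R.j b) = 0) :
    f₀.B u a = 0 ∧ f₀.B u b = 0 := by
  rw [f.B_add_right, f.B_smul_right, h.hB, h.hB, mul_comm] at e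
  exact h.indep e

theorem ρ_ok {a : V₀} (ha : f₀.q a ≠ 0) : -(ι₀ (f₀.q a))⁻¹ + τ (-(ι₀ (f₀.q a))⁻¹) +
    τ (-(ι₀ (f₀.q a))⁻¹) * (-(ι₀ (f₀.q a))⁻¹) * f.B (R.j a) (R.j a) = 0 := by
  have : ι₀ (f₀.q a) ≠ 0 := (map_ne_zero _).2 ha
  rw [map_neg, map_inv₀, h.τι, h.hB, qB_self, map_mul, map_ofNat]
  field_simp; ring

theorem ρ_apply {a : V₀} (ha : f₀.q a ≠ 0) (x : V) :
    R.ρ a x = x - ((ι₀ (f₀.q a))⁻¹ * f.B (R.j a) x) • R.j a := by
  rw [ρ, rk_apply (h.ρ_ok ha)]; module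

theorem ρ_j {a : V₀} (ha : f₀.q a ≠ 0) (v : V₀) : R.ρ a (R.j v) = R.j (f₀.rf a v) := by
  rw [h.ρ_apply ha, rf_apply, map_sub, R.j_smul, map_mul, map_inv₀, h.hB]

theorem exists_sing : ∃ u u', f₀.q u = 0 ∧ f₀.q u' = 0 ∧ f₀.B u u' = 1 := by
  obtain ⟨u, u0, hu⟩ := (quad_iso3 f₀).exists_singular (by have := h.dim; omega)
  obtain ⟨u', h1, h2⟩ := h.hf₀.exists_partner' hu u0
  exact ⟨u, u', hu, h1, h2⟩

theorem ρρ_mem {a b : V₀} (ha : f₀.q a ≠ 0) (hb : f₀.q b ≠ 0) :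
    R.ρ a * R.ρ b ∈ R.stab ⊓ f.E := by
  obtain ⟨u, u', hu, -, huu'⟩ := h.exists_sing
  have e : ∀ {a}, f₀.q a ≠ 0 → LinearMap.det (R.ρ a : V →ₗ[F] V) = -1 := fun {a} ha => by
    have : ι₀ (f₀.q a) ≠ 0 := (map_ne_zero _).2 ha
    rw [ρ, det_rk (h.ρ_ok ha), h.hB, qB_self, map_mul, map_ofNat]
    field_simp; ring
  refine ⟨R.mem_stab_of_le h.hf₀ one_ne_zero fun v => ⟨_, by
    rw [one_smul, LinearEquiv.mul_apply, h.ρ_j hb, h.ρ_j ha]⟩,
    (h.hf.herm_mem_E_iff h.ne_id (R.q_j hu) (R.j_ne_zero h.hf₀ (by rintro rfl; simp at huu'))).2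
      ⟨f.O.mul_mem (rk_mem_O _ _) (rk_mem_O _ _), ?_⟩⟩
  rw [LinearEquiv.coe_toLinearMap_mul, map_mul, e ha, e hb]; simp

theorem exists_move {u w : V₀} (hu : f₀.q u = 0) (hw : f₀.q w = 0) (huw : f₀.B u w ≠ 0) :
    ∃ k ∈ R.stab ⊓ f.E, k (R.j u) = R.j w := by
  obtain ⟨p, hp, qp⟩ := exists_nonsing_perp h.hf₀ (F₀ ∙ w)
    (by have := finrank_span_single_le (F := F₀) w; have := h.dim; omega)
  have q1 : f₀.q (u - w) = -f₀.B u w := by rw [f₀.q_sub, hu, hw]; simp [FormType.quad_π]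
  have q2 : f₀.q (u - w) ≠ 0 := by rwa [q1, neg_ne_zero]
  refine ⟨_, h.ρρ_mem qp q2, ?_⟩
  rw [LinearEquiv.mul_apply, h.ρ_j q2, h.ρ_j qp, rf_apply (u - w), q1, f₀.B_sub_left,
    f₀.B_self_eq_zero hu, qB_comm w, zero_sub, inv_mul_cancel₀ (neg_ne_zero.2 huw), one_smul,
    sub_sub_cancel, rf_of_perp (f₀.B_eq_zero_symm (f₀.mem_perp_span_singleton.1 hp))]

theorem exists_move' {u w : V₀} (hu : f₀.q u = 0) (hu0 : u ≠ 0) (hw : f₀.q w = 0) (hw0 : w ≠ 0) :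
    ∃ k ∈ R.stab ⊓ f.E, ∃ c : F₀, c ≠ 0 ∧ k (R.j u) = R.j (c • w) := by
  by_cases huw : f₀.B u w = 0
  swap
  · obtain ⟨k, hk, e⟩ := h.exists_move hu hw huw
    exact ⟨k, hk, 1, one_ne_zero, by rw [one_smul, e]⟩
  by_cases hl : u ∈ F₀ ∙ w
  · obtain ⟨c, rfl⟩ := Submodule.mem_span_singleton.1 hl
    exact ⟨1, one_mem _, c, by rintro rfl; simp at hu0, rfl⟩
  obtain ⟨e₀, he₀, h1⟩ := h.hf₀.exists_E_apply_eq_of_line hu hw huw (li2 hw0 hl)
  obtain ⟨e, he, he'⟩ := exists_lift_of (R := R) (S := R.stab ⊓ f.E)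
    (fun u v a ok => ⟨R.ei_mem_stab h.hf₀ ok, R.ei_mem_E u v a⟩) he₀
  exact ⟨e, he, 1, one_ne_zero, by rw [he', h1, one_smul]⟩

theorem not_E_le : ¬ f.E ≤ R.stab := fun H => by
  obtain ⟨u, u', hu, -, huu'⟩ := h.exists_sing
  have u0 : u ≠ 0 := by rintro rfl; simp at huu'
  have hc : (FormType.herm τ hτ).π ω = 0 := by rw [FormType.herm_π, h.hω, add_neg_cancel]
  obtain ⟨μ, hμ, hμ'⟩ := H (Form.ei_mem_E (R.j u) 0 ω)
  obtain ⟨v, hv⟩ := (hμ' (R.j u)).1 ⟨u, rfl⟩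
  rw [(eichOK_zero (R.q_j hu) hc).ei_apply_u] at hv
  obtain ⟨m, rfl⟩ := R.mem_range_of_smul h.hf₀ u0 hv.symm
  obtain ⟨w, hw⟩ := (hμ' (R.j u')).1 ⟨u', rfl⟩
  rw [ei_zero_apply (R.q_j hu) hc, h.hB, huu', map_one, FormType.herm_ε] at hw
  obtain ⟨d, hd⟩ := R.mem_range_of_smul h.hf₀ (c := ι₀ m * ω) (v' := m • u' - w) u0
    (by rw [map_sub, hw, R.j_smul]; module)
  exact hμ (by rw [(h.indep (s := -d) (t := m) (by rw [map_neg, hd]; ring)).2, map_zero])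

variable (hH : R.stab ⊓ f.E ≤ K) (hKE : K ≤ f.E)
include hH hKE

theorem tv_opp {u u' : V₀} (hu : f₀.q u = 0) (hu' : f₀.q u' = 0) (huu' : f₀.B u u' ≠ 0) {c : F}
    (hc : c + τ c = 0) (H : f.ei (R.j u) 0 c ∈ K) (m : F₀) : f.ei (R.j u') 0 (ι₀ m * c) ∈ K := by
  have hπ : ∀ m : F₀, (FormType.herm τ hτ).π (ι₀ m * c) = 0 := fun m => by
    rw [FormType.herm_π, map_mul, h.τι, ← mul_add, hc, mul_zero]
  have sq : ∀ l : F₀, f.ei (R.j u') 0 (ι₀ (l * l) * c) ∈ K := fun l => by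
    by_cases hl : l = 0
    · simpa [hl, Form.ei_zero] using K.one_mem
    obtain ⟨k, hk, e⟩ := h.exists_move hu (f₀.q_smul_eq_zero hu' l)
      (by rw [f₀.B_smul_right]; exact mul_ne_zero hl huu')
    have := ei_zero_conj (R.q_j hu) hc H (hH hk) (E_le_O hk.2)
    rwa [e, R.j_smul, ei_zero_smul (R.q_j hu') hc, FormType.herm_σ, h.τι, ← map_mul] at this
  have := sq ((m + 1) / 2)
  rw [show (m + 1) / 2 * ((m + 1) / 2) = m + (m - 1) / 2 * ((m - 1) / 2) by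
    have := h.two; field_simp; ring, map_add, add_mul, ei_zero_add (R.q_j hu') (hπ _) (hπ _)] at this
  exact (K.mul_mem_cancel_right (sq _)).1 this

theorem U_le {u u' : V₀} (hu : f₀.q u = 0) (hu' : f₀.q u' = 0) (huu' : f₀.B u u' = 1) {c : F}
    (hc : c + τ c = 0) (c0 : c ≠ 0) (H : f.ei (R.j u) 0 c ∈ K) : f.U (R.j u') ≤ K := by
  have hK := over_of_le h.hf₀ hH
  have cen : Cen f K (R.j u') := fun a ha => by
    obtain ⟨m, hm⟩ := h.fix (z := a / c) (by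
      rw [FormType.herm_π] at ha
      rw [map_div₀, show τ a = -a by linear_combination ha, show τ c = -c by linear_combination hc,
        neg_div_neg_eq])
    have := h.tv_opp hH hKE hu hu' (by simp [huu']) hc H m
    rwa [← hm, div_mul_cancel₀ _ c0] at this
  have hc' : (FormType.herm τ hτ).π (-c⁻¹) = 0 := by
    rw [FormType.herm_π, map_neg, map_inv₀, show τ c = -c by linear_combination hc]; simp
  have hu'u : f₀.B u' u = 1 := by rw [qB_comm, huu']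
  have k1 : ∀ v, f₀.B u v = 0 → f₀.B u' v = 0 → Rad f K (R.j u') ((-c⁻¹) • R.j v) := fun v h1 h2 => by
    have := (hK.rad hu h1).conj (K.mul_mem H (cen _ hc'))
      (f.O.mul_mem (Form.ei_mem_O _ _ _) (Form.ei_mem_O _ _ _))
    have e1 : (f.ei (R.j u) 0 c * f.ei (R.j u') 0 (-c⁻¹)) (R.j u) = c⁻¹ • R.j u' := by
      rw [LinearEquiv.mul_apply, ei_zero_apply (R.q_j hu') hc', ei_zero_apply (R.q_j hu) hc,
        f.B_sub_right, f.B_smul_right, h.hB, h.hB, h.hB, hu'u, huu', f₀.B_self_eq_zero hu]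
      simp only [FormType.herm_ε, map_one, map_zero]
      linear_combination (norm := module) (-mul_inv_cancel₀ c0) • R.j u
    have e2 : (f.ei (R.j u) 0 c * f.ei (R.j u') 0 (-c⁻¹)) (R.j v) = R.j v := by
      rw [LinearEquiv.mul_apply, ei_zero_apply (R.q_j hu') hc', h.hB, h2, map_zero, mul_zero,
        zero_smul, sub_zero, ei_zero_apply (R.q_j hu) hc, h.hB, h1]
      simp
    rw [h.η, one_smul, e1, e2, Rad.smul_left_iff (inv_ne_zero c0), FormType.herm_σ, map_inv₀,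
      show τ c = -c by linear_combination hc, inv_neg] at this
    exact this
  refine U_le_of_rad cen fun w hw => ?_
  obtain ⟨a, b, rfl⟩ := h.decV w
  obtain ⟨ha, hb⟩ := h.perp_dec hw
  obtain ⟨m, hm⟩ := h.fix (z := -(c * ω)) (by
    rw [map_neg, map_mul, h.hω, show τ c = -c by linear_combination hc]; ring)
  have h1 := k1 (m • (b - f₀.B u b • u')) (by
    rw [f₀.B_smul_right, f₀.B_sub_right, f₀.B_smul_right, huu']; simp) (by
    rw [f₀.B_smul_right, f₀.B_sub_right, f₀.B_smul_right, hb, f₀.B_self_eq_zero hu']; simp)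
  have h2 := hK.rad hu' ha
  rw [h.η, one_smul] at h2
  convert (h2.add h1).add_smul (ω * ι₀ (f₀.B u b)) using 1
  rw [R.j_smul, map_sub, R.j_smul, ← hm, smul_smul, show -c⁻¹ * -(c * ω) = ω by field_simp]
  module

variable (hE : ¬ f.E ≤ K)
include hE

theorem no_tv {u : V₀} (hu : f₀.q u = 0) (hu0 : u ≠ 0) {c : F} (hc : c + τ c = 0)
    (H : f.ei (R.j u) 0 c ∈ K) : c = 0 := by
  by_contra c0
  obtain ⟨u', hu', huu'⟩ := h.hf₀.exists_partner' hu hu0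
  have H' := h.tv_opp hH hKE hu hu' (by simp [huu']) hc H 1
  rw [map_one, one_mul] at H'
  exact hE (h.hf.E_le_of_B_ne (R.q_j hu) (R.q_j hu') (by simp [h.hB, huu'])
    (h.U_le hH hKE hu' hu (by rw [qB_comm, huu']) hc c0 H') (h.U_le hH hKE hu hu' huu' hc c0 H))

theorem small {u : V₀} (hu : f₀.q u = 0) (hu0 : u ≠ 0) {w : V} (hw : Rad f K (R.j u) w) :
    ∃ (v : V₀) (c : F), w = R.j v + c • R.j u := by
  have hK := over_of_le h.hf₀ hH
  obtain ⟨a, b, rfl⟩ := h.decV w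
  obtain ⟨ha, hb⟩ := h.perp_dec hw.B_eq
  have : b ∈ f₀.perp (f₀.perp (F₀ ∙ u)) := fun v hv => by
    have h1 := hw.comm (hK.rad hu (f₀.mem_perp_span_singleton.1 hv))
    have e : f.B (R.j a + ω • R.j b) (R.η • R.j v) - f.B (R.η • R.j v) (R.j a + ω • R.j b) =
        -(2 * ω * ι₀ (f₀.B v b)) := by
      rw [h.η, one_smul, f.B_add_left, f.B_add_right, hB_smul, f.B_smul_right, h.hB, h.hB, h.hB,
        h.hB, h.hω, qB_comm a, qB_comm b]
      ring
    rw [e] at h1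
    have := h.no_tv hH hKE hE hu hu0 (by
      simp only [map_neg, map_mul, map_ofNat, h.hω, h.τι]; ring) h1
    simpa [h.two', h.ω0] using this
  rw [h.hf₀.perp_perp] at this
  obtain ⟨s, rfl⟩ := Submodule.mem_span_singleton.1 this
  exact ⟨a, ω * ι₀ s, by rw [R.j_smul, smul_smul]⟩

theorem rat_U {u : V₀} (hu : f₀.q u = 0) (hu0 : u ≠ 0) {w : V} {a : F}
    (ok : f.EichOK (R.j u) w a) (H : f.ei (R.j u) w a ∈ K) (v : V₀) :
    f.ei (R.j u) w a (R.j v) ∈ Set.range R.j := by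
  have hK := over_of_le h.hf₀ hH
  obtain ⟨v₀, c, rfl⟩ := h.small hH hKE hE hu hu0 ⟨a, ok, H⟩
  rw [← one_smul F (R.j v₀), ← h.η] at ok H ⊢
  have huv : f₀.B u v₀ = 0 := by
    have := ok.huv
    rw [f.B_add_right, f.B_smul_right c, ok.huu, mul_zero, add_zero, R.B_j_η] at this
    simpa using this
  obtain ⟨a₀, ok₀⟩ := exists_eichOK hu huv
  have ok1 : f.EichOK (R.j u) (R.η • R.j v₀) a := by
    have := ok.add_smul_u (-c)
    rwa [neg_smul, add_neg_cancel_right] at this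
  have ok2 : f.EichOK (R.j u) (R.η • R.j v₀)
      (a + ((FormType.herm τ hτ).σ c - (FormType.herm τ hτ).ε * c)) :=
    ⟨ok1.hu, ok1.huv, by rw [map_add, ok1.ha, map_sub, FormType.π_ε_mul, sub_self, add_zero]⟩
  obtain ⟨h1, h3⟩ := (R.ok ok₀).ei_eq_mul ok2
  rw [ok1.ei_add_smul_u, h3] at H ⊢
  rw [h.no_tv hH hKE hE hu hu0 (by rwa [FormType.herm_π] at h1)
    ((K.mul_mem_cancel_left (hK _ _ _ ok₀)).1 H), Form.ei_zero, mul_one]
  exact ⟨_, (R.ei_j ok₀ v).symm⟩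

theorem rat_of_line {u : V₀} (hu : f₀.q u = 0) (hu0 : u ≠ 0)
    {k : V ≃ₗ[F] V} (hk : k ∈ K) {μ : F} (e : k (R.j u) = μ • R.j u) (v : V₀) :
    τ μ • k (R.j v) ∈ Set.range R.j := by
  have hK := over_of_le h.hf₀ hH
  have hkO := E_le_O (hKE hk)
  have hμ : μ ≠ 0 := by
    rintro rfl
    exact R.j_ne_zero h.hf₀ hu0 (by simpa using e)
  have hσμ : τ μ ≠ 0 := (map_ne_zero _).2 hμ
  have h1 : ∀ v, f₀.B u v = 0 → ∃ (v' : V₀) (c : F), τ μ • k (R.j v) = R.j v' + c • R.j u := by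
    intro v hv
    have := (hK.rad hu hv).conj hk hkO
    rw [e, Rad.smul_left_iff hμ, h.η, one_smul] at this
    exact h.small hH hKE hE hu hu0 this
  have hBu : ∀ x, τ μ * f.B (R.j u) (k x) = f.B (R.j u) x := fun x => by
    rw [← hB_smul, ← e, mem_O_B hkO]
  obtain ⟨u', hu', huu'⟩ := h.hf₀.exists_partner' hu hu0
  obtain ⟨m, hm⟩ := h.fix (z := μ * τ μ) (by rw [map_mul, hτ, mul_comm])
  obtain ⟨w, a, ok, he, -⟩ := exists_ei_apply_eq (f := f) (u := R.j u) (w := (τ μ)⁻¹ • R.j u')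
    (w' := k (R.j u')) (R.q_j hu) (by rw [mem_O_q hkO, f.q_smul_eq_zero (R.q_j hu'), R.q_j hu'])
    (by rw [f.B_smul_right, ← hBu, inv_mul_cancel_left₀ hσμ]) (by
      rw [f.B_smul_right, h.hB, huu']; simpa using hμ)
  set e := f.ei (R.j u) w a with hedef
  have heE : e ∈ f.E := Form.ei_mem_E _ _ _
  have hhE : e⁻¹ * k ∈ f.E := f.E.mul_mem (f.E.inv_mem heE) (hKE hk)
  have hu'h : τ μ • (e⁻¹ * k) (R.j u') = R.j u' := by
    rw [LinearEquiv.mul_apply, ← he, ← LinearEquiv.mul_apply, inv_mul_cancel]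
    change τ μ • (τ μ)⁻¹ • R.j u' = _
    rw [smul_smul, mul_inv_cancel₀ hσμ, one_smul]
  have h3 : ∀ v, τ μ • (e⁻¹ * k) (R.j v) ∈ Set.range R.j := by
    have h4 : ∀ v, f₀.B u v = 0 → τ μ • (e⁻¹ * k) (R.j v) ∈ Set.range R.j := by
      intro v hv
      obtain ⟨v', c, hv'⟩ := h1 v hv
      have a1 : f.B (R.j u) (R.j v' + c • R.j u) = 0 := by
        rw [← hv', f.B_smul_right, hBu, R.B_j_eq_zero_iff.2 hv]
      obtain ⟨c', hc'⟩ : ∃ c' : F, τ μ • (e⁻¹ * k) (R.j v) = R.j v' + c' • R.j u := by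
        refine ⟨c - (FormType.herm τ hτ).ε * f.B (-w) (R.j v' + c • R.j u), ?_⟩
        rw [LinearEquiv.mul_apply, ← map_smul, hv', hedef, ok.ei_inv, ok.neg.ei_apply_of_perp a1]
        module
      have a2 := mem_O_B (E_le_O hhE) (R.j u') (R.j v)
      have a3 : f.B (R.j u') (τ μ • (e⁻¹ * k) (R.j v)) = ι₀ m * ι₀ (f₀.B u' v) := by
        rw [← hu'h, hB_smul, f.B_smul_right, a2, hτ, ← hm, h.hB]; ring
      rw [hc', f.B_add_right, f.B_smul_right, h.hB, h.hB, qB_comm u' u, huu', map_one] at a3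
      refine ⟨v' + (m * f₀.B u' v - f₀.B u' v') • u, ?_⟩
      rw [hc', map_add, R.j_smul]
      congr 2
      rw [map_sub, map_mul]
      linear_combination -a3
    intro v
    obtain ⟨v', hv'⟩ := h4 (v - f₀.B u v • u')
      (by rw [f₀.B_sub_right, f₀.B_smul_right, huu', mul_one, sub_self])
    refine ⟨v' + f₀.B u v • u', ?_⟩
    rw [map_add, hv', R.j_smul, map_sub, R.j_smul, map_sub, map_smul, smul_sub,
      smul_comm (τ μ), hu'h, sub_add_cancel]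
  have hhK : e⁻¹ * k ∈ K := hH ⟨R.mem_stab_of_le h.hf₀ hσμ h3, hhE⟩
  have heK : e ∈ K := by
    have := K.mul_mem hk (K.inv_mem hhK)
    rwa [mul_inv_rev, inv_inv, mul_inv_cancel_left] at this
  obtain ⟨v', hv'⟩ := h3 v
  have := h.rat_U hH hKE hE hu hu0 ok heK v'
  rwa [hv', map_smul, ← LinearEquiv.mul_apply, mul_inv_cancel_left] at this

theorem rat {u : V₀} (hu : f₀.q u = 0) (hu0 : u ≠ 0) {k : V ≃ₗ[F] V} (hk : k ∈ K)
    (e : k (R.j u) = R.j u) (v : V₀) : k (R.j v) ∈ Set.range R.j := by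
  have := h.rat_of_line hH hKE hE hu hu0 hk (μ := 1) (by rw [e, one_smul]) v
  rwa [map_one, one_smul] at this

theorem mem_of_point {u : V₀} (hu : f₀.q u = 0) (hu0 : u ≠ 0) {g : V ≃ₗ[F] V} (hg : g ∈ K)
    {μ : F} {w : V₀} (e : g (R.j u) = μ • R.j w) : g ∈ R.stab := by
  have hne : μ • R.j w ≠ 0 := fun e' =>
    R.j_ne_zero h.hf₀ hu0 (g.map_eq_zero_iff.1 (e.trans e'))
  have hμ : μ ≠ 0 := left_ne_zero_of_smul hne
  have hw0 : w ≠ 0 := by rintro rfl; simp at hne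
  have hwq : f₀.q w = 0 := by
    have := mem_O_B (E_le_O (hKE hg)) (R.j u) (R.j u)
    rw [e, hB_smul, f.B_smul_right, h.hB, h.hB, qB_self, qB_self, hu] at this
    simpa [hμ, h.two] using this
  obtain ⟨k, hk, c, c0, hc⟩ := h.exists_move' hwq hw0 hu hu0
  have h1 : k * g ∈ R.stab := R.mem_stab_of_le h.hf₀
    ((map_ne_zero τ).2 (mul_ne_zero hμ ((map_ne_zero ι₀).2 c0)))
    (h.rat_of_line hH hKE hE hu hu0 (K.mul_mem (hH hk) hg) (μ := μ * ι₀ c) (by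
      rw [LinearEquiv.mul_apply, e, map_smul, hc, R.j_smul, smul_smul]))
  exact (R.stab.mul_mem_cancel_left hk.1).1 h1

theorem mem_of_ts {u : V₀} (hu : f₀.q u = 0) (hu0 : u ≠ 0) {g : V ≃ₗ[F] V} (hg : g ∈ K)
    {a b : V₀} (e : g⁻¹ (R.j u) = R.j a + ω • R.j b) (qa : f₀.q a = 0) (qb : f₀.q b = 0)
    (ab : f₀.B a b = 0) (b0 : b ≠ 0) (hab : a ∉ F₀ ∙ b) : g ∈ R.stab := by
  have hK := over_of_le h.hf₀ hH
  have hgO := E_le_O (hKE hg)
  have ok : f₀.EichOK a b 0 := ⟨qa, ab, qb.symm⟩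
  have gg : ∀ x, g (g⁻¹ x) = x := fun x => by rw [← LinearEquiv.mul_apply, mul_inv_cancel]; rfl
  obtain ⟨v, hv⟩ : ∃ v, f.B (R.j a) (g⁻¹ (R.j v)) ≠ 0 := by
    by_contra! H
    refine R.j_ne_zero h.hf₀ (v := a) (by rintro rfl; exact hab (Submodule.zero_mem _))
      (g.map_eq_zero_iff.1 (R.eq_zero_of_B h.hf fun v => ?_))
    rw [B_apply_left hgO, H]
  obtain ⟨v', hv'⟩ := h.rat hH hKE hE hu hu0
    (K.mul_mem (K.mul_mem hg (hK _ _ _ ok)) (K.inv_mem hg)) (by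
      rw [LinearEquiv.mul_apply, LinearEquiv.mul_apply, e, map_add, map_smul,
        R.ei_fix ok ok.huu ok.hvu, R.ei_fix ok ab (f₀.B_self_eq_zero qb), ← e, gg]) v
  set s := f.B (R.j a) (g⁻¹ (R.j v)) with hs
  set t := f.B (R.j b) (g⁻¹ (R.j v)) with ht
  have e1 : R.j (v' - v) = g (s • R.j b - t • R.j a) := by
    rw [map_sub, hv', LinearEquiv.mul_apply, LinearEquiv.mul_apply, R.ei_apply ok, h.η,
      ← gg (R.j v), ← map_sub, gg, ← hs, ← ht, FormType.quad_ε]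
    congr 1
    simp only [map_one, map_zero]
    module
  have e2 : ι₀ (f₀.B v (v' - v)) = s * τ t - t * τ s := by
    rw [← h.hB, e1, ← gg (R.j v), mem_O_B hgO, f.B_sub_right, f.B_smul_right, f.B_smul_right,
      hs, ht, hσ_B, hσ_B]
  have e3 := congrArg τ e2
  rw [h.τι, e2, map_sub, map_mul, map_mul, hτ, hτ] at e3
  obtain ⟨c, hc⟩ := h.fix (z := t / s) (by
    rw [map_div₀, div_eq_div_iff ((map_ne_zero _).2 hv) hv]
    exact mul_left_cancel₀ h.two' (by linear_combination e3))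
  refine h.mem_of_point hH hKE hE (u := b - c • a) (μ := s⁻¹) (w := v' - v) ?_ (fun e => hab ?_) hg ?_
  · rw [f₀.q_sub, qb, f₀.q_smul_eq_zero qa, f₀.B_smul_right, f₀.B_eq_zero_symm ab]; simp
  · rw [sub_eq_zero] at e
    have c0 : c ≠ 0 := by rintro rfl; simp [b0] at e
    exact Submodule.mem_span_singleton.2 ⟨c⁻¹, by rw [e, smul_smul, inv_mul_cancel₀ c0, one_smul]⟩
  · rw [e1, ← map_smul, map_sub R.j, R.j_smul, ← hc, smul_sub, smul_smul, smul_smul,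
      inv_mul_cancel₀ hv, one_smul, div_eq_inv_mul]

theorem rat_ρρ {u : V₀} (hu : f₀.q u = 0) (hu0 : u ≠ 0) {g : V ≃ₗ[F] V} (hg : g ∈ K)
    {a b : V₀} (qa : f₀.q a ≠ 0) (qb : f₀.q b ≠ 0) (ha : f.B (R.j a) (g⁻¹ (R.j u)) = 0)
    (hb : f.B (R.j b) (g⁻¹ (R.j u)) = 0) (v : V₀) :
    g (R.ρ a (R.ρ b (g⁻¹ (R.j v)))) ∈ Set.range R.j :=
  h.rat hH hKE hE hu hu0 (K.mul_mem (K.mul_mem hg (hH (h.ρρ_mem qa qb))) (K.inv_mem hg)) (by
    rw [LinearEquiv.mul_apply, LinearEquiv.mul_apply, LinearEquiv.mul_apply, h.ρ_apply qb, hb,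
      mul_zero, zero_smul, sub_zero, h.ρ_apply qa, ha, mul_zero, zero_smul, sub_zero,
      ← LinearEquiv.mul_apply, mul_inv_cancel]; rfl) v

theorem exists_plane {g : V ≃ₗ[F] V} (hg : g ∈ K) (hn : g ∉ R.stab) {u : V₀} (hu : f₀.q u = 0)
    (hu0 : u ≠ 0) : ∃ Z : Submodule F₀ V₀, (f₀.restrict Z).Nondeg ∧ 2 ≤ finrank F₀ Z ∧
      ∀ v, v ∈ Z ↔ f.B (R.j v) (g⁻¹ (R.j u)) = 0 := by
  obtain ⟨a, b, e⟩ := h.decV (g⁻¹ (R.j u))
  have k : ∀ μ w, g⁻¹ (R.j u) ≠ μ • R.j w := fun μ w e' =>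
    hn (R.stab.inv_mem_iff.1 (h.mem_of_point hH hKE hE hu hu0 (K.inv_mem hg) e'))
  have b0 : b ≠ 0 := by rintro rfl; exact k 1 a (by simp [e])
  have hab : a ∉ F₀ ∙ b := fun H => by
    obtain ⟨s, rfl⟩ := Submodule.mem_span_singleton.1 H
    exact k (ι₀ s + ω) b (by rw [e, R.j_smul, add_smul])
  have hq : ι₀ (f₀.q a) = ω * ω * ι₀ (f₀.q b) := by
    have := mem_O_B (E_le_O (hKE (K.inv_mem hg))) (R.j u) (R.j u)
    simp only [e, B_add_left, B_add_right, hB_smul, B_smul_right, h.hB, h.hω, qB_self, hu, qB_comm b a,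
      map_mul, map_ofNat, map_zero] at this
    exact mul_left_cancel₀ h.two' (by linear_combination this)
  have hnd : (f₀.restrict (Submodule.span F₀ {a, b})).Nondeg := restrict_nondeg_span_pair fun H => by
    rw [qB_self, qB_self, qB_comm b] at H
    by_cases qb : f₀.q b = 0
    · refine hn (h.mem_of_ts hH hKE hE hu hu0 hg e (by simpa [qb] using hq) qb ?_ b0 hab)
      simpa [qb] using H
    · have H' := congrArg ι₀ H
      simp only [map_mul, map_ofNat, hq] at H'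
      have : (ι₀ (f₀.B a b) + ι₀ (2 * f₀.q b) * ω) * (ι₀ (f₀.B a b) + ι₀ (-(2 * f₀.q b)) * ω) = 0 := by
        simp only [map_mul, map_ofNat, map_neg]; linear_combination -H'
      rcases mul_eq_zero.1 this with e | e <;> simpa [h.two, qb] using (h.indep e).2
  refine ⟨_, h.hf₀.restrict_perp hnd, ?_, fun v => ?_⟩
  · have h1 := h.hf₀.finrank_add_finrank_perp (Submodule.span F₀ {a, b})
    have h2 := Tv.finrank_span_pair_le (F := F₀) a b
    have := h.dim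
    omega
  · rw [mem_perp_span_pair, e]
    refine ⟨fun H => ?_, fun H => (h.perp_dec H).imp f₀.B_eq_zero_symm f₀.B_eq_zero_symm⟩
    simp [h.hB, f₀.B_eq_zero_symm H.1, f₀.B_eq_zero_symm H.2]

theorem exists_rat {g : V ≃ₗ[F] V} (hg : g ∈ K) (hn : g ∉ R.stab) :
    ∃ v, v ≠ 0 ∧ ∃ (μ : F) (p : V₀), g (R.j v) = μ • R.j p := by
  have hgO := E_le_O (hKE hg)
  have gg : ∀ x, g (g⁻¹ x) = x := fun x => by rw [← LinearEquiv.mul_apply, mul_inv_cancel]; rfl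
  obtain ⟨u, u', hu, -, huu'⟩ := h.exists_sing
  have u0 : u ≠ 0 := by rintro rfl; simp at huu'
  obtain ⟨Z, hZ, hd, hZ'⟩ := h.exists_plane hH hKE hE hg hn hu u0
  obtain ⟨a, ha, qa⟩ := exists_q_ne_zero_mem hZ (by rintro rfl; simp at hd)
  obtain ⟨b, hb, qb, hba, hab⟩ := exists_skew_partner h.two h.four hZ hd ha qa
  obtain ⟨v, hv⟩ : ∃ v, f.B (R.j b) (g⁻¹ (R.j v)) ≠ 0 := by
    by_contra! H
    refine R.j_ne_zero h.hf₀ (v := b) (by rintro rfl; exact hba (Submodule.zero_mem _))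
      (g.map_eq_zero_iff.1 (R.eq_zero_of_B h.hf fun v => ?_))
    rw [B_apply_left hgO, H]
  obtain ⟨v', hv'⟩ := h.rat_ρρ hH hKE hE hu u0 hg qa qb ((hZ' a).1 ha) ((hZ' b).1 hb) v
  set s := f.B (R.j a) (g⁻¹ (R.j v)) with hs
  set t := f.B (R.j b) (g⁻¹ (R.j v)) with ht
  have e1 : R.j (v - v') = g (((ι₀ (f₀.q b))⁻¹ * t) • R.j b +
      ((ι₀ (f₀.q a))⁻¹ * (s - (ι₀ (f₀.q b))⁻¹ * t * ι₀ (f₀.B a b))) • R.j a) := by
    rw [map_sub, hv', ← gg (R.j v), ← map_sub, gg, h.ρ_apply qb, h.ρ_apply qa, f.B_sub_right,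
      f.B_smul_right, h.hB, ← hs, ← ht]
    congr 1
    module
  have e2 : ι₀ (f₀.B v (v - v')) = (ι₀ (f₀.q b))⁻¹ * t * τ t +
      (ι₀ (f₀.q a))⁻¹ * (s - (ι₀ (f₀.q b))⁻¹ * t * ι₀ (f₀.B a b)) * τ s := by
    rw [← h.hB, e1, ← gg (R.j v), mem_O_B hgO, f.B_add_right, f.B_smul_right, f.B_smul_right,
      hs, ht, hσ_B, hσ_B]
  have e3 := congrArg τ e2
  rw [h.τι, e2] at e3
  simp only [map_add, map_sub, map_mul, map_inv₀, hτ, h.τι] at e3
  obtain ⟨c, hc⟩ := h.fix (z := s / t) (by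
    rw [map_div₀, div_eq_div_iff ((map_ne_zero _).2 hv) hv]
    exact mul_left_cancel₀ (mul_ne_zero (mul_ne_zero (inv_ne_zero ((map_ne_zero ι₀).2 qa))
      (inv_ne_zero ((map_ne_zero ι₀).2 qb))) ((map_ne_zero ι₀).2 hab)) (by linear_combination -e3))
  refine ⟨(f₀.q b)⁻¹ • b + ((f₀.q a)⁻¹ * (c - (f₀.q b)⁻¹ * f₀.B a b)) • a, fun e => hba ?_, t⁻¹,
    v - v', ?_⟩
  · rw [← Submodule.smul_mem_iff _ (inv_ne_zero qb), eq_neg_of_add_eq_zero_left e]
    exact Submodule.neg_mem _ (Submodule.smul_mem _ _ (Submodule.mem_span_singleton_self a))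
  · rw [e1, ← map_smul, map_add R.j, R.j_smul, R.j_smul, smul_add, smul_smul, smul_smul]
    simp only [map_mul, map_sub, map_inv₀, ← hc]
    congr 3 <;> field_simp

theorem main {g : V ≃ₗ[F] V} (hg : g ∈ K) : g ∈ R.stab := by
  by_contra hn
  have hgO := E_le_O (hKE hg)
  obtain ⟨v, v0, μ, p, hv⟩ := h.exists_rat hH hKE hE hg hn
  let S : Submodule F₀ V₀ :=
    { carrier := {x | ∃ y, g (R.j x) = μ • R.j y}
      add_mem' := fun ⟨y, hy⟩ ⟨z, hz⟩ => ⟨y + z, by rw [map_add, map_add, hy, hz, map_add, smul_add]⟩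
      zero_mem' := ⟨0, by simp⟩
      smul_mem' := fun c x ⟨y, hy⟩ => ⟨c • y, by rw [R.j_smul, map_smul, hy, R.j_smul, smul_comm]⟩ }
  have hS : ∀ x ∈ S, x ≠ 0 → f₀.q x ≠ 0 := fun x ⟨y, hy⟩ x0 qx =>
    hn (h.mem_of_point hH hKE hE qx x0 hg hy)
  have qv := hS v ⟨p, hv⟩ v0
  have hd : finrank F₀ S ≤ 2 := by
    by_contra H
    obtain ⟨x, hx, x0, qx⟩ := quad_iso3 f₀ S (by omega)
    exact hS x hx x0 qx
  have hB : ∀ {x y} w, g (R.j x) = μ • R.j y →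
      f.B (R.j x) (g⁻¹ (R.j w)) = τ μ * ι₀ (f₀.B y w) := fun w e => by
    rw [← B_apply_left hgO, e, hB_smul, h.hB]
  have pp : f₀.B p p ≠ 0 ∧ τ μ ≠ 0 := by
    have := mem_O_B hgO (R.j v) (R.j v)
    rw [hv, hB_smul, f.B_smul_right, h.hB, h.hB, qB_self v] at this
    constructor <;> intro e <;> simp [e, h.two, qv] at this
  have key : ∀ w, f₀.q w = 0 → w ≠ 0 → f₀.B p w = 0 →
      ∃ x ∈ S, x ∉ F₀ ∙ v ∧ f.B (R.j x) (g⁻¹ (R.j w)) = 0 := fun w qw w0 hw => by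
    obtain ⟨Z, hZ, hd, hZ'⟩ := h.exists_plane hH hKE hE hg hn qw w0
    have hvZ : v ∈ Z := (hZ' v).2 (by rw [hB w hv, hw]; simp)
    obtain ⟨x, hx, qx, hxv, hvx⟩ := exists_skew_partner h.two h.four hZ hd hvZ qv
    refine ⟨x, ?_, hxv, (hZ' x).1 hx⟩
    obtain ⟨p', hp'⟩ := h.rat_ρρ hH hKE hE qw w0 hg qx qv ((hZ' x).1 hx) ((hZ' v).1 hvZ) p
    have e : f₀.rf x (f₀.rf v v) ∈ S := ⟨p', by
      rw [hp', ← map_smul, ← map_smul, ← map_smul, ← map_smul, ← hv, ← LinearEquiv.mul_apply g⁻¹,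
        inv_mul_cancel, ← h.ρ_j qx, ← h.ρ_j qv]; rfl⟩
    rw [rf_self qv, map_neg, neg_mem_iff, rf_apply] at e
    have := S.sub_mem ⟨p, hv⟩ e
    rwa [sub_sub_cancel, S.smul_mem_iff (mul_ne_zero (inv_ne_zero qx) (by rwa [qB_comm]))] at this
  have hP := h.hf₀.restrict_perp (restrict_nondeg_span_singleton pp.1)
  obtain ⟨w, hw, w', hw', qw, qw', ww'⟩ := quad_exists_hyp hP (by
    have h1 := h.hf₀.finrank_add_finrank_perp (F₀ ∙ p)
    have h2 := finrank_span_single_le (F := F₀) p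
    have := h.dim
    omega)
  obtain ⟨x, ⟨p₁, hp₁⟩, hxv, -⟩ := key w qw (by rintro rfl; simp at ww')
    (f₀.mem_perp_span_singleton.1 hw)
  have hSe : Submodule.span F₀ {x, v} = S := Submodule.eq_of_le_of_finrank_le
    (Submodule.span_le.2 (by rintro _ (rfl | rfl); exacts [⟨p₁, hp₁⟩, ⟨p, hv⟩])) (by
      have := finrank_span_eq_card (li2 v0 hxv)
      rw [show Set.range ![x, v] = {x, v} by simp [Set.pair_comm]] at this
      simpa [this] using hd)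
  have h1 : f₀.perp (F₀ ∙ p) ≤ f₀.perp (F₀ ∙ p₁) :=
    le_of_singular qw qw' (by simp [ww']) hw hw' fun y hy qy => by
      rw [mem_perp_span_singleton] at hy ⊢
      by_cases y0 : y = 0
      · simp [y0]
      obtain ⟨z, hz, hzv, hz'⟩ := key y qy y0 hy
      obtain ⟨α, β, rfl⟩ := Submodule.mem_span_pair.1 (hSe.ge hz)
      have α0 : α ≠ 0 := by
        rintro rfl
        exact hzv (by simpa using Submodule.smul_mem _ β (Submodule.mem_span_singleton_self v))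
      rw [map_add, R.j_smul, R.j_smul, f.B_add_left, hB_smul, hB_smul, hB y hv, hB y hp₁, hy] at hz'
      simpa [α0, pp.2] using hz'
  have h2 := f₀.perp_anti h1
  rw [h.hf₀.perp_perp, h.hf₀.perp_perp, Submodule.span_singleton_le_iff_mem] at h2
  obtain ⟨s, rfl⟩ := Submodule.mem_span_singleton.1 h2
  refine hxv (Submodule.mem_span_singleton.2 ⟨s, R.j_injective h.hf₀ (g.injective ?_)⟩)
  rw [hp₁, R.j_smul, map_smul, hv, R.j_smul, smul_comm]

end OQ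

end RatExt

open Cfsg Cfsg.Geo RatExt in
theorem isMaximalIn_subfield_su_quad4 {F : Type*} [Field F] [Fintype F] {n q : ℕ}
    (hF : Fintype.card F = q ^ 2) (hn : 4 ≤ n) (hodd : Odd q) (h4 : 4 ≤ q) (F₀ : Subfield F)
    (hcard : Fintype.card F = Nat.card F₀ ^ 2)
    (P : GL (Fin n) F) (hP : IsFormRationalStructure (hermForm n F q) F₀ 1 P) :
    IsMaximalIn (GU n F q ⊓ specialLinear (Fin n) F)
      (subfieldSubgroup F₀ P ⊓ (GU n F q ⊓ specialLinear (Fin n) F)) := by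
  have hσ : ∀ c : F₀, conjHom hF c = c := pow_eq_of_card hF hcard
  have h2 : (2 : F) ≠ 0 := two_ne_zero_of_odd (by rw [hF]; exact hodd.pow)
  have hB : ∀ u v, 1 * (hermStd hF n).B (ratMap F₀ P u) (ratMap F₀ P v) ∈ F₀ :=
    fun u v => hP _ _ (fun i => (v i).2) fun i => (u i).2
  have hs : ∀ u v, conjHom hF ((hermStd hF n).B (ratMap F₀ P u) (ratMap F₀ P v)) =
      (hermStd hF n).B (ratMap F₀ P u) (ratMap F₀ P v) := fun u v => by
    simpa using hσ ⟨_, hB u v⟩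
  obtain ⟨f₀, R, hR, hη⟩ := exists_ratExt_quad (ratMap_smul F₀ P) (ratMap_span F₀ P) (hermStd hF n)
    one_ne_zero hσ (by simp [FormType.herm_ε]) hB
    (fun u => ⟨1 * (hermStd hF n).B (ratMap F₀ P u) (ratMap F₀ P u) / 2,
      F₀.div_mem (hB u u) (by simp)⟩)
    (fun u v => by
      have := (hermStd hF n).herm_symm (ratMap F₀ P u) (ratMap F₀ P v)
      rw [hs] at this
      simp only [map_add, LinearMap.add_apply, this]
      field_simp; ring)
    (fun c u => Subtype.ext (by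
      simp only [ratMap_smul, B_smul_left, B_smul_right, FormType.herm_σ, Subfield.coe_mul]
      change 1 * ((c : F) * (conjHom hF c * _)) / 2 = _
      rw [hσ]; ring))
    (fun v => by
      simp only [map_one, one_mul, FormType.herm_π, herm_q, map_div₀, hs, map_ofNat]
      field_simp; ring)
  obtain ⟨ω, ω0, hω⟩ := FormType.exists_add_σ_eq_zero (hermStd_ne_id hF) (conjHom_invol hF)
  have hf := hermStd_nondeg hF n
  have h : R.OQ ω := ⟨hη, R.nondeg hf (hR ▸ ratMap_injective F₀ P), hf,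
    fun h => h2 (congrArg Subtype.val h), by
      rwa [Nat.pow_left_injective two_ne_zero (hcard.symm.trans hF)], by simpa using hn,
    finrank_eq_of_card F₀ hcard, ω0, by linear_combination hω⟩
  refine isMaximalIn_of_act (H' := R.stab) (mem_SU_iff_E hF (by omega))
    (fun g => by rw [mem_subfieldSubgroup_iff, R.mem_stab, hR]) h.not_E_le ?_
  rintro K h1 h2 ⟨g, hg, hg'⟩
  by_contra hE
  exact hg' (h.main h1 h2 hE hg)

end CL.Root
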