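import Mathlib
import Cfsg.Agent.CLAS.FiveRA

/-!
# Groups in dimension four containing reflections: the basic facts
-/

set_option autoImplicit false
set_option linter.unusedSectionVars false

namespace CL.FJ

open Module
open CL.FR (smul_sm conj_smul eig mem_eig)
open CL.FR.RA (Pr Sw)

variable {k W G : Type*} [Field k] [AddCommGroup W] [Module k W] [Group G] [DistribMulAction G W]
  [SMulCommClass G k W]

variable (W) in
/-- `g` is the scalar `a` -/
def Sc (g : G) (a : k) : Prop := ∀ w : W, g • w = a • w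

variable (k W G) in
/-- the standing hypotheses -/
structure Ctx : Prop where
  two : (2 : k) ≠ 0
  dim : finrank k W = 4
  faith : ∀ g : G, (∀ w : W, g • w = w) → g = 1
  noTv : ∀ (g : G) (v : W) (φ : W →ₗ[k] k), φ v = 0 → (∀ w, g • w = w + φ w • v) → g = 1
  sc8 : ∀ (g : G) (a : k), Sc W g a → a ^ 8 = 1
  ex8 : ∀ a : k, a ^ 8 = 1 → ∃ g : G, Sc W g a
  perf : ∀ N : Subgroup G, commutator G ≤ N → (∀ (g : G) (a : k), Sc W g a → g ∈ N) → ∀ g, g ∈ N
  o2 : ∀ N : Subgroup G, N.Normal → IsPGroup 2 N → ∀ g ∈ N, ∃ a : k, Sc W g a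

variable (k W G) in
/-- a reflection -/
structure Rf where
  g : G
  v : W
  φ : W →ₗ[k] k
  two : φ v = 2
  act : ∀ w, g • w = w - φ w • v

/-- the conjugate of a reflection -/
def Rf.conj (h : G) (r : Rf k W G) : Rf k W G where
  g := h * r.g * h⁻¹
  v := h • r.v
  φ := r.φ ∘ₗ DistribSMul.toLinearMap k W h⁻¹
  two := by simp [r.two]
  act w := by simp [mul_smul, r.act, smul_sub, smul_sm]

/-- the same reflection with a rescaled vector -/
def Rf.sc (r : Rf k W G) (a : k) (ha : a ≠ 0) : Rf k W G where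
  g := r.g
  v := a • r.v
  φ := a⁻¹ • r.φ
  two := by simp [r.two, ha]
  act w := by simp [r.act, smul_smul, mul_right_comm, ha]

@[simp] theorem Rf.conj_g (h : G) (r : Rf k W G) : (r.conj h).g = h * r.g * h⁻¹ := rfl
@[simp] theorem Rf.conj_v (h : G) (r : Rf k W G) : (r.conj h).v = h • r.v := rfl
@[simp] theorem Rf.conj_φ (h : G) (r : Rf k W G) (w : W) : (r.conj h).φ w = r.φ (h⁻¹ • w) := rfl
@[simp] theorem Rf.sc_g (r : Rf k W G) (a : k) (ha : a ≠ 0) : (r.sc a ha).g = r.g := rfl
@[simp] theorem Rf.sc_v (r : Rf k W G) (a : k) (ha : a ≠ 0) : (r.sc a ha).v = a • r.v := rfl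

variable (k W) in
/-- the determinant -/
noncomputable def dt (g : G) : k := LinearMap.det (DistribSMul.toLinearMap k W g)

theorem dt_mul (g h : G) : dt k W (g * h) = dt k W g * dt k W h := by
  rw [dt, dt, dt, ← map_mul]; congr 1; ext w; simp [mul_smul]

theorem dt_one : dt k W (1 : G) = 1 := by
  rw [dt, show DistribSMul.toLinearMap k W (1 : G) = LinearMap.id from LinearMap.ext (one_smul G),
    LinearMap.det_id]

namespace Ctx

variable (c : Ctx k W G)
include c

theorem fd : FiniteDimensional k W := .of_finrank_pos (by rw [c.dim]; norm_num)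

theorem zero_of_neg {w : W} (h : w = -w) : w = 0 := by
  have : (2 : k) • w = 0 := by rw [two_smul]; exact add_eq_zero_iff_eq_neg.2 h
  exact (smul_eq_zero.1 this).resolve_left c.two

theorem ext {g h : G} (e : ∀ w : W, g • w = h • w) : g = h :=
  (inv_mul_eq_one.1 (c.faith (h⁻¹ * g) fun w => by rw [mul_smul, e, inv_smul_smul])).symm

theorem sc_comm {z : G} {a : k} (h : Sc W z a) (g : G) : g * z = z * g :=
  c.ext fun w => by rw [mul_smul, mul_smul, h, h, smul_sm]

theorem sc_mem (S : Sylow 2 G) {z : G} {a : k} (h : Sc W z a) : z ∈ S := by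
  have e : ∀ (n : ℕ) (w : W), z ^ n • w = a ^ n • w := fun n w => by
    induction n with
    | zero => simp
    | succ n ih => rw [pow_succ', mul_smul, ih, h, smul_smul, pow_succ']
  exact CL.SylowAux.mem_sylow_of_forall_commute S (n := 3)
    (c.faith _ fun w => by rw [e, show 2 ^ 3 = 8 from rfl, c.sc8 z a h, one_smul])
    fun y _ => c.sc_comm h y

theorem dt_sc {z : G} {a : k} (h : Sc W z a) : dt k W z = a ^ 4 := by
  rw [dt, show DistribSMul.toLinearMap k W z = a • LinearMap.id from LinearMap.ext h,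
    LinearMap.det_smul, c.dim, LinearMap.det_id, mul_one]

theorem dt_sq (g : G) : dt k W g ^ 2 = 1 := by
  let f : G →* k :=
    { toFun := fun g => dt k W g ^ 2
      map_one' := by rw [dt_one, one_pow]
      map_mul' := fun x y => by rw [dt_mul, mul_pow] }
  have := c.perf f.toHomUnits.ker (Abelianization.commutator_subset_ker _) (fun z a h => Units.ext (by
    change dt k W z ^ 2 = 1
    rw [c.dt_sc h, ← pow_mul, c.sc8 z a h])) g
  exact congrArg Units.val this

/-- the determinant in a basis -/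
theorem dt_eq {ι : Type*} [Fintype ι] [DecidableEq ι] (b : Basis ι k W) (g : G) (M : Matrix ι ι k)
    (h : ∀ a, g • b a = ∑ x, M x a • b x) : dt k W g = M.det := by
  rw [dt, ← LinearMap.det_toMatrix b]
  congr 1
  ext x a
  simp [LinearMap.toMatrix_apply, h, Finsupp.single_apply]

end Ctx

namespace Rf

variable (c : Ctx k W G) (r s : Rf k W G) {h : G} {w : W} {a : k}

theorem self : r.g • r.v = -r.v := by rw [r.act, r.two, two_smul]; abel

theorem perp (hw : r.φ w = 0) : r.g • w = w := by simp [r.act, hw]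

theorem φ_act (w : W) : r.φ (r.g • w) = -r.φ w := by simp [r.act, r.two]; ring

include c

theorem ne : r.v ≠ 0 := fun h => c.two (by rw [← r.two, h, map_zero])

theorem sq : r.g * r.g = 1 := c.faith _ fun w => by
  rw [mul_smul, r.act (_ • _), r.φ_act, r.act, neg_smul]; abel

theorem inv : r.g⁻¹ = r.g := inv_eq_of_mul_eq_one_right (r.sq c)

theorem det : dt k W r.g = -1 := by
  have := c.fd
  rw [dt, show DistribSMul.toLinearMap k W r.g = LinearMap.transvection (-r.φ) r.v from
    LinearMap.ext fun w => by simp [LinearMap.transvection.apply, r.act, sub_eq_add_neg],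
    LinearMap.transvection.det, LinearMap.neg_apply, r.two]
  norm_num

theorem of_neg (hw : r.g • w = -w) : w = (r.φ w / 2) • r.v := by
  rw [r.act, sub_eq_iff_eq_add, eq_neg_add_iff_add_eq, ← two_smul k] at hw
  rw [div_eq_inv_mul, mul_smul, ← hw, smul_smul, inv_mul_cancel₀ c.two, one_smul]

variable {r s}

/-- a reflection is determined by its centre -/
theorem eq_of_line (e : s.v = a • r.v) : s.g = r.g := by
  have h := c.noTv (r.g * s.g) r.v (a • s.φ - r.φ) (by
    have := s.two; rw [e, map_smul] at this; simp [r.two]; linear_combination this) fun w => by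
    rw [mul_smul, s.act, smul_sub, smul_sm, e, smul_sm, r.self, r.act]
    simp only [LinearMap.sub_apply, LinearMap.smul_apply, smul_eq_mul]; module
  rw [← r.inv c, inv_mul_eq_one] at h
  exact h.symm

theorem comm_iff : h * r.g = r.g * h ↔ ∃ a : k, h • r.v = a • r.v :=
  ⟨fun e => ⟨_, r.of_neg c (by rw [← mul_smul, ← e, mul_smul, r.self, smul_neg])⟩,
    fun ⟨_, e⟩ => mul_inv_eq_iff_eq_mul.1 (eq_of_line c (s := r.conj h) e)⟩

theorem φ_smul (e : h • r.v = a • r.v) (w : W) : r.φ (h • w) = a * r.φ w := by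
  have h1 := congrArg (· • w) ((comm_iff c).2 ⟨a, e⟩)
  simp only [mul_smul h, mul_smul r.g, r.act, smul_sub, smul_sm, e, sub_right_inj] at h1
  rw [smul_smul] at h1
  rw [← smul_left_injective k (r.ne c) h1, mul_comm]

theorem comm_of_perp (e : r.φ s.v = 0) : r.g * s.g = s.g * r.g :=
  (comm_iff c).2 ⟨1, by rw [r.perp e, one_smul]⟩

theorem symm (e : r.φ s.v = 0) : s.φ r.v = 0 := by
  have h := φ_smul c (a := 1) (by rw [r.perp e, one_smul]) r.v
  rw [r.self, map_neg] at h
  exact (mul_eq_zero.1 (by linear_combination -h : 2 * s.φ r.v = 0)).resolve_left c.two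

end Rf

/-- four times the squared cosine of the angle -/
def mu (a b : Rf k W G) : k := a.φ b.v * b.φ a.v

theorem mu_conj (h : G) (a b : Rf k W G) : mu (a.conj h) (b.conj h) = mu a b := by simp [mu]

theorem perp_of_mu (c : Ctx k W G) {a b : Rf k W G} (h : mu a b = 0) : a.φ b.v = 0 :=
  (mul_eq_zero.1 h).elim id (Rf.symm c)

/-- a frame -/
structure Fr (a b d e : Rf k W G) : Prop where
  ab : a.φ b.v = 0
  ad : a.φ d.v = 0
  ae : a.φ e.v = 0
  ba : b.φ a.v = 0
  bd : b.φ d.v = 0
  be : b.φ e.v = 0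
  da : d.φ a.v = 0
  db : d.φ b.v = 0
  de : d.φ e.v = 0
  ea : e.φ a.v = 0
  eb : e.φ b.v = 0
  ed : e.φ d.v = 0

theorem fr_of (c : Ctx k W G) {a b d e : Rf k W G} (h1 : a.φ b.v = 0) (h2 : a.φ d.v = 0)
    (h3 : a.φ e.v = 0) (h4 : b.φ d.v = 0) (h5 : b.φ e.v = 0) (h6 : d.φ e.v = 0) : Fr a b d e :=
  ⟨h1, h2, h3, Rf.symm c h1, h4, h5, Rf.symm c h2, Rf.symm c h4, h6, Rf.symm c h3, Rf.symm c h5,
    Rf.symm c h6⟩

namespace Fr

variable (c : Ctx k W G) {a b d e : Rf k W G} (f : Fr a b d e)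
include f

theorem s12 : Fr b a d e := ⟨f.ba, f.bd, f.be, f.ab, f.ad, f.ae, f.db, f.da, f.de, f.eb, f.ea, f.ed⟩

theorem s23 : Fr a d b e := ⟨f.ad, f.ab, f.ae, f.da, f.db, f.de, f.ba, f.bd, f.be, f.ea, f.ed, f.eb⟩

theorem s34 : Fr a b e d := ⟨f.ab, f.ae, f.ad, f.ba, f.be, f.bd, f.ea, f.eb, f.ed, f.da, f.db, f.de⟩

theorem sw : Fr d e a b := ⟨f.de, f.da, f.db, f.ed, f.ea, f.eb, f.ad, f.ae, f.ab, f.bd, f.be, f.ba⟩

theorem conj (g : G) : Fr (a.conj g) (b.conj g) (d.conj g) (e.conj g) := by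
  constructor <;> simp [f.ab, f.ad, f.ae, f.ba, f.bd, f.be, f.da, f.db, f.de, f.ea, f.eb, f.ed]

include c

theorem li : LinearIndependent k ![a.v, b.v, d.v, e.v] :=
  Fintype.linearIndependent_iff.2 fun x hx i => by
    rw [Fin.sum_univ_four] at hx
    have h1 := congrArg a.φ hx
    have h2 := congrArg b.φ hx
    have h3 := congrArg d.φ hx
    have h4 := congrArg e.φ hx
    simp [f.ab, f.ad, f.ae, f.ba, f.bd, f.be, f.da, f.db, f.de, f.ea, f.eb, f.ed, a.two, b.two,
      d.two, e.two, c.two] at h1 h2 h3 h4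
    fin_cases i <;> assumption

/-- the basis given by a frame -/
noncomputable def basis : Basis (Fin 4) k W :=
  basisOfLinearIndependentOfCardEqFinrank (f.li c) (by simp [c.dim])

theorem exp (w : W) :
    w = (a.φ w / 2) • a.v + (b.φ w / 2) • b.v + (d.φ w / 2) • d.v + (e.φ w / 2) • e.v := by
  have h := (f.basis c).sum_repr w
  generalize (f.basis c).repr w = x at h
  subst h
  simp [basis, Fin.sum_univ_four, f.ab, f.ad, f.ae, f.ba, f.bd, f.be, f.da, f.db, f.de, f.ea, f.eb,
    f.ed, a.two, b.two, d.two, e.two, c.two]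

theorem mu_sum (x : Rf k W G) : mu a x + mu b x + mu d x + mu e x = 4 := by
  have h := congrArg x.φ (f.exp c x.v)
  simp only [map_add, map_smul, smul_eq_mul, x.two] at h
  have := c.two
  simp only [mu]
  field_simp at h
  linear_combination -h

/-- a diagonal element -/
theorem diag {g : G} {p q r s : k} (h1 : g • a.v = p • a.v) (h2 : g • b.v = q • b.v)
    (h3 : g • d.v = r • d.v) (h4 : g • e.v = s • e.v) (w : W) : g • w =
    (p * a.φ w / 2) • a.v + (q * b.φ w / 2) • b.v + (r * d.φ w / 2) • d.v + (s * e.φ w / 2) • e.v := by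
  conv_lhs => rw [f.exp c w]
  simp only [smul_add, smul_sm, h1, h2, h3, h4]
  module

theorem det {g : G} {p q r s : k} (h1 : g • a.v = p • a.v) (h2 : g • b.v = q • b.v)
    (h3 : g • d.v = r • d.v) (h4 : g • e.v = s • e.v) : (p * q * r * s) ^ 2 = 1 := by
  have := c.dt_eq (f.basis c) g (Matrix.diagonal ![p, q, r, s]) fun i => by
    fin_cases i <;> simp [basis, Fin.sum_univ_four, h1, h2, h3, h4]
  rw [← c.dt_sq g, this, Matrix.det_diagonal, Fin.prod_univ_four]
  rfl

end Fr

variable [Finite G] [IsAlgClosed k]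

/-- no character of a subgroup of index at most two of the Sylow subgroup is invariant, trivial on the
scalars and `-1` on the reflections -/
theorem Ctx.char (c : Ctx k W G) (S : Sylow 2 G) (r : Rf k W G) (H : Subgroup G) (θ : G → k)
    (hi : ∀ a ∈ S, ∀ b ∈ S, a ∉ H → b ∉ H → a * b ∈ H)
    (hm : ∀ a ∈ S, ∀ b ∈ S, a ∈ H → b ∈ H → θ (a * b) = θ a * θ b)
    (hc : ∀ s ∈ S, ∀ a ∈ S, s ∉ H → a ∈ H → θ (s * a * s⁻¹) = θ a)
    (hz : ∀ (z : G) (a : k), Sc W z a → z ∈ H ∧ θ z = 1)
    (hr : ∀ x : Rf k W G, x.g ∈ S → x.g ∈ H ∧ θ x.g = -1) : False := by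
  classical
  obtain ⟨x, xS, hx⟩ : ∃ x ∈ S, ∀ s ∈ S, s ∉ H → x ∉ H := by
    by_cases h : ∃ x ∈ S, x ∉ H
    · exact h.imp fun x hx => ⟨hx.1, fun _ _ _ => hx.2⟩
    · exact ⟨1, one_mem _, fun s h1 h2 => absurd ⟨s, h1, h2⟩ h⟩
  obtain ⟨e, he⟩ := IsAlgClosed.exists_eq_mul_self (θ (x * x))
  have xi := inv_mem xS
  let f : S →* k :=
    { toFun := fun s => if (s : G) ∈ H then θ s else θ (s * x⁻¹) * e
      map_one' := by simp [(hz 1 1 fun w => by simp).2]
      map_mul' := by
        rintro ⟨a, aS⟩ ⟨b, bS⟩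
        have n1 : ∀ s ∈ S, s ∉ H → s * x⁻¹ ∈ H := fun s h1 h2 =>
          hi s h1 _ xi h2 fun h => hx s h1 h2 (inv_mem_iff.1 h)
        have n2 : x ∉ H → ∀ s ∈ S, s ∈ H → x * s * x⁻¹ ∈ H := fun h s h1 h2 =>
          n1 _ (mul_mem xS h1) fun h3 => h ((mul_mem_cancel_right h2).1 h3)
        by_cases ha : a ∈ H <;> by_cases hb : b ∈ H <;> simp only [Subgroup.coe_mul, ha, hb,
          if_true, if_false]
        · rw [if_pos (mul_mem ha hb), hm a aS b bS ha hb]
        · rw [if_neg fun h => hb ((mul_mem_cancel_left ha).1 h), mul_assoc,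
            hm a aS _ (mul_mem bS xi) ha (n1 b bS hb), mul_assoc]
        · have h0 := hx a aS ha
          rw [if_neg fun h => ha ((mul_mem_cancel_right hb).1 h),
            show a * b * x⁻¹ = a * x⁻¹ * (x * b * x⁻¹) by group, hm _ (mul_mem aS xi) _
              (mul_mem (mul_mem xS bS) xi) (n1 a aS ha) (n2 h0 b bS hb), hc x xS b bS h0 hb]
          ring
        · have h0 := hx a aS ha
          have h1 := mul_mem bS xi
          have h2 := mul_mem (mul_mem xS h1) xi
          have h3 := n2 h0 _ h1 (n1 b bS hb)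
          rw [if_pos (hi a aS b bS ha hb),
            show a * b = a * x⁻¹ * (x * (b * x⁻¹) * x⁻¹) * (x * x) by group,
            hm _ (mul_mem (mul_mem aS xi) h2) _ (mul_mem xS xS) (mul_mem (n1 a aS ha) h3)
              (hi x xS x xS h0 h0), hm _ (mul_mem aS xi) _ h2 (n1 a aS ha) h3,
            hc x xS _ h1 h0 (n1 b bS hb), he]
          ring }
  let χ := f.toHomUnits
  have := Fintype.ofFinite
    (Quotient (MulAction.orbitRel (Subgroup.zpowers r.g) (G ⧸ (S : Subgroup G))))
  have h1 : MonoidHom.transfer χ r.g = 1 :=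
    c.perf (MonoidHom.transfer χ).ker (Abelianization.commutator_subset_ker _) (fun z a h => by
      rw [MonoidHom.mem_ker, MonoidHom.transfer_eq_pow χ z fun n g _ => by
        rw [mul_assoc, ((show Commute g z from c.sc_comm h g).pow_right n).symm.eq]; group]
      have : χ ⟨z, c.sc_mem S h⟩ = 1 := Units.ext (by simp [χ, f, hz z a h])
      exact (map_pow χ ⟨z, c.sc_mem S h⟩ (S : Subgroup G).index).trans (by rw [this, one_pow])) _
  have key : ∀ (n : ℕ) (g : G) (hg : g⁻¹ * r.g ^ n * g ∈ S), χ ⟨_, hg⟩ = (-1) ^ n := fun n g hg => by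
    rcases Nat.even_or_odd' n with ⟨m, rfl | rfl⟩
    · simp only [pow_mul, pow_two, r.sq c, neg_mul_neg, one_pow, mul_one, inv_mul_cancel]
      exact map_one χ
    · simp only [pow_succ, pow_mul, pow_zero, one_mul, r.sq c, neg_mul_neg, one_pow] at hg ⊢
      have := hr (r.conj g⁻¹) (by simpa using hg)
      simp only [Rf.conj_g, inv_inv] at this
      exact Units.ext (by simp [χ, f, this])
  rw [MonoidHom.transfer_eq_prod_quotient_orbitRel_zpowers_quot,
    Finset.prod_congr rfl fun q _ => key _ _ _, Finset.prod_pow_eq_pow_sum,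
    ← Subgroup.index_eq_sum_minimalPeriod] at h1
  have ho : Odd (S : Subgroup G).index :=
    Nat.not_even_iff_odd.1 fun h => S.not_dvd_index (even_iff_two_dvd.1 h)
  rw [ho.neg_one_pow] at h1
  have h : (-1 : k) = 1 := by simpa using congrArg Units.val h1
  exact c.two (by linear_combination -h)

end CL.FJ
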