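import Cfsg.Agent.CLAS.FourJ0
import Cfsg.Agent.CLAS.MHPoly

/-!
# Pairs of homologies of order four on a common hyperplane
-/

set_option autoImplicit false
set_option linter.unusedSectionVars false

namespace CL.FJ

open Module CL.Dk CL.PGL2 CL.MH
open CL.FR (smul_sm conj_smul)
open scoped MatrixGroups

variable {k W G : Type*} [Field k] [AddCommGroup W] [Module k W] [Group G] [DistribMulAction G W]
  [SMulCommClass G k W] [Finite G] [IsAlgClosed k]

/-- `g` is `γ` on `y`, `δ` on `u` and trivial on `ker ψ ⊓ ker ω` -/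
structure Hm (u : W) (ω : W →ₗ[k] k) (γ δ : k) (g : G) (y : W) (ψ : W →ₗ[k] k) : Prop where
  uu : ω u = 1
  yy : ψ y = 1
  yu : ψ u = 0
  uy : ω y = 0
  act : ∀ x, g • x = x + ((γ - 1) * ψ x) • y + ((δ - 1) * ω x) • u

namespace Hm

variable {u y y' : W} {ω ψ ψ' : W →ₗ[k] k} {g g' h : G} {γ δ : k} (a : Hm u ω γ δ g y ψ)
include a

theorem gy : g • y = γ • y := by rw [a.act, a.yy, a.uy]; module

theorem gu : g • u = δ • u := by rw [a.act, a.yu, a.uu]; module

theorem gf {x : W} (h1 : ω x = 0) (h2 : ψ x = 0) : g • x = x := by simp [a.act, h1, h2]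

theorem ne : γ ≠ 0 := by
  rintro rfl
  have := a.gy
  rw [zero_smul, smul_eq_zero_iff_eq] at this
  simpa [this] using a.yy

theorem ne' : δ ≠ 0 := by
  rintro rfl
  have := a.gu
  rw [zero_smul, smul_eq_zero_iff_eq] at this
  simpa [this] using a.uu

theorem conj (h1 : h • u = u) (h2 : ∀ x, ω (h • x) = ω x) :
    Hm u ω γ δ (h * g * h⁻¹) (h • y) (ψ ∘ₗ DistribSMul.toLinearMap k W h⁻¹) := by
  refine ⟨a.uu, by simp [a.yy], by simp [inv_smul_eq_iff.2 h1.symm, a.yu], by rw [h2, a.uy],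
    fun x => ?_⟩
  rw [mul_smul, mul_smul, a.act, smul_add, smul_add, smul_inv_smul, smul_sm, smul_sm, h1,
    ← h2 (h⁻¹ • x), smul_inv_smul]
  rfl

theorem inv : Hm u ω γ⁻¹ δ⁻¹ g⁻¹ y ψ := by
  refine ⟨a.uu, a.yy, a.yu, a.uy, fun x => ?_⟩
  have := a.ne
  have := a.ne'
  rw [inv_smul_eq_iff, smul_add, smul_add, smul_sm, smul_sm, a.gy, a.gu, a.act]
  match_scalars <;> field_simp <;> ring

theorem sc {s : k} (hs : s ≠ 0) : Hm u ω γ δ g (s⁻¹ • y) (s • ψ) :=
  ⟨a.uu, by simp [a.yy, hs], by simp [a.yu], by simp [a.uy], fun x => by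
    rw [a.act, LinearMap.smul_apply, smul_eq_mul]; match_scalars <;> field_simp⟩

end Hm

/-- action on a plane -/
structure Ac (u : W) (ω ψ ψ' : W →ₗ[k] k) (y y' : W) (h : G) (m : Matrix (Fin 2) (Fin 2) k) :
    Prop where
  ht : ∃ d : k, d ≠ 0 ∧ h • u = d • u
  hz : ∀ z, ω z = 0 → ψ z = 0 → ψ' z = 0 → h • z = z
  h0 : h • y = m 0 0 • y + m 1 0 • y'
  h1 : h • y' = m 0 1 • y + m 1 1 • y'

namespace Ac

variable {u y y' : W} {ω ψ ψ' : W →ₗ[k] k} {g h g₁ g₂ : G} {m n : Matrix (Fin 2) (Fin 2) k} {γ δ : k}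

theorem one : Ac u ω ψ ψ' y y' (1 : G) 1 := ⟨⟨1, one_ne_zero, by simp⟩, by simp, by simp, by simp⟩

theorem mul (a : Ac u ω ψ ψ' y y' g m) (b : Ac u ω ψ ψ' y y' h n) :
    Ac u ω ψ ψ' y y' (g * h) (m * n) := by
  obtain ⟨d, d0, hd⟩ := a.ht
  obtain ⟨e, e0, he⟩ := b.ht
  refine ⟨⟨e * d, mul_ne_zero e0 d0, by rw [mul_smul, he, smul_sm, hd, smul_smul]⟩,
    fun z h1 h2 h3 => by rw [mul_smul, b.hz z h1 h2 h3, a.hz z h1 h2 h3], ?_, ?_⟩
  · rw [mul_smul, b.h0, smul_add, smul_sm, smul_sm, a.h0, a.h1]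
    simp only [Matrix.mul_apply, Fin.sum_univ_two]
    module
  · rw [mul_smul, b.h1, smul_add, smul_sm, smul_sm, a.h0, a.h1]
    simp only [Matrix.mul_apply, Fin.sum_univ_two]
    module

theorem pow (a : Ac u ω ψ ψ' y y' g m) (i : ℕ) : Ac u ω ψ ψ' y y' (g ^ i) (m ^ i) := by
  induction i with
  | zero => simpa using one
  | succ i ih => rw [pow_succ, pow_succ]; exact ih.mul a

theorem inv (a : Ac u ω ψ ψ' y y' g m) (e : m * n = 1) : Ac u ω ψ ψ' y y' g⁻¹ n := by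
  obtain ⟨d, d0, hd⟩ := a.ht
  have q : ∀ i j, m i 0 * n 0 j + m i 1 * n 1 j = (1 : Matrix (Fin 2) (Fin 2) k) i j := fun i j => by
    rw [← e, Matrix.mul_apply, Fin.sum_univ_two]
  refine ⟨⟨d⁻¹, inv_ne_zero d0, by
      rw [inv_smul_eq_iff, smul_sm, hd, smul_smul, inv_mul_cancel₀ d0, one_smul]⟩,
    fun z h1 h2 h3 => by rw [inv_smul_eq_iff, a.hz z h1 h2 h3], ?_, ?_⟩
  · rw [inv_smul_eq_iff, smul_add, smul_sm, smul_sm, a.h0, a.h1]
    have q1 := q 0 0
    have q2 := q 1 0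
    simp at q1 q2
    linear_combination (norm := module) (-q1) • y + (-q2) • y'
  · rw [inv_smul_eq_iff, smul_add, smul_sm, smul_sm, a.h0, a.h1]
    have q1 := q 0 1
    have q2 := q 1 1
    simp at q1 q2
    linear_combination (norm := module) (-q1) • y + (-q2) • y'

variable (p : Hm u ω γ δ g₁ y ψ) (q : Hm u ω γ δ g₂ y' ψ') (hm : 1 - ψ y' * ψ' y ≠ 0)
include p q hm

theorem unique (a : Ac u ω ψ ψ' y y' g m) (b : Ac u ω ψ ψ' y y' g n) : m = n := by
  have key : ∀ r s r' s' : k, r • y + s • y' = r' • y + s' • y' → r = r' ∧ s = s' := by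
    intro r s r' s' e
    have e1 := congrArg ψ e
    have e2 := congrArg ψ' e
    simp only [map_add, map_smul, smul_eq_mul, p.yy, q.yy] at e1 e2
    exact ⟨mul_left_cancel₀ hm (by linear_combination e1 - ψ y' * e2),
      mul_left_cancel₀ hm (by linear_combination e2 - ψ' y * e1)⟩
  have p := key _ _ _ _ (a.h0.symm.trans b.h0)
  have q := key _ _ _ _ (a.h1.symm.trans b.h1)
  ext i j
  fin_cases i <;> fin_cases j
  exacts [p.1, q.1, p.2, q.2]

theorem unip (c : Ctx k W G) {r s t : k} (e : r ^ 2 + s * t = 0)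
    (a : Ac u ω ψ ψ' y y' g !![1 + r, s; t, 1 - r]) (ht : g • u = u) : g = 1 := by
  obtain ⟨D, hD⟩ : ∃ D, D = 1 - ψ y' * ψ' y := ⟨_, rfl⟩
  rw [← hD] at hm
  let α : W →ₗ[k] k := D⁻¹ • (ψ - ψ y' • ψ')
  let β : W →ₗ[k] k := D⁻¹ • (ψ' - ψ' y • ψ)
  have a1 : α y = 1 := by simp [α, p.yy]; field_simp; linear_combination -hD
  have a2 : α y' = 0 := by simp [α, q.yy]
  have b1 : β y = 0 := by simp [β, p.yy]
  have b2 : β y' = 1 := by simp [β, q.yy]; field_simp; linear_combination -hD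
  have key : ∀ x, g • x = x + α x • (r • y + t • y') + β x • (s • y - r • y') := fun x => by
    have := a.hz (x - α x • y - β x • y' - ω x • u) (by simp [p.uy, q.uy, p.uu])
      (by
        simp [α, β, p.yu, p.yy]
        field_simp
        linear_combination (ψ x) * hD)
      (by
        simp [α, β, q.yu, q.yy]
        field_simp
        linear_combination (ψ' x) * hD)
    rw [smul_sub, smul_sub, smul_sub, smul_sm, smul_sm, smul_sm, a.h0, a.h1, ht] at this
    simp only [Matrix.of_apply, Matrix.cons_val', Matrix.cons_val_zero, Matrix.cons_val_one,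
      Matrix.cons_val_fin_one] at this
    generalize g • x = X at this ⊢
    linear_combination (norm := module) this
  clear_value α β
  by_cases hu : t = 0
  · have hr : r = 0 := by simpa [hu] using e
    exact c.noTv g (s • y) β (by simp [b1]) fun x => by rw [key, hu, hr]; module
  · refine c.noTv g (r • y + t • y') (α - (r / t) • β) (by simp [a1, a2, b1, b2, hu]) fun x => ?_
    rw [key, LinearMap.sub_apply, LinearMap.smul_apply, smul_eq_mul]
    match_scalars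
    · ring
    · field_simp
      linear_combination β x * e
    · field_simp
      ring

/-- a matrix with a double eigenvalue is a scalar -/
theorem scalar (p' : ℕ) [Fact p'.Prime] [CharP k p'] (c : Ctx k W G) (hA : Ac u ω ψ ψ' y y' h m)
    (hM : m.det ≠ 0) (ht : m.trace ^ 2 = 4 * m.det) : m 0 1 = 0 ∧ m 1 0 = 0 ∧ m 0 0 = m 1 1 := by
  have h2 := c.two
  rw [Matrix.trace_fin_two, Matrix.det_fin_two] at ht
  obtain ⟨μ, hμ⟩ : ∃ μ, μ = (m 0 0 + m 1 1) / 2 := ⟨_, rfl⟩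
  have hμ2 : μ ^ 2 = m.det := by
    rw [hμ, Matrix.det_fin_two]; field_simp; linear_combination ht
  have μ0 : μ ≠ 0 := fun e => hM (by rw [← hμ2, e]; ring)
  obtain ⟨r, s, t, e, rfl⟩ : ∃ r s t : k, r ^ 2 + s * t = 0 ∧ m = μ • !![1 + r, s; t, 1 - r] := by
    refine ⟨m 0 0 / μ - 1, m 0 1 / μ, m 1 0 / μ, ?_, ?_⟩
    · rw [Matrix.det_fin_two] at hμ2
      field_simp at hμ ⊢
      linear_combination hμ2 - m 0 0 * hμ
    · ext i j
      fin_cases i <;> fin_cases j <;> simp <;> field_simp at hμ ⊢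
      linear_combination -hμ
  have hpow : ∀ n : ℕ, (μ • !![1 + r, s; t, 1 - r]) ^ n =
      μ ^ n • !![1 + n * r, n * s; n * t, 1 - n * r] := fun n => by
    induction n with
    | zero => simp [Matrix.one_fin_two]
    | succ n ih =>
      rw [pow_succ, ih, smul_mul_smul_comm, ← pow_succ, Matrix.mul_fin_two]
      push_cast
      congr 1
      ext i j
      fin_cases i <;> fin_cases j <;> simp
      · linear_combination n * e
      · ring
      · ring
      · linear_combination n * e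
  obtain ⟨d, d0, hd⟩ := hA.ht
  have hdp : ∀ n : ℕ, h ^ n • u = d ^ n • u := fun n => by
    induction n with
    | zero => simp
    | succ n ih => rw [pow_succ', mul_smul, ih, smul_sm, hd, smul_smul, pow_succ]
  have ho := orderOf_pos h
  have h1 := unique p q hm (hA.pow (orderOf h)) (by rw [pow_orderOf_eq_one]; exact Ac.one)
  have f1 : IsOfFinOrder μ := isOfFinOrder_iff_pow_eq_one.2 ⟨2 * orderOf h,
    Nat.mul_pos two_pos ho, by rw [pow_mul, hμ2, ← Matrix.det_pow, h1, Matrix.det_one]⟩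
  have u0 : u ≠ 0 := fun e => by simpa [e] using p.uu
  have f2 : IsOfFinOrder d := isOfFinOrder_iff_pow_eq_one.2 ⟨orderOf h, ho,
    smul_left_injective k u0 (by simpa using (hdp (orderOf h)).symm)⟩
  have : NeZero (orderOf μ) := ⟨f1.orderOf_pos.ne'⟩
  have : NeZero (orderOf d) := ⟨f2.orderOf_pos.ne'⟩
  have n0 : ((orderOf μ * orderOf d : ℕ) : k) ≠ 0 := by
    rw [Nat.cast_mul]
    exact mul_ne_zero (IsPrimitiveRoot.orderOf μ).neZero'.out (IsPrimitiveRoot.orderOf d).neZero'.out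
  have h5 := hA.pow (orderOf μ * orderOf d)
  have h6 := hdp (orderOf μ * orderOf d)
  rw [hpow, pow_mul μ, pow_orderOf_eq_one, one_pow, one_smul] at h5
  rw [mul_comm, pow_mul d, pow_orderOf_eq_one, one_pow, one_smul, mul_comm] at h6
  generalize ((orderOf μ * orderOf d : ℕ) : k) = N at n0 h5
  have h7 := unip p q hm c (by linear_combination N ^ 2 * e) h5 h6
  rw [h7] at h5
  have h8 := unique p q hm h5 Ac.one
  have e1 := congrFun (congrFun h8 0) 0
  have e2 := congrFun (congrFun h8 0) 1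
  have e3 := congrFun (congrFun h8 1) 0
  simp [n0] at e1 e2 e3
  simp [e1, e2, e3]

end Ac

variable {u y y' : W} {ω ψ ψ' : W →ₗ[k] k} {g g' : G} {γ δ : k}

theorem Hm.ok (p : ℕ) [Fact p.Prime] [CharP k p] (c : Ctx k W G) (a : Hm u ω γ δ g y ψ)
    (b : Hm u ω γ δ g' y' ψ') (hγ : γ ^ 2 = -1) (hm : 1 - ψ y' * ψ' y ≠ 0)
    (h0 : ¬ (ψ y' = 0 ∧ ψ' y = 0)) : 2 * (ψ y' * ψ' y) = 1 ∧ (3 : k) ≠ 0 := by
  have h2 := c.two
  let K : Subgroup (GL (Fin 2) k) :=
    { carrier := {m | ∃ h : G, Ac u ω ψ ψ' y y' h m}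
      mul_mem' := fun ⟨g, h1⟩ ⟨h, h2⟩ => ⟨g * h, h1.mul h2⟩
      one_mem' := ⟨1, Ac.one⟩
      inv_mem' := fun {m} ⟨g, h1⟩ => ⟨g⁻¹, h1.inv (Units.mul_inv m)⟩ }
  have : Finite K := Finite.of_injective (fun m : K => m.2.choose) fun m n e =>
    Subtype.ext (Units.ext (by
      have h1 := m.2.choose_spec
      have h2 := n.2.choose_spec
      rw [show m.2.choose = n.2.choose from e] at h1
      exact Ac.unique a b hm h1 h2))
  have : Finite (K.map Matrix.ProjGenLinGroup.mk) :=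
    Finite.of_surjective _ (Matrix.ProjGenLinGroup.mk.subgroupMap_surjective K)
  have γ1 : γ ≠ 1 := by rintro rfl; exact h2 (by linear_combination hγ)
  have γ2 : γ ≠ -1 := by rintro rfl; exact h2 (by linear_combination hγ)
  have γ3 := sub_ne_zero.2 γ1
  have γ0 := a.ne
  have A : Ac u ω ψ ψ' y y' g !![γ, (γ - 1) * ψ y'; 0, 1] := ⟨⟨δ, a.ne', a.gu⟩,
    fun z h1 h2 _ => a.gf h1 h2, by simp [a.gy], by rw [a.act, b.uy]; simp [add_comm]⟩
  have B : Ac u ω ψ ψ' y y' g' !![1, 0; (γ - 1) * ψ' y, γ] := ⟨⟨δ, a.ne', b.gu⟩,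
    fun z h1 _ h2 => b.gf h1 h2, by rw [b.act, a.uy]; simp, by simp [b.gy]⟩
  have := okH_of_pair p h2 (K.map Matrix.ProjGenLinGroup.mk) ?_ (r := γ)
    (s := (γ - 1) * ψ y') (t := (γ - 1) * ψ' y) γ0 γ1 γ2
    (fun e => h0 ⟨(mul_eq_zero.1 e.1).resolve_left γ3, (mul_eq_zero.1 e.2).resolve_left γ3⟩)
    (da := by simpa using γ0) (db := by simpa using γ0)
    ⟨Matrix.GeneralLinearGroup.mkOfDetNeZero _ _, ⟨g, A⟩, rfl⟩
    ⟨Matrix.GeneralLinearGroup.mkOfDetNeZero _ _, ⟨g', B⟩, rfl⟩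
  · have e : 2 * (ψ y' * ψ' y) = 1 := by
      rcases this with ⟨h, -⟩ | ⟨-, h⟩ | ⟨h, -⟩
      · exact absurd (by linear_combination h - hγ) γ0
      · field_simp at h
        linear_combination h
      · exact absurd (by linear_combination h - (γ ^ 2 + γ) * hγ) (one_ne_zero (α := k))
    refine ⟨e, fun h3 => ?_⟩
    have hd : (!![γ, (γ - 1) * ψ y'; 0, 1] * !![1, 0; (γ - 1) * ψ' y, γ]).det = γ * γ := by
      rw [Matrix.det_mul]; simp
    have := (Ac.scalar a b hm p c (A.mul B) (hd ▸ mul_ne_zero γ0 γ0) (by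
      rw [hd]
      simp [Matrix.trace_fin_two]
      have : (γ - 1) * ψ y' * ((γ - 1) * ψ' y) = -γ :=
        mul_left_cancel₀ h2 (by linear_combination (γ - 1) ^ 2 * e + hγ)
      rw [this]
      linear_combination (-γ ^ 2) * h3)).2.1
    simp [γ3] at this
    simp [this] at e
  rintro _ ⟨M, ⟨h, hA⟩, rfl⟩ ht
  have hM := M.det_ne_zero
  rw [← ofMat_coe M hM] at ht ⊢
  rw [tau_ofMat, div_eq_iff hM] at ht
  exact (ofMat_eq_one_iff _).2 (Ac.scalar a b hm p c hA hM ht)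

theorem Hm.deg (c : Ctx k W G) (a : Hm u ω γ δ g y ψ) (b : Hm u ω γ δ g' y' ψ') (hγ : γ ^ 2 ≠ 1)
    (e1 : ψ y' = 1) (e2 : ψ' y = 1) : y' = y := by
  have γ0 := a.ne
  have δ0 := a.ne'
  obtain ⟨n, hn⟩ : ∃ n, n = y' - y := ⟨_, rfl⟩
  obtain ⟨χ, hχ⟩ : ∃ χ, χ = ψ' - ψ := ⟨_, rfl⟩
  have v' : y' = y + n := by rw [hn]; abel
  have φ' : ∀ x, ψ' x = ψ x + χ x := fun x => by simp [hχ]
  have n1 : ψ n = 0 := by simp [hn, e1, a.yy]
  have n2 : χ n = 0 := by simp [hn, hχ, e1, e2, a.yy, b.yy]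
  have n3 : ω n = 0 := by simp [hn, a.uy, b.uy]
  have p1 : χ y = 0 := by simp [hχ, e2, a.yy]
  have p2 : χ u = 0 := by simp [hχ, a.yu, b.yu]
  have hu : ∀ x, (g * g'⁻¹) • x = x - ((γ - 1) * χ x) • y + ((γ⁻¹ - 1) * (ψ x + χ x)) • n :=
    fun x => by
      rw [mul_smul, b.inv.act, a.act, φ', v']
      simp only [map_add, map_smul, smul_eq_mul, n1, n3, a.yy, a.yu, a.uy, a.uu]
      match_scalars <;> field_simp <;> ring
  have hu' : ∀ x, (g * (g * g'⁻¹) * g⁻¹) • x = x - ((γ - 1) * γ * χ x) • y +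
      ((γ⁻¹ - 1) * (γ⁻¹ * ψ x + χ x)) • n := fun x => by
    rw [mul_smul, mul_smul, hu, smul_add, smul_sub, smul_inv_smul, smul_sm, smul_sm, a.gy,
      a.gf n3 n1, a.inv.act]
    simp only [map_add, map_smul, smul_eq_mul, p1, p2, a.yy, a.yu]
    match_scalars <;> field_simp <;> ring
  generalize g * (g * g'⁻¹) * g⁻¹ = t' at hu'
  generalize g * g'⁻¹ = t at hu
  have key := c.noTv ((t' * t)⁻¹ * (t * t')) n
    (((γ - 1) * (γ⁻¹ - 1) * (γ⁻¹ - γ)) • χ) (by simp [n2]) fun x => by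
      rw [mul_smul, inv_smul_eq_iff, mul_smul, mul_smul, hu', hu, hu, hu']
      simp only [map_add, map_sub, map_smul, smul_eq_mul, LinearMap.smul_apply, n1, n2, p1, a.yy]
      match_scalars <;> field_simp <;> ring
  rw [inv_mul_eq_one] at key
  have γ1 : γ - 1 ≠ 0 := fun e => hγ (by rw [sub_eq_zero.1 e, one_pow])
  have γ2 : γ + 1 ≠ 0 := fun e => hγ (by linear_combination (γ - 1) * e)
  by_contra hne
  have n0 : n ≠ 0 := fun e => hne (by rw [v', e, add_zero])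
  have χ0 : ∀ x, χ x = 0 := fun x => by
    have := congrArg (· • x) key
    simp only [mul_smul, hu, hu', map_add, map_sub, map_smul, smul_eq_mul, n1, n2, p1, a.yy] at this
    have e : ((γ - 1) * (γ⁻¹ - 1) * (γ⁻¹ - γ) * χ x) • n = 0 := by
      linear_combination (norm := skip) -this
      match_scalars <;> field_simp <;> ring
    have e' := (smul_eq_zero.1 e).resolve_right n0
    field_simp at e'
    refine (mul_eq_zero.1 (show (γ - 1) ^ 3 * (γ + 1) * χ x = 0 by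
      linear_combination e')).resolve_left (mul_ne_zero (pow_ne_zero _ γ1) γ2)
  have key2 := c.noTv t n ((γ⁻¹ - 1) • ψ) (by simp [n1]) fun x => by simp [hu, χ0]
  have := hu y
  rw [key2, p1, a.yy] at this
  simp [n0, sub_eq_zero] at this
  exact γ1 (by rw [this, sub_self])

/-- the three possibilities for two homologies of order four -/
theorem Hm.tri (p : ℕ) [Fact p.Prime] [CharP k p] (c : Ctx k W G) (a : Hm u ω γ δ g y ψ)
    (b : Hm u ω γ δ g' y' ψ') (hγ : γ ^ 2 = -1) : (ψ y' = 0 ∧ ψ' y = 0) ∨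
      (2 * (ψ y' * ψ' y) = 1 ∧ (3 : k) ≠ 0) ∨ (ψ y' * ψ' y = 1 ∧ y' = ψ y' • y) := by
  by_cases h0 : ψ y' = 0 ∧ ψ' y = 0
  · exact .inl h0
  by_cases hm : 1 - ψ y' * ψ' y = 0
  swap
  · exact .inr (.inl (a.ok p c b hγ hm h0))
  have e := (sub_eq_zero.1 hm).symm
  have h1 := left_ne_zero_of_mul_eq_one e
  refine .inr (.inr ⟨e, ?_⟩)
  rw [← a.deg c (b.sc h1) (fun h => c.two (by linear_combination hγ - h)) (by simp [h1])
    (by simpa using e), smul_inv_smul₀ h1]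

end CL.FJ
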