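import Cfsg.Agent.CLAS.FourJ1
import Cfsg.Agent.INV.BaerSuzuki
import Cfsg.Agent.FGS.RealKey

/-!
# No element `diag(i, i, 1, 1)` on a frame of reflections
-/

set_option autoImplicit false
set_option linter.unusedSectionVars false

namespace CL.FJ

open Module
open CL.FR (smul_sm conj_smul)

variable {k W G : Type*} [Field k] [AddCommGroup W] [Module k W] [Group G] [DistribMulAction G W]
  [SMulCommClass G k W] [Finite G] [IsAlgClosed k]

/-- a frame with an element `diag(I, I, 1, 1)` -/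
structure Cf (a b d e : Rf k W G) (j : G) (I : k) : Prop where
  fr : Fr a b d e
  sq : I ^ 2 = -1
  ja : j • a.v = I • a.v
  jb : j • b.v = I • b.v
  jd : j • d.v = d.v
  je : j • e.v = e.v

/-- every reflection lies in one of the planes or is balanced -/
def Gd (a b d e : Rf k W G) : Prop := ∀ x : Rf k W G,
  mu a x + mu b x = 2 ∨ (d.φ x.v = 0 ∧ e.φ x.v = 0) ∨ (a.φ x.v = 0 ∧ b.φ x.v = 0)

theorem Gd.conj {a b d e : Rf k W G} (h : Gd a b d e) (g : G) :
    Gd (a.conj g) (b.conj g) (d.conj g) (e.conj g) := fun x => by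
  simpa [mu] using h (x.conj g⁻¹)

theorem alg {X : k} (h2 : (2 : k) ≠ 0) (h3 : (3 : k) ≠ 0)
    (e1 : (1 + X) ^ 2 = 0 ∨ (1 + X) ^ 2 = 2 ∨ (1 + X) ^ 2 = 4)
    (e2 : (1 - X) ^ 2 = 0 ∨ (1 - X) ^ 2 = 2 ∨ (1 - X) ^ 2 = 4)
    (e3 : 1 + X ^ 2 = 0 ∨ 1 + X ^ 2 = 2 ∨ 1 + X ^ 2 = 4) : X ^ 2 = 1 := by
  have h4 : (4 : k) ≠ 0 := by rw [show (4 : k) = 2 * 2 by norm_num]; exact mul_ne_zero h2 h2
  have can : ∀ {a b : k}, 2 * a = 2 * b → a = b := mul_left_cancel₀ h2
  rcases e3 with h | h | h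
  · have a1 : X = 0 ∨ X = 1 ∨ X = 2 := e1.imp (fun e => can (by linear_combination e - h))
      (Or.imp (fun e => can (by linear_combination e - h)) fun e => can (by linear_combination e - h))
    have a2 : X = 0 ∨ X = -1 ∨ X = -2 := e2.imp (fun e => can (by linear_combination h - e))
      (Or.imp (fun e => can (by linear_combination h - e)) fun e => can (by linear_combination h - e))
    rcases a1 with rfl | rfl | rfl
    · simp at h
    · simp
    rcases a2 with e | e | e
    exacts [absurd e h2, absurd (by linear_combination e) h3, absurd (by linear_combination e) h4]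
  · linear_combination h
  · have a1 : X = -2 ∨ X = -1 ∨ X = 0 := e1.imp (fun e => can (by linear_combination e - h))
      (Or.imp (fun e => can (by linear_combination e - h)) fun e => can (by linear_combination e - h))
    have a2 : X = 2 ∨ X = 1 ∨ X = 0 := e2.imp (fun e => can (by linear_combination h - e))
      (Or.imp (fun e => can (by linear_combination h - e)) fun e => can (by linear_combination h - e))
    rcases a1 with rfl | rfl | rfl
    · rcases a2 with e | e | e
      exacts [absurd (by linear_combination -e) h4, absurd (by linear_combination -e) h3,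
        absurd (by linear_combination -e) h2]
    · simp
    · exact absurd (by linear_combination -h) h3

namespace Cf

variable (c : Ctx k W G) {a b d e : Rf k W G} {j : G} {I : k} (q : Cf a b d e j I)
include q

theorem s12 : Cf b a d e j I := ⟨q.fr.s12, q.sq, q.jb, q.ja, q.jd, q.je⟩

theorem s34 : Cf a b e d j I := ⟨q.fr.s34, q.sq, q.ja, q.jb, q.je, q.jd⟩

theorem conj (g : G) : Cf (a.conj g) (b.conj g) (d.conj g) (e.conj g) (g * j * g⁻¹) I :=
  ⟨q.fr.conj g, q.sq, by simp only [Rf.conj_v, conj_smul, q.ja, smul_sm],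
    by simp only [Rf.conj_v, conj_smul, q.jb, smul_sm], by simp only [Rf.conj_v, conj_smul, q.jd],
    by simp only [Rf.conj_v, conj_smul, q.je]⟩

theorem inv : Cf a b d e j⁻¹ (-I) := by
  have h : -I * I = 1 := by linear_combination -q.sq
  exact ⟨q.fr, by rw [neg_sq, q.sq], by rw [inv_smul_eq_iff, smul_sm, q.ja, smul_smul, h, one_smul],
    by rw [inv_smul_eq_iff, smul_sm, q.jb, smul_smul, h, one_smul], by rw [inv_smul_eq_iff, q.jd],
    by rw [inv_smul_eq_iff, q.je]⟩

include c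

theorem sw : ∃ j' : G, Cf d e a b j' I := by
  obtain ⟨z, hz⟩ := c.ex8 I (by rw [show 8 = 2 * 4 from rfl, pow_mul, q.sq]; norm_num)
  have h : I * -I = 1 := by linear_combination -q.sq
  exact ⟨z * j⁻¹, q.fr.sw, q.sq, by rw [mul_smul, q.inv.jd, hz], by rw [mul_smul, q.inv.je, hz],
    by rw [mul_smul, q.inv.ja, hz, smul_smul, h, one_smul],
    by rw [mul_smul, q.inv.jb, hz, smul_smul, h, one_smul]⟩

theorem act (w : W) : j • w = w + ((I - 1) * a.φ w / 2) • a.v + ((I - 1) * b.φ w / 2) • b.v := by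
  rw [q.fr.diag c q.ja q.jb (q.jd.trans (one_smul k _).symm) (q.je.trans (one_smul k _).symm)]
  conv_rhs => rw [q.fr.exp c w]
  simp only [map_add, map_smul, smul_eq_mul, q.fr.ab, q.fr.ad, q.fr.ae, q.fr.ba, q.fr.bd, q.fr.be,
    a.two, b.two]
  have := c.two
  match_scalars <;> field_simp <;> ring

theorem lemA (p : ℕ) [Fact p.Prime] [CharP k p] (x : Rf k W G) (h0 : mu a x + mu b x ≠ 0) :
    mu a x + mu b x = 2 ∨ ((2 - (mu a x + mu b x)) ^ 2 = 2 ∧ (d.φ x.v = 0 ∨ e.φ x.v = 0)) ∨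
      (d.φ x.v = 0 ∧ e.φ x.v = 0) := by
  have h2 := c.two
  have f := q.fr
  obtain ⟨κ, hκ⟩ : ∃ κ, κ = (mu a x + mu b x) / 2 := ⟨_, rfl⟩
  have κ0 : κ ≠ 0 := hκ ▸ div_ne_zero h0 h2
  have hκ' : a.φ x.v * x.φ a.v + b.φ x.v * x.φ b.v = 2 * κ := by rw [hκ, mu, mu]; field_simp
  have hs := f.mu_sum c x
  rw [show mu a x + mu b x = 2 * κ from hκ'] at hs ⊢
  obtain ⟨y, hy⟩ : ∃ y, y = (a.φ x.v / 2) • a.v + (b.φ x.v / 2) • b.v := ⟨_, rfl⟩
  obtain ⟨u, hu⟩ : ∃ u, u = x.φ b.v • a.v - x.φ a.v • b.v := ⟨_, rfl⟩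
  obtain ⟨ψ, hψ⟩ : ∃ ψ, ψ = (2 * κ)⁻¹ • (x.φ a.v • a.φ + x.φ b.v • b.φ) := ⟨_, rfl⟩
  obtain ⟨ω, hω⟩ : ∃ ω, ω = (4 * κ)⁻¹ • (b.φ x.v • a.φ - a.φ x.v • b.φ) := ⟨_, rfl⟩
  have h4 : (4 : k) ≠ 0 := by rw [show (4 : k) = 2 * 2 by norm_num]; exact mul_ne_zero h2 h2
  have H0 : Hm u ω I I j y ψ := by
    refine ⟨?_, ?_, ?_, ?_, fun w => ?_⟩
    · simp [hu, hω, f.ab, f.ba, a.two, b.two]; field_simp; linear_combination 2 * hκ'
    · simp [hy, hψ, f.ab, f.ba, a.two, b.two]; field_simp; linear_combination hκ'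
    · simp [hu, hψ, f.ab, f.ba, a.two, b.two]; ring
    · simp [hy, hω, f.ab, f.ba, a.two, b.two]; right; field_simp; ring
    · rw [q.act c, hy, hu, hψ, hω]
      simp only [LinearMap.smul_apply, LinearMap.add_apply, LinearMap.sub_apply, smul_eq_mul]
      match_scalars
      · ring
      · field_simp; linear_combination (-4 * (I - 1) * a.φ w) * hκ'
      · field_simp; linear_combination (-4 * (I - 1) * b.φ w) * hκ'
  have xy : x.φ y = κ := by simp [hy]; field_simp; linear_combination hκ'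
  have ψx : ψ x.v = 1 := by simp [hψ]; field_simp; linear_combination hκ'
  have ωx : ω x.v = 0 := by simp [hω]; right; ring
  have H1 := H0.conj (h := x.g) (x.perp (by simp [hu]; ring)) fun w => by simp [x.act, ωx]
  have xv : x.v = y + (d.φ x.v / 2) • d.v + (e.φ x.v / 2) • e.v := hy ▸ f.exp c x.v
  generalize hψ' : ψ ∘ₗ DistribSMul.toLinearMap k W x.g⁻¹ = ψ' at H1
  have ψ'w : ∀ w, ψ' w = ψ w - x.φ w := fun w => by simp [← hψ', x.inv c, x.act, ψx]
  have e1 : ψ (x.g • y) = 1 - κ := by simp [x.act, H0.yy, ψx, xy]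
  have e2 : ψ' y = 1 - κ := by rw [ψ'w, H0.yy, xy]
  rcases H0.tri p c H1 q.sq with h | ⟨h, h3⟩ | ⟨-, h⟩
  · left; rw [e1] at h; linear_combination -2 * h.1
  swap
  · rw [e1, x.act, xy] at h
    have : x.v = y := smul_right_injective W κ0 (by
      simp only; linear_combination (norm := module) -h)
    right; right
    rw [this, hy]
    simp [f.da, f.db, f.ea, f.eb]
  rw [e1, e2] at h
  refine .inr (.inl ⟨by linear_combination 2 * h, ?_⟩)
  have ψd : ψ d.v = 0 := by simp [hψ, f.ad, f.bd]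
  have ψe : ψ e.v = 0 := by simp [hψ, f.ae, f.be]
  have val : ∀ {g : G} {s t : k}, g • a.v = a.v → g • b.v = b.v → g • d.v = s • d.v →
      g • e.v = t • e.v → 2 * ψ' (g • x.g • y) = 1 + κ * (s * mu d x + t * mu e x) := by
    intro g s t g1 g2 g3 g4
    have : g • y = y := by rw [hy, smul_add, smul_sm, smul_sm, g1, g2]
    rw [x.act, xy, smul_sub, smul_sm]
    conv_lhs => rw [xv]
    simp only [smul_add, smul_sm, this, g3, g4, map_sub, map_add, map_smul, smul_eq_mul, e2, ψ'w d.v,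
      ψ'w e.v, ψd, ψe, mu]
    field_simp
    linear_combination h
  have third : ∀ {g : G} {s t s' t' : k}, g • a.v = a.v → g • b.v = b.v → g • d.v = s • d.v →
      g • e.v = t • e.v → s' * s = 1 → t' * t = 1 → ∀ m, m = (1 + κ * (s * mu d x + t * mu e x)) *
        (1 + κ * (s' * mu d x + t' * mu e x)) → m = 0 ∨ m = 2 ∨ m = 4 := by
    intro g s t s' t' g1 g2 g3 g4 h1 h2 m hm
    have i1 := inv_smul_eq_iff.2 g1.symm
    have i2 := inv_smul_eq_iff.2 g2.symm
    have v1 := val g1 g2 g3 g4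
    have v2 := val (s := s') (t := t') i1 i2
      (by rw [inv_smul_eq_iff, smul_sm, g3, smul_smul, h1, one_smul])
      (by rw [inv_smul_eq_iff, smul_sm, g4, smul_smul, h2, one_smul])
    have H2 := H1.conj (h := g) (by rw [hu, smul_sub, smul_sm, smul_sm, g1, g2]) fun w => by
      simp [hω, Rf.φ_smul c (g1.trans (one_smul k _).symm), Rf.φ_smul c (g2.trans (one_smul k _).symm)]
    rw [hm, ← v1, ← v2]
    rcases H1.tri p c H2 q.sq with h | ⟨h, -⟩ | ⟨h, -⟩
    · left; rw [h.1]; ring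
    · right; left; simp only [LinearMap.comp_apply, DistribSMul.toLinearMap_apply] at h
      linear_combination 2 * h
    · right; right; simp only [LinearMap.comp_apply, DistribSMul.toLinearMap_apply] at h
      linear_combination 4 * h
  obtain ⟨j', q'⟩ := q.sw c
  have X := alg (X := κ * (mu d x - mu e x)) h2 h3
    (third (g := e.g) (s := 1) (t := -1) (s' := 1) (t' := -1) (e.perp f.ea) (e.perp f.eb)
      (by rw [e.perp f.ed, one_smul]) (by rw [e.self, neg_one_smul]) (by ring) (by ring) _ (by ring))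
    (third (g := d.g) (s := -1) (t := 1) (s' := -1) (t' := 1) (d.perp f.da) (d.perp f.db)
      (by rw [d.self, neg_one_smul]) (by rw [d.perp f.de, one_smul]) (by ring) (by ring) _ (by ring))
    (third (g := j' * e.g) (s := I) (t := -I) (s' := -I) (t' := I)
      (by rw [mul_smul, e.perp f.ea, q'.jd]) (by rw [mul_smul, e.perp f.eb, q'.je])
      (by rw [mul_smul, e.perp f.ed, q'.ja]) (by rw [mul_smul, e.self, smul_neg, q'.jb, neg_smul])
      (by linear_combination -q.sq) (by linear_combination -q.sq) _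
      (by linear_combination (κ * (mu d x - mu e x)) ^ 2 * q.sq))
  have Y : κ * (mu d x + mu e x) = 1 := by linear_combination κ * hs - h
  have Z : (4 * κ ^ 2) * (mu d x * mu e x) = 0 := by
    linear_combination (κ * (mu d x + mu e x) + 1) * Y - X
  exact (mul_eq_zero.1 ((mul_eq_zero.1 Z).resolve_left (mul_ne_zero h4 (pow_ne_zero _ κ0)))).imp
    (perp_of_mu c) (perp_of_mu c)

theorem lemB (p : ℕ) [Fact p.Prime] [CharP k p] (x : Rf k W G) :
    (mu a x + mu b x = 2 ∨ (d.φ x.v = 0 ∧ e.φ x.v = 0) ∨ (a.φ x.v = 0 ∧ b.φ x.v = 0)) ∨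
      ((2 - (mu a x + mu b x)) ^ 2 = 2 ∧ (d.φ x.v = 0 ∨ e.φ x.v = 0) ∧
        (a.φ x.v = 0 ∨ b.φ x.v = 0)) := by
  have h2 := c.two
  obtain ⟨j', q'⟩ := q.sw c
  have hs := q.fr.mu_sum c x
  have A := q.lemA c p x
  have B := q'.lemA c p x
  by_cases h0 : mu a x + mu b x = 0
  · rw [show mu d x + mu e x = 4 by linear_combination hs - h0] at B
    rcases B fun e => mul_ne_zero h2 h2 (by linear_combination e) with h | ⟨h, -⟩ | h
    exacts [absurd (by linear_combination h) h2, absurd (by linear_combination h) h2,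
      .inl (.inr (.inr h))]
  rcases A h0 with h | ⟨h, h'⟩ | h
  · exact .inl (.inl h)
  swap
  · exact .inl (.inr (.inl h))
  rcases B fun e => h2 (by
    rw [show mu a x + mu b x = 4 by linear_combination hs - e] at h
    linear_combination h) with h1 | ⟨-, h1⟩ | h1
  exacts [.inl (.inl (by linear_combination hs - h1)), .inr ⟨h, h', h1⟩, .inl (.inr (.inr h1))]

theorem lemS (p : ℕ) [Fact p.Prime] [CharP k p] (x : Rf k W G)
    (h : (2 - (mu a x + mu b x)) ^ 2 = 2) : x.φ a.v = 0 ∨ x.φ b.v = 0 := by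
  have h2 := c.two
  have hs := q.fr.mu_sum c x
  rcases q.lemB c p x with (h1 | h1 | h1) | h1
  · rw [h1] at h; exact absurd (by linear_combination -h) h2
  · simp only [mu, h1.1, h1.2, zero_mul, add_zero] at hs h
    rw [hs] at h; exact absurd (by linear_combination h) h2
  · exact .inl (Rf.symm c h1.1)
  · exact h1.2.2.imp (Rf.symm c) (Rf.symm c)

theorem lemC1 (p : ℕ) [Fact p.Prime] [CharP k p] (s : Rf k W G) (hb : b.φ s.v = 0)
    (he : e.φ s.v = 0) (hm : mu a s = 2) : ∃ j' : G, Cf a d b e j' I ∧ Gd a d b e := by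
  have h2 := c.two
  have f := q.fr
  have hs := f.mu_sum c s
  have sv := f.exp c s.v
  have sb := Rf.symm c hb
  have se := Rf.symm c he
  simp only [mu, hb, he, zero_mul, add_zero, zero_div, zero_smul] at hs hm sv
  have hd : d.φ s.v * s.φ d.v = 2 := by linear_combination hs - hm
  have sa : s.g • a.v = (-s.φ a.v * d.φ s.v / 2) • d.v := by
    rw [s.act]; conv_lhs => rw [sv]
    match_scalars <;> field_simp
    linear_combination -hm
  have sd : s.g • d.v = (-s.φ d.v * a.φ s.v / 2) • a.v := by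
    rw [s.act]; conv_lhs => rw [sv]
    match_scalars <;> field_simp
    linear_combination -hd
  have hh : s.φ a.v * d.φ s.v / 2 * (s.φ d.v * a.φ s.v / 2) = 1 := by
    field_simp; linear_combination (d.φ s.v * s.φ d.v) * hm + 2 * hd
  have q1 : Cf a d b e (s.g * (j * s.g * j⁻¹) * a.g) I := by
    refine ⟨f.s23, q.sq, ?_, ?_, ?_, ?_⟩ <;> simp only [mul_smul]
    · simp only [a.self, smul_neg, q.inv.ja, smul_sm, sa, q.jd, sd]
      linear_combination (norm := module) (I * (hh)) • a.v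
    · simp only [a.perp f.ad, q.inv.jd, smul_sm, sa, q.ja, sd]
      linear_combination (norm := module) (I * (hh)) • d.v
    · simp only [a.perp f.ab, q.inv.jb, smul_sm, s.perp sb, q.jb]
      linear_combination (norm := module) (-q.sq) • b.v
    · simp only [a.perp f.ae, q.inv.je, s.perp se, q.je]
  refine ⟨_, q1, fun x => (q1.lemB c p x).resolve_right fun ⟨h, _, _⟩ => ?_⟩
  generalize s.g * (j * s.g * j⁻¹) * a.g = j' at q1
  have s'v : (s.conj a.g).v = (-(a.φ s.v / 2)) • a.v + (d.φ s.v / 2) • d.v := by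
    rw [Rf.conj_v]; conv_lhs => rw [sv]
    rw [smul_add, smul_sm, smul_sm, a.self, a.perp f.ad, smul_neg, neg_smul]
  have f' : Fr s (s.conj a.g) b e := fr_of c (by simp [a.act, s.two, hm]) sb se
    (Rf.symm c (by rw [s'v]; simp [f.ba, f.bd])) (Rf.symm c (by rw [s'v]; simp [f.ea, f.ed])) f.be
  have q2 : Cf s (s.conj a.g) b e j' I := ⟨f', q.sq, by
    rw [sv, smul_add, smul_sm, smul_sm, q1.ja, q1.jb]; module,
    by rw [s'v, smul_add, smul_sm, smul_sm, q1.ja, q1.jb]; module, q1.jd, q1.je⟩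
  have m1 := q1.fr.mu_sum c x
  have m2 := f'.mu_sum c x
  have t1 := q1.lemS c p x h
  have t2 := q2.lemS c p x (by rw [← h]; congr 2; linear_combination m2 - m1)
  have a0 : a.φ s.v / 2 ≠ 0 := div_ne_zero (fun h => h2 (by rw [← hm, h, zero_mul])) h2
  have d0 : d.φ s.v / 2 ≠ 0 := div_ne_zero (fun h => h2 (by rw [← hd, h, zero_mul])) h2
  rw [s'v] at t2
  generalize a.φ s.v / 2 = A at *
  generalize d.φ s.v / 2 = D at *
  rw [sv] at t2
  have : x.φ a.v = 0 ∧ x.φ d.v = 0 := by
    rcases t1 with t | t <;> rcases t2 with t' | t' <;> simp [t, a0, d0] at t' ⊢ <;> exact t'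
  simp only [mu, this.1, this.2, mul_zero, add_zero, sub_zero] at h
  exact h2 (by linear_combination h)

theorem lemC0 (p : ℕ) [Fact p.Prime] [CharP k p] (x : Rf k W G)
    (h : (2 - (mu a x + mu b x)) ^ 2 = 2) (hb : b.φ x.v = 0) (he : e.φ x.v = 0) :
    ∃ j' : G, Cf a d b e j' I ∧ Gd a d b e := by
  refine q.lemC1 c p (a.conj x.g) (by simp [x.act, hb, q.fr.ba]) (by simp [x.act, he, q.fr.ea]) ?_
  simp only [mu, hb, zero_mul, add_zero] at h
  simp [mu, x.inv c, x.act, a.two]
  linear_combination h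

theorem lemC (p : ℕ) [Fact p.Prime] [CharP k p] :
    ∃ (a b d e : Rf k W G) (j : G), Cf a b d e j I ∧ Gd a b d e := by
  by_cases h : Gd a b d e
  · exact ⟨_, _, _, _, _, q, h⟩
  obtain ⟨x, hx⟩ := not_forall.1 h
  obtain ⟨h, h1 | h1, h2 | h2⟩ := (q.lemB c p x).resolve_left hx
  · exact ⟨_, _, _, _, q.s12.s34.lemC0 c p x (by rwa [add_comm]) h2 h1⟩
  · exact ⟨_, _, _, _, q.s34.lemC0 c p x h h2 h1⟩
  · exact ⟨_, _, _, _, q.s12.lemC0 c p x (by rwa [add_comm]) h2 h1⟩
  · exact ⟨_, _, _, _, q.lemC0 c p x h h2 h1⟩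

theorem jt (w : W) : j • w = ((1 + I) / 2) • w + ((1 - I) / 2) • (a.g * b.g) • w := by
  rw [q.act c, mul_smul, b.act, a.act]
  simp only [map_sub, map_smul, smul_eq_mul, q.fr.ab]
  have := c.two
  match_scalars <;> field_simp <;> ring

theorem step (gd : Gd a b d e) {a' b' d' e' : Rf k W G} (f' : Fr a' b' d' e') (gd' : Gd a' b' d' e') :
    ∃ s : k, (a'.g * b'.g) • (a.g * b.g) • a'.v = s • (a.g * b.g) • a'.v := by
  have h2 := c.two
  have f := q.fr
  have ta : (a'.g * b'.g) • a'.v = -a'.v := by rw [mul_smul, b'.perp f'.ba, a'.self]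
  have tb : (a'.g * b'.g) • b'.v = -b'.v := by rw [mul_smul, b'.self, smul_neg, a'.perp f'.ab]
  have ti : (a.g * b.g)⁻¹ = a.g * b.g := by
    rw [mul_inv_rev, a.inv c, b.inv c, Rf.comm_of_perp c f.ab]
  rcases gd a' with h | h | h
  rotate_left
  · have : (a.g * b.g) • a'.v = -a'.v := by
      conv_lhs => rw [f.exp c a'.v]
      conv_rhs => rw [f.exp c a'.v]
      simp [h.1, h.2, mul_smul, smul_sm, a.self, b.self, a.perp f.ab, b.perp f.ba, add_comm]
    exact ⟨-1, by rw [this, smul_neg, ta, neg_one_smul]⟩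
  · exact ⟨-1, by rw [mul_smul a.g, b.perp h.2, a.perp h.1, ta, neg_one_smul]⟩
  have h0 : a'.φ ((a.g * b.g) • a'.v) = 0 := by
    rw [mul_smul, b.act, a.act]
    simp only [map_sub, map_smul, smul_eq_mul, f.ab, a'.two, mu] at h ⊢
    linear_combination -h
  have j1 := q.jt c
  have j2 := q.inv.jt c
  generalize a.g * b.g = t at *
  have I1 : 1 - I ≠ 0 := fun e => h2 (by linear_combination q.sq + (1 + I) * e)
  have I2 : 1 + I ≠ 0 := fun e => h2 (by linear_combination q.sq + (1 - I) * e)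
  have I3 := div_ne_zero I1 h2
  rcases gd' (a'.conj j) with h | h | h
  · have : b'.φ (t • a'.v) * a'.φ (t • b'.v) = 0 := by
      simp only [mu, Rf.conj_v, Rf.conj_φ, j1, j2, map_add, map_smul, smul_eq_mul, h0, a'.two, f'.ab,
        f'.ba] at h
      field_simp at h
      refine mul_left_cancel₀ h2 ?_
      linear_combination h + (4 + b'.φ (t • a'.v) * a'.φ (t • b'.v)) * q.sq
    have h1 : b'.φ (t • a'.v) = 0 := perp_of_mu c (b := a'.conj t) (by simpa [mu, ti] using this)
    exact ⟨1, by rw [mul_smul, b'.perp h1, a'.perp h0, one_smul]⟩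
  · simp [j1, f'.da, f'.ea, I3] at h
    refine ⟨-1, ?_⟩
    rw [f'.exp c (t • a'.v), h0, h.1, h.2]
    simp [smul_sm, tb]
  · simp [j1, h0, a'.two, I2, h2] at h

theorem not_gd (gd : Gd a b d e) : False := by
  have f := q.fr
  have sq : ∀ {a b : Rf k W G}, a.φ b.v = 0 → a.g * b.g * (a.g * b.g) = 1 := fun {a b} h => by
    rw [mul_assoc, ← mul_assoc b.g, ← Rf.comm_of_perp c h, mul_assoc, b.sq c, mul_one, a.sq c]
  obtain ⟨N, hN, hp, h⟩ := CL.Inv.baer_suzuki_exists_normal (p := 2) (x := a.g * b.g) fun g => by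
    have f' := f.conj g
    have gd' := gd.conj g
    rw [← conj_mul]
    change IsPGroup 2 (Subgroup.closure {a.g * b.g, (a.conj g).g * (b.conj g).g})
    generalize a.conj g = a' at *
    generalize b.conj g = b' at *
    have h1 := (Rf.comm_iff c (r := a'.conj (a.g * b.g))).2 (q.step c gd f' gd')
    have h2 := (Rf.comm_iff c (r := b'.conj (a.g * b.g))).2 (q.step c gd f'.s12 fun x =>
      (gd' x).imp (fun h => by rwa [add_comm]) (Or.imp_right And.symm))
    rw [← Rf.comm_of_perp c f'.ab] at h2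
    have t1 := sq f.ab
    have t2 := sq f'.ab
    have h3 : Commute (a'.g * b'.g) (a.g * b.g * (a'.g * b'.g) * (a.g * b.g)⁻¹) := by
      rw [← conj_mul]; exact Commute.mul_right h1 h2
    generalize a.g * b.g = t at *
    generalize a'.g * b'.g = t' at *
    refine (CL.RKey.isPGroup_pair t1 t2 (k := 2) ?_).to_le ((Subgroup.closure_le _).2 ?_)
    · rw [inv_eq_of_mul_eq_one_right t1] at h3
      calc (t * t') ^ 2 ^ 2 = t * t' * t * (t' * (t * t' * t)) * t' := by
            simp [pow_succ, mul_assoc]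
        _ = t * t' * (t * t) * t' * t * (t' * t') := by rw [h3.eq]; simp [mul_assoc]
        _ = 1 := by rw [t1, t2, mul_one, mul_one, mul_assoc t, t2, mul_one, t1]
    · rintro x (hx | hx)
      · exact hx ▸ Subgroup.mem_sup_left (Subgroup.mem_zpowers _)
      · rw [Set.mem_singleton_iff.1 hx]
        have := mul_mem (Subgroup.mem_sup_left (T := Subgroup.zpowers (t * t'))
          (Subgroup.mem_zpowers t)) (Subgroup.mem_sup_right (Subgroup.mem_zpowers (t * t')))
        rwa [← mul_assoc, t1, one_mul] at this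
  obtain ⟨s, hs⟩ := c.o2 N hN hp _ h
  have h1 := congrArg a.φ (hs a.v)
  have h2 := congrArg d.φ (hs d.v)
  simp [mul_smul, b.perp f.ba, a.self, b.perp f.bd, a.perp f.ad, a.two, d.two, c.two] at h1 h2
  rw [h2] at h1
  exact mul_ne_zero c.two c.two (by linear_combination -h1)

theorem false (p : ℕ) [Fact p.Prime] [CharP k p] : False :=
  let ⟨_, _, _, _, _, q, gd⟩ := q.lemC c p
  q.not_gd c gd

end Cf

end CL.FJ
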