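import Cfsg.Agent.CLAS.FourJ2

/-!
# The Sylow subgroup: invariant subspaces and diagonal elements
-/

set_option autoImplicit false
set_option linter.unusedSectionVars false

namespace CL.FJ

open Module
open CL.FR (smul_sm conj_smul eig mem_eig)
open CL.FR.RA (Pr Sw)

variable {k W G : Type*} [Field k] [AddCommGroup W] [Module k W] [Group G] [DistribMulAction G W]
  [SMulCommClass G k W] [Finite G] [IsAlgClosed k]

theorem rank_le (c : Ctx k W G) {x : G} {U V : Submodule k W} (h : ∀ w ∈ U, x • w ∈ V) :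
    finrank k U ≤ finrank k V := by
  have := c.fd
  rw [← LinearEquiv.finrank_map_eq (DistribMulAction.toLinearEquiv k W x) U]
  exact Submodule.finrank_mono (by rintro _ ⟨w, hw, rfl⟩; exact h w hw)

/-- a `2`-group is scalar on an invariant subspace or permutes the two parts of a decomposition -/
theorem split (c : Ctx k W G) {S : Subgroup G} (hS : IsPGroup 2 S) {U : Submodule k W}
    (hU : ∀ s ∈ S, Pr s U) : (∀ s ∈ S, ∃ a : k, ∀ w ∈ U, s • w = a • w) ∨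
      ∃ U₁ U₂ : Submodule k W, U₁ ≠ ⊥ ∧ U₂ ≠ ⊥ ∧ Disjoint U₁ U₂ ∧ U₁ ⊔ U₂ = U ∧
        ∀ s ∈ S, Pr s U₁ ∧ Pr s U₂ ∨ Sw s U₁ U₂ := by
  let N : Subgroup S :=
    { carrier := {s | ∃ a : k, ∀ w ∈ U, (s : G) • w = a • w}
      one_mem' := ⟨1, by simp⟩
      mul_mem' := by
        rintro x y ⟨a, ha⟩ ⟨b, hb⟩
        exact ⟨b * a, fun w hw => by
          rw [Subgroup.coe_mul, mul_smul, hb w hw, smul_sm, ha w hw, smul_smul]⟩
      inv_mem' := by
        rintro x ⟨a, ha⟩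
        refine ⟨a⁻¹, fun w hw => ?_⟩
        by_cases h : a = 0
        · rw [(smul_eq_zero_iff_eq (x : G)).1 (by rw [ha w hw, h, zero_smul] : (x : G) • w = 0)]
          simp
        · rw [Subgroup.coe_inv, inv_smul_eq_iff, smul_sm, ha w hw, smul_smul, inv_mul_cancel₀ h,
            one_smul] }
  have : N.Normal := ⟨by
    rintro x ⟨a, ha⟩ g
    exact ⟨a, fun w hw => by
      simp only [Subgroup.coe_mul, Subgroup.coe_inv, mul_smul]
      rw [ha _ (hU _ (inv_mem g.2) w hw), smul_sm, smul_inv_smul]⟩⟩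
  by_cases hN : ⊤ ≤ N
  · exact .inl fun s hs => hN (Subgroup.mem_top ⟨s, hs⟩)
  obtain ⟨y, -, h1, h2, ⟨a, ha⟩, -⟩ := CL.PG.exists_mem_omegaCenterOver hS N ⊤ hN
  obtain ⟨b, rfl⟩ := IsAlgClosed.exists_eq_mul_self a
  have y2 : ∀ w ∈ U, (y : G) • (y : G) • w = (b * b) • w := fun w hw => by
    simpa [pow_two, mul_smul] using ha w hw
  have hb : b ≠ 0 := fun h => h1 ⟨0, fun w hw => by
    simpa [h] using (smul_eq_zero_iff_eq (y : G)).1 (y2 w hw ▸ by simp [h])⟩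
  have dec : ∀ w ∈ U, ∃ x ∈ U ⊓ eig k W (y : G) b, ∃ z ∈ U ⊓ eig k W (y : G) (-b), x + z = w :=
    fun w hw => by
      have h := hU _ y.2 w hw
      have := c.two
      refine ⟨(2 : k)⁻¹ • (w + b⁻¹ • (y : G) • w), ⟨U.smul_mem _ (U.add_mem hw (U.smul_mem _ h)),
        Submodule.smul_mem _ _ (mem_eig.2 ?_)⟩, (2 : k)⁻¹ • (w - b⁻¹ • (y : G) • w),
        ⟨U.smul_mem _ (U.sub_mem hw (U.smul_mem _ h)), Submodule.smul_mem _ _ (mem_eig.2 ?_)⟩, ?_⟩
      · rw [smul_add, smul_sm, y2 w hw]; generalize (y : G) • w = z; match_scalars <;> field_simp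
      · rw [smul_sub, smul_sm, y2 w hw]; generalize (y : G) • w = z; match_scalars <;> field_simp
      · generalize (y : G) • w = z; match_scalars <;> field_simp <;> norm_num
  refine .inr ⟨U ⊓ eig k W (y : G) b, U ⊓ eig k W (y : G) (-b), fun h => h1 ⟨-b, fun w hw => ?_⟩,
    fun h => h1 ⟨b, fun w hw => ?_⟩, Submodule.disjoint_def.2 fun w h1 h2 => ?_,
    le_antisymm (sup_le inf_le_left inf_le_left) fun w hw => Submodule.mem_sup.2 (dec w hw),
    fun s hs => ?_⟩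
  · obtain ⟨x, hx, z, hz, rfl⟩ := dec w hw
    rw [h, Submodule.mem_bot] at hx
    rw [hx, zero_add]; exact hz.2
  · obtain ⟨x, hx, z, hz, rfl⟩ := dec w hw
    rw [h, Submodule.mem_bot] at hz
    rw [hz, add_zero]; exact hx.2
  · have := (mem_eig.1 h1.2).symm.trans (mem_eig.1 h2.2)
    rw [neg_smul] at this
    exact (smul_eq_zero.1 (c.zero_of_neg this)).resolve_left hb
  obtain ⟨d, hd⟩ := (h2 ⟨s, hs⟩).1
  have e : ∀ w ∈ U, (y : G) • s • w = d • s • (y : G) • w := fun w hw => by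
    simpa [commutatorElement_def, mul_smul] using hd _ (hU s hs _ (hU _ y.2 w hw))
  have e' : ∀ (a : k) (w : W), w ∈ U ⊓ eig k W (y : G) a → s • w ∈ U ⊓ eig k W (y : G) (d * a) :=
    fun a w hw => ⟨hU s hs w hw.1, mem_eig.2 (by rw [e w hw.1, mem_eig.1 hw.2, smul_sm, smul_smul])⟩
  obtain ⟨w, hw, hw0⟩ := (Submodule.ne_bot_iff U).1 fun h => h1 ⟨0, fun w hw => by
    rw [h, Submodule.mem_bot] at hw; simp [hw]⟩
  have h3 : ((b * b) * (d * d - 1)) • s • w = 0 := by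
    have := y2 _ (hU s hs w hw)
    rw [e w hw, smul_sm, e _ (hU _ y.2 w hw), y2 w hw, smul_sm] at this
    generalize s • w = z at this ⊢
    linear_combination (norm := module) this
  have h4 : d * d = 1 := sub_eq_zero.1 ((mul_eq_zero.1 ((smul_eq_zero.1 h3).resolve_right
    fun h => hw0 ((smul_eq_zero_iff_eq s).1 h))).resolve_left (mul_ne_zero hb hb))
  rcases mul_self_eq_one_iff.1 h4 with rfl | rfl
  · exact .inl ⟨fun w hw => by simpa using e' _ w hw, fun w hw => by simpa using e' _ w hw⟩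
  · exact .inr ⟨fun w hw => by simpa using e' _ w hw, fun w hw => by simpa using e' _ w hw⟩

/-- no small invariant subspace -/
theorem noInv (c : Ctx k W G) (S : Sylow 2 G) (r : Rf k W G) {U : Submodule k W} (h0 : U ≠ ⊥)
    (h2 : finrank k U ≤ 2) (hU : ∀ s ∈ S, Pr s U) : False := by
  classical
  have := c.fd
  obtain ⟨n, hn⟩ : ∃ n, finrank k U * (2 * n) = 4 := by
    have := Nat.pos_of_ne_zero (mt Submodule.finrank_eq_zero.1 h0)
    by_cases h : finrank k U = 2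
    exacts [⟨1, by omega⟩, ⟨2, by omega⟩]
  let d : G → k := fun g =>
    if h : Pr g U then LinearMap.det ((DistribSMul.toLinearMap k W g).restrict h) else 0
  have dm : ∀ a ∈ S, ∀ b ∈ S, d (a * b) = d a * d b := fun a ha b hb => by
    simp only [d, dif_pos (hU a ha), dif_pos (hU b hb), dif_pos (hU _ (mul_mem ha hb)), ← map_mul]
    exact congrArg _ (LinearMap.ext fun w => Subtype.ext (mul_smul a b (w : W)))
  have ds : ∀ (z : G) (a : k), Sc W z a → d z = a ^ finrank k U := fun z a h => by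
    have h1 : Pr z U := fun w hw => h w ▸ U.smul_mem a hw
    simp only [d, dif_pos h1]
    rw [show (DistribSMul.toLinearMap k W z).restrict h1 = a • LinearMap.id from
      LinearMap.ext fun w => Subtype.ext (h w), LinearMap.det_smul, LinearMap.det_id, mul_one]
  refine c.char S r ⊤ (fun g => d g ^ (2 * n) * dt k W g) (by simp) (fun a ha b hb _ _ => ?_)
    (by simp) (fun z a h => ⟨trivial, ?_⟩) fun x hx => ⟨trivial, ?_⟩
  · rw [dm a ha b hb, dt_mul]; ring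
  · rw [ds z a h, c.dt_sc h, ← pow_mul, hn, ← pow_add, c.sc8 z a h]
  · rw [pow_mul, pow_two, ← dm _ hx _ hx, x.sq c, ds 1 1 fun w => by simp, x.det c]; simp

theorem Ctx.char1 (c : Ctx k W G) (S : Sylow 2 G) (r : Rf k W G) {H : Subgroup G} (θ : G → k) {x : G}
    (xS : x ∈ S) (xH : x ∉ H) (hi : ∀ a ∈ S, ∀ b ∈ S, a ∉ H → b ∉ H → a * b ∈ H)
    (hm : ∀ a ∈ H, ∀ b ∈ H, θ (a * b) = θ a * θ b) (hc : ∀ a ∈ H, θ (x⁻¹ * a * x) = θ a)
    (hz : ∀ (z : G) (a : k), Sc W z a → z ∈ H ∧ θ z = 1)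
    (hr : ∀ x : Rf k W G, x.g ∈ S → x.g ∈ H ∧ θ x.g = -1) : False := by
  refine c.char S r H θ hi (fun a _ b _ ha hb => hm a ha b hb) (fun s hs a _ h ha => ?_) hz hr
  have h1 := hi x xS s hs xH h
  rw [show s * a * s⁻¹ = x⁻¹ * (x * s * a * (x * s)⁻¹) * x by group,
    hc _ (mul_mem (mul_mem h1 ha) (inv_mem h1)), hm _ (mul_mem h1 ha) _ (inv_mem h1), hm _ h1 _ ha,
    mul_right_comm, ← hm _ h1 _ (inv_mem h1), mul_inv_cancel, (hz 1 1 fun w => by simp).2, one_mul]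

/-- the final character argument -/
theorem fin (c : Ctx k W G) (S : Sylow 2 G) (r : Rf k W G) {H : Subgroup G} (D σ : G → k) {x : G}
    (xS : x ∈ S) (xH : x ∉ H) (hi : ∀ a ∈ S, ∀ b ∈ S, a ∉ H → b ∉ H → a * b ∈ H)
    (hn : ∀ a ∈ H, x⁻¹ * a * x ∈ H)
    (hm : ∀ a ∈ H, ∀ b ∈ H, D (a * b) = D a * D b ∧ σ (a * b) = σ a * σ b)
    (h1 : ∀ a, σ a * σ a = 1)
    (hz : ∀ (z : G) (a : k), Sc W z a → z ∈ H ∧ D z = a ^ 2 ∧ σ z = 1)
    (hr : ∀ y : Rf k W G, y.g ∈ S → y.g ∈ H ∧ D y.g = -D (x⁻¹ * y.g * x) ∧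
      (σ y.g = 1 ∨ σ (x⁻¹ * y.g * x) = 1))
    (tl : (∃ y : Rf k W G, y.g ∈ S ∧ σ y.g = 1 ∧ σ (x⁻¹ * y.g * x) = 1) →
      ∀ a ∈ H, σ a = σ (x⁻¹ * a * x) → D a ^ 2 = D (x⁻¹ * a * x) ^ 2) : False := by
  have o := hz 1 1 fun w => by simp
  have cm : ∀ a b : G, x⁻¹ * (a * b) * x = x⁻¹ * a * x * (x⁻¹ * b * x) := fun a b => by group
  have D0 : ∀ a ∈ H, D a ≠ 0 := fun a ha => left_ne_zero_of_mul_eq_one (b := D a⁻¹) (by
    rw [← (hm a ha _ (inv_mem ha)).1, mul_inv_cancel, o.2.1, one_pow])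
  have x2 := hi x xS x xS xH xH
  have c2 : ∀ a ∈ H, D (x⁻¹ * (x⁻¹ * a * x) * x) = D a ∧ σ (x⁻¹ * (x⁻¹ * a * x) * x) = σ a :=
    fun a ha => by
      have e1 := hm _ (inv_mem x2) _ x2
      rw [inv_mul_cancel, o.2.1, o.2.2] at e1
      have e2 := hm _ (inv_mem x2) _ ha
      have e3 := hm _ (mul_mem (inv_mem x2) ha) _ x2
      rw [show x⁻¹ * (x⁻¹ * a * x) * x = (x * x)⁻¹ * a * (x * x) by group, e3.1, e3.2, e2.1, e2.2]
      exact ⟨by linear_combination -D a * e1.1, by linear_combination -σ a * e1.2⟩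
  have zc : ∀ {z : G} {a : k}, Sc W z a → x⁻¹ * z * x = z := fun h => by
    rw [mul_assoc, ← c.sc_comm h, inv_mul_cancel_left]
  have pm : ∀ a, σ a = 1 ∨ σ a = -1 := fun a => mul_self_eq_one_iff.1 (h1 a)
  replace tl := tl (by
    by_contra! h
    refine c.char1 S r (fun a => σ a * σ (x⁻¹ * a * x)) xS xH hi (fun a ha b hb => ?_)
      (fun a ha => ?_) (fun z a hs => ⟨(hz z a hs).1, ?_⟩) fun y hy => ⟨(hr y hy).1, ?_⟩
    · rw [cm, (hm a ha b hb).2, (hm _ (hn a ha) _ (hn b hb)).2]; ring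
    · rw [(c2 a ha).2, mul_comm]
    · rw [zc hs, h1]
    · rcases (hr y hy).2.2 with e | e
      · rw [e, (pm _).resolve_left (h y hy e), one_mul]
      · rw [e, (pm _).resolve_left fun e' => h y hy e' e, mul_one])
  let ρ : G → k := fun a => D a / D (x⁻¹ * a * x)
  have ρm : ∀ a ∈ H, ∀ b ∈ H, ρ (a * b) = ρ a * ρ b := fun a ha b hb => by
    simp only [ρ]
    rw [cm, (hm a ha b hb).1, (hm _ (hn a ha) _ (hn b hb)).1, mul_div_mul_comm]
  have ρc : ∀ a ∈ H, ρ (x⁻¹ * a * x) * ρ a = 1 := fun a ha => by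
    have := D0 a ha
    have := D0 _ (hn a ha)
    simp only [ρ]
    rw [(c2 a ha).1]
    field_simp
  have ρz : ∀ (z : G) (a : k), Sc W z a → ρ z = 1 := fun z a hs => by
    simp only [ρ]; rw [zc hs, div_self (D0 _ (hz z a hs).1)]
  have ρr : ∀ y : Rf k W G, y.g ∈ S → ρ y.g = -1 := fun y hy => by
    simp only [ρ]; rw [(hr y hy).2.1, neg_div, div_self (D0 _ (hn _ (hr y hy).1))]
  have ρt : ∀ a ∈ H, σ a = σ (x⁻¹ * a * x) → ρ a ^ 2 = 1 := fun a ha h => by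
    simp only [ρ]; rw [div_pow, tl a ha h, div_self (pow_ne_zero _ (D0 _ (hn a ha)))]
  clear_value ρ
  by_cases h : ∀ a ∈ H, ρ a ^ 2 = 1
  · exact c.char1 S r ρ xS xH hi ρm (fun a ha => by
      linear_combination ρ a * ρc a ha - ρ (x⁻¹ * a * x) * h a ha)
      (fun z a hs => ⟨(hz z a hs).1, ρz z a hs⟩) fun y hy => ⟨(hr y hy).1, ρr y hy⟩
  push Not at h
  obtain ⟨b, hb, h⟩ := h
  have b1 : ρ b ^ 2 = -1 := by
    have := ρt _ (mul_mem hb hb) (by rw [cm, (hm b hb b hb).2, (hm _ (hn b hb) _ (hn b hb)).2, h1, h1])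
    rw [ρm b hb b hb, ← pow_two] at this
    exact (sq_eq_one_iff.1 this).resolve_left h
  have op : ∀ {a : G}, σ a ≠ σ (x⁻¹ * a * x) → σ (x⁻¹ * a * x) = -σ a := fun {a} h => by
    rcases pm a with e | e <;> rcases pm (x⁻¹ * a * x) with e' | e' <;> simp [e, e'] at h ⊢
  have b2 := op fun e => h (ρt b hb e)
  have tw : ∀ a ∈ H, ρ a ^ 2 = σ a * σ (x⁻¹ * a * x) := fun a ha => by
    by_cases e : σ a = σ (x⁻¹ * a * x)
    · rw [ρt a ha e, ← e, h1]
    have := ρt _ (mul_mem ha hb) (by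
      rw [cm, (hm a ha b hb).2, (hm _ (hn a ha) _ (hn b hb)).2, op e, b2]; ring)
    rw [ρm a ha b hb, mul_pow, b1] at this
    rw [op e]
    linear_combination -this + h1 a
  refine c.char1 S r (fun a => ρ a * σ a) xS xH hi (fun a ha b hb => ?_)
    (fun a ha => ?_) (fun z a hs => ⟨(hz z a hs).1, ?_⟩) fun y hy => ⟨(hr y hy).1, ?_⟩
  · rw [ρm a ha b hb, (hm a ha b hb).2]; ring
  · linear_combination ρ a * σ a * ρc a ha - ρ (x⁻¹ * a * x) * σ a * tw a ha -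
      ρ (x⁻¹ * a * x) * σ (x⁻¹ * a * x) * h1 a
  · rw [ρz z a hs, (hz z a hs).2.2, mul_one]
  · have := tw _ (hr y hy).1
    rw [ρr y hy] at this ⊢
    rcases (hr y hy).2.2 with e | e <;> rw [e] at this
    · rw [e, mul_one]
    · linear_combination this

/-- `g` is diagonal -/
structure Dg (a b d e : Rf k W G) (g : G) (p q r s : k) : Prop where
  h1 : g • a.v = p • a.v
  h2 : g • b.v = q • b.v
  h3 : g • d.v = r • d.v
  h4 : g • e.v = s • e.v

namespace Dg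

variable {a b d e : Rf k W G} {g h : G} {p q r s p' q' r' s' : k} (n : ℕ) [Fact n.Prime] [CharP k n]
  (c : Ctx k W G) (f : Fr a b d e)

theorem mul (x : Dg a b d e g p q r s) (y : Dg a b d e h p' q' r' s') :
    Dg a b d e (g * h) (p * p') (q * q') (r * r') (s * s') := by
  constructor <;> simp only [mul_smul, x.h1, x.h2, x.h3, x.h4, y.h1, y.h2, y.h3, y.h4, smul_sm] <;>
    exact smul_comm _ _ _

include n c f

theorem two (x : Dg a b d e g p q r s) (h1 : q ^ 2 = p ^ 2) (h2 : r ^ 2 = -p ^ 2)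
    (h3 : s ^ 2 = -p ^ 2) : False := by
  wlog e1 : q = p generalizing g q
  · have y := x.mul (h := b.g) (p' := 1) (q' := -1) (r' := 1) (s' := 1) ⟨by simp [b.perp f.ba],
      by simp [b.self], by simp [b.perp f.bd], by simp [b.perp f.be]⟩
    refine this (q := q * -1) (by simpa using y) (by rw [← h1]; ring) ?_
    rw [(sq_eq_sq_iff_eq_or_eq_neg.1 h1).resolve_left e1]; ring
  wlog e2 : s = r generalizing g s
  · have y := x.mul (h := e.g) (p' := 1) (q' := 1) (r' := 1) (s' := -1) ⟨by simp [e.perp f.ea],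
      by simp [e.perp f.eb], by simp [e.perp f.ed], by simp [e.self]⟩
    refine this (s := s * -1) (by rw [← h3]; ring) (by simpa using y) ?_
    rw [(sq_eq_sq_iff_eq_or_eq_neg.1 (h3.trans h2.symm)).resolve_left e2]; ring
  subst e1 e2
  have hd := f.det c x.h1 x.h2 x.h3 x.h4
  have h8 : s ^ 8 = 1 := by
    rw [show q * q * s * s = q ^ 2 * s ^ 2 by ring, show q ^ 2 = -s ^ 2 by rw [h2, neg_neg]] at hd
    linear_combination hd
  have s0 : s ≠ 0 := by rintro rfl; simp at h8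
  obtain ⟨z, hz⟩ := c.ex8 s⁻¹ (by rw [inv_pow, h8, inv_one])
  have y := Dg.mul ⟨hz _, hz _, hz _, hz _⟩ x
  rw [inv_mul_cancel₀ s0] at y
  exact Cf.false c ⟨f, by field_simp; linear_combination h2, y.h1, y.h2, by simpa using y.h3,
    by simpa using y.h4⟩ n

theorem two' (x : Dg a b d e g p q r s) (h1 : q ^ 2 = -p ^ 2) (h2 : s ^ 2 = -r ^ 2)
    (h3 : (r ^ 2) ^ 2 = (p ^ 2) ^ 2) : False := by
  rcases sq_eq_sq_iff_eq_or_eq_neg.1 h3 with h | h
  · exact two n c f.s23 ⟨x.h1, x.h3, x.h2, x.h4⟩ h h1 (h ▸ h2)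
  · exact two n c f.s34.s23 ⟨x.h1, x.h4, x.h2, x.h3⟩ (by rw [h2, h, neg_neg]) h1 h

theorem four (x : Dg a b d e g p q r s)
    (y : Dg a b d e h r s p q ∨ Dg a b d e h r s q p) (h1 : (q ^ 2) ^ 2 = (p ^ 2) ^ 2)
    (h2 : (r ^ 2) ^ 2 = (p ^ 2) ^ 2) (h3 : (s ^ 2) ^ 2 = (p ^ 2) ^ 2) :
    q ^ 2 = p ^ 2 ∧ r ^ 2 = p ^ 2 ∧ s ^ 2 = p ^ 2 := by
  rcases sq_eq_sq_iff_eq_or_eq_neg.1 h1 with e1 | e1 <;>
    rcases sq_eq_sq_iff_eq_or_eq_neg.1 (h3.trans h2.symm) with e2 | e2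
  · rcases sq_eq_sq_iff_eq_or_eq_neg.1 h2 with e3 | e3
    exacts [⟨e1, e3, e2.trans e3⟩, (x.two n c f e1 e3 (e2.trans e3)).elim]
  pick_goal 3
  · exact (x.two' n c f e1 e2 h2).elim
  all_goals
    rcases y with y | y <;>
      refine ((x.mul y).two' n c f ?_ ?_ ?_).elim <;> simp only [mul_pow, e1, e2] <;> ring

end Dg

end CL.FJ
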