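import Cfsg.Agent.CLAS.He91

/-!
# Overgroups of `3⁴ : Sp₄(3)`, part 2: the local analysis
-/

set_option autoImplicit false

namespace CL.He9

open Subgroup

/-- The action of the element interchanging `u` and `σ`. -/
def fn (v : V4) : V4 := ((-v.1.1 - v.2.1, v.1.2 + v.2.2), (-v.1.1 + v.2.1, v.1.2 - v.2.2))

/-- The configuration of a group containing `3⁴ : Sp₄(3)`. -/
structure Cfg (G : Type*) [Group G] where
  w : V4 → G
  (z τ q σ n : G)
  G₀ : Subgroup G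
  add : ∀ u v, w (u + v) = w u * w v
  inj : ∀ v, w v = 1 → v = 0
  zz : z * z = 1
  az : ∀ v, z * w v * z⁻¹ = w (-v)
  zτ : τ * z = z * τ
  aτ : ∀ v, τ * w v * τ⁻¹ = w (bm m1 mt v)
  zq : q * z = z * q
  aq : ∀ v, q * w v * q⁻¹ = w (bm m1 mU v)
  zσ : σ * z = z * σ
  aσ : ∀ v, σ * w v * σ⁻¹ = w v.swap
  zn : n * z = z * n
  an : ∀ v, n * w v * n⁻¹ = w (fn v)
  cent : ∀ g, (∀ v, g * w v = w v * g) → ∃ v, g = w v
  cx : ∀ g, g * w (0, (1, 0)) = w (0, (1, 0)) * g → ∀ v, ∃ v', g * w v * g⁻¹ = w v'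
  G₀u : ∀ k ∈ G₀, k * (q * q) = q * q * k
  G₀n : ∀ g, g * (q * q) = q * q * g → ∀ k ∈ G₀, g * k * g⁻¹ ∈ G₀
  τG : τ ∈ G₀
  G₀w : ∀ v, w (v, 0) ∈ G₀ → v = 0
  nτ : ∀ g, g * τ * g⁻¹ ≠ τ⁻¹
  nz : ∀ g, g * z * g⁻¹ ≠ q * q

namespace Cfg

variable {G : Type*} [Group G] (c : Cfg G) {a b g k : G} {f f' : V4 → V4} {s s' r r' : M2} {v : V4}

/-- `g` acts as `f`. -/
def Ac (g : G) (f : V4 → V4) : Prop := ∀ v, g * c.w v * g⁻¹ = c.w (f v)

/-- `g` centralises `z` and acts as `f`. -/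
def L (g : G) (f : V4 → V4) : Prop := g * c.z = c.z * g ∧ c.Ac g f

/-- The parametrisation as a homomorphism. -/
def hom : Multiplicative V4 →* G := MonoidHom.mk' (fun v => c.w v.toAdd) fun _ _ => c.add _ _

/-- The normal three-subgroup. -/
def W : Subgroup G := c.hom.range

/-- The first half of `W`. -/
def E : Subgroup G := (c.hom.comp (AddMonoidHom.inl V2 V2).toMultiplicative).range

/-- The normaliser of `W`. -/
def N : Subgroup G := normalizer (c.W : Set G)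

/-- The central involution of the second `SL₂(3)`. -/
def u : G := c.q * c.q

theorem w_zero : c.w 0 = 1 := c.hom.map_one

theorem w_neg (v : V4) : c.w (-v) = (c.w v)⁻¹ := c.hom.map_inv (Multiplicative.ofAdd v)

theorem w_comm (u v : V4) : c.w u * c.w v = c.w v * c.w u := by rw [← c.add, add_comm, c.add]

theorem w_cube (v : V4) : c.w v ^ 3 = 1 := by
  rw [pow_three', ← c.add, ← c.add, show v + v + v = 0 by revert v; decide +kernel, w_zero]

theorem w_inj {u v : V4} (h : c.w u = c.w v) : u = v :=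
  sub_eq_zero.1 (c.inj _ (by rw [sub_eq_add_neg, c.add, w_neg, h, mul_inv_cancel]))

theorem mem_W : g ∈ c.W ↔ ∃ v, c.w v = g := Iff.rfl

theorem mem_E : g ∈ c.E ↔ ∃ v, c.w (v, 0) = g := Iff.rfl

variable {c}

theorem Ac.mul (h : c.Ac a f) (h' : c.Ac b f') : c.Ac (a * b) (f ∘ f') := fun v => by
  rw [Function.comp, ← h, ← h']; group

theorem Ac.inv (h : c.Ac a f) (e : ∀ v, f (f' v) = v) : c.Ac a⁻¹ f' := fun v => by
  rw [← e v, ← h, e]; group

theorem Ac.congr (h : c.Ac a f) (e : ∀ v, f v = f' v) : c.Ac a f' := funext e ▸ h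

theorem Ac.ext (h : c.Ac a f) (h' : c.Ac a f') (v : V4) : f v = f' v := c.w_inj ((h v).symm.trans (h' v))

theorem Ac.inj (h : c.Ac a f) (e : f v = 0) : v = 0 := c.inj _ (by
  have := h v
  rwa [e, w_zero, mul_inv_eq_one, mul_eq_left] at this)

theorem Ac.eq (h : c.Ac a f) (h' : c.Ac b f) : ∃ v, a = b * c.w v := by
  obtain ⟨v, e⟩ := c.cent (b⁻¹ * a) fun v => by
    calc _ = b⁻¹ * (a * c.w v * a⁻¹) * a := by group
      _ = _ := by rw [h, ← h']; group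
  exact ⟨v, by rw [← e]; group⟩

theorem L.mul (h : c.L a f) (h' : c.L b f') : c.L (a * b) (f ∘ f') :=
  ⟨Commute.mul_left h.1 h'.1, h.2.mul h'.2⟩

theorem L.inv (h : c.L a f) (e : ∀ v, f (f' v) = v) : c.L a⁻¹ f' := ⟨Commute.inv_left h.1, h.2.inv e⟩

theorem L.congr (h : c.L a f) (e : ∀ v, f v = f' v) : c.L a f' := funext e ▸ h

theorem L.eq (h : c.L a f) (h' : c.L b f') (e : ∀ v, f v = f' v) : a = b := by
  obtain ⟨v, rfl⟩ := (h.congr e).2.eq h'.2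
  have h1 : c.z * c.w v = c.w v * c.z := mul_left_cancel (a := b) (by
    rw [← mul_assoc, ← mul_assoc, h.1, h'.1, mul_assoc])
  have h2 := c.w_inj ((c.az v).symm.trans (by rw [h1, mul_inv_cancel_right]))
  rw [(by decide +kernel : ∀ v : V4, -v = v → v = 0) v h2, w_zero, mul_one]

theorem L.bmul (h : c.L a (bm s r)) (h' : c.L b (bm s' r')) : c.L (a * b) (bm (mu s s') (mu r r')) :=
  (h.mul h').congr fun v => by simp [bm, ap_mu]

theorem L.binv (h : c.L a (bm s r)) (h1 : dt s = 1) (h2 : dt r = 1) : c.L a⁻¹ (bm (ad s) (ad r)) :=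
  h.inv fun v => by simp [bm, ← ap_mu, (ad_mu _ h1).1, (ad_mu _ h2).1, ap_m1]

theorem L.smul (h : c.L a (bm m1 r)) (h' : c.L b (bm m1 r')) : c.L (a * b) (bm m1 (mu r r')) :=
  h.bmul h'

theorem L.sinv (h : c.L a (bm m1 r)) (h2 : dt r = 1) : c.L a⁻¹ (bm m1 (ad r)) := h.binv rfl h2

theorem L.seq (h : c.L a (bm s r)) (h' : c.L b (bm s' r')) (e : s = s') (e' : r = r') : a = b :=
  h.eq h' fun _ => e ▸ e' ▸ rfl

theorem L.sinj (h : c.L a (bm s r)) (h' : c.L a (bm s' r')) : s = s' ∧ r = r' :=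
  ⟨ap_inj fun v => congrArg Prod.fst (h.2.ext h'.2 (v, 0)),
    ap_inj fun v => congrArg Prod.snd (h.2.ext h'.2 (0, v))⟩

variable (c)

theorem l1 : c.L 1 (bm m1 m1) := ⟨by simp, fun v => by simp [bm, ap_m1]⟩
theorem lz : c.L c.z (bm mn mn) := ⟨rfl, fun v => by rw [c.az]; simp [bm, ap_mn]; rfl⟩
theorem lτ : c.L c.τ (bm m1 mt) := ⟨c.zτ, c.aτ⟩
theorem lq : c.L c.q (bm m1 mU) := ⟨c.zq, c.aq⟩
theorem lσ : c.L c.σ Prod.swap := ⟨c.zσ, c.aσ⟩
theorem ln : c.L c.n fn := ⟨c.zn, c.an⟩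
theorem lu : c.L c.u (bm m1 mn) := c.lq.smul c.lq
theorem uu : c.u * c.u = 1 := (c.lu.smul c.lu).seq c.l1 rfl rfl
theorem σσ : c.σ * c.σ = 1 := (c.lσ.mul c.lσ).eq c.l1 fun v => by simp [bm, ap_m1]
theorem τ3 : c.τ ^ 3 = 1 := by
  rw [pow_three']; exact ((c.lτ.smul c.lτ).smul c.lτ).seq c.l1 rfl rfl
theorem u_ne : c.u ≠ 1 := fun e => absurd (c.lu.sinj (e ▸ c.l1)).2 (by decide)
theorem nun : c.n * c.u * c.n⁻¹ = c.σ := mul_inv_eq_iff_eq_mul.2
  ((c.ln.mul c.lu).eq (c.lσ.mul c.ln) (by decide +kernel))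

variable {c}

theorem L.swap (h : c.L a (bm s r)) : c.L (c.σ * a * c.σ⁻¹) (bm r s) :=
  ((c.lσ.mul h).mul (c.lσ.inv Prod.swap_swap)).congr fun _ => rfl

theorem L.comm (h : c.L a (bm s m1)) (h' : c.L b (bm m1 r)) : a * b = b * a :=
  (h.bmul h').seq (h'.bmul h) (by simp [mu, m1]) (by simp [mu, m1])

theorem L.cu (h : c.L a (bm s r)) : a * c.u = c.u * a :=
  (h.bmul c.lu).seq (c.lu.bmul h) (by simp [mu, m1]) (by simp [mu, mn])

theorem exS (h : dt s = 1) : ∃ g ∈ c.G₀, c.L g (bm m1 s) := by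
  obtain ⟨l, -, rfl⟩ := exists_word s h
  generalize (Nat.bits l).dropLast = l
  induction l with
  | nil => exact ⟨1, one_mem _, c.l1⟩
  | cons b l ih =>
    obtain ⟨g, h1, h2⟩ := ih
    cases b
    · exact ⟨_, mul_mem (c.G₀n _ c.lq.cu _ c.τG) h1, ((c.lq.smul c.lτ).smul (c.lq.sinv rfl)).smul h2⟩
    · exact ⟨_, mul_mem c.τG h1, c.lτ.smul h2⟩

theorem L.mem (h : c.L a (bm m1 s)) (hs : dt s = 1) : a ∈ c.G₀ := by
  obtain ⟨g, h1, h2⟩ := exS (c := c) hs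
  exact h2.seq h rfl rfl ▸ h1

theorem ac_of_mem (h : g ∈ c.N) : ∃ f : V4 →+ V4, c.Ac g f := by
  choose f hf using fun v : V4 => c.mem_W.1 ((mem_normalizer_iff.1 h _).1 (c.mem_W.2 ⟨v, rfl⟩))
  refine ⟨AddMonoidHom.mk' f fun a b => c.w_inj ?_, fun v => (hf v).symm⟩
  rw [c.add, hf, hf, hf]
  exact (congrArg (g * · * g⁻¹) (c.add a b)).trans (by group)

theorem blk (h : g ∈ c.N) (hu : g * c.u = c.u * g) : ∃ s r, c.Ac g (bm s r) := by
  obtain ⟨f, hf⟩ := ac_of_mem h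
  have e := (hf.mul c.lu.2).ext (hu ▸ c.lu.2.mul hf)
  simp only [Function.comp, bm, ap_m1, ap_mn] at e
  obtain ⟨s, hs⟩ := exists_ap ((AddMonoidHom.fst _ _).comp (f.comp (AddMonoidHom.inl _ _)))
  obtain ⟨r, hr⟩ := exists_ap ((AddMonoidHom.snd _ _).comp (f.comp (AddMonoidHom.inr _ _)))
  have k : ∀ x : V2, x = -x → x = 0 := by decide +kernel
  refine ⟨s, r, hf.congr fun v => ?_⟩
  have h1 := k _ (by simpa using congrArg Prod.snd (e (v.1, 0)))
  have h2 := k (f (0, v.2)).1 (by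
    have := congrArg Prod.fst (e (0, v.2))
    rw [show ((0 : V2), -v.2) = -(0, v.2) by simp, map_neg] at this
    exact this.symm)
  rw [show v = (v.1, 0) + (0, v.2) by simp, map_add]
  exact Prod.ext (by simp [bm, ← hs, h2]) (by simp [bm, ← hr, h1])

theorem wu (v : V2) : c.w (v, 0) * c.u = c.u * c.w (v, 0) :=
  (mul_inv_eq_iff_eq_mul.1 ((c.lu.2 _).trans (by simp [bm, ap_m1, ap_zero]))).symm

theorem G₀W (h : c.w v ∈ c.G₀) : v = 0 := by
  have e := c.w_inj ((c.lu.2 v).symm.trans (mul_inv_eq_iff_eq_mul.2 (c.G₀u _ h).symm))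
  have k : ∀ x : V2, -x = x → x = 0 := by decide +kernel
  have h2 : v.2 = 0 := k _ (by simpa [bm, ap_mn] using congrArg Prod.snd e)
  exact Prod.ext (c.G₀w _ (by rw [← h2]; exact h)) h2

theorem G₀eq (ha : a ∈ c.G₀) (hb : b ∈ c.G₀) (h : c.Ac a f) (h' : c.Ac b f) : a = b := by
  obtain ⟨v, rfl⟩ := h.eq h'
  rw [G₀W ((mul_mem_cancel_left hb).1 ha), w_zero, mul_one]

theorem G₀N (h : g ∈ c.G₀) (hN : g ∈ c.N) : ∃ s, dt s = 1 ∧ c.L g (bm m1 s) := by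
  obtain ⟨s, r, hf⟩ := blk hN (c.G₀u _ h)
  obtain rfl : s = m1 := ap_inj fun v => by
    have := mul_mem h (c.G₀n _ (wu v) _ (inv_mem h))
    rw [← mul_assoc, ← mul_assoc, hf, ← w_neg, ← c.add] at this
    simpa [bm, ap_m1, add_neg_eq_zero] using congrArg Prod.fst (G₀W this)
  rcases dt_ne r (fun v e => congrArg Prod.snd (hf.inj (v := (0, v)) (by simp [bm, e, ap_zero]))) with
    e | ⟨s, h1, h2⟩
  · obtain ⟨k, k1, k2⟩ := exS (c := c) e
    exact ⟨r, e, G₀eq k1 h k2.2 hf ▸ k2⟩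
  · obtain ⟨k, k1, k2⟩ := exS (c := c) h1
    refine absurd (mul_inv_eq_iff_eq_mul.2 (G₀eq (mul_mem (mul_mem h k1) c.τG)
      (mul_mem (inv_mem c.τG) (mul_mem h k1)) ((hf.mul k2.2).mul c.aτ)
      (((c.lτ.sinv rfl).2.mul (hf.mul k2.2)).congr fun v => ?_))) (c.nτ _)
    have := congrArg (ap · v.2) h2
    simp only [ap_mu] at this
    simp only [Function.comp, bm, ap_m1, this]

variable [Finite G]

theorem Ac.mem (h : c.Ac g f) : g ∈ c.N := mem_normalizer_fintype (by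
  rintro _ ⟨v, rfl⟩; exact ⟨f v, (h v).symm⟩)

theorem cxE {v : V2} (hv : v ≠ 0) (h : g * c.w (v, 0) = c.w (v, 0) * g) : g ∈ c.N := by
  obtain ⟨s, h1, rfl⟩ := trans_sl v hv
  obtain ⟨k, -, hk⟩ := exS (c := c) h1
  have hm := (c.lσ.mul hk).2
  have e : c.σ * k * _ * _ = c.w (ap s (1, 0), 0) := (hm (0, (1, 0))).trans (by simp [bm, ap_zero])
  rw [← e] at h
  choose f hf using c.cx ((c.σ * k)⁻¹ * g * (c.σ * k)) (by
    calc _ = (c.σ * k)⁻¹ * (g * (c.σ * k * c.w (0, 1, 0) * (c.σ * k)⁻¹)) * (c.σ * k) := by group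
      _ = _ := by rw [h]; group)
  have := mul_mem (mul_mem hm.mem (Ac.mem hf)) (inv_mem hm.mem)
  simpa [mul_assoc] using this

omit [Finite G] in
theorem card_E : Nat.card c.E = 9 := by
  rw [E, ← Nat.card_congr (MonoidHom.ofInjective fun a b e => ?_).toEquiv]
  · simp
  · exact congrArg Prod.fst (c.w_inj e)

instance : IsMulCommutative c.E := ⟨⟨by
  rintro ⟨_, a, rfl⟩ ⟨_, b, rfl⟩; exact Subtype.ext (c.w_comm _ _)⟩⟩

omit [Finite G] in
theorem pW : IsPGroup 3 c.W := by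
  rintro ⟨_, a, rfl⟩; exact ⟨1, Subtype.ext (c.w_cube _)⟩

omit [Finite G] in
theorem E_le : c.E ≤ c.W := by rintro _ ⟨a, rfl⟩; exact ⟨_, rfl⟩

theorem ncE : ¬ IsCyclic c.E := fun h => by
  obtain ⟨⟨_, a, rfl⟩, e⟩ := isCyclic_iff_exists_orderOf_eq_natCard.1 h
  have := orderOf_dvd_of_pow_eq_one (x := (⟨_, a, rfl⟩ : c.E)) (Subtype.ext (c.w_cube _))
  rw [e, card_E] at this
  omega

theorem cE {e : G} (he : e ∈ c.E) (h1 : e ≠ 1) : centralizer {e} ≤ c.N := by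
  obtain ⟨v, rfl⟩ := c.mem_E.1 he
  exact fun g hg => cxE (by rintro rfl; exact h1 c.w_zero) (mem_centralizer_singleton_iff.1 hg)

omit [Finite G] in
theorem L.cw (h : c.L a (bm m1 s)) (v : V2) : a * c.w (v, 0) = c.w (v, 0) * a :=
  mul_inv_eq_iff_eq_mul.1 ((h.2 _).trans (by simp [bm, ap_m1, ap_zero]))

theorem card_S : Nat.card (c.G₀ ⊓ c.N : Subgroup G) = 24 := by
  choose g h1 h2 using fun s : {s : M2 // dt s = 1} => exS (c := c) s.2
  rw [← card_sl]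
  refine (Nat.card_congr (Equiv.ofBijective (fun s => ⟨g s, h1 s, (h2 s).2.mem⟩)
    ⟨fun a b e => Subtype.ext ((h2 a).sinj (by
      rw [show g a = g b from congrArg Subtype.val e]; exact h2 b)).2, fun k => ?_⟩)).symm
  obtain ⟨s, e, hs⟩ := G₀N k.2.1 k.2.2
  exact ⟨⟨s, e⟩, Subtype.ext ((h2 _).seq hs rfl rfl)⟩

theorem G₀_le : c.G₀ ≤ c.N := by
  classical
  have : Fact (Nat.Prime 3) := ⟨by norm_num⟩
  have hE : c.E ≤ normalizer (c.G₀ : Set G) := by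
    rintro _ ⟨v, rfl⟩; exact mem_normalizer_fintype (c.G₀n _ (wu _))
  have h9 := card_free hE (S := c.G₀ ⊓ c.N) fun e he h1 => le_antisymm (inf_le_inf_left _ (cE he h1))
    fun k hk => ⟨hk.1, by
      obtain ⟨s, -, hs⟩ := G₀N hk.1 hk.2
      obtain ⟨v, rfl⟩ := c.mem_E.1 he
      exact mem_centralizer_singleton_iff.2 (hs.cw v)⟩
  rw [card_E, card_S] at h9
  have ho : orderOf c.τ = 3 := orderOf_eq_prime c.τ3 fun e => absurd (c.lτ.sinj (e ▸ c.l1)).2 (by decide)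
  refine burn (p := 3) (P := zpowers c.τ) (.of_card (n := 1) (by rw [Nat.card_zpowers, ho]; rfl))
    (zpowers_le.2 c.τG) (fun Q hQ h1 h2 => (eq_of_le_of_card_ge h1 ?_).ge) (fun g _ hg x hx => ?_)
    (pW.to_le E_le) ncE hE (fun e he h1 => inf_le_right.trans (cE he h1)) (zpowers_le.2 (Ac.mem c.aτ))
  · obtain ⟨m, hm⟩ := hQ.exists_card_eq
    have := card_dvd_of_le h2
    rw [Nat.card_zpowers, ho, hm] at *
    by_contra hlt
    have := (pow_dvd_pow 3 (show 2 ≤ m by by_contra; interval_cases m <;> omega)).trans this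
    omega
  · obtain ⟨i, rfl⟩ := hx
    refine (Commute.zpow_left ?_ i)
    obtain ⟨j, hj, e⟩ := (mem_zpowers_iff_mem_range_orderOf.1 ((mem_normalizer_iff.1 hg _).1
      (mem_zpowers _)) |> Finset.mem_image.1)
    rw [ho, Finset.mem_range] at hj
    interval_cases j
    · rw [pow_zero, eq_comm, mul_inv_eq_one, mul_eq_left] at e
      simp [e] at ho
    · exact (mul_inv_eq_iff_eq_mul.1 (e.symm.trans (pow_one _))).symm
    · exact absurd (e.symm.trans (eq_inv_of_mul_eq_one_left (by rw [← pow_succ, c.τ3]))) (c.nτ g)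

theorem G₀L (h : g ∈ c.G₀) : ∃ s, dt s = 1 ∧ c.L g (bm m1 s) := G₀N h (G₀_le h)

theorem lemB (hu : g * c.u = c.u * g) {v v' : V2} (hv : v ≠ 0) (hk : k ∈ c.G₀)
    (e : g * c.w (v, 0) * g⁻¹ = c.w (v', 0) * k) : g ∈ c.N := by
  obtain ⟨s, h1, hs⟩ := G₀L hk
  have hc : ∀ a ∈ c.G₀, k * a = a * k := fun a ha => by
    obtain ⟨r, -, hr⟩ := G₀L (c.G₀n g⁻¹ (Commute.inv_left hu) a ha)
    obtain ⟨r', -, hr'⟩ := G₀L ha
    refine mul_left_cancel (a := c.w (v', 0)) ?_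
    rw [← mul_assoc, ← mul_assoc, ← hr'.cw, mul_assoc a, ← e]
    calc _ = g * (c.w (v, 0) * (g⁻¹ * a * g⁻¹⁻¹)) * g⁻¹ := by group
      _ = _ := by rw [← hr.cw]; group
  have h3 : k ^ 3 = 1 := by
    have := congrArg (· ^ 3) e
    simp only [conj_pow, c.w_cube, (show Commute _ _ from (hs.cw v').symm).mul_pow] at this
    simpa using this.symm
  obtain rfl : k = 1 := by
    rcases cent_sl s ((hs.smul c.lτ).sinj (hc _ c.τG ▸ c.lτ.smul hs)).2
      ((hs.smul c.lq).sinj (hc _ (c.lq.mem rfl) ▸ c.lq.smul hs)).2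
      (fun v e => congrArg Prod.snd (hs.2.inj (v := (0, v)) (by simp [bm, e, ap_zero]))) with rfl | rfl
    · exact hs.seq c.l1 rfl rfl
    · rw [pow_three'] at h3
      exact absurd (((hs.smul hs).smul hs).sinj (h3 ▸ c.l1)).2 (by decide)
  have hv' : v' ≠ 0 := by
    rintro rfl
    rw [mul_one, Prod.mk_zero_zero, w_zero, mul_inv_eq_one, mul_eq_left] at e
    exact hv (congrArg Prod.fst (c.inj _ e))
  obtain ⟨r, r1, rfl⟩ := trans_sl v hv
  obtain ⟨r', r2, rfl⟩ := trans_sl v' hv'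
  obtain ⟨m, -, hm⟩ := exS (c := c) (s := mu r' (ad r)) (by rw [dt_mu, r2, (ad_mu _ r1).2.1, mul_one])
  have e2 := hm.swap.2 (ap r (1, 0), 0)
  simp only [bm, ap_zero, ← ap_mu, ap_mu _ _ (1, 0), ap_mu r', ← ap_mu _ r, (ad_mu _ r1).2.2, ap_m1] at e2
  rw [← mul_mem_cancel_left (inv_mem hm.swap.2.mem)]
  refine cxE hv ?_
  rw [mul_one, ← e2] at e
  generalize c.σ * m * c.σ⁻¹ = x at e
  calc _ = x⁻¹ * (g * c.w (ap r (1, 0), 0) * g⁻¹) * g := by group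
    _ = _ := by rw [e]; group

end Cfg

end CL.He9
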