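import Cfsg.Agent.CLAS.He92

/-!
# Overgroups of `3⁴ : Sp₄(3)`, part 3: the Sylow two-subgroup and the `Z*`-theorem
-/

set_option autoImplicit false

namespace CL.He9.Cfg

open Subgroup

variable {G : Type*} [Group G] {c : Cfg G} {a b g k : G} {s r : M2}

theorem v4_add : ∀ v : V4, -v + -v = v ∧ v + v = -v := by decide +kernel

variable (c) in
/-- The product of the two quaternion groups. -/
def T₀ : Subgroup G where
  carrier := {g | ∃ s r, Q8 s ∧ Q8 r ∧ c.L g (bm s r)}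
  one_mem' := ⟨_, _, by decide, by decide, c.l1⟩
  mul_mem' := fun ⟨_, _, h1, h2, h3⟩ ⟨_, _, k1, k2, k3⟩ =>
    ⟨_, _, q8_mu _ _ h1 k1, q8_mu _ _ h2 k2, h3.bmul k3⟩
  inv_mem' := fun ⟨_, _, h1, h2, h3⟩ => ⟨_, _, (q8_ad _ h1).1, (q8_ad _ h2).1, h3.binv h1.1 h2.1⟩

theorem σ_inv : c.σ⁻¹ = c.σ := inv_eq_of_mul_eq_one_left c.σσ

theorem T₀σ (h : g ∈ c.T₀) : c.σ * g * c.σ⁻¹ ∈ c.T₀ :=
  let ⟨_, _, h1, h2, h3⟩ := h
  ⟨_, _, h2, h1, h3.swap⟩

theorem T₀mul (ha : a * c.σ ∈ c.T₀) (hb : b * c.σ ∈ c.T₀) : a * b ∈ c.T₀ := by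
  convert mul_mem ha (T₀σ hb) using 1
  rw [mul_assoc a, ← mul_assoc c.σ, ← mul_assoc c.σ, c.σσ]; group

variable (c) in
/-- A Sylow two-subgroup. -/
def T : Subgroup G where
  carrier := {g | g ∈ c.T₀ ∨ g * c.σ ∈ c.T₀}
  one_mem' := .inl (one_mem _)
  mul_mem' := by
    rintro a b (ha | ha) (hb | hb)
    · exact .inl (mul_mem ha hb)
    · exact .inr (mul_assoc a b _ ▸ mul_mem ha hb)
    · refine .inr (mul_assoc a b _ ▸ T₀mul ha ?_)
      rwa [mul_assoc, c.σσ, mul_one]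
    · exact .inl (T₀mul ha hb)
  inv_mem' := by
    rintro a (ha | ha)
    · exact .inl (inv_mem ha)
    · refine .inr ?_
      convert T₀σ (inv_mem ha) using 1
      rw [σ_inv]; group

theorem σT : c.σ ∈ c.T := .inr (c.σσ ▸ one_mem _)

theorem T₀four (h : g ∈ c.T₀) : g ^ 4 = 1 := by
  obtain ⟨_, _, h1, h2, h3⟩ := h
  rw [show 4 = 2 + 2 from rfl, pow_add, sq]
  exact ((h3.bmul h3).bmul (h3.bmul h3)).seq c.l1 (q8_ad _ h1).2.1 (q8_ad _ h2).2.1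

theorem T_sq (h : g ∈ c.T) : g * g ∈ c.T₀ := h.elim (fun h => mul_mem h h) fun h => T₀mul h h

theorem pT : IsPGroup 2 c.T := fun g => ⟨3, Subtype.ext (by
  rw [coe_pow, show 2 ^ 3 = 2 * 4 from rfl, pow_mul, sq]; exact T₀four (T_sq g.2))⟩

theorem inv₀ (h : g ∈ c.T₀) (e : g * g = 1) : g = 1 ∨ g = c.z ∨ g = c.u ∨ g = c.σ * c.u * c.σ⁻¹ := by
  obtain ⟨_, _, h1, h2, h3⟩ := h
  have := (h3.bmul h3).sinj (e ▸ c.l1)
  rcases (q8_ad _ h1).2.2.1 this.1 with rfl | rfl <;> rcases (q8_ad _ h2).2.2.1 this.2 with rfl | rfl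
  · exact .inl (h3.seq c.l1 rfl rfl)
  · exact .inr (.inr (.inl (h3.seq c.lu rfl rfl)))
  · exact .inr (.inr (.inr (h3.seq c.lu.swap rfl rfl)))
  · exact .inr (.inl (h3.seq c.lz rfl rfl))

theorem z_ne : c.z ≠ 1 := fun e => absurd (c.lz.sinj (e ▸ c.l1)).2 (by decide)

theorem iso (h : g * c.z * g⁻¹ ∈ c.T) : g * c.z * g⁻¹ = c.z := by
  have e : g * c.z * g⁻¹ * (g * c.z * g⁻¹) = 1 := by
    rw [conj_mul, c.zz, mul_one, mul_inv_cancel]
  have k : ∀ m, g * c.z * g⁻¹ ≠ m * c.u * m⁻¹ := fun m e => c.nz (m⁻¹ * g) (by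
    calc _ = m⁻¹ * (g * c.z * g⁻¹) * m := by group
      _ = c.u := by rw [e]; group)
  rcases h with h | ⟨s, r, h1, -, h3⟩
  · rcases inv₀ h e with h | h | h | h
    · exact absurd (conj_eq_one_iff.1 h) z_ne
    · exact h
    · exact absurd (by simpa using h) (k 1)
    · exact absurd h (k _)
  · obtain ⟨m, -, hm⟩ := exS (c := c) h1.1
    have e2 := ((h3.bmul h3.swap).sinj (s' := m1) (r' := m1) (by
      convert c.l1 using 1
      rw [← e, mul_assoc _ c.σ, ← mul_assoc c.σ, ← mul_assoc c.σ, c.σσ]; group)).1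
    have := (hm.swap.bmul (hm.swap.binv h1.1 rfl).swap).seq h3 (by simp [mu, ad, m1])
      (by rw [← (q8_ad _ h1).2.2.2 _ e2]; simp [mu, m1])
    generalize c.σ * m * c.σ⁻¹ = x at this
    refine absurd ?_ (k (x * c.n))
    rw [← mul_assoc, ← mul_assoc, σ_inv, mul_left_inj] at this
    rw [← this, ← c.nun]; group

theorem zu : c.σ * c.u * c.σ⁻¹ = c.z * c.u := c.lu.swap.seq (c.lz.bmul c.lu) rfl rfl

theorem σcu (h1 : g * c.z = c.z * g) (h2 : g * c.u = c.u * g) :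
    c.σ * g * c.σ⁻¹ * c.u = c.u * (c.σ * g * c.σ⁻¹) := by
  have e : c.u = c.σ * (c.z * c.u) * c.σ⁻¹ := by
    rw [← zu, ← mul_assoc, ← mul_assoc, c.σσ, mul_assoc, σ_inv, c.σσ]; group
  rw [e, conj_mul, conj_mul, Commute.mul_right h1 h2]

theorem ylem (hN : g ∈ c.N) (h1 : Commute g c.τ) (h2 : Commute g c.q)
    (h3 : Commute g (c.σ * c.τ * c.σ⁻¹)) (h4 : Commute g (c.σ * c.q * c.σ⁻¹)) : g ∈ c.T₀ := by
  have hu : Commute g c.u := h2.mul_right h2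
  obtain ⟨s, r, hf⟩ := blk hN hu
  have h : c.L g (bm s r) := ⟨by
    have := (h4.mul_right h4).mul_right hu
    rwa [conj_mul, show c.q * c.q = c.u from rfl, zu, mul_assoc, c.uu, mul_one] at this, hf⟩
  have k : ∀ a, a = m1 ∨ a = mn → Q8 a := by rintro _ (rfl | rfl) <;> decide
  exact ⟨s, r, k _ (cent_sl _ ((h.bmul c.lτ.swap).sinj (h3.eq ▸ c.lτ.swap.bmul h)).1
    ((h.bmul c.lq.swap).sinj (h4.eq ▸ c.lq.swap.bmul h)).1
    fun v e => congrArg Prod.fst (hf.inj (v := (v, 0)) (by simp [bm, e, ap_zero]))),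
    k _ (cent_sl _ ((h.bmul c.lτ).sinj (h1.eq ▸ c.lτ.bmul h)).2 ((h.bmul c.lq).sinj (h2.eq ▸ c.lq.bmul h)).2
    fun v e => congrArg Prod.snd (hf.inj (v := (0, v)) (by simp [bm, e, ap_zero]))), h⟩

variable [Finite G]

theorem step {Q : Subgroup G} (hQ : IsPGroup 2 Q) (hT : c.T ≤ Q) (hg : g ∈ Q) (hu : g * c.u = c.u * g) :
    ∃ k s, Q8 s ∧ c.L k (bm m1 s) ∧ Commute (k * g) c.τ ∧ Commute (k * g) c.q := by
  obtain ⟨s, s1, hs⟩ := G₀L (c.G₀n g hu _ c.τG)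
  have e3 : (g * c.τ * g⁻¹) ^ 3 = 1 := by rw [conj_pow, c.τ3, mul_one, mul_inv_cancel]
  rw [pow_three] at e3
  rcases ord_three s s1 ((hs.smul (hs.smul hs)).sinj (e3 ▸ c.l1)).2 with rfl | ⟨a, ha, e⟩
  · exact absurd (c.lτ.sinj (conj_eq_one_iff.1 (hs.seq c.l1 rfl rfl) ▸ c.l1)).2 (by decide)
  obtain ⟨k, -, hk⟩ := exS (c := c) ha.1
  have hτ : Commute (k * g) c.τ := by
    rcases e with e | e
    · have := (hk.smul hs).seq (c.lτ.smul hk) rfl e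
      calc _ = k * (g * c.τ * g⁻¹) * g := by group
        _ = _ := by rw [this]; group
    · refine absurd ?_ (c.nτ (k * g))
      have := (hk.smul hs).seq ((c.lτ.sinv rfl).smul hk) rfl e
      calc _ = k * (g * c.τ * g⁻¹) * k⁻¹ := by group
        _ = _ := by rw [this]; group
  refine ⟨k, a, ha, hk, hτ, ?_⟩
  obtain ⟨m, hm⟩ := hQ ⟨k * g, mul_mem (hT (.inl ⟨_, _, by decide, ha, hk⟩)) hg⟩
  have hu' : Commute (k * g) c.u := Commute.mul_left hk.cu hu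
  replace hm : (k * g) ^ 2 ^ m = 1 := congrArg Subtype.val hm
  generalize k * g = x at hτ hm hu'
  obtain ⟨r, r1, hr⟩ := G₀L (c.G₀n x hu' _ (c.lq.mem rfl))
  have e2 : x * c.q * x⁻¹ * (x * c.q * x⁻¹) = c.u := by
    rw [conj_mul]; exact mul_inv_eq_iff_eq_mul.2 hu'
  have e4 : (x * c.q * x⁻¹ * c.τ) ^ 3 = 1 := by
    have : (c.q * c.τ) ^ 3 = 1 := by
      rw [pow_three]
      exact ((c.lq.smul c.lτ).smul ((c.lq.smul c.lτ).smul (c.lq.smul c.lτ))).seq c.l1 rfl rfl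
    rw [mul_assoc, hτ.inv_left.eq, ← mul_assoc, mul_assoc x, conj_pow, this, mul_one, mul_inv_cancel]
  rw [pow_three] at e4
  have key : ∀ ρ, Commute x ρ → ρ ^ 3 = 1 → x * c.q * x⁻¹ * ρ = ρ * c.q → Commute x c.q := fun ρ h1 h2 h3 => by
    refine comm_of_cube hm ?_
    have h4 : Commute (ρ⁻¹ * x) c.q := by
      calc _ = ρ⁻¹ * (x * c.q * x⁻¹ * ρ) * (ρ⁻¹ * x) := by group
        _ = _ := by rw [h3]; group
    have := h4.pow_left 3
    rwa [h1.symm.inv_left.mul_pow, inv_pow, h2, inv_one, one_mul] at this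
  rcases ord_four r r1 ((hr.smul hr).sinj (e2 ▸ c.lu)).2
    (((hr.smul c.lτ).smul ((hr.smul c.lτ).smul (hr.smul c.lτ))).sinj (e4 ▸ c.l1)).2 with rfl | e | e
  · exact mul_inv_eq_iff_eq_mul.1 (hr.seq c.lq rfl rfl)
  · exact key _ hτ c.τ3 ((hr.smul c.lτ).seq (c.lτ.smul c.lq) rfl e)
  · refine key _ hτ.inv_right (by rw [inv_pow, c.τ3, inv_one]) ?_
    rw [mul_inv_eq_iff_eq_mul, mul_assoc c.τ⁻¹, eq_inv_mul_iff_mul_eq]
    exact (c.lτ.smul hr).seq (c.lq.smul c.lτ) rfl e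

variable (H : ∀ y m, y ^ 2 ^ m = 1 → Commute y c.q → Commute y (c.σ * c.τ * c.σ⁻¹) →
  Commute y (c.σ * c.q * c.σ⁻¹) → y ∈ c.N)
include H

theorem T_max {Q : Subgroup G} (hQ : IsPGroup 2 Q) (hT : c.T ≤ Q) : Q = c.T := by
  have : Fact (Nat.Prime 2) := ⟨by norm_num⟩
  by_contra hne
  obtain ⟨g, hg, hn, h1⟩ := Inv.exists_mem_normalizer_of_lt_pGroup hQ (hT.lt_of_ne' hne)
  have k : ∀ g ∈ Q, g * c.z = c.z * g → g * c.u = c.u * g → g ∈ c.T := fun g hg hz hu => by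
    obtain ⟨k, s, s1, hk, h1, h2⟩ := step hQ hT hg hu
    have kT : k ∈ c.T := .inl ⟨_, _, by decide, s1, hk⟩
    have hx := mul_mem (mul_mem (hT σT) (mul_mem (hT kT) hg)) (inv_mem (hT σT))
    obtain ⟨l, r, r1, hl, h3, h4⟩ := step hQ hT hx (σcu (Commute.mul_left hk.1 hz) (Commute.mul_left hk.cu hu))
    have lT : l ∈ c.T := .inl ⟨_, _, by decide, r1, hl⟩
    obtain ⟨m, hm⟩ := hQ ⟨_, mul_mem (hT lT) hx⟩
    have a1 := Commute.mul_left (c.lτ.swap.comm hl).symm (h1.map (MulAut.conj c.σ))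
    have a2 := Commute.mul_left (c.lq.swap.comm hl).symm (h2.map (MulAut.conj c.σ))
    have h5 : l * (c.σ * (k * g) * c.σ⁻¹) ∈ c.T :=
      .inl (ylem (H _ m (congrArg Subtype.val hm) h4 a1 a2) h3 h4 a1 a2)
    rwa [mul_mem_cancel_left lT, mul_mem_cancel_right (inv_mem σT), mul_mem_cancel_left σT,
      mul_mem_cancel_left kT] at h5
  have hz := mul_inv_eq_iff_eq_mul.1 (iso ((mem_normalizer_iff.1 hn _).1 (.inl ⟨_, _, by decide, by decide, c.lz⟩)))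
  have h2 := T_sq ((mem_normalizer_iff.1 hn _).1 (.inl ⟨_, _, by decide, by decide, c.lq⟩))
  rw [conj_mul] at h2
  rcases inv₀ h2 (by rw [conj_mul, show c.q * c.q * (c.q * c.q) = 1 from c.uu]; simp) with h | h | h | h
  · exact c.u_ne (conj_eq_one_iff.1 h)
  · exact c.nz g⁻¹ (by rw [← h]; group)
  · exact h1 (k g hg hz (mul_inv_eq_iff_eq_mul.1 h))
  · refine h1 ((mul_mem_cancel_left (inv_mem σT)).1 (k _ (mul_mem (inv_mem (hT σT)) hg)
      (Commute.mul_left (Commute.inv_left c.zσ) hz) ?_))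
    calc _ = c.σ⁻¹ * (g * (c.q * c.q) * g⁻¹) * g := by rw [u]; group
      _ = _ := by rw [h]; group

theorem main (g : G) : g ∈ c.N := by
  have : Fact (Nat.Prime 3) := ⟨by norm_num⟩
  obtain ⟨O, hO, ho, hz⟩ := Cfsg.Agent.S0215.result (⟨c.T, pT, T_max H⟩ : Sylow 2 G) c.z
    (orderOf_eq_prime (sq c.z ▸ c.zz) z_ne) (.inl ⟨_, _, by decide, by decide, c.lz⟩) fun g => iso
  have odd : ∀ a ∈ O, a ^ 4 = 1 → a = 1 := fun a ha e => orderOf_eq_one_iff.1 (Nat.eq_one_of_dvd_coprimes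
    (ho.coprime_two_right.pow_right 2) (O.orderOf_dvd_natCard ha) (orderOf_dvd_of_pow_eq_one e))
  have uO : c.u ∉ O := fun h => c.u_ne (odd _ h (T₀four ⟨_, _, by decide, by decide, c.lu⟩))
  have hW : c.W ≤ O := by
    intro _ h
    obtain ⟨v, rfl⟩ := c.mem_W.1 h
    have := hz (c.w v)
    rwa [c.az, ← c.w_neg, ← c.add, (v4_add v).1] at this
  have h1 : ∀ k ∈ O, k ∈ c.G₀ → k = 1 := fun k k1 k2 => by
    obtain ⟨s, s1, hs⟩ := G₀L k2
    rcases odd_sl s s1 with rfl | rfl | e | e | e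
    · exact hs.seq c.l1 rfl rfl
    · exact absurd (hs.seq c.lu rfl rfl ▸ k1) uO
    · exact absurd ((hs.smul hs).seq c.lu rfl e ▸ mul_mem k1 k1) uO
    · exact absurd ((hs.smul (hs.smul hs)).seq c.lu rfl e ▸ mul_mem k1 (mul_mem k1 k1)) uO
    · have l := (c.lq.smul hs).smul ((c.lq.sinv rfl).smul (hs.sinv s1))
      have m := mul_mem (hO.conj_mem _ k1 c.q) (inv_mem k1)
      rw [mul_assoc] at m
      exact absurd ((l.smul l).seq c.lu rfl e ▸ mul_mem m m) uO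
  have h2 : ∀ g ∈ O, g * c.u = c.u * g → ∀ a ∈ c.G₀, Commute g a := fun g g1 g2 a ha =>
    mul_inv_eq_iff_eq_mul.1 (mul_inv_eq_one.1 (h1 _ (by
      convert mul_mem g1 (hO.conj_mem _ (inv_mem g1) a) using 1; group)
      (mul_mem (c.G₀n g g2 a ha) (inv_mem ha))))
  let C := O ⊓ c.N ⊓ centralizer {c.z}
  have hC : ∀ {m f}, c.L m f → ∀ a ∈ C, m * a * m⁻¹ ∈ C := fun {m f} hm a ha =>
    have := mem_centralizer_singleton_iff.2 hm.1
    ⟨⟨hO.conj_mem _ ha.1.1 _, c.N.mul_mem (mul_mem hm.2.mem ha.1.2) (inv_mem hm.2.mem)⟩,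
      (centralizer _).mul_mem (mul_mem this ha.2) (inv_mem this)⟩
  have h3 : ∀ a ∈ C, c.u * a = a * c.u → a = 1 := fun a ha e => by
    have k := h2 _ (hC c.lσ a ha).1.1 (σcu (mem_centralizer_singleton_iff.1 ha.2) e.symm)
    have k' : ∀ b ∈ c.G₀, Commute a (c.σ * b * c.σ⁻¹) := fun b hb => by
      simpa [σ_inv, mul_assoc, ← mul_assoc c.σ c.σ, c.σσ] using (k b hb).map (MulAut.conj c.σ)
    exact odd a ha.1.1 (T₀four (ylem ha.1.2 (h2 a ha.1.1 e.symm _ c.τG) (h2 a ha.1.1 e.symm _ (c.lq.mem rfl))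
      (k' _ c.τG) (k' _ (c.lq.mem rfl))))
  have hD : ∀ {m}, (∀ a ∈ C, m⁻¹ * a * m⁻¹⁻¹ ∈ C) → ∀ d ∈ centralizer (C : Set G),
      m * d * m⁻¹ ∈ centralizer (C : Set G) := fun {m} hm d hd a ha => by
    calc _ = m * (m⁻¹ * a * m⁻¹⁻¹ * d) * m⁻¹ := by group
      _ = _ := by rw [hd _ (hm a ha)]; group
  have h4 : c.u * c.σ ∈ centralizer (C : Set G) := fun a ha => by
    have i := fun a ha => inv_of_fpf c.uu (hC c.lu) h3 (c := a) ha
    have i1 := i _ (hC (c.ln.inv (f' := fn ∘ fn ∘ fn) (by decide +kernel)) a ha)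
    have i2 : c.σ * a * c.σ⁻¹ = a⁻¹ := by
      calc _ = c.n * (c.u * (c.n⁻¹ * a * c.n⁻¹⁻¹) * c.u⁻¹) * c.n⁻¹ := by rw [← c.nun]; group
        _ = _ := by rw [i1]; group
    refine (mul_inv_eq_iff_eq_mul.1 ?_).symm
    calc _ = c.u * (c.σ * a * c.σ⁻¹) * c.u⁻¹ := by group
      _ = (c.u * a * c.u⁻¹)⁻¹ := by rw [i2]; group
      _ = _ := by rw [i a ha, inv_inv]
  have lV := (c.lτ.smul c.lq).smul (c.lτ.sinv rfl)
  have lY := (lV.sinv rfl).swap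
  have h5 := mul_mem (hD (hC (lV.sinv rfl)) _ h4) (inv_mem h4)
  rw [show ∀ s, s * (c.u * c.σ) * s⁻¹ * (c.u * c.σ)⁻¹ = s * (c.u * (c.σ * s⁻¹ * c.σ⁻¹)) * c.u⁻¹ from
    fun s => by group, ← lY.cu, ← mul_assoc, mul_inv_cancel_right] at h5
  have lX := lV.bmul lY
  have h6 := mul_mem (hD (hC (c.lq.sinv rfl)) _ h5) (inv_mem h5)
  rw [(((c.lq.bmul lX).bmul (c.lq.sinv rfl)).bmul (lX.binv rfl rfl)).seq c.lu rfl rfl] at h6
  have h7 : O ⊓ c.N ≤ c.W := fun g hg => by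
    obtain ⟨f, hf⟩ := ac_of_mem hg.2
    obtain ⟨v, e⟩ := (hf.mul c.lz.2).eq ((c.lz.2.mul hf).congr fun v => by
      simp only [Function.comp, bm, ap_mn]; exact (map_neg f v).symm)
    have hv : c.w (-v) ∈ c.W := ⟨_, rfl⟩
    have m : g * c.w (-v) ∈ C := ⟨⟨mul_mem hg.1 (hW hv), mul_mem hg.2 (le_normalizer hv)⟩,
      mem_centralizer_singleton_iff.2 (by
        rw [mul_assoc, ← c.az, mul_assoc, inv_mul_cancel, mul_one, ← mul_assoc, e, mul_assoc, ← c.add,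
          ← mul_assoc, (v4_add v).2, c.az])⟩
    exact (mul_mem_cancel_right hv).1 (h3 _ m (h6 _ m).symm ▸ one_mem _)
  have h8 : O ≤ c.N := burn pW hW (fun Q hQ h1 h2 => by
      by_contra hn
      obtain ⟨x, x1, x2, x3⟩ := Inv.exists_mem_normalizer_of_lt_pGroup hQ (lt_of_le_not_ge h1 hn)
      exact x3 (h7 ⟨h2 x1, x2⟩))
    (fun g g1 g2 x hx => by
      obtain ⟨a, rfl⟩ := h7 ⟨g1, g2⟩
      obtain ⟨b, rfl⟩ := hx
      exact c.w_comm _ _)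
    (pW.to_le E_le) ncE (by rw [normalizer_eq_top]; exact le_top)
    (fun e he h1 => inf_le_right.trans (cE he h1)) le_normalizer
  rw [N, show c.W = O from le_antisymm hW ((le_inf le_rfl h8).trans h7), normalizer_eq_top]
  trivial

end CL.He9.Cfg
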