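import Cfsg.Agent.CLAS.L3Max4

/-!
# Maximal subgroups in dimension three: witnesses
-/

set_option autoImplicit false

namespace CL.L3

open Matrix Cfsg Cfsg.Geo CL.Asch CL.ElusL CL.Heis3

variable {F : Type*} [Field F]

theorem max_cj {S H : Subgroup (G3 F)} {P : G3 F} (hS : cj P S = S) (hne : ¬ S ≤ cj P H)
    (h : ¬ S ≤ H → IsMaximalIn S H) : IsMaximalIn S (cj P H) := by
  have h := h fun e => hne (hS.ge.trans (cj_mono P e))
  refine ⟨lt_of_le_not_ge ((cj_mono P h.1.le).trans hS.le) hne, fun K h1 h2 => ?_⟩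
  have e : ∀ A : Subgroup (G3 F), cj P (cj P⁻¹ A) = A := fun A => by rw [cj_cj, mul_inv_cancel, cj_one]
  refine (h.2 (cj P⁻¹ K) (le_cj_inv h1) ?_).imp (fun a => by rw [← a, e]) fun a => by rw [← e K, a, hS]
  simpa only [cj_cj, inv_mul_cancel, cj_one] using cj_mono P⁻¹ (h2.trans hS.ge)

theorem IS.mono {σ : F →+* F} {M N : Subgroup (G3 F)} (h : IS σ M) (hN : N ≤ M) : IS σ N :=
  ⟨fun g hg => h.ex g (hN hg), fun g hg => h.pow g (hN hg), fun g hg k hk => h.comm g (hN hg) k (hN hk)⟩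

theorem T_mem_S3 : T F ∈ S3 F := mem_SL.2 det_T

theorem P_mem_S3 : P F ∈ S3 F := mem_SL.2 det_P

theorem not_field [Fintype F] {H : Subgroup (G3 F)} (hT : T F ∈ H) {K : Subalgebra F (Matrix (Fin 3) (Fin 3) F)}
    (hK : IsFieldSubalgebra 3 K) : ¬ H ≤ subalgebraNormalizer K := fun h =>
  T_ne_one (invol_eq_one hK (h hT) T_mem_S3 T_mul_T)

theorem tr_su {σ : F →+* F} (hσ : ∀ a, σ (σ a) = a) {g : G3 F} (h : g ∈ isoGrp σ 1) : tr g⁻¹ = σ (tr g) := by
  rw [tr_of_isSim (herm_one hσ) h, one_mul, hσ]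

/-- Diagonal matrices of determinant one. -/
noncomputable def d3 (a b : Fˣ) : G3 F :=
  glOfDet (diagonal ![(a * b)⁻¹.1, a, b]) (by simp [Fin.prod_univ_three])

theorem d3_mem (a b : Fˣ) : d3 a b ∈ S3 F := glOfDet_mem_S3 _ _

theorem d3_mul (a b c d : Fˣ) : d3 (a * c) (b * d) = d3 a b * d3 c d := Units.ext (by
  simp only [d3, glOfDet, Units.val_mul, GeneralLinearGroup.val_mkOfDetNeZero, diagonal_mul_diagonal]
  congr 1; ext i; fin_cases i <;> simp; ring)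

theorem d3_inj {a b c d : Fˣ} (h : d3 a b = d3 c d) : a = c ∧ b = d :=
  ⟨Units.ext (by simpa [d3, glOfDet] using congrArg (fun g : G3 F => g.1 1 1) h),
    Units.ext (by simpa [d3, glOfDet] using congrArg (fun g : G3 F => g.1 2 2) h)⟩

theorem d3_iso {σ : F →+* F} {a b : Fˣ} (ha : a * σ a = 1) (hb : b * σ b = 1) : d3 a b ∈ suG σ 1 :=
  ⟨dg_mem_iso rfl (by
    rw [Units.val_inv_eq_inv_val, map_inv₀, ← mul_inv, Units.val_mul, map_mul, mul_mul_mul_comm, ha, hb]; simp)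
    ha hb, d3_mem a b⟩

theorem irr_d3 {H : Subgroup (G3 F)} (hP : P F ∈ H) {a : Fˣ} (h : d3 a a⁻¹ ∈ H) (h1 : a ≠ 1) : Irr H :=
  irr_diag hP h rfl (by simpa [eq_comm] using h1) (by simpa [eq_comm] using h1)

theorem neg_one_ne (h2 : (2 : F) ≠ 0) : (-1 : Fˣ) ≠ 1 := fun e => h2 (by
  have : (-1 : F) = 1 := congrArg Units.val e
  linear_combination -this)

theorem not_ie (h2 : (2 : F) ≠ 0) {H : Subgroup (G3 F)} (h1 : d3 (-1) 1 ∈ H) (h3 : d3 1 (-1) ∈ H) : ¬ IE H :=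
  fun h => by
    have e : d3 (1 : Fˣ) 1 = 1 := mul_left_cancel (a := d3 1 1) (by rw [← d3_mul, mul_one, mul_one])
    have := neg_one_ne h2
    rcases h.four _ h1 _ h3 (by simp [← d3_mul, e]) (by simp [← d3_mul, e]) (by simp [← d3_mul]) with h | h | h
    exacts [this (d3_inj (h.trans e.symm)).1, this (d3_inj (h.trans e.symm)).2, this (d3_inj h).1]

theorem tr_d3 (a : Fˣ) : tr (d3 a a⁻¹) = 1 + a + a⁻¹ ∧ tr (d3 a a⁻¹)⁻¹ = 1 + a + a⁻¹ := by
  rw [tr_inv3 (d3_mem _ _)]; simp [tr, d3, glOfDet, Fin.sum_univ_three]; ring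

theorem tr_d3T (a : Fˣ) : tr (d3 a⁻¹ 1 * T F) = -a ∧ tr (d3 a⁻¹ 1 * T F)⁻¹ = -a⁻¹ := by
  rw [tr_inv3 (mul_mem (d3_mem _ _) T_mem_S3)]; simp [tr, d3, glOfDet, diag3, coe_T, trace_fin_three]

theorem ID.orderOf_le [Finite F] {F₀ : Subfield F} {H : Subgroup (G3 F)} (h : ID F₀ H) {a : Fˣ}
    (ha : d3 a a⁻¹ ∈ H) : orderOf a ≤ Nat.card F₀ + 1 := by
  have h1 := h.self _ ha ((tr_d3 a).1.trans (tr_d3 a).2.symm)
  have h2 := pow_card_of_mem (F₀.sub_mem ((tr_d3 a).1 ▸ h1) F₀.one_mem)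
  obtain ⟨p, hp⟩ := CharP.exists F
  have := Fintype.ofFinite F₀
  obtain ⟨n, hn, e⟩ := FiniteField.card F₀ p
  have := Fact.mk hn
  have h3 := Finite.one_lt_card (α := F₀)
  rw [add_assoc, add_sub_cancel_left, Nat.card_eq_fintype_card, e, add_pow_char_pow, ← e,
    ← Nat.card_eq_fintype_card, Units.val_inv_eq_inv_val, inv_pow] at h2
  have a0 := a.ne_zero
  have : a.1 ^ Nat.card F₀ = a ∨ a.1 ^ Nat.card F₀ * a = 1 := by
    have := pow_ne_zero (Nat.card F₀) a0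
    generalize a.1 ^ Nat.card F₀ = b at *
    grind
  rcases this with e | e
  · refine (orderOf_le_of_pow_eq_one (n := Nat.card F₀ - 1) (by omega) (Units.ext ?_)).trans (by omega)
    exact mul_right_cancel₀ a0 (by
      rw [Units.val_pow_eq_pow_val, ← pow_succ, Nat.sub_add_cancel h3.le, e, Units.val_one, one_mul])
  · exact orderOf_le_of_pow_eq_one (by omega) (Units.ext (by rw [pow_succ]; simpa using e))

theorem sq_dvd {H : Subgroup (G3 F)} {A : Subgroup Fˣ} (h : ∀ a ∈ A, ∀ b ∈ A, d3 a b ∈ H) :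
    Nat.card A ^ 2 ∣ Nat.card H := by
  rw [sq, ← Nat.card_prod]
  exact Subgroup.card_dvd_of_injective (MonoidHom.mk' (fun x : A × A => (⟨_, h _ x.1.2 _ x.2.2⟩ : H))
    fun x y => Subtype.ext (d3_mul _ _ _ _)) fun x y e =>
    Prod.ext (Subtype.ext (d3_inj (congrArg Subtype.val e)).1) (Subtype.ext (d3_inj (congrArg Subtype.val e)).2)

theorem D_eq {ω : F} (h : W ω) : D h = d3 (.mk0 ω h.ne_zero) (.mk0 ω h.ne_zero ^ 2) := Units.ext (by
  simp [d3, glOfDet, coe_D, ← mul_inv, ← pow_succ, h.cube])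

theorem IS.not_fixed {σ : F →+* F} {H : Subgroup (G3 F)} (h : IS σ H) {ω : F} (hω : W ω) (hD : D hω ∈ H)
    (hP : P F ∈ H) : σ ω ≠ ω := fun e => by
  have := h.comm _ hD _ hP
  rw [(comm_DP hω).1, (comm_DP hω).2, map_mul, map_pow, e, map_ofNat] at this
  have := hω.2
  have := hω.ne_zero
  have := hω.ne_one
  grind

theorem ID.mem {F₀ : Subfield F} {H : Subgroup (G3 F)} (h : ID F₀ H) {ω : F} (hω : W ω) (hD : D hω ∈ H)
    (hP : P F ∈ H) : ω ∈ F₀ := by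
  have := F₀.div_mem ((comm_DP hω).1 ▸ h.comm _ hD _ hP) (natCast_mem F₀ 3)
  rwa [Nat.cast_ofNat, mul_div_cancel_left₀ _ hω.2] at this

/-- Companion matrices. -/
noncomputable def comp (a b : F) : G3 F := glOfDet !![0, 0, 1; 1, 0, -b; 0, 1, a] (by simp [det_fin_three])

theorem tr_comp (a b : F) : tr (comp a b) = a ∧ tr (comp a b)⁻¹ = b := by
  rw [comp, tr_inv3 (glOfDet_mem_S3 _ _)]; simp [tr, glOfDet]

theorem card_S3 [Fintype F] : Nat.card (S3 F) =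
    Fintype.card F ^ 3 * ((Fintype.card F ^ 2 - 1) * (Fintype.card F ^ 3 - 1)) := by
  have h := CL.SL.card_SL_mul (F := F) 3 (by norm_num)
  rw [← Nat.card_congr (show S3 F ≃ _ from
    { toFun := fun g => ⟨g.1.1, mem_SL.1 g.2⟩
      invFun := fun g => ⟨SpecialLinearGroup.toGL g, mem_SL.2 g.2⟩
      left_inv := fun _ => Subtype.ext (Units.ext rfl)
      right_inv := fun _ => rfl }), Fin.prod_univ_three] at h
  have h1 := Fintype.one_lt_card (α := F)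
  generalize Fintype.card F = q at *
  refine Nat.eq_of_mul_eq_mul_left (show 0 < q - 1 by omega) (h.trans ?_)
  have := Nat.one_le_pow 2 q (by omega)
  have := Nat.one_le_pow 3 q (by omega)
  have : q ≤ q ^ 3 := Nat.le_self_pow (by simp) q
  have : q ^ 2 ≤ q ^ 3 := Nat.pow_le_pow_right (by omega) (by simp)
  simp only [Fin.val_zero, Fin.val_one, Fin.val_two, pow_zero, pow_one]
  zify [*, h1.le]; ring

theorem card_dvd_gm {F₀ : Subfield F} {A : Subgroup (G3 F₀)} {H : Subgroup (G3 F)} (h : ∀ g ∈ A, gm F₀ g ∈ H) :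
    Nat.card A ∣ Nat.card H :=
  Subgroup.card_map_of_injective (gm_injective F₀) ▸ Subgroup.card_dvd_of_le (Subgroup.map_le_iff_le_comap.2 h)

theorem card_sub_dvd [Fintype F] (F₀ : Subfield F) : Nat.card F₀ ∣ Fintype.card F :=
  Nat.card_eq_fintype_card (α := F) ▸ F₀.toAddSubgroup.card_addSubgroup_dvd_card

/-! ### Arithmetic of Singer cycles -/

theorem singer_num {l n : ℕ} (h : l + n = n ^ 2 + 1) (hn : 3 ≤ n) : ¬ l ∣ 18 ∧ ¬ l ∣ 1080 ∧
    (l ∣ 504 → n = 3 ∨ n = 5) ∧ ∃ r, r.Prime ∧ r ≠ 2 ∧ r ≠ 3 ∧ r ∣ l := by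
  have k : ∀ m, 0 < m → m ≤ 1080 → l ∣ m → n ≤ 33 := fun m a b c => by nlinarith [Nat.le_of_dvd a c]
  obtain rfl : l = n ^ 2 + 1 - n := by omega
  refine ⟨fun a => ?_, fun a => ?_, fun a => ?_, ?_⟩
  any_goals
    have := k _ (by norm_num) (by norm_num) a
    interval_cases n <;> simp_all
  generalize n ^ 2 + 1 - n = l at *
  have h7 : 7 ≤ l := by nlinarith
  obtain ⟨h2, h9⟩ : ¬ 2 ∣ l ∧ ¬ 9 ∣ l := by
    obtain ⟨a, b, hb, rfl⟩ : ∃ a b, b < 18 ∧ n = 18 * a + b := ⟨n / 18, n % 18, by omega, by omega⟩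
    interval_cases b <;> ring_nf at h <;> omega
  by_cases h3 : 3 ∣ l
  · obtain ⟨m, rfl⟩ := h3
    have := m.minFac_dvd
    exact ⟨_, Nat.minFac_prime (by omega), fun e => by rw [e] at this; omega, fun e => by rw [e] at this; omega,
      this.mul_left _⟩
  · have := l.minFac_dvd
    exact ⟨_, Nat.minFac_prime (by omega), fun e => h2 (e ▸ this), fun e => h3 (e ▸ this), this⟩

theorem IE.not_dvd [Finite F] {H : Subgroup (G3 F)} (h : IE H) {x : G3 F} (hx : x ∈ H) {r : ℕ} (hr : r.Prime)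
    (h2 : r ≠ 2) (h3 : r ≠ 3) : ¬ r ∣ orderOf x := fun e => by
  have := orderOf_pow_orderOf_div (orderOf_pos x).ne' e
  rw [h.prime _ (pow_mem hx _) r hr h2 h3 (orderOf_dvd_iff_pow_eq_one.1 this.dvd), orderOf_one] at this
  exact hr.ne_one this.symm

/-! ### Isometry groups over subfields -/

/-- `H` contains the special isometry group of the standard form over `F₀`. -/
structure FR {σ : F →+* F} {q : ℕ} (hσ : ∀ a, σ a = a ^ q) (F₀ : Subfield F) (H : Subgroup (G3 F)) : Prop where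
  invol : ∀ a, σ (σ a) = a
  good : (¬ ∀ a, res hσ F₀ a = a) ∨ (2 : F₀) ≠ 0
  mem : ∀ g ∈ suG σ 1, (∀ i j, g.1 i j ∈ F₀) → g ∈ H

namespace FR

variable [Fintype F] {σ : F →+* F} {q : ℕ} {hσ : ∀ a, σ a = a ^ q} {F₀ : Subfield F} {H : Subgroup (G3 F)}
  (h : FR hσ F₀ H)
include h

theorem invol' (a : F₀) : res hσ F₀ (res hσ F₀ a) = a := Subtype.ext (h.invol a)

theorem gm {g : G3 F₀} (hg : g ∈ suG (res hσ F₀) 1) : gm F₀ g ∈ H :=
  h.mem _ (gm_mem_su hσ hg) fun i j => (g.1 i j).2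

theorem P : P F ∈ H := h.mem _ ⟨P_mem_iso σ, P_mem_S3⟩ fun i j => by
  fin_cases i <;> fin_cases j <;> simp [coe_P]

theorem T : T F ∈ H := h.mem _ ⟨T_mem_iso σ, T_mem_S3⟩ fun i j => by
  fin_cases i <;> fin_cases j <;> simp [coe_T]

theorem d3 {a b : Fˣ} (ha : a * σ a = 1) (hb : b * σ b = 1) (ha' : a.1 ∈ F₀) (hb' : b.1 ∈ F₀) : d3 a b ∈ H :=
  h.mem _ (d3_iso ha hb) fun i j => by
    fin_cases i <;> fin_cases j <;> simp [L3.d3, glOfDet, F₀.mul_mem, *]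

theorem irr : Irr H := by
  obtain ⟨a, a1, h1, h2⟩ : ∃ a : Fˣ, a ≠ 1 ∧ a * σ a = 1 ∧ a.1 ∈ F₀ := by
    rcases h.good with e | e
    · obtain ⟨b, hb⟩ := not_forall.1 e
      have hb : σ b ≠ b := fun e => hb (Subtype.ext e)
      have b0 : b.1 ≠ 0 := fun e => hb (by rw [e, map_zero])
      refine ⟨.mk0 (σ b / b) (by simp [b0]), fun e => hb ((div_eq_one_iff_eq b0).1 (congrArg Units.val e)), ?_,
        F₀.div_mem (res hσ F₀ b).2 b.2⟩
      simp [h.invol, b0]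
    · exact ⟨-1, neg_one_ne fun a => e (Subtype.ext a), by simp, by simp⟩
  exact irr_d3 h.P (h.d3 h1 (by simp [← mul_inv, h1]) h2 (by simp [h2])) a1

theorem not_ie (h2 : (2 : F) ≠ 0) : ¬ IE H :=
  L3.not_ie h2 (h.d3 (by simp) (by simp) (by simp) (by simp)) (h.d3 (by simp) (by simp) (by simp) (by simp))

theorem exists_tr {t : F} (ht : t ∈ F₀) : ∃ g ∈ H, tr g = t ∧ tr g⁻¹ = σ t := by
  obtain ⟨g, hg, e⟩ := L3.exists_tr h.good h.invol' ⟨t, ht⟩
  exact ⟨_, h.gm hg, by rw [tr_gm, e], by rw [tr_su h.invol (gm_mem_su hσ hg).1, tr_gm, e]⟩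

theorem card_dvd (e : ∀ a, res hσ F₀ a = a) : Nat.card F₀ ∣ Nat.card H := by
  have := Fintype.ofFinite F₀
  rw [Nat.card_eq_fintype_card]
  exact (card_dvd_so (h.good.resolve_left (not_not.2 e))).trans (card_dvd_gm fun g hg =>
    h.gm (by rwa [show res hσ F₀ = RingHom.id _ from RingHom.ext e]))

theorem uni (e : ¬ ∀ a, res hσ F₀ a = a) : ∃ s, 2 ≤ s ∧ Nat.card F₀ = s ^ 2 ∧ (∀ a ∈ F₀, σ a = a ^ s) ∧
    s ^ 3 * ((s ^ 2 - 1) * (s ^ 3 + 1)) ∣ Nat.card H := by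
  have := Fintype.ofFinite F₀
  obtain ⟨s, hs, h1⟩ := invol_pow h.invol' e
  refine ⟨s, two_le_q hs h1, Nat.card_eq_fintype_card.trans hs, fun a ha => congrArg Subtype.val (h1 ⟨a, ha⟩), ?_⟩
  rw [← card_SU3' hs, GU_eq hs, ← show res hσ F₀ = Uni.sig hs from RingHom.ext h1]
  exact card_dvd_gm fun g => h.gm

theorem le {F₁ : Subfield F} (h1 : ID F₁ H) : F₀ ≤ F₁ := by
  by_cases e : ∀ a, res hσ F₀ a = a
  · intro t ht
    obtain ⟨g, hg, rfl, a⟩ := h.exists_tr ht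
    exact h1.self g hg (a.trans (congrArg Subtype.val (e ⟨_, ht⟩))).symm
  refine (le_of_cubes fun t ht => ?_).elim id fun h4 t ht => ?_
  · obtain ⟨g, hg, rfl, -⟩ := h.exists_tr ht
    exact h1.cube g hg
  obtain ⟨s, -, hs, h2, -⟩ := h.uni e
  obtain rfl : 2 = s := Nat.pow_left_injective two_ne_zero (h4.symm.trans hs)
  have h3 := pow_card_of_mem ht
  rw [h4] at h3
  by_cases t0 : t = 0
  · exact t0 ▸ F₁.zero_mem
  by_cases t1 : t = 1
  · exact t1 ▸ F₁.one_mem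
  have w := w_of_cube (mul_left_cancel₀ t0 (by linear_combination h3)) t1
  exact h1.mem w (h.mem _ ⟨(c6_iso w (h2 t ht)).D, mem_SL.2 (det_D w)⟩ fun i j => by
    fin_cases i <;> fin_cases j <;> simp [coe_D, ht, F₀.pow_mem]) h.P

theorem not_ib (h5 : (∀ a, res hσ F₀ a = a) → 5 ≤ Nat.card F₀) : ¬ IB H := fun hb => by
  by_cases e : ∀ a, res hσ F₀ a = a
  · have := h5 e
    have := hb.pow_dvd (h.card_dvd e) (k := 1) (by simpa using card_sub_dvd F₀)
    have := Nat.le_of_dvd (by norm_num) this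
    have := Fintype.ofFinite F₀
    have := Nat.card_eq_fintype_card (α := F₀) ▸ card_ne_six (F := F₀)
    interval_cases Nat.card F₀ <;> omega
  · obtain ⟨s, h1, hs, -, h2⟩ := h.uni e
    have := Nat.le_of_dvd (by norm_num) (hb.pow_dvd ((dvd_mul_right _ _).trans h2) (k := 2)
      ((pow_dvd_pow s (by norm_num : 3 ≤ 2 * 2)).trans (by
        rw [pow_mul, ← hs]; exact pow_dvd_pow_of_dvd (card_sub_dvd F₀) 2)))
    have := Nat.pow_le_pow_left h1 3
    omega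

theorem small (e : ¬ ∀ a, res hσ F₀ a = a) :
    ¬ Nat.card H ∣ 3 * 168 ∧ (Nat.card H ∣ 3 * 360 → 216 ∣ Nat.card H) := by
  obtain ⟨s, h1, -, -, h2⟩ := h.uni e
  rcases h1.eq_or_lt with rfl | h1
  · exact ⟨fun a => absurd (h2.trans a) (by norm_num), fun _ => h2⟩
  have := Nat.mul_le_mul (Nat.pow_le_pow_left h1 3) (Nat.mul_le_mul (Nat.sub_le_sub_right
    (Nat.pow_le_pow_left h1 2) 1) (Nat.add_le_add_right (Nat.pow_le_pow_left h1 3) 1))
  exact ⟨fun a => absurd (this.trans (Nat.le_of_dvd (by norm_num) (h2.trans a))) (by norm_num),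
    fun a => absurd (this.trans (Nat.le_of_dvd (by norm_num) (h2.trans a))) (by norm_num)⟩

end FR

end CL.L3
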