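/-
Overgroups of the stabiliser of a pair of complementary totally singular subspaces of dimension
at least three, in symplectic (odd characteristic) and unitary spaces.
-/
import Cfsg.Agent.CLAS.MaxPair

set_option autoImplicit false

namespace CL.Root

open Module CL.Witt CL.Witt.Form CL.Tv

variable {F : Type*} [Field F] {T : FormType F} {V : Type*} [AddCommGroup V] [Module F V]
  {f : Form T V} {K : Subgroup (V ≃ₗ[F] V)}

theorem eq_zero_of_forall_σ (hπ : ∀ a, T.π a = 0 → ∃ c, a = c - T.ε * T.σ c)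
    (htv : ∃ a : F, a ≠ 0 ∧ T.π a = 0) {c : F} (h : ∀ l, T.σ (l * c) = T.ε * (l * c)) : c = 0 := by
  obtain ⟨a, ha0, ha⟩ := htv
  obtain ⟨d, rfl⟩ := hπ a ha
  by_contra hc
  have := h (T.σ d / c)
  rw [div_mul_cancel₀ _ hc, T.σσ] at this
  exact ha0 (by linear_combination this)

theorem exists_mem_perp_pair [FiniteDimensional F V] (hf : f.Nondeg) {D : Submodule F V}
    (h3 : 3 ≤ finrank F D) (x y : V) : ∃ v ∈ D, v ≠ 0 ∧ f.B x v = 0 ∧ f.B y v = 0 := by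
  by_contra! H
  have h0 : D ⊓ f.perp (Submodule.span F {x, y}) = ⊥ := by
    rw [eq_bot_iff]
    rintro v ⟨hv, hv'⟩
    obtain ⟨h1, h2⟩ := f.mem_perp_span_pair.1 hv'
    by_contra h
    exact H v hv h h1 h2
  have h2 := finrank_span_pair_le (F := F) x y
  have h4 := hf.finrank_add_finrank_perp (Submodule.span F {x, y})
  have h6 := Submodule.finrank_sup_add_finrank_inf_eq D (f.perp (Submodule.span F {x, y}))
  have h7 := Submodule.finrank_le (D ⊔ f.perp (Submodule.span F {x, y}))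
  rw [h0, finrank_bot] at h6
  omega

/-- An overgroup of the stabiliser of the pair not containing `E`. -/
structure PairOv (f : Form T V) (D₀ D₁ : Submodule F V) (K : Subgroup (V ≃ₗ[F] V)) : Prop where
  ts : TSPair f D₀ D₁
  hf : f.Nondeg
  h3 : 3 ≤ finrank F D₀
  hπ : ∀ a, T.π a = 0 → ∃ c, a = c - T.ε * T.σ c
  htv : ∃ a : F, a ≠ 0 ∧ T.π a = 0
  hKO : K ≤ f.O
  hM : ∀ u ∈ D₀, ∀ v ∈ D₁, f.B u v = 0 → f.ei u v 0 ∈ K
  swap : ∃ s ∈ K, (∀ x ∈ D₀, s x ∈ D₁) ∧ ∀ x ∈ D₁, s x ∈ D₀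
  hE : ¬ f.E ≤ K

namespace PairOv

variable [FiniteDimensional F V] {D₀ D₁ : Submodule F V} (h : PairOv f D₀ D₁ K)
include h

theorem symm : PairOv f D₁ D₀ K :=
  ⟨h.ts.symm, h.hf, by rw [h.ts.finrank_eq h.hf]; exact h.h3, h.hπ, h.htv, h.hKO,
    h.ts.hM_symm h.hM, let ⟨s, hs, h0, h1⟩ := h.swap; ⟨s, hs, h1, h0⟩, h.hE⟩

theorem pr_mem_of_rad {u w : V} (hu : u ∈ D₀) (hu0 : u ≠ 0) (hr : Rad f K u w) :
    h.ts.pr w ∈ F ∙ u := by
  by_contra hw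
  obtain ⟨s, hs, hs₀, -⟩ := h.swap
  have hB : f.B u (w - h.ts.pr w) = 0 := by rw [h.ts.B_sub_pr hu, hr.B_eq]
  have r2 : Rad f K u (w - h.ts.pr w) :=
    ⟨0, h.ts.ok hu (h.ts.sub_pr_mem w) hB, h.hM u hu _ (h.ts.sub_pr_mem w) hB⟩
  have r3 := hr.sub r2
  rw [sub_sub_cancel] at r3
  exact h.hE (h.ts.E_le_of_U h.hf h.hKO h.hM hs hs₀ hu hu0
    (h.ts.U_le_of_rad h.hf h.h3 h.hπ h.hM hu hu0 (h.ts.pr_mem w) hw r3))

theorem eq_zero_of_tv {u : V} (hu : u ∈ D₀) (hu0 : u ≠ 0) {a : F} (ha : T.π a = 0)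
    (hK : f.ei u 0 a ∈ K) : a = 0 := by
  by_contra ha0
  obtain ⟨w, hw, hw'⟩ := h.ts.exists_notMem h.hf h.h3 u u
  have hw0 : w ≠ 0 := by rintro rfl; exact hw' (Submodule.zero_mem _)
  have huw : ∀ c : F, c ≠ 0 → c • u ∉ F ∙ w := by
    intro c hc h'
    obtain ⟨d, hd⟩ := Submodule.mem_span_singleton.1 h'
    have hd0 : d ≠ 0 := by
      rintro rfl
      exact smul_ne_zero hc hu0 (by rw [← hd, zero_smul])
    refine hw' (Submodule.mem_span_pair.2 ⟨d⁻¹ * c, 0, ?_⟩)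
    rw [mul_smul, ← hd, smul_smul, inv_mul_cancel₀ hd0]; simp
  obtain ⟨v, hv, hv1, hv2⟩ := h.ts.exists_dual h.hf (H := F ∙ w)
    ((Submodule.span_singleton_le_iff_mem w D₀).2 hw) hu (by simpa using huw 1 one_ne_zero) 1
  have hwv : f.B w v = 0 := hv1 w (Submodule.mem_span_singleton_self w)
  have r := rad_of_transvection (h.ts.ts₀.1 u hu) ha hK
    (⟨0, h.ts.ok hw hv hwv, h.hM w hw v hv hwv⟩ : Rad f K w v) (h.ts.ts₀.2 w hw u hu)
  have := h.pr_mem_of_rad hw hw0 r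
  rw [h.ts.pr_of_mem (D₀.smul_mem _ hu), hv2, mul_one] at this
  exact huw _ (mul_ne_zero T.ε_ne_zero ha0) this

omit [FiniteDimensional F V] in
theorem conj_mem {g : V ≃ₗ[F] V} (hg : g ∈ K) {u v : V} (hu : u ∈ D₀) (hv : v ∈ D₁)
    (huv : f.B u v = 0) : f.ei (g u) (g v) 0 ∈ K := by
  rw [← (h.ts.ok hu hv huv).conj_ei (h.hKO hg)]
  exact K.mul_mem (K.mul_mem hg (h.hM u hu v hv huv)) (K.inv_mem hg)

theorem map_mem_of_perp {g : V ≃ₗ[F] V} (hg : g ∈ K) {u v : V} (hu : u ∈ D₀) (hu0 : u ≠ 0)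
    (hgu : g u ∈ D₀) (hv : v ∈ D₁) (huv : f.B u v = 0) : g v ∈ D₁ := by
  have hgu0 : g u ≠ 0 := by simpa using hu0
  have ok := (h.ts.ok hu hv huv).map (h.hKO hg)
  obtain ⟨c, hc⟩ := Submodule.mem_span_singleton.1
    (h.pr_mem_of_rad hgu hgu0 ⟨0, ok, h.conj_mem hg hu hv huv⟩)
  rw [← h.ts.pr_eq_zero_iff, ← hc, eq_zero_of_forall_σ h.hπ h.htv (c := c) fun l => ?_, zero_smul]
  have hb : l • (g v - h.ts.pr (g v)) ∈ D₁ := D₁.smul_mem _ (h.ts.sub_pr_mem _)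
  have hB : f.B (g u) (l • (g v - h.ts.pr (g v))) = 0 := by
    rw [f.B_smul_right, h.ts.B_sub_pr hgu, ok.huv, mul_zero]
  have ok1 := h.ts.ok hgu hb hB
  have hd : T.π (T.σ (l * c) - T.ε * (l * c)) = 0 := by
    have := T.π_sub_symm (T.σ (l * c))
    rwa [T.σσ] at this
  have ok2 : f.EichOK (g u) 0 (T.σ (l * c) - T.ε * (l * c)) :=
    ⟨ok.hu, f.B_zero_right _, by rw [hd, f.q_zero]⟩
  have k1 := h.conj_mem hg hu (D₁.smul_mem l hv) (by rw [f.B_smul_right, huv, mul_zero])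
  have e : g (l • v) = l • (g v - h.ts.pr (g v)) + (l * c) • g u := by
    rw [map_smul, ← hc]; module
  rw [e, ok1.ei_add_smul_u] at k1
  have e2 := ok1.ei_mul ok2
  rw [add_zero, f.B_zero_right, add_zero] at e2
  rw [← e2] at k1
  have := h.eq_zero_of_tv hgu hgu0 hd ((K.mul_mem_cancel_left (h.hM _ hgu _ hb hB)).1 k1)
  exact sub_eq_zero.1 this

theorem stab_of_point {g : V ≃ₗ[F] V} (hg : g ∈ K) {u : V} (hu : u ∈ D₀) (hu0 : u ≠ 0)
    (hgu : g u ∈ D₀) : (∀ x ∈ D₀, g x ∈ D₀) ∧ ∀ y ∈ D₁, g y ∈ D₁ := by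
  have a : ∀ x ∈ D₀, g x ∈ D₀ := by
    intro x hx
    obtain ⟨v, hv, hv0, h1, h2⟩ := exists_mem_perp_pair h.hf h.symm.h3 u x
    exact h.symm.map_mem_of_perp hg hv hv0 (h.map_mem_of_perp hg hu hu0 hgu hv h1) hx
      (f.B_eq_zero_symm h2)
  refine ⟨a, fun y hy => ?_⟩
  obtain ⟨x, hx, hx0, h1, -⟩ := exists_mem_perp_pair h.hf h.h3 y y
  exact h.map_mem_of_perp hg hx hx0 (a x hx) hy (f.B_eq_zero_symm h1)

theorem swap_of_point {g : V ≃ₗ[F] V} (hg : g ∈ K) {u : V} (hu : u ∈ D₁) (hu0 : u ≠ 0)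
    (hgu : g u ∈ D₀) : (∀ x ∈ D₀, g x ∈ D₁) ∧ ∀ y ∈ D₁, g y ∈ D₀ := by
  obtain ⟨s, hs, hs₀, hs₁⟩ := h.swap
  obtain ⟨a1, a0⟩ := h.symm.stab_of_point (K.mul_mem hs hg) hu hu0 (hs₀ _ hgu)
  have key : ∀ {D D' : Submodule F V} (p : TSPair f D D'), (∀ x ∈ D, s x ∈ D') →
      (∀ x ∈ D', s x ∈ D) → ∀ z, s z ∈ D → z ∈ D' := by
    intro D D' p b0 b1 z hz
    have h1 := D.sub_mem hz (b1 _ (p.sub_pr_mem z))
    rw [← map_sub, sub_sub_cancel] at h1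
    have := Submodule.disjoint_def.1 p.compl.disjoint _ h1 (b0 _ (p.pr_mem z))
    rw [← p.pr_eq_zero_iff]
    simpa using this
  exact ⟨fun x hx => key h.ts hs₀ hs₁ _ (a0 x hx), fun y hy => key h.ts.symm hs₁ hs₀ _ (a1 y hy)⟩

omit [FiniteDimensional F V] in
theorem mem_of_perp {a : V} (ha : ∀ v ∈ D₀, f.B a v = 0) : a ∈ D₀ := by
  have : a - h.ts.pr a = 0 := by
    refine h.hf _ fun y => ?_
    have e : y = h.ts.pr y + (y - h.ts.pr y) := by abel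
    rw [e, f.B_add_right, h.ts.ts₁.2 _ (h.ts.sub_pr_mem a) _ (h.ts.sub_pr_mem y), f.B_sub_left,
      ha _ (h.ts.pr_mem y), h.ts.ts₀.2 _ (h.ts.pr_mem a) _ (h.ts.pr_mem y)]
    simp
  rw [sub_eq_zero.1 this]
  exact h.ts.pr_mem a

theorem main {g : V ≃ₗ[F] V} (hg : g ∈ K) :
    ((∀ x ∈ D₀, g x ∈ D₀) ∧ ∀ x ∈ D₁, g x ∈ D₁) ∨ ((∀ x ∈ D₀, g x ∈ D₁) ∧ ∀ x ∈ D₁, g x ∈ D₀) := by
  obtain ⟨u, hu, hu0, -⟩ := exists_mem_perp_pair h.hf h.h3 0 0
  obtain ⟨y, hy, hy0, hxy, -⟩ := exists_mem_perp_pair h.hf h.h3 (g.symm u) 0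
  obtain ⟨z, hz, hz0, hxz, hyz⟩ := exists_mem_perp_pair h.hf h.symm.h3 (g.symm u) y
  have hgO := h.hKO hg
  have hu' : ∀ t, f.B (g.symm u) t = 0 → f.B (g t) u = 0 := fun t ht => by
    apply f.B_eq_zero_symm
    rw [← mem_O_B hgO] at ht
    simpa using ht
  have key : ∀ v ∈ D₀, f.B (g y) v * f.B v (g z) = 0 := by
    intro v hv
    refine eq_zero_of_forall_σ h.hπ h.htv fun l => ?_
    have hB : f.B y (l • z) = 0 := by rw [f.B_smul_right, hyz, mul_zero]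
    have ok := (h.ts.ok hy (D₁.smul_mem l hz) hB).map hgO
    have h1 := (h.stab_of_point (h.conj_mem hg hy (D₁.smul_mem l hz) hB) hu hu0 (by
      rw [ok.ei_apply_fix (hu' y hxy) (hu' _ (by rw [f.B_smul_right, hxz, mul_zero]))]
      exact hu)).1 v hv
    have h2 := h.ts.ts₀.2 v hv _ h1
    rw [ok.ei_apply, f.B_sub_right, f.B_add_right, f.B_smul_right, f.B_smul_right, map_smul,
      f.B_smul_right, f.B_smul_left, h.ts.ts₀.2 v hv v hv, f.symm v (g z), f.symm (g y) v] at h2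
    simp only [map_mul]
    have hε := T.εε
    linear_combination (-T.ε) * h2 -
      (T.σ l * T.σ (f.B (g y) v) * T.σ (f.B v (g z))) * (T.ε * T.ε + 1) * hε
  by_cases ha : ∀ v ∈ D₀, f.B (g y) v = 0
  · exact Or.inl (h.stab_of_point hg hy hy0 (h.mem_of_perp ha))
  push Not at ha
  obtain ⟨v₀, hv₀, hv₀'⟩ := ha
  refine Or.inr (h.swap_of_point hg hz hz0 (h.mem_of_perp fun v hv => f.B_eq_zero_symm ?_))
  have b0 := (mul_eq_zero.1 (key v₀ hv₀)).resolve_left hv₀'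
  by_cases hv' : f.B (g y) v = 0
  · have := key (v + v₀) (D₀.add_mem hv hv₀)
    rw [f.B_add_right, f.B_add_left, hv', b0, zero_add, add_zero] at this
    exact (mul_eq_zero.1 this).resolve_left hv₀'
  · exact (mul_eq_zero.1 (key v hv)).resolve_left hv'

end PairOv

section Geo

open Cfsg Cfsg.Geo

variable {ι : Type} [Fintype ι] [DecidableEq ι]

/-- Maximality of the stabiliser of a pair of totally singular subspaces, `m ≥ 3`, when there are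
transvections. -/
theorem isMaximalIn_pair3 {f : Form T (ι → F)} (hf : f.Nondeg) {L : Subgroup (GL ι F)}
    (hL : ∀ g, g ∈ L ↔ act g ∈ f.E) {m : ℕ} (hm : 3 ≤ m) {D : Fin 2 → Submodule F (ι → F)}
    (hD : IsMDecomposition m D) (hts : ∀ i, f.TotSing (D i))
    (hπ : ∀ a, T.π a = 0 → ∃ c, a = c - T.ε * T.σ c) (hs : ∃ a : F, a ≠ 0 ∧ T.π a = 0) :
    IsMaximalIn L (decompositionStabilizer D ⊓ L) := by
  have h : TSPair f (D 0) (D 1) := ⟨hts 0, hts 1, isCompl_of_decomp hD⟩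
  have hr := hD.finrank_eq 0
  obtain ⟨s, hsE, hs₀, hs₁⟩ : ∃ s ∈ f.E, (∀ x ∈ D 0, s x ∈ D 1) ∧ ∀ y ∈ D 1, s y ∈ D 0 :=
    let ⟨_, ha0, ha⟩ := hs; h.exists_E_swap_of_π hf ha0 ha
  refine isMaximalIn_of_act hL act_mem_toE (fun H => ?_) ?_
  · obtain ⟨g, hg, x, hx, h0, h1⟩ := h.exists_E_not_stab hf (by omega)
    rcases (mem_toE_decomp_two hD).1 (H hg) with h2 | h2
    exacts [h1 (h2.2 x hx), h0 (h2.2 x hx)]
  rintro K h1 h2 ⟨g, hg, hg'⟩
  by_contra hE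
  refine hg' ((mem_toE_decomp_two hD).2 (PairOv.main ⟨h, hf, by omega, hπ, hs, h2.trans E_le_O,
    fun u hu v hv huv => ?_,
    ⟨s, h1 ⟨(mem_toE_decomp_two hD).2 (Or.inr ⟨hs₀, hs₁⟩), hsE⟩, hs₀, hs₁⟩, hE⟩ hg))
  have ok := h.ok hu hv huv
  refine h1 ⟨(mem_toE_decomp_two hD).2 (Or.inl ⟨fun x hx => ?_, fun x hx => ?_⟩), ei_mem_E _ _ _⟩
  · rw [ok.ei_apply_of_perp (h.ts₀.2 u hu x hx)]
    exact (D 0).sub_mem hx ((D 0).smul_mem _ hu)
  · rw [ok.ei_apply, h.ts₁.2 v hv x hx]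
    simpa using (D 1).add_mem hx ((D 1).smul_mem _ hv)

theorem isMaximalIn_pair_sp {F : Type*} [Field F] [Fintype F] {m : ℕ} (hm : 3 ≤ m)
    (hodd : Odd (Fintype.card F)) {D : Fin 2 → Submodule F (Fin m ⊕ Fin m → F)}
    (hD : IsMDecomposition m D) (hts : ∀ i, IsTotallySingularFor (sympForm m F) (D i)) :
    IsMaximalIn (spGL m F) (decompositionStabilizer D ⊓ spGL m F) := by
  have h2 := two_ne_zero_of_odd hodd
  refine isMaximalIn_pair3 (CL.Sp.spForm_nondeg m F) mem_spGL_iff_E hm hD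
    (fun i => ((CL.Sp.spForm m F).alt_totSing_iff _).2 fun u hu v hv => ?_) (fun a _ => ⟨a / 2, ?_⟩)
    ⟨1, one_ne_zero, rfl⟩
  · rw [CL.Sp.spForm_B]; exact hts i u hu v hv
  · rw [FormType.alt_ε, FormType.alt_σ]
    field_simp
    ring

theorem isMaximalIn_pair_su {F : Type*} [Field F] [Fintype F] {n q : ℕ}
    (hF : Fintype.card F = q ^ 2) (hn : 3 ≤ n) {k : ℕ} (hk : 3 ≤ k)
    {D : Fin 2 → Submodule F (Fin n → F)} (hD : IsMDecomposition k D)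
    (hts : ∀ i, IsTotallySingularFor (hermForm n F q) (D i)) :
    IsMaximalIn (GU n F q ⊓ specialLinear (Fin n) F)
      (decompositionStabilizer D ⊓ (GU n F q ⊓ specialLinear (Fin n) F)) := by
  have hσ := hermStd_ne_id hF
  refine isMaximalIn_pair3 (hermStd_nondeg hF n) (mem_SU_iff_E hF hn) hk hD
    (fun i => ((hermStd hF n).herm_totSing_iff _).2 fun u hu v hv => hts i v hv u hu)
    (fun a ha => ?_) (FormType.exists_add_σ_eq_zero hσ (conjHom_invol hF))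
  obtain ⟨τ, hτ⟩ := FormType.exists_add_σ_eq_one hσ (conjHom_invol hF)
  refine ⟨τ * a, ?_⟩
  rw [FormType.herm_π] at ha
  rw [FormType.herm_ε, FormType.herm_σ, map_mul]
  linear_combination -a * hτ + conjHom hF τ * ha

end Geo

end CL.Root
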