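/-
In characteristic two the orthogonal group is maximal in the symplectic group.
-/
import Cfsg.Agent.CLAS.RootGeo

set_option autoImplicit false

namespace CL.Root

open Module CL.Witt CL.Witt.Form CL.Tv

variable {F : Type*} [Field F] [Finite F] {V : Type*} [AddCommGroup V] [Module F V]
  [FiniteDimensional F V] {f : Form (FormType.alt F) V} {Q : Form (FormType.quad F) V}
  {K : Subgroup (V ≃ₗ[F] V)}

theorem O_le_of_quad_lt (hf : f.Nondeg) (hB : ∀ x y, Q.B x y = f.B x y) (h2 : (2 : F) = 0)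
    (hn : 7 ≤ finrank F V) (hK : Q.O ≤ K) (hKO : K ≤ f.O) {g : V ≃ₗ[F] V} (hg : g ∈ K)
    (hg' : g ∉ Q.O) : f.O ≤ K := by
  have hQ : Q.Nondeg := fun x hx => hf x fun y => by rw [← hB, hx]
  have h3 := sing3_quad Q
  have hconj : ∀ k ∈ K, ∀ v, f.tv v 1 ∈ K → f.tv (k v) 1 ∈ K := fun k hk v hv => by
    rw [← tv_conj (hKO hk)]
    exact K.mul_mem (K.mul_mem hk hv) (K.inv_mem hk)
  have h1 : ∀ v, Q.q v = 1 → f.tv v 1 ∈ K := by
    intro v hv
    apply hK
    refine (Q.quad_isIsom_iff Q (f.tv v 1 : V →ₗ[F] V)).2 fun x => ?_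
    change Q.q (f.tv v 1 x) = _
    rw [tv_apply, Q.quad_q_add, Q.quad_q_smul, hv, Q.B_smul_right, Q.quad_symm, hB]
    linear_combination (f.B v x) ^ 2 * h2
  obtain ⟨v, hv, hv'⟩ : ∃ v, Q.q v = 1 ∧ Q.q (g v) ≠ 1 := by
    by_contra! H
    apply hg'
    have H1 : ∀ v, Q.q v ≠ 0 → Q.q (g v) = Q.q v := by
      intro v hv
      obtain ⟨b, hb⟩ := exists_sq_eq_of_two_eq_zero h2 (Q.q v)⁻¹
      have := H (b • v) (by rw [Q.quad_q_smul, sq, hb, inv_mul_cancel₀ hv])
      rw [map_smul, Q.quad_q_smul, sq, hb] at this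
      field_simp at this
      exact this
    refine (Q.quad_isIsom_iff Q (g : V →ₗ[F] V)).2 fun x => ?_
    change Q.q (g x) = _
    by_cases hx : Q.q x = 0
    · obtain ⟨w, hw, hw', -⟩ := exists_sol hQ h3 (F ∙ x)
        (by have := finrank_span_single_le (F := F) x; omega) 0 1
      have e1 : Q.B x w = 0 := by simpa using hw x (Submodule.mem_span_singleton_self x)
      rw [FormType.quad_π] at hw'
      have e2 := H1 (x + w) (by rw [Q.quad_q_add, hx, hw', e1]; simp)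
      rw [map_add, Q.quad_q_add, Q.quad_q_add, H w hw', hw', hB, hB, mem_O_B (hKO hg)] at e2
      linear_combination e2
    · exact H1 x hx
  set u := g v with hu
  have hu0 : u ≠ 0 := by
    rw [hu]
    intro h
    rw [(map_eq_zero_iff g g.injective).1 h, Q.q_zero] at hv
    exact zero_ne_one hv
  have hRu : f.tv u 1 ∈ K := hconj g hg v (h1 v hv)
  have h4 : ∀ d, ∃ w, w ≠ 0 ∧ Q.q w = d ∧ f.tv w 1 ∈ K := by
    intro d
    have hc : Q.q u + 1 ≠ 0 := fun h => hv' (by linear_combination h - h2)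
    obtain ⟨β, hβ⟩ := exists_sq_eq_of_two_eq_zero h2 ((d + 1) / (Q.q u + 1))
    obtain ⟨x, -, hx, hx', -⟩ := exists_sol_one hQ h3 ⊥ (by simpa using hn) (x := u)
      (by simpa using hu0) β 1
    rw [FormType.quad_π] at hx'
    refine ⟨f.tv u 1 x, fun h => ?_, ?_, hconj _ hRu x (h1 x hx')⟩
    · rw [(map_eq_zero_iff _ (f.tv u 1).injective).1 h, Q.q_zero] at hx'
      exact zero_ne_one hx'
    · rw [tv_apply, Q.quad_q_add, Q.quad_q_smul, hx', Q.B_smul_right, Q.quad_symm, ← hB, hx]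
      field_simp at hβ
      linear_combination hβ + h2
  have h5 : ∀ w, f.tv w 1 ∈ K := by
    intro w
    by_cases hw : w = 0
    · rw [hw, tv_zero_left]; exact K.one_mem
    obtain ⟨w', hw0, hw', hK'⟩ := h4 (Q.q w)
    obtain ⟨k, hk, rfl⟩ := hQ.witt_vector hw0 hw hw'
    exact hconj k (hK hk) w' hK'
  refine hf.O_le_of_tv fun w c => ?_
  obtain ⟨b, hb⟩ := exists_sq_eq_of_two_eq_zero h2 c
  have := h5 (b • w)
  rwa [tv_smul, mul_one, sq, hb] at this

omit [Finite F] in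
theorem exists_tv_not_sim [Finite F] (hf : f.Nondeg) (hB : ∀ x y, Q.B x y = f.B x y)
    (hn : 3 ≤ finrank F V) : ∃ g ∈ f.O, ∃ x, Q.q x = 0 ∧ Q.q (g x) ≠ 0 := by
  have hQ : Q.Nondeg := fun x hx => hf x fun y => by rw [← hB, hx]
  obtain ⟨e, e', -, -, he, he', h⟩ := exists_hyp_perp hQ (sing3_quad Q) ⊥ (by simpa using hn)
  refine ⟨f.tv e 1, f.tv_mem_O _ _, e', he', ?_⟩
  rw [tv_apply, Q.quad_q_add, Q.quad_q_smul, he, he', Q.B_smul_right, Q.quad_symm, ← hB, h]
  simp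

end CL.Root
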