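/-
In characteristic two the orthogonal group is maximal in the symplectic group: dimension at
least four.
-/
import Cfsg.Agent.CLAS.MaxSpO
import Cfsg.Agent.CLAS.LowRat3

set_option autoImplicit false

namespace CL.Root

open Module CL.Witt CL.Witt.Form CL.Tv Cfsg Cfsg.Geo

section
variable {F : Type*} [Field F] [Finite F] {V : Type*} [AddCommGroup V] [Module F V]
  [FiniteDimensional F V] {f : Form (FormType.alt F) V} {Q : Form (FormType.quad F) V}
  {K : Subgroup (V ≃ₗ[F] V)}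

theorem exists_q_one_perp (hQ : Q.Nondeg) (h2 : (2 : F) = 0) (hn : 3 ≤ finrank F V) (x : V) :
    ∃ w, Q.B x w = 0 ∧ Q.q w = 1 := by
  obtain ⟨a, ha, ha'⟩ := exists_nonsing_perp hQ (F ∙ x)
    (by have := finrank_span_single_le (F := F) x; omega)
  obtain ⟨b, hb⟩ := exists_sq_eq_of_two_eq_zero h2 (Q.q a)⁻¹
  refine ⟨b • a, ?_, ?_⟩
  · rw [Q.B_smul_right, Q.mem_perp_span_singleton.1 ha, mul_zero]
  · rw [Q.quad_q_smul, sq, hb, inv_mul_cancel₀ ha']

theorem exists_q_one_B (hQ : Q.Nondeg) (h2 : (2 : F) = 0) (hn : 4 ≤ finrank F V) {u : V}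
    (hu : u ≠ 0) (β : F) : ∃ x, Q.B u x = β ∧ Q.q x = 1 := by
  by_cases hβ : β = 0
  · rw [hβ]; exact exists_q_one_perp hQ h2 (by omega) u
  obtain ⟨p, hp, hp0, hpq⟩ := sing3_quad Q (Q.perp (F ∙ u)) (by
    have := finrank_span_single_le (F := F) u
    have := hQ.finrank_add_finrank_perp (F ∙ u)
    omega)
  have hup : Q.B u p = 0 := Q.mem_perp_span_singleton.1 hp
  obtain ⟨t, ht, ht'⟩ : ∃ t, Q.B u t = β ∧ Q.B t p ≠ 0 := by
    obtain ⟨t₀, ht₀⟩ : ∃ t₀, Q.B u t₀ ≠ 0 := by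
      by_contra! H; exact hu (hQ u H)
    obtain ⟨s, hs⟩ : ∃ s, Q.B p s ≠ 0 := by
      by_contra! H; exact hp0 (hQ p H)
    by_cases h : Q.B p t₀ = 0
    · refine ⟨s + ((β - Q.B u s) / Q.B u t₀) • t₀, ?_, ?_⟩
      · rw [Q.B_add_right, Q.B_smul_right]; field_simp; ring
      · rw [Q.quad_symm, Q.B_add_right, Q.B_smul_right, h]; simpa using hs
    · refine ⟨(β / Q.B u t₀) • t₀, ?_, ?_⟩
      · rw [Q.B_smul_right]; field_simp
      · rw [Q.quad_symm, Q.B_smul_right]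
        exact mul_ne_zero (div_ne_zero hβ ht₀) h
  refine ⟨t + ((1 - Q.q t) / Q.B t p) • p, ?_, ?_⟩
  · rw [Q.B_add_right, Q.B_smul_right, hup, ht]; simp
  · rw [Q.quad_q_add, Q.quad_q_smul, hpq, Q.B_smul_right]; field_simp; ring

theorem O_le_of_quad_lt4 (hf : f.Nondeg) (hB : ∀ x y, Q.B x y = f.B x y) (h2 : (2 : F) = 0)
    (hn : 4 ≤ finrank F V) (hK : Q.O ≤ K) (hKO : K ≤ f.O) {g : V ≃ₗ[F] V} (hg : g ∈ K)
    (hg' : g ∉ Q.O) : f.O ≤ K := by
  have hQ : Q.Nondeg := fun x hx => hf x fun y => by rw [← hB, hx]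
  have hconj : ∀ k ∈ K, ∀ v, f.tv v 1 ∈ K → f.tv (k v) 1 ∈ K := fun k hk v hv => by
    rw [← tv_conj (hKO hk)]
    exact K.mul_mem (K.mul_mem hk hv) (K.inv_mem hk)
  have h1 : ∀ v, Q.q v = 1 → f.tv v 1 ∈ K := by
    intro v hv
    apply hK
    refine (Q.quad_isIsom_iff Q (f.tv v 1 : V →ₗ[F] V)).2 fun x => ?_
    change Q.q (f.tv v 1 x) = _
    rw [tv_apply, Q.quad_q_add, Q.quad_q_smul, hv, Q.B_smul_right, Q.quad_symm, hB]
    linear_combination (f.B v x) ^ 2 * h2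
  obtain ⟨v, hv, hv'⟩ : ∃ v, Q.q v = 1 ∧ Q.q (g v) ≠ 1 := by
    by_contra! H
    apply hg'
    have H1 : ∀ v, Q.q v ≠ 0 → Q.q (g v) = Q.q v := by
      intro v hv
      obtain ⟨b, hb⟩ := exists_sq_eq_of_two_eq_zero h2 (Q.q v)⁻¹
      have := H (b • v) (by rw [Q.quad_q_smul, sq, hb, inv_mul_cancel₀ hv])
      rw [map_smul, Q.quad_q_smul, sq, hb] at this
      field_simp at this
      exact this
    refine (Q.quad_isIsom_iff Q (g : V →ₗ[F] V)).2 fun x => ?_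
    change Q.q (g x) = _
    by_cases hx : Q.q x = 0
    · obtain ⟨w, e1, hw'⟩ := exists_q_one_perp hQ h2 (by omega) x
      have e2 := H1 (x + w) (by rw [Q.quad_q_add, hx, hw', e1]; simp)
      rw [map_add, Q.quad_q_add, Q.quad_q_add, H w hw', hw', hB, hB, mem_O_B (hKO hg)] at e2
      linear_combination e2
    · exact H1 x hx
  set u := g v with hu
  have hu0 : u ≠ 0 := by
    rw [hu]
    intro h
    rw [(map_eq_zero_iff g g.injective).1 h, Q.q_zero] at hv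
    exact zero_ne_one hv
  have hRu : f.tv u 1 ∈ K := hconj g hg v (h1 v hv)
  have h4 : ∀ d, ∃ w, w ≠ 0 ∧ Q.q w = d ∧ f.tv w 1 ∈ K := by
    intro d
    have hc : Q.q u + 1 ≠ 0 := fun h => hv' (by linear_combination h - h2)
    obtain ⟨β, hβ⟩ := exists_sq_eq_of_two_eq_zero h2 ((d + 1) / (Q.q u + 1))
    obtain ⟨x, hx, hx'⟩ := exists_q_one_B hQ h2 hn hu0 β
    refine ⟨f.tv u 1 x, fun h => ?_, ?_, hconj _ hRu x (h1 x hx')⟩
    · rw [(map_eq_zero_iff _ (f.tv u 1).injective).1 h, Q.q_zero] at hx'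
      exact zero_ne_one hx'
    · rw [tv_apply, Q.quad_q_add, Q.quad_q_smul, hx', Q.B_smul_right, Q.quad_symm, ← hB, hx]
      field_simp at hβ
      linear_combination hβ + h2
  have h5 : ∀ w, f.tv w 1 ∈ K := by
    intro w
    by_cases hw : w = 0
    · rw [hw, tv_zero_left]; exact K.one_mem
    obtain ⟨w', hw0, hw', hK'⟩ := h4 (Q.q w)
    obtain ⟨k, hk, rfl⟩ := hQ.witt_vector hw0 hw hw'
    exact hconj k (hK hk) w' hK'
  refine hf.O_le_of_tv fun w c => ?_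
  obtain ⟨b, hb⟩ := exists_sq_eq_of_two_eq_zero h2 c
  have := h5 (b • w)
  rwa [tv_smul, mul_one, sq, hb] at this

end

/-- C8 in `Sp_{2m}(q)`, `q` even, `m ≥ 2`. -/
theorem isMaximalIn_sp_quad {F : Type*} [Field F] [Fintype F] {m : ℕ} (hm : 2 ≤ m)
    (heven : ¬ Odd (Fintype.card F)) (Q : (Fin m ⊕ Fin m → F) → F)
    (hQ : IsNondegenerateQuadraticForm Q)
    (hpol : ∀ u v, QuadraticMap.polar Q u v = sympForm m F u v) :
    IsMaximalIn (spGL m F) (quadSimilarityGroup Q ⊓ spGL m F) := by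
  have hB : ∀ x y, (quadOfGeo hQ).B x y = (CL.Sp.spForm m F).B x y := fun x y => by
    rw [quadOfGeo_B, hpol, CL.Sp.spForm_B]
  have hn := CL.Sp.finrank_sp m F
  have hf := CL.Sp.spForm_nondeg m F
  refine isMaximalIn_of_act mem_spGL_iff_O act_mem_toE (fun h => ?_) ?_
  · obtain ⟨g, hg, x, hx, hx'⟩ := exists_tv_not_sim hf hB (by omega)
    obtain ⟨c, hc⟩ := mem_toE_quadSim.1 (h hg)
    apply hx'
    change Q (g x) = 0
    rw [hc, show Q x = 0 from hx, mul_zero]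
  · rintro K h1 h2 ⟨g, hg, hg'⟩
    refine O_le_of_quad_lt4 hf hB (two_eq_zero_of_not_odd heven) (by omega)
      (fun k hk => h1 ⟨mem_toE_quadSim.2 ⟨1, fun v => ?_⟩, ?_⟩) h2 hg fun h => hg' ?_
    · rw [Units.val_one, one_mul]; exact mem_O_q hk v
    · refine ((CL.Sp.spForm m F).alt_isIsom_iff _ _).2 fun x y => ?_
      rw [← hB, ← hB, mem_O_B hk]
    · exact mem_toE_quadSim.2 ⟨1, fun v => by
        rw [Units.val_one, one_mul]; exact mem_O_q h v⟩

end CL.Root
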