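/-
Overgroups of the unitary group over a quadratic extension field in orthogonal groups of
dimension at least ten.
-/
import Cfsg.Agent.CLAS.UniOverStd
import Cfsg.Agent.CLAS.LowSL

set_option autoImplicit false

namespace CL.Root

open Module CL.Witt CL.Witt.Form CL.Tv

section General

variable {F : Type*} [Field F] {T : FormType F} {V : Type*} [AddCommGroup V] [Module F V]
  [FiniteDimensional F V]

theorem exists_scalar_of_singular5' {f : Form T V} (hf : f.Nondeg) (h3 : Sing3 f)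
    (hn : 5 ≤ finrank F V) {R W : Type*} [Ring R] [AddCommGroup W] [Module R W] (A C : V →+ W)
    (hC : ∀ y z, f.q y = 0 → y ≠ 0 → z ∉ F ∙ y → ∀ a b : R, a • C z + b • C y = 0 → a = 0 ∧ b = 0)
    (H : ∀ u, f.q u = 0 → ∃ c : R, A u = c • C u) : ∃ c : R, ∀ u, A u = c • C u := by
  obtain ⟨y₀, -, hy₀, hy₀0⟩ := exists_sol_zero hf h3 ⊥ (by simp; omega)
  rw [Submodule.mem_bot] at hy₀0
  obtain ⟨a, ha⟩ := H y₀ hy₀
  have key : ∀ y, f.q y = 0 → y ≠ 0 → A y = a • C y := by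
    intro y hy hy0
    have := const_of_singular hf h3 hn (P := fun y z => f.q y = 0 ∧ f.q z = 0 ∧
        ∀ a b : R, A y = a • C y → A z = b • C z → a = b) (fun y z hy hz hyz hy0 hzy => ?_)
      (fun y z h => ⟨h.2.1, h.1, fun a b ha hb => (h.2.2 b a hb ha).symm⟩)
      (fun x y z h h' => ⟨h.1, h'.2.1, fun a b ha hb => ?_⟩) hy₀ hy hy₀0 hy0
    · obtain ⟨b, hb⟩ := H y hy
      rw [this.2.2 a b ha hb, hb]
    · refine ⟨hy, hz, fun a b ha hb => ?_⟩
      obtain ⟨d, hd⟩ := H (y + z) (by rw [f.q_add_of_B_eq_zero hyz, hy, hz, add_zero])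
      rw [map_add, map_add, ha, hb] at hd
      obtain ⟨e1, e2⟩ := hC y z hy hy0 hzy (b - d) (a - d) (by
        rw [sub_smul, sub_smul]; rw [smul_add] at hd
        rw [← sub_eq_zero] at hd
        rw [← hd]; abel)
      rw [sub_eq_zero] at e1 e2
      rw [e1, e2]
    · obtain ⟨d, hd⟩ := H y h.2.1
      rw [h.2.2 a d ha hd, h'.2.2 d b hd hb]
  let D : AddSubgroup V := (A - (DistribSMul.toAddMonoidHom W a).comp C).ker
  have hD : ∀ u, u ∈ D ↔ A u = a • C u := fun u => by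
    simp [D, AddMonoidHom.mem_ker, sub_eq_zero]
  refine ⟨a, fun u => (hD u).1 (mem_of_singular hf h3 (by omega) D (fun y hy => ?_) u)⟩
  by_cases hy0 : y = 0
  · rw [hy0]; exact D.zero_mem
  · exact (hD y).2 (key y hy hy0)

omit [FiniteDimensional F V] in
theorem sing2_herm [Finite F] {σ : F →+* F} {hσ2 : ∀ a, σ (σ a) = a} (hσ : σ ≠ RingHom.id F)
    (f : Form (FormType.herm σ hσ2) V) (W : Submodule F V) (hW : 2 ≤ finrank F W) :
    ∃ w ∈ W, w ≠ 0 ∧ f.q w = 0 := by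
  have : FiniteDimensional F W := Module.finite_of_finrank_pos (by omega)
  have : Nontrivial W := Module.nontrivial_of_finrank_pos (R := F) (by omega)
  obtain ⟨x, hx⟩ := exists_ne (0 : W)
  by_cases hq : f.q x = 0
  · exact ⟨x, x.2, by simpa using hx, hq⟩
  obtain ⟨y, hy, hy0⟩ : ∃ y : W, f.B x y = 0 ∧ y ≠ 0 := by
    by_contra! h
    have h1 : LinearMap.ker ((f.B x).domRestrict W) = ⊥ := by
      rw [LinearMap.ker_eq_bot']
      exact h
    have h2 := LinearMap.finrank_range_add_finrank_ker ((f.B x).domRestrict W)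
    have h4 : finrank F (LinearMap.range ((f.B x).domRestrict W)) ≤ 1 := by
      simpa using Submodule.finrank_le (LinearMap.range ((f.B x).domRestrict W))
    rw [h1, finrank_bot] at h2
    omega
  by_cases hq' : f.q y = 0
  · exact ⟨y, y.2, by simpa using hy0, hq'⟩
  obtain ⟨c, hc⟩ := exists_norm_eq_of_involution hσ hσ2 (b := -f.q x / f.q y)
    (by rw [map_div₀, map_neg, herm_σ_q, herm_σ_q])
  refine ⟨x + c • y, W.add_mem x.2 (W.smul_mem c y.2), fun h => hq ?_, ?_⟩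
  · have := congrArg (f.B x) h
    rw [f.B_add_right, f.B_smul_right, hy, map_zero] at this
    rw [f.herm_q]; simpa using this
  · rw [f.q_add_of_B_eq_zero (by rw [f.B_smul_right, hy, mul_zero]), herm_q_smul, hc,
      div_mul_cancel₀ _ hq', add_neg_cancel]

theorem herm_le_perp_or [Finite F] {σ : F →+* F} {hσ2 : ∀ a, σ (σ a) = a} (hσ : σ ≠ RingHom.id F)
    {f : Form (FormType.herm σ hσ2) V} (hf : f.Nondeg) (X : Submodule F V)
    (hX : 2 * finrank F X + 1 ≤ finrank F V) :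
    X ≤ f.perp X ∨ ∃ w ∈ f.perp X, f.q w = 0 ∧ w ∉ X := by
  refine or_iff_not_imp_left.2 fun h => ?_
  have h0 : finrank F (X ⊓ f.perp X : Submodule F V) < finrank F X :=
    Submodule.finrank_lt_finrank_of_lt (lt_of_le_of_ne inf_le_left fun e => h (inf_eq_left.1 e))
  obtain ⟨W, hW⟩ := Submodule.exists_isCompl (X ⊓ f.perp X)
  have h1 := Submodule.finrank_add_eq_of_isCompl hW
  have h2 := hf.finrank_add_finrank_perp X
  have h3 := Submodule.finrank_sup_add_finrank_inf_eq (f.perp X) W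
  have h4 := Submodule.finrank_le (f.perp X ⊔ W)
  obtain ⟨w, hw, hw0, hwq⟩ := sing2_herm hσ f (f.perp X ⊓ W) (by omega)
  exact ⟨w, hw.1, hwq, fun h' => hw0 (Submodule.disjoint_def.1 hW.disjoint w ⟨h', hw.1⟩ hw.2)⟩

/-- An orthogonal isometry whose fixed space is the perp of a totally singular line is a root
element. -/
theorem rad_of_rank_two_quad {f : Form (FormType.quad F) V} (hf : f.Nondeg)
    {K : Subgroup (V ≃ₗ[F] V)} (hKO : K ≤ f.O) {y : V ≃ₗ[F] V} (hy : y ∈ K) {a b : V}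
    (ha : f.q a = 0) (hb : f.q b = 0) (hab : f.B a b = 0) (hb0 : b ≠ 0) (hab' : a ∉ F ∙ b)
    (hfix : ∀ v, y v = v ↔ f.B a v = 0 ∧ f.B b v = 0) : ∃ β : F, β ≠ 0 ∧ Rad f K a (β • b) := by
  have hyO := hKO hy
  obtain ⟨a', ha'⟩ := hf.exists_B_eq_family' (li2 hb0 hab') ![1, 0]
  obtain ⟨b', hb'⟩ := hf.exists_B_eq_family' (li2 hb0 hab') ![0, 1]
  have a1 : f.B a a' = 1 := ha' 0
  have a2 : f.B b a' = 0 := ha' 1
  have b1 : f.B a b' = 0 := hb' 0
  have b2 : f.B b b' = 1 := hb' 1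
  have hmem : ∀ v, y v - v ∈ Submodule.span F {a, b} := fun v => by
    rw [← hf.perp_perp (Submodule.span F {a, b})]
    intro u hu
    have := mem_O_B hyO u v
    rw [(hfix u).2 (f.mem_perp_span_pair.1 hu)] at this
    rw [f.B_sub_right, this, sub_self]
  obtain ⟨α, β, hp⟩ := Submodule.mem_span_pair.1 (hmem a')
  obtain ⟨β', γ, hr⟩ := Submodule.mem_span_pair.1 (hmem b')
  have hy' : ∀ v, y v = v + f.B a v • (α • a + β • b) + f.B b v • (β' • a + γ • b) := fun v => by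
    have := (hfix (v - f.B a v • a' - f.B b v • b')).2 (by simp [a1, a2, b1, b2])
    rw [map_sub, map_sub, map_smul, map_smul] at this
    rw [hp, hr]
    linear_combination (norm := module) this
  have haa := f.B_self_eq_zero ha
  have hbb := f.B_self_eq_zero hb
  have hba := f.B_eq_zero_symm hab
  have hq : ∀ s t : F, f.q (s • a + t • b) = 0 := fun s t => by
    rw [f.q_add_of_B_eq_zero (by simp [hab]), f.q_smul_eq_zero ha, f.q_smul_eq_zero hb, add_zero]
  have e1 : α = 0 := by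
    have := mem_O_q hyO a'
    rw [eq_add_of_sub_eq' hp.symm, f.quad_q_add, hq, f.quad_symm] at this
    simpa [a1, a2] using this
  have e3 : γ = 0 := by
    have := mem_O_q hyO b'
    rw [eq_add_of_sub_eq' hr.symm, f.quad_q_add, hq, f.quad_symm] at this
    simpa [b1, b2] using this
  have e2 : β' + β = 0 := by
    have := mem_O_B hyO a' b'
    rw [eq_add_of_sub_eq' hp.symm, eq_add_of_sub_eq' hr.symm] at this
    simp only [B_add_left, B_add_right, B_smul_left, B_smul_right, FormType.quad_σ, haa, hbb, hab,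
      hba, b1, b2, show f.B a' a = 1 from hyp_B_swap a1, f.B_eq_zero_symm a2] at this
    linear_combination this
  have ok : f.EichOK a (β • b) 0 := ⟨ha, by simp [hab], by rw [map_zero, f.q_smul_eq_zero hb]⟩
  refine ⟨β, fun h0 => ?_, 0, ok, ?_⟩
  · have := ((hfix a').1 (by rw [← sub_eq_zero, ← hp, h0, e1]; simp)).1
    rw [a1] at this; exact one_ne_zero this
  · have : f.ei a (β • b) 0 = y := by
      ext v
      rw [ok.ei_apply, hy', e1, e3, f.B_smul_left, FormType.quad_σ, FormType.quad_ε]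
      linear_combination (norm := module) (-f.B b v * e2) • a
    rw [this]; exact hy

end General

namespace UExt

variable {F E : Type*} [Field F] [Field E] [Algebra F E] {T : FormType F} {τ : E →+* E}
  {hτ : ∀ a, τ (τ a) = a} {V : Type*} [AddCommGroup V] [Module F V] [Module E V]
  [IsScalarTower F E V] {K : Subgroup (V ≃ₗ[F] V)} [FiniteDimensional E V] [Finite E]

local notation "ι₀" => algebraMap F E

section
variable {f : Form T V} {h : Form (FormType.herm τ hτ) V} (U : UExt f h)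
include U

theorem exists_move3 (hh : h.Nondeg) (hn : 3 ≤ finrank E V) {w : V} (hw : h.q w = 0)
    (hw0 : w ≠ 0) :
    ∃ w₁, ∃ k : E, h.q w₁ = 0 ∧ h.B w w₁ ≠ 0 ∧ f.B w w₁ = 0 ∧ ∀ a : F, ∃ x, h.B w₁ x = 0 ∧
      h.B w x = 0 ∧ f.EichOK w₁ x (-a) ∧ f.ei w₁ x (-a) w = w ∧
      h.B w (f.ei w₁ x (-a) (k • w)) = ι₀ a * h.B w w₁ := by
  obtain ⟨w', hw', hww'⟩ := hh.exists_partner' hw hw0
  obtain ⟨ζ, hζ0, hζ⟩ := FormType.exists_add_σ_eq_zero U.τ_ne hτ
  obtain ⟨s, hs⟩ := FormType.exists_add_σ_eq_one U.τ_ne hτ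
  set w₁ := (ζ / U.η) • w' with hw₁
  have hw₁0 : h.q w₁ = 0 := h.q_smul_eq_zero hw' _
  have e1 : h.B w w₁ = ζ / U.η := by rw [hw₁, h.B_smul_right, hww', mul_one]
  have e2 : f.B w w₁ = 0 := by rw [U.B_eq_zero_iff, e1, mul_div_cancel₀ _ U.η_ne, hζ]
  refine ⟨w₁, τ (s / ζ), hw₁0, by rw [e1]; exact div_ne_zero hζ0 U.η_ne, e2, fun a => ?_⟩
  obtain ⟨x, x2, x1, xq⟩ : ∃ x, h.B w x = 0 ∧ h.B w₁ x = 0 ∧ h.q x = ι₀ (-a) := by
    set W := h.perp (Submodule.span E {w, w'}) with hW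
    have hWn : (h.restrict W).Nondeg := hh.restrict_perp (h.restrict_nondeg_pair hw hw' hww')
    have hWr : finrank E W + 2 = finrank E V := by
      have := hh.finrank_add_finrank_perp (Submodule.span E {w, w'})
      rw [h.finrank_span_pair hw hw' hww'] at this
      rw [hW]; omega
    obtain ⟨z, -, hz⟩ := herm_exists_perp_q_eq U.τ_ne hWn ⊥ (by simp; omega) (U.τ_alg (-a))
    obtain ⟨h1, h2⟩ := h.mem_perp_span_pair.1 z.2
    exact ⟨z, h1, by rw [hw₁, h.B_smul_left, h2, mul_zero], hz⟩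
  have ok : f.EichOK w₁ x (-a) := ⟨U.q_eq_zero hw₁0, U.B_eq_zero x1, U.hq _ _ xq⟩
  refine ⟨_, x1, x2, ok, ok.ei_apply_fix (f.B_eq_zero_symm e2)
    (U.B_eq_zero (h.B_eq_zero_symm x2)), ?_⟩
  have e3 : f.B (τ (s / ζ) • w) w₁ = 1 := by
    apply (algebraMap F E).injective
    rw [U.hB, h.B_smul_left, FormType.herm_σ, hτ, e1, map_one, ← hs]
    congr 2 <;> field_simp [U.η_ne]
  have e4 : f.B x (τ (s / ζ) • w) = 0 :=
    U.B_eq_zero (by rw [h.B_smul_right, h.B_eq_zero_symm x2, mul_zero])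
  rw [ok.ei_apply, e4, hyp_B_swap e3, ← algebraMap_smul E T.ε, ← algebraMap_smul E (T.ε * _),
    h.B_sub_right, h.B_add_right, h.B_smul_right, h.B_smul_right, h.B_smul_right, x2,
    h.B_self_eq_zero hw]
  have : T.ε * (0 + -a * T.ε) = -a := by linear_combination (-a) * T.εε
  rw [this, map_neg]; ring

theorem not_E_le_normE3 (hf : f.Nondeg) (hn : 3 ≤ finrank E V) : ¬ f.E ≤ normE F E V := by
  intro H
  have hh := U.nondeg hf
  obtain ⟨w, hw0, hw⟩ := Iso3.exists_singular (sing3_herm U.τ_ne h) (by omega)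
  obtain ⟨w₁, k, -, h1, -, h4⟩ := U.exists_move3 hh hn hw hw0
  obtain ⟨x, -, -, -, z2, z3⟩ := h4 1
  obtain ⟨k', hk'⟩ := (H (ei_mem_E w₁ x (-1))).1 k
  rw [hk', z2, h.B_smul_right, h.B_self_eq_zero hw, mul_zero, map_one, one_mul] at z3
  exact h1 z3.symm

omit [FiniteDimensional E V] in
/-- An isometry intertwining `ω` with a scalar normalises the extension field. -/
theorem mem_normE_of_scalar [Nontrivial V] {g : V ≃ₗ[F] V} {ω c : E} (hω : τ ω ≠ ω)
    (hc : ∀ v, g (ω • v) = c • g v) : g ∈ normE F E V := by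
  refine mem_normE_of fun k => ?_
  obtain ⟨x, y, rfl⟩ := U.exists_eq_add hω k
  refine ⟨ι₀ x + ι₀ y * c, fun v => ?_⟩
  simp only [add_smul, mul_smul, algebraMap_smul, map_add, map_smul, hc]

omit [FiniteDimensional E V] [Finite E] in
/-- If `g` maps the `E`-line through `y` to an `E`-line, no other vector goes to that line. -/
theorem indep_of_line {g : V ≃ₗ[F] V} {ω c : E} (hω : τ ω ≠ ω) {y z : V} (hy0 : y ≠ 0)
    (hc : g (ω • y) = c • g y) (hz : z ∉ E ∙ y) {a b : E} (hab : a • g z + b • g y = 0) :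
    a = 0 ∧ b = 0 := by
  have hlin : ∀ (u : V) (x y : F),
      g ((ι₀ x + ι₀ y * ω) • u) = ι₀ x • g u + ι₀ y • g (ω • u) := fun u x y => by
    simp only [add_smul, mul_smul, algebraMap_smul, map_add, map_smul]
  have hgy : g y ≠ 0 := by simpa using hy0
  by_cases ha : a = 0
  · exact ⟨ha, by simpa [ha, hgy] using hab⟩
  exfalso
  have hτc : τ c ≠ c := fun e => by
    obtain ⟨x, rfl⟩ := U.fix c e
    rw [algebraMap_smul, ← map_smul, ← algebraMap_smul E x] at hc
    have e' : ω = ι₀ x := smul_left_injective E hy0 (g.injective hc)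
    rw [e', U.τ_alg] at hω
    exact hω rfl
  obtain ⟨x, x', e⟩ := U.exists_eq_add hτc (-(a⁻¹ * b))
  refine hz (Submodule.mem_span_singleton.2 ⟨ι₀ x + ι₀ x' * ω, g.injective ?_⟩)
  rw [hlin, hc, smul_smul, ← add_smul, ← e]
  apply smul_right_injective V ha
  dsimp only
  rw [smul_smul, mul_neg, mul_inv_cancel_left₀ ha, neg_smul]
  exact neg_eq_of_add_eq_zero_left hab

end

variable [FiniteDimensional F V] {f : Form (FormType.quad F) V} {h : Form (FormType.herm τ hτ) V}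
  (U : UExt f h)
include U

theorem E_le_of_rad5 (hK : Over F h K) (hKO : K ≤ f.O) (hf : f.Nondeg) (hn : 5 ≤ finrank E V)
    {w p : V} (hw : h.q w = 0) (hw0 : w ≠ 0) (hwp : h.B w p = 0) (hp : p ∉ E ∙ w)
    (hr : Rad f K w p) : f.E ≤ K := by
  have hh := U.nondeg hf
  have H := U.spread hK hh hn hw hw0 hwp hp hr
  obtain ⟨s, hs⟩ := FormType.exists_add_σ_eq_one U.τ_ne hτ
  have key : ∀ u, h.q u = 0 → u ≠ 0 → f.U u ≤ K := by
    intro u hu hu0
    refine U_le_of_rad (cen_quad u) fun x hx => ?_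
    obtain ⟨w₁, k, hw₁, h1, h2, h4⟩ := U.exists_move3 hh (by omega) hu hu0
    have hw₁0 : w₁ ≠ 0 := by rintro rfl; simp at h1
    rw [U.B_eq_zero_iff] at hx h2
    obtain ⟨a, ha⟩ := U.fix (h.B u x / h.B u w₁) (by
      have n1 : τ (h.B u w₁) ≠ 0 := (map_ne_zero τ).2 h1
      have n2 : τ U.η ≠ 0 := (map_ne_zero τ).2 U.η_ne
      rw [map_mul] at hx h2
      rw [map_div₀, div_eq_div_iff n1 h1]
      apply mul_left_cancel₀ n2
      linear_combination h.B u w₁ * hx - h.B u x * h2)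
    obtain ⟨z, z1, -, ok, z2, z3⟩ := h4 a
    have hy := (H w₁ hw₁ hw₁0 z z1).ei_mem (cen_quad w₁) ok
    have r1 := (H u hu hu0 (k • u) (by simp [h.B_self_eq_zero hu])).conj_fix hy (hKO hy) z2
    have r2 := H u hu hu0 (x - f.ei w₁ z (-a) (k • u)) (by
      rw [h.B_sub_right, z3, ha, div_mul_cancel₀ _ h1, sub_self])
    simpa using r2.add r1
  obtain ⟨w', hw', hww'⟩ := hh.exists_partner' hw hw0
  have e : f.B w ((s / U.η) • w') = 1 := by
    apply (algebraMap F E).injective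
    rw [U.hB, h.B_smul_right, hww', mul_one, mul_div_cancel₀ _ U.η_ne, hs, map_one]
  have hq := h.q_smul_eq_zero hw' (s / U.η)
  exact hf.E_le_of_B_ne (U.q_eq_zero hw) (U.q_eq_zero hq) (by rw [e]; exact one_ne_zero)
    (key w hw hw0) (key _ hq (by rintro h0; simp [h0] at e))

theorem E_le_or_line5 (hK : Over F h K) (hKO : K ≤ f.O) (hf : f.Nondeg) (hn : 5 ≤ finrank E V)
    {g : V ≃ₗ[F] V} (hg : g ∈ K) {ω : E} (hω : τ ω ≠ ω) {u : V} (hu : h.q u = 0) :
    f.E ≤ K ∨ g (ω • u) ∈ E ∙ g u := by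
  have hh := U.nondeg hf
  have hgO := hKO hg
  by_cases hu0 : u = 0
  · right; simp [hu0]
  refine or_iff_not_imp_right.2 fun hab => ?_
  obtain ⟨c, hc0, hc⟩ := FormType.exists_add_σ_eq_zero U.τ_ne hτ
  set a := g (ω • u) with ha
  set b := g u with hb
  have hc' : (FormType.herm τ hτ).π c = 0 := hc
  have hy : g * res F E V (h.ei u 0 c) * g⁻¹ ∈ K :=
    K.mul_mem (K.mul_mem hg (hK u 0 c)) (K.inv_mem hg)
  have qa : f.q a = 0 := by rw [ha, mem_O_q hgO]; exact U.q_eq_zero (h.q_smul_eq_zero hu ω)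
  have qb : f.q b = 0 := by rw [hb, mem_O_q hgO]; exact U.q_eq_zero hu
  have hab0 : f.B a b = 0 := by
    rw [ha, hb, mem_O_B hgO]; exact U.B_eq_zero (by simp [h.B_self_eq_zero hu])
  have hb0 : b ≠ 0 := by simpa [hb] using hu0
  have habF : a ∉ F ∙ b := fun H => hab (by
    obtain ⟨s, hs⟩ := Submodule.mem_span_singleton.1 H
    exact Submodule.mem_span_singleton.2 ⟨ι₀ s, by rw [algebraMap_smul, hs]⟩)
  have hfix : ∀ x, (g * res F E V (h.ei u 0 c) * g⁻¹) x = x ↔ f.B a x = 0 ∧ f.B b x = 0 := by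
    intro x
    rw [ha, hb, B_apply_left hgO, B_apply_left hgO, LinearEquiv.mul_apply, LinearEquiv.mul_apply,
      res_apply, ← g.eq_symm_apply, ei_zero_apply hu hc']
    change _ = g⁻¹ x ↔ _
    rw [sub_eq_self, FormType.herm_ε]
    constructor
    · intro H
      have : h.B u (g⁻¹ x) = 0 := by simpa [hc0, hu0] using H
      exact ⟨U.B_eq_zero (by rw [h.B_smul_left, this, mul_zero]), U.B_eq_zero this⟩
    · rintro ⟨h1, h2⟩
      rw [U.hB_eq_zero hω h2 h1]; simp
  rcases herm_le_perp_or U.τ_ne hh (Submodule.span E {a, b})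
    (by have := finrank_span_pair_le (F := E) a b; omega) with hX | ⟨w, hw, hw0, hwH⟩
  · obtain ⟨β, hβ, hr⟩ := rad_of_rank_two_quad hf hKO hy qa qb hab0 hb0 habF hfix
    obtain ⟨h1, -⟩ := h.mem_perp_span_pair.1 (hX (Submodule.subset_span (by simp) : a ∈ _))
    obtain ⟨h2, -⟩ := h.mem_perp_span_pair.1 (hX (Submodule.subset_span (by simp) : b ∈ _))
    refine U.E_le_of_rad5 hK hKO hf hn (by rw [herm_q, h1]) (fun h0 => hab (by simp [h0])) ?_
      (fun H => hab ?_) hr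
    · rw [← algebraMap_smul E β, h.B_smul_right, h2, mul_zero]
    · obtain ⟨k, hk⟩ := Submodule.mem_span_singleton.1 H
      have hk0 : k ≠ 0 := by
        rintro rfl; exact smul_ne_zero hβ hb0 (by rw [← hk, zero_smul])
      refine Submodule.mem_span_singleton.2 ⟨k⁻¹ * ι₀ β, ?_⟩
      rw [mul_smul, algebraMap_smul, ← hk, smul_smul, inv_mul_cancel₀ hk0, one_smul]
  obtain ⟨haw, hbw⟩ := h.mem_perp_span_pair.1 hw
  have ha' : a ∉ Submodule.span E {w, b} := fun H => by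
    obtain ⟨s, t, e⟩ := Submodule.mem_span_pair.1 H
    by_cases hs : s = 0
    · exact hab (Submodule.mem_span_singleton.2 ⟨t, by rw [← e, hs, zero_smul, zero_add]⟩)
    · refine hwH (Submodule.mem_span_pair.2 ⟨s⁻¹, -(s⁻¹ * t), ?_⟩)
      rw [← e, smul_add, smul_smul, inv_mul_cancel₀ hs, smul_smul]; module
  obtain ⟨v, hv, hva⟩ := hh.exists_perp_eq ha' (-1)
  have hvw : h.B v w = 0 := hv w (Submodule.subset_span (by simp))
  have hvb : h.B v b = 0 := hv b (Submodule.subset_span (by simp))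
  obtain ⟨t, ok⟩ := exists_eichOK hw0 (h.B_eq_zero_symm hvw)
  obtain ⟨p, hpm, hp0, hp⟩ := rad_of_rank_two hf U.hσ hKO hy (hK w v t) (w := w) qa qb
    (U.q_eq_zero hw0) hab0 (U.B_eq_zero haw) (U.B_eq_zero hbw) hb0 habF hfix
    (by rw [res_apply, ok.ei_apply_of_perp (h.B_eq_zero_symm haw), hva, FormType.herm_ε]; simp)
    (ok.ei_apply_fix (h.B_eq_zero_symm hbw) hvb)
  obtain ⟨s, s', rfl⟩ := Submodule.mem_span_pair.1 hpm
  refine U.E_le_of_rad5 hK hKO hf hn hw0 (by rintro rfl; exact hwH (Submodule.zero_mem _))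
    ?_ (fun H => ?_) hp
  · rw [← algebraMap_smul E s, ← algebraMap_smul E s']
    simp [h.B_eq_zero_symm haw, h.B_eq_zero_symm hbw]
  · obtain ⟨k, hk⟩ := Submodule.mem_span_singleton.1 H
    have hk0 : k ≠ 0 := by rintro rfl; exact hp0 (by rw [← hk, zero_smul])
    refine hwH (Submodule.mem_span_pair.2 ⟨k⁻¹ * ι₀ s, k⁻¹ * ι₀ s', ?_⟩)
    rw [mul_smul, mul_smul, algebraMap_smul, algebraMap_smul, ← smul_add, ← hk, smul_smul,
      inv_mul_cancel₀ hk0, one_smul]

theorem E_le_or_mem5 (hK : Over F h K) (hKO : K ≤ f.O) (hf : f.Nondeg) (hn : 5 ≤ finrank E V)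
    {g : V ≃ₗ[F] V} (hg : g ∈ K) : f.E ≤ K ∨ g ∈ normE F E V := by
  have hh := U.nondeg hf
  obtain ⟨ω, hω⟩ := U.exists_τ_ne
  refine or_iff_not_imp_left.2 fun hE => ?_
  have H : ∀ u, h.q u = 0 → ∃ c : E, g (ω • u) = c • g u := fun u hu => by
    obtain ⟨c, hc⟩ := Submodule.mem_span_singleton.1
      ((U.E_le_or_line5 hK hKO hf hn hg hω hu).resolve_left hE)
    exact ⟨c, hc.symm⟩
  obtain ⟨c, hc⟩ := exists_scalar_of_singular5' hh (sing3_herm U.τ_ne h) hn (R := E)
    ((g : V →ₗ[F] V).toAddMonoidHom.comp (LinearMap.lsmul E V ω).toAddMonoidHom)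
    (g : V →ₗ[F] V).toAddMonoidHom (fun y z hy hy0 hz a b hab =>
      let ⟨_, hc⟩ := H y hy; U.indep_of_line hω hy0 hc hz hab) H
  have : Nontrivial V := Module.nontrivial_of_finrank_pos (R := E) (by omega)
  exact U.mem_normE_of_scalar hω hc

end UExt

open Cfsg Cfsg.Geo Matrix in
/-- C3, unitary type, in `Ω_n(q)`, `n ≥ 9`. -/
theorem isMaximalIn_omega_gu {F : Type*} [Field F] [Fintype F] {n : ℕ} (hn : 9 ≤ n)
    {Q : (Fin n → F) → F} (hQ : IsNondegenerateQuadraticForm Q)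
    {K : Subalgebra F (Matrix (Fin n) (Fin n) F)} (hK : IsFieldSubalgebra 2 K)
    (hac : IsAdjointClosedFor (QuadraticMap.polar Q) K)
    (hnsa : ¬ IsSelfAdjointFor (QuadraticMap.polar Q) K)
    (hsc : ∀ k ∈ K, ∃ c : F, ∀ v : (Fin n → F), Q (k *ᵥ v) = c * Q v) :
    IsMaximalIn (omegaGL Q) (subalgebraNormalizer K ⊓ omegaGL Q) := by
  have : Nonempty (Fin n) := ⟨⟨0, by omega⟩⟩
  have hf := quadOfGeo_nondeg hQ
  obtain ⟨E, _, _, _, _, h2, hE⟩ := exists_field_of_isFieldSubalgebra hK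
  have hA : ∀ k : E, ∃ A ∈ K, ∀ v, A *ᵥ v = k • v := fun k =>
    ⟨LinearMap.toMatrix' ((LinearMap.lsmul E _ k).restrictScalars F),
      (hE _).2 ⟨k, fun v => LinearMap.toMatrix'_mulVec _ v⟩, fun v => LinearMap.toMatrix'_mulVec _ v⟩
  obtain ⟨τ, hτ, h, ⟨U⟩⟩ := exists_uExt_quad hf h2 (fun k => by
    obtain ⟨A, hA, e⟩ := hA k
    obtain ⟨A', hA', e'⟩ := hac A hA
    obtain ⟨k', hk'⟩ := (hE _).1 hA'
    exact ⟨k', fun u v => by rw [← e, ← hk']; exact e' u v⟩) (fun H => hnsa fun A hA u v => by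
    obtain ⟨k, hk⟩ := (hE _).1 hA
    rw [hk, hk]; exact H k u v) (fun k => by
    obtain ⟨A, hA, e⟩ := hA k
    obtain ⟨c, hc⟩ := hsc A hA
    exact ⟨c, fun v => by rw [← e]; exact hc v⟩)
  have h5 : 5 ≤ finrank F (Fin n → F) := by simp; omega
  have hO := hf.commutator_O_le_E ((quad_iso3 _).idx2 hf h5)
  have : FiniteDimensional F E := Module.finite_of_finrank_pos (by omega)
  have : Finite E := Module.finite_of_finite F
  have : FiniteDimensional E (Fin n → F) := Module.Finite.of_restrictScalars_finite F E _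
  have hr : 5 ≤ finrank E (Fin n → F) := by
    have := Module.finrank_mul_finrank F E (Fin n → F)
    rw [h2, Module.finrank_fin_fun] at this
    omega
  have hh := U.nondeg hf
  refine isMaximalIn_of_act (mem_omegaGL_iff_E hf (by simp; omega))
    (mem_subalgebraNormalizer_iff hE) (U.not_E_le_normE3 hf (by omega)) ?_
  rintro L h1 h2 ⟨g, hg, hg'⟩
  refine (U.E_le_or_mem5 (fun u v a => h1 ⟨UExt.res_mem_normE _, hO ?_⟩) (h2.trans E_le_O) hf hr
    hg).resolve_right hg'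
  have := (Iso3.idx2 (sing3_herm U.τ_ne h) hh (by omega)).commutator_E hh (by omega)
  have hm := Subgroup.mem_map_of_mem (UExt.res F E (Fin n → F)) (this ▸ ei_mem_E (f := h) u v a)
  rw [Subgroup.map_commutator] at hm
  have hle : h.E.map (UExt.res F E (Fin n → F)) ≤ (quadOfGeo hQ).O := by
    rintro _ ⟨e, he, rfl⟩; exact U.res_mem_O (E_le_O he)
  exact Subgroup.commutator_mono hle hle hm

end CL.Root
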