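/-
Overgroups of the unitary group over a quadratic extension field in symplectic groups of odd
characteristic and dimension at least six.
-/
import Cfsg.Agent.CLAS.LowUni
import Cfsg.Agent.CLAS.ExtSp

set_option autoImplicit false

namespace CL.Root

open Module CL.Witt CL.Witt.Form CL.Tv

section General

variable {F : Type*} [Field F] {V : Type*} [AddCommGroup V] [Module F V]

/-- Two involutions with overlapping supports give a transvection. -/
theorem exists_tv_of_invol {f : Form (FormType.alt F) V} (h2 : (2 : F) ≠ 0)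
    {K : Subgroup (V ≃ₗ[F] V)} (hKO : K ≤ f.O) {a b w : V} (hab : f.B a b ≠ 0)
    {i t e : V ≃ₗ[F] V} (hi : i ∈ K) (ht : t ∈ K) (he : e ∈ K) (hia : i a = -a) (hib : i b = -b)
    (hi' : ∀ x, f.B a x = 0 → f.B b x = 0 → i x = x) (hta : t a = b)
    (ht' : ∀ x, f.B a x = 0 → f.B b x = 0 → t x = x) (hea : e a = a) (heb : e b = b + w)
    (hw : w ∉ F ∙ a) : ∃ w₀ c, w₀ ≠ 0 ∧ c ≠ 0 ∧ f.tv w₀ c ∈ K := by
  have heO := hKO he
  have haa := f.alt_B_self a
  have hbb := f.alt_B_self b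
  have hba : f.B b a = -f.B a b := f.alt_symm a b
  have haw : f.B a w = 0 := by
    have := mem_O_B heO a b
    rw [hea, heb, f.B_add_right] at this
    linear_combination this
  set β := f.B a b with hβ
  have fi : ∀ x, i x = x + (2 / β * f.B b x) • a - (2 / β * f.B a x) • b := fun x => by
    have := hi' (x + (f.B b x / β) • a - (f.B a x / β) • b)
      (by simp only [B_sub_right, B_add_right, B_smul_right, haa, ← hβ]; field_simp; ring)
      (by simp only [B_sub_right, B_add_right, B_smul_right, hbb, hba]; field_simp; ring)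
    rw [map_sub, map_add, map_smul, map_smul, hia, hib] at this
    linear_combination (norm := (match_scalars <;> field_simp <;> ring)) this
  set w₀ := w + (f.B b w / β) • a with hw₀
  have a0 : f.B a w₀ = 0 := by rw [hw₀, f.B_add_right, f.B_smul_right, haa, haw]; simp
  have b0 : f.B b w₀ = 0 := by rw [hw₀, f.B_add_right, f.B_smul_right, hba]; field_simp; ring
  have ok : f.EichOK w₀ ((-(2 / β)) • a) 0 :=
    ⟨f.alt_q _, by rw [f.B_smul_right, f.B_eq_zero_symm a0, mul_zero], by rw [map_zero, f.alt_q]⟩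
  have key : e * i * e⁻¹ = i * f.ei w₀ ((-(2 / β)) • a) 0 := by
    ext x
    have h1 : f.B a (e⁻¹ x) = f.B a x := by rw [← B_apply_left heO, hea]
    have h3 : f.B b (e⁻¹ x) = f.B b x + f.B w x := by rw [← B_apply_left heO, heb, f.B_add_left]
    have h4 : e (e⁻¹ x) = x := by rw [← LinearEquiv.mul_apply, mul_inv_cancel]; rfl
    rw [LinearEquiv.mul_apply, LinearEquiv.mul_apply, LinearEquiv.mul_apply, fi (e⁻¹ x), h1, h3,
      ok.ei_apply]
    simp only [map_add, map_sub, map_smul, hea, heb, h4, hia, hi' w₀ a0 b0]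
    rw [fi x, hw₀]
    simp only [B_add_left, B_smul_left, FormType.alt_σ, FormType.alt_ε]
    match_scalars <;> field_simp <;> ring
  have r1 : Rad f K w₀ ((-(2 / β)) • a) := ⟨0, ok, by
    rw [← K.mul_mem_cancel_left hi, ← key]
    exact K.mul_mem (K.mul_mem he hi) (K.inv_mem he)⟩
  have r2 := r1.conj_fix ht (hKO ht) (ht' w₀ a0 b0)
  rw [map_smul, hta] at r2
  have := r1.comm r2
  rw [ei_zero_eq_tv] at this
  refine ⟨w₀, _, fun h => hw ?_, ?_, this⟩
  · rw [hw₀, add_eq_zero_iff_eq_neg] at h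
    rw [h]
    exact Submodule.neg_mem _ (Submodule.smul_mem _ _ (Submodule.mem_span_singleton_self a))
  · simp only [B_smul_left, B_smul_right, FormType.alt_σ, hba, ← hβ]
    field_simp
    norm_num
    have : (8 : F) = 2 ^ 3 := by norm_num
    rw [this]
    exact ⟨pow_ne_zero _ h2, hab⟩

variable [Finite F] [FiniteDimensional F V] {σ : F →+* F} {hσ2 : ∀ a, σ (σ a) = a}
  {h : Form (FormType.herm σ hσ2) V}

omit [Finite F] in
theorem herm_exists_perp_q_ne_B_ne (hσ : σ ≠ RingHom.id F) (hh : h.Nondeg) (h2 : (2 : F) ≠ 0)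
    (hn : 3 ≤ finrank F V) {a b : V} (hb : b ∉ F ∙ a) :
    ∃ c, h.B a c = 0 ∧ h.q c ≠ 0 ∧ h.B c b ≠ 0 := by
  obtain ⟨c, hc, hc'⟩ := hh.exists_perp_eq hb 1
  have hac := h.B_eq_zero_symm (hc a (Submodule.mem_span_singleton_self a))
  by_cases h0 : h.q c = 0
  swap
  · exact ⟨c, hac, h0, by simp [hc']⟩
  obtain ⟨z, hz, hz'⟩ := herm_exists_perp_q_ne hσ hh (F ∙ a)
    (by have := finrank_span_single_le (F := F) a; omega)
  rw [mem_perp_span_singleton] at hz
  by_cases h1 : h.B z b = 0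
  swap
  · exact ⟨z, hz, hz', h1⟩
  by_cases h3 : h.q (c + z) = 0
  · refine ⟨c - z, by simp [hac, hz], fun h4 => hz' ?_, by simp [hc', h1]⟩
    rw [h.q_add, h0] at h3
    rw [h.q_sub, h0] at h4
    exact (mul_eq_zero.1 (by linear_combination h3 + h4)).resolve_left h2
  · exact ⟨c + z, by simp [hac, hz], h3, by simp [hc', h1]⟩

omit [Finite F] in
theorem herm_mem_of_nonsing_perp (hσ : σ ≠ RingHom.id F) (hh : h.Nondeg) {v : V} (hv : h.q v ≠ 0)
    (D : AddSubgroup V) (hD : ∀ x, h.B v x = 0 → h.q x ≠ 0 → x ∈ D) {x : V} (hx : h.B v x = 0) :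
    x ∈ D := by
  by_cases h0 : h.q x = 0
  swap
  · exact hD x hx h0
  by_cases hx0 : x = 0
  · rw [hx0]; exact D.zero_mem
  have hxv : x ∉ F ∙ v := fun H => by
    obtain ⟨c, rfl⟩ := Submodule.mem_span_singleton.1 H
    rw [h.B_smul_right, ← herm_q, mul_eq_zero, or_iff_left hv] at hx
    exact hx0 (by rw [hx, zero_smul])
  obtain ⟨y, hy, hy'⟩ := hh.exists_perp_eq hxv 1
  have hvy := h.B_eq_zero_symm (hy v (Submodule.mem_span_singleton_self v))
  obtain ⟨s, hs⟩ := FormType.exists_add_σ_eq_one hσ hσ2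
  have hq : ∀ k : F, h.q (y + k • x) = h.q y + (k + σ k) := fun k => by
    rw [h.q_add_smul, h0, hy', FormType.herm_π]; simp
  by_cases h2 : (2 : F) = 0
  · have e : x = (y + (s * (1 - h.q y) + 1) • x) - (y + (s * (1 - h.q y)) • x) := by module
    rw [e]
    refine D.sub_mem (hD _ (by simp [hvy, hx]) ?_) (hD _ (by simp [hvy, hx]) ?_)
    · rw [hq, map_add, map_mul, map_sub, map_one, herm_σ_q]
      intro H
      exact one_ne_zero (by linear_combination H - (1 - h.q y) * hs - h2 : (1 : F) = 0)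
    · rw [hq, map_mul, map_sub, map_one, herm_σ_q]
      intro H
      exact one_ne_zero (by linear_combination H - (1 - h.q y) * hs : (1 : F) = 0)
  · have e : x = (y + (s * (1 - h.q y)) • x) - (y + (s * (1 - h.q y) - 1) • x) := by module
    rw [e]
    refine D.sub_mem (hD _ (by simp [hvy, hx]) ?_) (hD _ (by simp [hvy, hx]) ?_)
    · rw [hq, map_mul, map_sub, map_one, herm_σ_q]
      intro H
      exact one_ne_zero (by linear_combination H - (1 - h.q y) * hs : (1 : F) = 0)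
    · rw [hq, map_sub, map_mul, map_sub, map_one, herm_σ_q]
      intro H
      exact one_ne_zero (by linear_combination -H + (1 - h.q y) * hs : (1 : F) = 0)

/-- Two additive maps proportional on every non-singular vector are proportional. -/
theorem herm_exists_scalar_of_nonsing (hσ : σ ≠ RingHom.id F) (hh : h.Nondeg) (h2 : (2 : F) ≠ 0)
    (hn : 3 ≤ finrank F V) {R W : Type*} [Ring R] [AddCommGroup W] [Module R W] (A C : V →+ W)
    (hC : ∀ y z, h.q y ≠ 0 → z ∉ F ∙ y → ∀ a b : R, a • C z + b • C y = 0 → a = 0 ∧ b = 0)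
    (H : ∀ u, h.q u ≠ 0 → ∃ c : R, A u = c • C u) : ∃ c : R, ∀ u, A u = c • C u := by
  have key2 : ∀ y z (a b : R), h.q y ≠ 0 → h.q z ≠ 0 → h.B y z = 0 → h.q y + h.q z ≠ 0 →
      A y = a • C y → A z = b • C z → a = b ∧ A (y + z) = a • C (y + z) := by
    intro y z a b hy hz hyz hs ha hb
    obtain ⟨d, hd⟩ := H (y + z) (by rwa [h.q_add_of_B_eq_zero hyz])
    have hd' := hd
    rw [map_add, map_add, ha, hb] at hd
    obtain ⟨e1, e2⟩ := hC y z hy (fun H => by
      obtain ⟨c, rfl⟩ := Submodule.mem_span_singleton.1 H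
      rw [h.B_smul_right, ← herm_q, mul_eq_zero, or_iff_left hy] at hyz
      exact hz (by rw [hyz, zero_smul, h.q_zero])) (b - d) (a - d) (by
      rw [sub_smul, sub_smul]; rw [smul_add] at hd
      rw [← sub_eq_zero] at hd
      rw [← hd]; abel)
    rw [sub_eq_zero] at e1 e2
    exact ⟨by rw [e1, e2], by rw [e2, hd']⟩
  have key3 : ∀ y z (a b : R), h.q y ≠ 0 → h.q z ≠ 0 → h.B y z = 0 →
      A y = a • C y → A z = b • C z → a = b := by
    intro y z a b hy hz hyz ha hb
    by_cases hs : h.q y + h.q z = 0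
    swap
    · exact (key2 y z a b hy hz hyz hs ha hb).1
    obtain ⟨x, hxy, hxz, hx⟩ : ∃ x, h.B y x = 0 ∧ h.B z x = 0 ∧ h.q x = h.q y := by
      have n1 : (h.restrict (h.perp (F ∙ y))).Nondeg :=
        hh.restrict_perp (restrict_nondeg_single (by rwa [← herm_q]))
      have d1 := hh.finrank_add_finrank_perp (F ∙ y)
      have d2 := finrank_span_single_le (F := F) y
      let z' : h.perp (F ∙ y) := ⟨z, h.mem_perp_span_singleton.2 hyz⟩
      have n2 := n1.restrict_perp (restrict_nondeg_single (x := z') (by rwa [← herm_q]))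
      have d3 := n1.finrank_add_finrank_perp (F ∙ z')
      have d4 := finrank_span_single_le (F := F) z'
      obtain ⟨x, -, hx⟩ := herm_exists_perp_q_eq hσ n2 ⊥ (by simp; omega) (herm_σ_q (f := h) y)
      exact ⟨x, h.mem_perp_span_singleton.1 x.1.2,
        (h.restrict (h.perp (F ∙ y))).mem_perp_span_singleton.1 x.2, hx⟩
    obtain ⟨d, hd⟩ := H x (by rwa [hx])
    have hyx : h.q y + h.q x ≠ 0 := by rw [hx, ← two_mul]; exact mul_ne_zero h2 hy
    refine (key2 (y + x) z a b (by rwa [h.q_add_of_B_eq_zero hxy]) hz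
      (by rw [h.B_add_left, hyz, h.B_eq_zero_symm hxz, add_zero]) ?_
      (key2 y x a d hy (by rwa [hx]) hxy hyx ha hd).2 hb).1
    rw [h.q_add_of_B_eq_zero hxy, add_right_comm, hs, zero_add, hx]
    exact hy
  obtain ⟨v, -, hv⟩ := herm_exists_perp_q_ne hσ hh ⊥ (by simp; omega)
  obtain ⟨z, hz, hz'⟩ := herm_exists_perp_q_ne hσ hh (F ∙ v)
    (by have := finrank_span_single_le (F := F) v; omega)
  rw [mem_perp_span_singleton] at hz
  obtain ⟨a, ha⟩ := H v hv
  obtain ⟨b, hb⟩ := H z hz'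
  obtain rfl := key3 v z a b hv hz' hz ha hb
  let D : AddSubgroup V := (A - (DistribSMul.toAddMonoidHom W a).comp C).ker
  have hD : ∀ u, u ∈ D ↔ A u = a • C u := fun u => by
    simp [D, AddMonoidHom.mem_ker, sub_eq_zero]
  have key : ∀ y, h.q y ≠ 0 → A y = a • C y → ∀ x, h.B y x = 0 → x ∈ D := fun y hy ha x hx =>
    herm_mem_of_nonsing_perp hσ hh hy D (fun x hx hx' => by
      obtain ⟨d, hd⟩ := H x hx'
      rw [hD, key3 y x a d hy hx' hx ha hd, hd]) hx
  refine ⟨a, fun u => (hD u).1 ?_⟩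
  have e : u = (u - (h.B v u / h.q v) • v) + (h.B v u / h.q v) • v := by abel
  rw [e]
  refine D.add_mem (key v hv ha _ ?_) (key z hz' hb _ ?_)
  · rw [h.B_sub_right, h.B_smul_right, ← herm_q, div_mul_cancel₀ _ hv, sub_self]
  · rw [h.B_smul_right, h.B_eq_zero_symm hz, mul_zero]

end General

namespace UExt

variable {F E : Type*} [Field F] [Field E] [Algebra F E] {τ : E →+* E}
  {hτ : ∀ a, τ (τ a) = a} {V : Type*} [AddCommGroup V] [Module F V] [Module E V]
  [IsScalarTower F E V] {K : Subgroup (V ≃ₗ[F] V)} [FiniteDimensional E V] [Finite E]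
  {f : Form (FormType.alt F) V} {h : Form (FormType.herm τ hτ) V} (U : UExt f h)
include U

local notation "ι₀" => algebraMap F E

omit [IsScalarTower F E V] [FiniteDimensional E V] [Finite E] in
theorem τ_η : τ U.η = -U.η := by rw [U.hε, FormType.alt_ε]; simp

omit [IsScalarTower F E V] [FiniteDimensional E V] [Finite E] in
theorem exists_tr (h2 : (2 : F) ≠ 0) {b : E} (hb : τ b = b) :
    ∃ k : E, U.η * k + τ (U.η * k) = 1 ∧ k + τ k = b := by
  have h2' : (2 : E) ≠ 0 := by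
    rw [← map_ofNat ι₀ 2]; exact (map_ne_zero ι₀).2 h2
  have := U.η_ne
  refine ⟨(U.η⁻¹ + b) / 2, ?_, ?_⟩ <;>
  · simp only [map_mul, map_div₀, map_add, map_inv₀, map_ofNat, U.τ_η, hb]
    field_simp
    ring

theorem O_le_of_tv [FiniteDimensional F V] (h2 : (2 : F) ≠ 0) (hf : f.Nondeg)
    (hn : 3 ≤ finrank E V) (hK : ∀ e ∈ h.O, res F E V e ∈ K) (hKO : K ≤ f.O) {w : V} {c : F}
    (hw : w ≠ 0) (hc : c ≠ 0) (ht : f.tv w c ∈ K) : f.O ≤ K := by
  have : Finite F := Finite.of_injective _ (algebraMap F E).injective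
  have hh := U.nondeg hf
  have conj : ∀ k ∈ K, ∀ v c, f.tv v c ∈ K → f.tv (k v) c ∈ K := fun k hk v c hv => by
    rw [← tv_conj (hKO hk)]
    exact K.mul_mem (K.mul_mem hk hv) (K.inv_mem hk)
  have witt : ∀ v v' c, v ≠ 0 → v' ≠ 0 → h.q v = h.q v' → f.tv v c ∈ K → f.tv v' c ∈ K := by
    intro v v' c hv hv' e H
    obtain ⟨k, hk, rfl⟩ := hh.witt_vector hv hv' e
    exact conj _ (hK k hk) v c H
  have hc' : ι₀ c ≠ 0 := (map_ne_zero ι₀).2 hc
  obtain ⟨u, hu0, hu, hut⟩ : ∃ u, u ≠ 0 ∧ h.q u = 0 ∧ f.tv u c ∈ K := by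
    by_cases h0 : h.q w = 0
    · exact ⟨w, hw, h0, ht⟩
    obtain ⟨k, hk1, hk2⟩ := U.exists_tr h2 (b := -(h.q w + ι₀ c * ι₀ c * h.q w) / ι₀ c)
      (by simp only [map_div₀, map_neg, map_add, map_mul, U.τ_alg, herm_σ_q])
    obtain ⟨z, hz, hz'⟩ := herm_exists_perp_q_eq U.τ_ne hh (E ∙ w)
      (by have := finrank_span_single_le (F := E) w; omega) (b := h.q w - τ k * k / h.q w)
      (by simp only [map_div₀, map_sub, map_mul, herm_σ_q, hτ]; ring)
    rw [mem_perp_span_singleton] at hz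
    set w' := z + (k / h.q w) • w with hw'
    have e1 : h.B w w' = k := by
      rw [hw', h.B_add_right, h.B_smul_right, hz, ← herm_q, div_mul_cancel₀ _ h0, zero_add]
    have e2 : h.q w' = h.q w := by
      rw [hw', h.q_add_smul, hz', h.B_eq_zero_symm hz, FormType.herm_σ, map_div₀, herm_σ_q]
      field_simp
      simp
    have e3 : f.B w w' = 1 := by
      apply (algebraMap F E).injective
      rw [U.hB, e1, hk1, map_one]
    refine ⟨f.tv w c w', ?_, ?_, conj _ ht _ _ (witt w w' c hw ?_ e2.symm ht)⟩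
    · rw [ne_eq, map_eq_zero_iff _ (f.tv w c).injective]
      rintro h; simp [h] at e3
    · rw [tv_apply, e3, mul_one, ← algebraMap_smul E c, h.q_add_smul, e2, h.herm_symm, e1,
        FormType.herm_σ, FormType.herm_π, U.τ_alg, map_mul, U.τ_alg, hτ]
      field_simp at hk2
      linear_combination hk2
    · rintro h; simp [h] at e3
  have s1 : ∀ v, h.q v = 0 → ∀ d, f.tv v d ∈ K := by
    intro v hv d
    obtain ⟨a, b, hab⟩ := CL.ExtF.exists_mul_self_add (d / c)
    have key : ∀ a : F, f.tv v (a ^ 2 * c) ∈ K := fun a => by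
      rw [← tv_smul]
      by_cases h0 : a • v = 0
      · rw [h0, tv_zero_left]; exact K.one_mem
      · exact witt u _ c hu0 h0 (by rw [hu, ← algebraMap_smul E a, h.q_smul_eq_zero hv]) hut
    have e : d = a ^ 2 * c + b ^ 2 * c := by
      field_simp at hab
      linear_combination -hab
    rw [e, ← tv_mul]
    exact K.mul_mem (key a) (key b)
  refine hf.O_le_of_tv fun v d => ?_
  by_cases hv : h.q v = 0
  · exact s1 v hv d
  obtain ⟨u', hu', huu'⟩ := hh.exists_partner' hu hu0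
  obtain ⟨k, hk1, hk2⟩ := U.exists_tr h2 (herm_σ_q (f := h) v)
  have e3 : f.B u (k • u') = 1 := by
    apply (algebraMap F E).injective
    rw [U.hB, h.B_smul_right, huu', mul_one, hk1, map_one]
  have e4 : h.q (f.tv u 1 (k • u')) = h.q v := by
    rw [tv_apply, e3, mul_one, one_smul, add_comm, h.q_add_smul, hu, hu', huu', FormType.herm_π,
      mul_one, hk2]
    simp
  refine witt _ v d ?_ ?_ e4 (conj _ (s1 u hu 1) _ _ (s1 _ (h.q_smul_eq_zero hu' k) d))
  · rintro h0; rw [h0, h.q_zero] at e4; exact hv e4.symm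
  · rintro rfl; exact hv h.q_zero

theorem O_le_or_line [FiniteDimensional F V] (h2 : (2 : F) ≠ 0) (hf : f.Nondeg)
    (hn : 3 ≤ finrank E V) (hK : ∀ e ∈ h.O, res F E V e ∈ K) (hKO : K ≤ f.O) {g : V ≃ₗ[F] V}
    (hg : g ∈ K) {ω : E} (hω : τ ω ≠ ω) (hω1 : τ ω * ω = 1) {v : V} (hv : h.q v ≠ 0) :
    f.O ≤ K ∨ g (ω • v) ∈ E ∙ g v := by
  have hh := U.nondeg hf
  have hgO := hKO hg
  have h2' : (2 : E) ≠ 0 := by
    rw [← map_ofNat ι₀ 2]; exact (map_ne_zero ι₀).2 h2
  refine or_iff_not_imp_right.2 fun hab => ?_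
  have cond : ∀ (p : V) (l : E), h.q p ≠ 0 → τ l * l = 1 →
      (FormType.herm τ hτ).π ((FormType.herm τ hτ).σ ((l - 1) / h.q p)) +
        (FormType.herm τ hτ).σ ((l - 1) / h.q p) * ((l - 1) / h.q p) * h.q p = 0 := by
    intro p l hp hl
    simp only [FormType.herm_π, FormType.herm_σ, map_div₀, map_sub, map_one, herm_σ_q, hτ]
    field_simp
    linear_combination hl
  have hm1 : τ (-1) * (-1) = 1 := by simp
  have app : ∀ (l : E) (hl : τ l * l = 1) (k : E),
      (g * res F E V (h.rk1Equiv v _ (cond v l hv hl)) * g⁻¹) (g (k • v)) = g ((l * k) • v) := by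
    intro l hl k
    rw [LinearEquiv.mul_apply, LinearEquiv.mul_apply, res_apply,
      show g⁻¹ (g (k • v)) = k • v from g.symm_apply_apply _, rk1Equiv_apply, h.B_smul_right,
      ← herm_q, ← add_smul]
    congr 2
    field_simp
    ring
  have fix : ∀ (l : E) (hl : τ l * l = 1) x, f.B (g v) x = 0 → f.B (g (ω • v)) x = 0 →
      (g * res F E V (h.rk1Equiv v _ (cond v l hv hl)) * g⁻¹) x = x := by
    intro l hl x h1 h3
    rw [B_apply_left hgO] at h1 h3
    rw [LinearEquiv.mul_apply, LinearEquiv.mul_apply, res_apply, rk1Equiv_apply,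
      U.hB_eq_zero hω h1 h3, mul_zero, zero_smul, add_zero]
    exact g.apply_symm_apply x
  have mem : ∀ (l : E) (hl : τ l * l = 1),
      g * res F E V (h.rk1Equiv v _ (cond v l hv hl)) * g⁻¹ ∈ K := fun l hl =>
    K.mul_mem (K.mul_mem hg (hK _ (h.rk1Equiv_mem_O _ _ _))) (K.inv_mem hg)
  obtain ⟨c, hc1, hc2, hc3⟩ := herm_exists_perp_q_ne_B_ne U.τ_ne hh h2' hn hab
  obtain ⟨w₀, d, hw₀, hd, ht⟩ := exists_tv_of_invol h2 hKO (a := g v) (b := g (ω • v))
    (w := ((-1 - 1) / h.q c * h.B c (g (ω • v))) • c)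
    (by
      rw [mem_O_B hgO, ne_eq, U.B_eq_zero_iff, h.B_smul_right, ← herm_q]
      simp only [map_mul, U.τ_η, herm_σ_q]
      intro H
      have : U.η * h.q v * (ω - τ ω) = 0 := by linear_combination H
      simp [U.η_ne, hv, sub_eq_zero, hω.symm] at this)
    (mem (-1) hm1) (mem ω hω1) (hK _ (h.rk1Equiv_mem_O c _ (cond c (-1) hc2 hm1)))
    (by simpa using app (-1) hm1 1) (by simpa using app (-1) hm1 ω) (fix (-1) hm1)
    (by simpa using app ω hω1 1) (fix ω hω1)
    (by rw [res_apply, rk1Equiv_apply, h.B_eq_zero_symm hc1]; simp)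
    (by rw [res_apply, rk1Equiv_apply]) (fun H => by
      obtain ⟨s, hs⟩ := Submodule.mem_span_singleton.1 H
      have := congrArg (h.B c) hs
      rw [← algebraMap_smul E s, h.B_smul_right, h.B_smul_right, h.B_eq_zero_symm hc1,
        ← herm_q, mul_zero, eq_comm] at this
      have h4 : (-1 - 1 : E) ≠ 0 := fun e => h2' (by linear_combination -e)
      simp [hc2, hc3, h4] at this)
  exact U.O_le_of_tv h2 hf hn hK hKO hw₀ hd ht

theorem O_le_or_mem [FiniteDimensional F V] (h2 : (2 : F) ≠ 0) (hf : f.Nondeg)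
    (hn : 3 ≤ finrank E V) (hK : ∀ e ∈ h.O, res F E V e ∈ K) (hKO : K ≤ f.O) {g : V ≃ₗ[F] V}
    (hg : g ∈ K) : f.O ≤ K ∨ g ∈ normE F E V := by
  have hh := U.nondeg hf
  have h2' : (2 : E) ≠ 0 := by
    rw [← map_ofNat ι₀ 2]; exact (map_ne_zero ι₀).2 h2
  have n1 : 1 - U.η ≠ 0 := fun e => by
    have h1 := U.τ_η
    rw [← sub_eq_zero.1 e, map_one] at h1
    exact h2' (by linear_combination h1)
  have n2 : 1 + U.η ≠ 0 := fun e => by
    have h1 := U.τ_η
    rw [eq_neg_of_add_eq_zero_right e, map_neg, map_one] at h1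
    exact h2' (by linear_combination -h1)
  set ω := (1 + U.η) / (1 - U.η) with hω'
  have tω : τ ω = (1 - U.η) / (1 + U.η) := by
    rw [hω', map_div₀, map_add, map_sub, map_one, U.τ_η]; simp [sub_eq_add_neg]
  have hω : τ ω ≠ ω := by
    rw [tω, hω', ne_eq, div_eq_div_iff n2 n1]
    intro H
    have : 2 * 2 * U.η = 0 := by linear_combination -H
    simp [h2', U.η_ne] at this
  have hω1 : τ ω * ω = 1 := by rw [tω, hω']; field_simp
  refine or_iff_not_imp_left.2 fun hE => ?_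
  have H : ∀ u, h.q u ≠ 0 → ∃ c : E, g (ω • u) = c • g u := fun u hu => by
    obtain ⟨c, hc⟩ := Submodule.mem_span_singleton.1
      ((U.O_le_or_line h2 hf hn hK hKO hg hω hω1 hu).resolve_left hE)
    exact ⟨c, hc.symm⟩
  obtain ⟨c, hc⟩ := herm_exists_scalar_of_nonsing U.τ_ne hh h2' hn (R := E)
    ((g : V →ₗ[F] V).toAddMonoidHom.comp (LinearMap.lsmul E V ω).toAddMonoidHom)
    (g : V →ₗ[F] V).toAddMonoidHom (fun y z hy hz a b hab =>
      let ⟨_, hc⟩ := H y hy
      U.indep_of_line hω (by rintro rfl; exact hy h.q_zero) hc hz hab) H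
  have : Nontrivial V := Module.nontrivial_of_finrank_pos (R := E) (by omega)
  exact U.mem_normE_of_scalar hω hc

end UExt

open Cfsg Cfsg.Geo Matrix in
/-- C3, unitary type, in `Sp_{2m}(q)`, `q` odd, `m ≥ 3`. -/
theorem isMaximalIn_sp_gu {F : Type*} [Field F] [Fintype F] {m : ℕ} (hm : 3 ≤ m)
    (hodd : Odd (Fintype.card F)) {K : Subalgebra F (Matrix (Fin m ⊕ Fin m) (Fin m ⊕ Fin m) F)}
    (hK : IsFieldSubalgebra 2 K) (hac : IsAdjointClosedFor (sympForm m F) K)
    (hnsa : ¬ IsSelfAdjointFor (sympForm m F) K) :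
    IsMaximalIn (spGL m F) (subalgebraNormalizer K ⊓ spGL m F) := by
  have : Nonempty (Fin m ⊕ Fin m) := ⟨Sum.inl ⟨0, by omega⟩⟩
  have hf := CL.Sp.spForm_nondeg m F
  obtain ⟨E, _, _, _, _, h2, hE⟩ := exists_field_of_isFieldSubalgebra hK
  have hA : ∀ k : E, ∃ A ∈ K, ∀ v, A *ᵥ v = k • v := fun k =>
    ⟨LinearMap.toMatrix' ((LinearMap.lsmul E _ k).restrictScalars F),
      (hE _).2 ⟨k, fun v => LinearMap.toMatrix'_mulVec _ v⟩, fun v => LinearMap.toMatrix'_mulVec _ v⟩
  obtain ⟨τ, hτ, h, ⟨U⟩⟩ := exists_uExt_alt hf h2 (fun k => by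
    obtain ⟨A, hA, e⟩ := hA k
    obtain ⟨A', hA', e'⟩ := hac A hA
    obtain ⟨k', hk'⟩ := (hE _).1 hA'
    exact ⟨k', fun u v => by
      rw [← e, ← hk', CL.Sp.spForm_B, CL.Sp.spForm_B]; exact e' u v⟩) (fun H => hnsa fun A hA u v => by
    obtain ⟨k, hk⟩ := (hE _).1 hA
    rw [hk, hk, ← CL.Sp.spForm_B, ← CL.Sp.spForm_B]; exact H k u v)
  have : FiniteDimensional F E := Module.finite_of_finrank_pos (by omega)
  have : Finite E := Module.finite_of_finite F
  have : FiniteDimensional E (Fin m ⊕ Fin m → F) := Module.Finite.of_restrictScalars_finite F E _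
  have hr : 3 ≤ finrank E (Fin m ⊕ Fin m → F) := by
    have := Module.finrank_mul_finrank F E (Fin m ⊕ Fin m → F)
    rw [h2, CL.Sp.finrank_sp] at this
    omega
  refine isMaximalIn_of_act mem_spGL_iff_O (mem_subalgebraNormalizer_iff hE)
    (fun H => U.not_E_le_normE3 hf hr (E_le_O.trans H)) ?_
  rintro L h1 h2 ⟨g, hg, hg'⟩
  exact (U.O_le_or_mem (two_ne_zero_of_odd hodd) hf hr
    (fun e he => h1 ⟨UExt.res_mem_normE _, U.res_mem_O he⟩) h2 hg).resolve_right hg'

end CL.Root
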