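import Cfsg.Agent.CLAS.PGL2MaxCases
import Cfsg.Agent.CLAS.PGL2Four

/-!
All icosahedral subgroups of `PGL(2, F)` are conjugate (odd characteristic); their normalizers.
-/

set_option autoImplicit false

namespace CL.Dk

open Matrix
open scoped MatrixGroups LinearAlgebra.Projectivization Quaternion
open CL.PGL2

variable {F K : Type*} [Field F] [Field K] {G : Type*} [Group G]

section Signs

variable (h2 : (2 : F) ≠ 0) (B : QB F) {S : Subgroup PGL(2, F)} {a b c : F}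
include h2

theorem qp_neg_imI_mem (hI : vI B ∈ S) (hn : Quaternion.normSq (qq (0 : F) a b c) ≠ 0)
    (h : qp B (qq 0 a b c) ∈ S) : qp B (qq 0 (-a) b c) ∈ S := by
  have hn' : Quaternion.normSq (qq (0 : F) (-a) b c) ≠ 0 := by
    rwa [normSq_qq, neg_sq, ← normSq_qq]
  have e : qp B (qq 0 (-a) b c) * vI B = vI B * qp B (qq 0 a b c) := by
    rw [vI, qp_mul h2 B hn' nI, qp_mul h2 B nI hn, qp_eq_iff h2 B
      (by rw [map_mul]; exact mul_ne_zero hn' nI) (by rw [map_mul]; exact mul_ne_zero nI hn)]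
    exact ⟨-1, by ext1 <;> simp⟩
  rw [← Subgroup.mul_mem_cancel_right S hI, e]
  exact mul_mem hI h

theorem qp_neg_imJ_mem (hJ : vJ B ∈ S) (hn : Quaternion.normSq (qq (0 : F) a b c) ≠ 0)
    (h : qp B (qq 0 a b c) ∈ S) : qp B (qq 0 a (-b) c) ∈ S := by
  have hn' : Quaternion.normSq (qq (0 : F) a (-b) c) ≠ 0 := by
    rwa [normSq_qq, neg_sq, ← normSq_qq]
  have e : qp B (qq 0 a (-b) c) * vJ B = vJ B * qp B (qq 0 a b c) := by
    rw [vJ, qp_mul h2 B hn' nJ, qp_mul h2 B nJ hn, qp_eq_iff h2 B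
      (by rw [map_mul]; exact mul_ne_zero hn' nJ) (by rw [map_mul]; exact mul_ne_zero nJ hn)]
    exact ⟨-1, by ext1 <;> simp⟩
  rw [← Subgroup.mul_mem_cancel_right S hJ, e]
  exact mul_mem hJ h

theorem qp_neg_imK_mem (hK : vK B ∈ S) (hn : Quaternion.normSq (qq (0 : F) a b c) ≠ 0)
    (h : qp B (qq 0 a b c) ∈ S) : qp B (qq 0 a b (-c)) ∈ S := by
  have hn' : Quaternion.normSq (qq (0 : F) a b (-c)) ≠ 0 := by
    rwa [normSq_qq, neg_sq, ← normSq_qq]
  have e : qp B (qq 0 a b (-c)) * vK B = vK B * qp B (qq 0 a b c) := by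
    rw [vK, qp_mul h2 B hn' nK, qp_mul h2 B nK hn, qp_eq_iff h2 B
      (by rw [map_mul]; exact mul_ne_zero hn' nK) (by rw [map_mul]; exact mul_ne_zero nK hn)]
    exact ⟨-1, by ext1 <;> simp⟩
  rw [← Subgroup.mul_mem_cancel_right S hK, e]
  exact mul_mem hK h

theorem qp_mem_of_sq_eq (hI : vI B ∈ S) (hJ : vJ B ∈ S)
    (hn : Quaternion.normSq (qq (0 : F) a b c) ≠ 0) (h : qp B (qq 0 a b c) ∈ S) {a' b' c' : F}
    (ha : a' ^ 2 = a ^ 2) (hb : b' ^ 2 = b ^ 2) (hc : c' ^ 2 = c ^ 2) :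
    qp B (qq 0 a' b' c') ∈ S := by
  have hK : vK B ∈ S := vI_mul_vJ h2 B ▸ mul_mem hI hJ
  have n1 : Quaternion.normSq (qq (0 : F) a' b c) ≠ 0 := by rwa [normSq_qq, ha, ← normSq_qq]
  have n2 : Quaternion.normSq (qq (0 : F) a' b' c) ≠ 0 := by rwa [normSq_qq, hb, ← normSq_qq]
  have m1 : qp B (qq 0 a' b c) ∈ S := by
    rcases sq_eq_sq_iff_eq_or_eq_neg.1 ha with rfl | rfl
    exacts [h, qp_neg_imI_mem h2 B hI hn h]
  have m2 : qp B (qq 0 a' b' c) ∈ S := by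
    rcases sq_eq_sq_iff_eq_or_eq_neg.1 hb with rfl | rfl
    exacts [m1, qp_neg_imJ_mem h2 B hJ n1 m1]
  rcases sq_eq_sq_iff_eq_or_eq_neg.1 hc with rfl | rfl
  exacts [m2, qp_neg_imK_mem h2 B hK n2 m2]

/-- An involution of `PSL₂` in quaternion coordinates. -/
theorem exists_qq_of_involution {s : PGL(2, F)} (hs : s ∈ pslIn F) (hs1 : s ≠ 1)
    (hs2 : s ^ 2 = 1) : ∃ a b c : F, a ^ 2 + b ^ 2 + c ^ 2 = 1 ∧ s = qp B (qq 0 a b c) ∧
      tau (s * vI B) = (2 * a) ^ 2 ∧ tau (s * vJ B) = (2 * b) ^ 2 ∧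
      tau (s * vK B) = (2 * c) ^ 2 := by
  obtain ⟨z, hz, e⟩ := exists_qp_of_mem_pslIn h2 B hs
  have hz0 : Quaternion.normSq z ≠ 0 := by rw [hz]; exact one_ne_zero
  have t0 := (sq_eq_one_iff_tau hs1).1 hs2
  rw [e, tau_qp h2 B hz0, hz, div_one, pow_eq_zero_iff two_ne_zero, mul_eq_zero] at t0
  have t0 := t0.resolve_left h2
  have ez : z = qq 0 z.imI z.imJ z.imK := by ext1 <;> simp [t0]
  refine ⟨z.imI, z.imJ, z.imK, ?_, by rw [← ez, e], ?_, ?_, ?_⟩
  · rw [normSq_eq, t0] at hz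
    linear_combination hz
  · rw [e, vI, qp_mul h2 B hz0 nI, tau_qp h2 B (by
      rw [map_mul]; exact mul_ne_zero hz0 nI), map_mul, hz, normSq_qq]
    simp
  · rw [e, vJ, qp_mul h2 B hz0 nJ, tau_qp h2 B (by
      rw [map_mul]; exact mul_ne_zero hz0 nJ), map_mul, hz, normSq_qq]
    simp
  · rw [e, vK, qp_mul h2 B hz0 nK, tau_qp h2 B (by
      rw [map_mul]; exact mul_ne_zero hz0 nK), map_mul, hz, normSq_qq]
    simp

end Signs

/-- Rigidity of a four-group together with a third involution. -/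
theorem exists_cjs_of_triple (h2 : (2 : F) ≠ 0) (B B' : QB F) {s s' : PGL(2, F)}
    (hs : s ∈ pslIn F) (hs1 : s ≠ 1) (hs2 : s ^ 2 = 1) (hs' : s' ∈ pslIn F) (hs1' : s' ≠ 1)
    (hs2' : s' ^ 2 = 1) (e1 : tau (s' * vI B') = tau (s * vI B))
    (e2 : tau (s' * vJ B') = tau (s * vJ B)) :
    ∃ h : PGL(2, F), ∀ S : Subgroup PGL(2, F), vI B ∈ S → vJ B ∈ S → s ∈ S →
      vI B' ∈ cjs h S ∧ vJ B' ∈ cjs h S ∧ s' ∈ cjs h S := by
  obtain ⟨h, hh⟩ := exists_conj_QB h2 B B'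
  obtain ⟨a, b, c, n, e, t1, t2, -⟩ := exists_qq_of_involution h2 B hs hs1 hs2
  obtain ⟨a', b', c', n', e', t1', t2', -⟩ := exists_qq_of_involution h2 B' hs' hs1' hs2'
  refine ⟨h, fun S hI hJ hS => ⟨?_, ?_, ?_⟩⟩
  · rw [vI, hh, conj_mem_cjs]; exact hI
  · rw [vJ, hh, conj_mem_cjs]; exact hJ
  · have h4 : (2 : F) ^ 2 ≠ 0 := pow_ne_zero 2 h2
    have ha : a' ^ 2 = a ^ 2 := mul_left_cancel₀ h4 (by rw [← mul_pow, ← mul_pow, ← t1, ← t1', e1])
    have hb : b' ^ 2 = b ^ 2 := mul_left_cancel₀ h4 (by rw [← mul_pow, ← mul_pow, ← t2, ← t2', e2])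
    rw [e', hh, conj_mem_cjs]
    refine qp_mem_of_sq_eq h2 B hI hJ (a := a) (b := b) (c := c) ?_ (e ▸ hS) ha hb
      (by linear_combination n' - n - ha - hb)
    rw [normSq_qq, show (0 : F) ^ 2 + a ^ 2 + b ^ 2 + c ^ 2 = 1 by linear_combination n]
    exact one_ne_zero

/-- All subgroups `A₅` of `PGL(2, F)` are conjugate, in characteristic not two. -/
theorem exists_cjs_of_alt_five (h2 : (2 : F) ≠ 0) {H H' : Subgroup PGL(2, F)}
    (e : Nonempty (H ≃* alternatingGroup (Fin 5)))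
    (e' : Nonempty (H' ≃* alternatingGroup (Fin 5))) : ∃ h : PGL(2, F), H' = cjs h H := by
  let x : alternatingGroup (Fin 5) := sw2 0 1 2 3
  let y : alternatingGroup (Fin 5) := sw2 0 2 1 3
  let s : alternatingGroup (Fin 5) := sw2 0 1 3 4
  have key : ∀ {H : Subgroup PGL(2, F)}, Nonempty (H ≃* alternatingGroup (Fin 5)) →
      ∃ ρ : alternatingGroup (Fin 5) →* PGL(2, F), ρ.range = H ∧ ρ s ∈ pslIn F ∧ ρ s ≠ 1 ∧
        ρ s ^ 2 = 1 ∧ (∃ B : QB F, ρ x = vI B ∧ ρ y = vJ B) ∧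
        (∃ B : QB F, ρ x = vI B ∧ ρ (x * y) = vJ B) ∧ tau (ρ s * ρ x) = 1 ∧
        tau (ρ s * ρ y) ^ 2 - 3 * tau (ρ s * ρ y) + 1 = 0 ∧
        tau (ρ s * ρ y) + tau (ρ s * ρ (x * y)) = 3 := by
    intro H e
    have hL := le_pslIn_of_equiv_alternating e
    obtain ⟨e⟩ := e
    let ρ : alternatingGroup (Fin 5) →* PGL(2, F) := H.subtype.comp e.symm.toMonoidHom
    have hρ : Function.Injective ρ := H.subtype_injective.comp e.symm.injective
    have hm : ∀ σ, ρ σ ∈ pslIn F := fun σ => hL (e.symm σ).2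
    have hne : ∀ {σ τ}, σ ≠ τ → ρ σ ≠ ρ τ := fun h e => h (hρ e)
    have hne1 : ∀ {σ}, σ ≠ 1 → ρ σ ≠ 1 := fun h e => h (hρ (e.trans (map_one ρ).symm))
    have hpow : ∀ {σ} (n : ℕ), σ ^ n = 1 → ρ σ ^ n = 1 := fun n h => by rw [← map_pow, h, map_one]
    obtain ⟨B, hx, hy⟩ := exists_QB_of_involutions h2 (hm x) (hm y) (hne1 (by decide))
      (hne1 (by decide)) (hne (by decide)) (by rw [← sq]; exact hpow 2 (by decide))
      (by rw [← sq]; exact hpow 2 (by decide)) (by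
        rw [← map_mul, ← map_mul]; congr 1; decide)
    obtain ⟨B', hx', hy'⟩ := exists_QB_of_involutions h2 (hm x) (hm (x * y)) (hne1 (by decide))
      (hne1 (by decide)) (hne (by decide)) (by rw [← sq]; exact hpow 2 (by decide))
      (by rw [← sq]; exact hpow 2 (by decide)) (by
        rw [← map_mul, ← map_mul]; congr 1; decide)
    have t1 := (cube_eq_one_iff_tau (hne1 (σ := s * x) (by decide))).1 (hpow 3 (by decide))
    have t2 := (pow_five_eq_one_iff_tau (hne1 (σ := s * y) (by decide))).1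
      (hpow 5 (by decide +kernel))
    rw [map_mul] at t1 t2
    refine ⟨ρ, ?_, hm s, hne1 (by decide), hpow 2 (by decide), ⟨B, hx, hy⟩, ⟨B', hx', hy'⟩, t1, t2,
      ?_⟩
    · ext g
      exact ⟨by rintro ⟨σ, rfl⟩; exact (e.symm σ).2, fun hg => ⟨e ⟨g, hg⟩, by simp [ρ]⟩⟩
    · obtain ⟨a, b, c, n, -, u1, u2, u3⟩ := exists_qq_of_involution h2 B (hm s) (hne1 (by decide))
        (hpow 2 (by decide))
      have hxy : ρ (x * y) = vK B := by rw [map_mul, hx, hy]; exact vI_mul_vJ h2 B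
      rw [hx] at t1
      rw [hxy, hy]
      change tau (ρ s * vJ B) + _ = _
      change tau (ρ s * vI B) = _ at t1
      rw [u2, u3]
      rw [u1] at t1
      linear_combination 4 * n - t1
  obtain ⟨ρ, hr, m, n1, n2, ⟨B, hx, hy⟩, ⟨B₁, hx₁, hy₁⟩, t1, t2, t3⟩ := key e
  obtain ⟨ρ', hr', m', n1', n2', ⟨B', hx', hy'⟩, -, t1', t2', -⟩ := key e'
  have fin : ∀ h : PGL(2, F), ρ' x ∈ cjs h H → ρ' y ∈ cjs h H → ρ' s ∈ cjs h H →
      H' = cjs h H := by
    intro h a1 a2 a3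
    have top : (cjs h H).comap ρ' = ⊤ :=
      alt_five_eq_top (a := x) (b := s * x) (c := s * y) a1 (mul_mem (S := Subgroup _) a3 a1)
        (mul_mem (S := Subgroup _) a3 a2) (by decide) (by decide) (by decide)
        (by decide) (by decide +kernel) (by decide +kernel)
    have hle : H' ≤ cjs h H := by
      rw [← hr']
      rintro _ ⟨σ, rfl⟩
      have : σ ∈ (cjs h H).comap ρ' := by rw [top]; trivial
      exact this
    have c1 := card_of_alt_five e
    have c2 := card_of_alt_five e'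
    have : Finite (cjs h H) := Nat.finite_of_card_ne_zero (by rw [card_cjs, c1]; norm_num)
    exact Subgroup.eq_of_le_of_card_ge hle (by rw [card_cjs, c1, c2])
  have mem : ∀ σ, ρ σ ∈ H := fun σ => hr ▸ ⟨σ, rfl⟩
  have hq : (tau (ρ' s * ρ' y) - tau (ρ s * ρ y)) *
      (tau (ρ' s * ρ' y) - tau (ρ s * ρ (x * y))) = 0 := by
    linear_combination t2' - t2 + (tau (ρ s * ρ y) - tau (ρ' s * ρ' y)) * t3
  rcases mul_eq_zero.1 hq with h | h
  · obtain ⟨h, hh⟩ := exists_cjs_of_triple h2 B B' m n1 n2 m' n1' n2'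
      (by rw [← hx, ← hx', t1, t1']) (by rw [← hy, ← hy']; exact sub_eq_zero.1 h)
    obtain ⟨a1, a2, a3⟩ := hh H (hx ▸ mem x) (hy ▸ mem y) (mem s)
    exact ⟨h, fin h (hx' ▸ a1) (hy' ▸ a2) a3⟩
  · obtain ⟨h, hh⟩ := exists_cjs_of_triple h2 B₁ B' m n1 n2 m' n1' n2'
      (by rw [← hx₁, ← hx', t1, t1']) (by rw [← hy₁, ← hy']; exact sub_eq_zero.1 h)
    obtain ⟨a1, a2, a3⟩ := hh H (hx₁ ▸ mem x) (hy₁ ▸ mem (x * y)) (mem s)
    exact ⟨h, fin h (hx' ▸ a1) (hy' ▸ a2) a3⟩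

theorem not_pslIn_le_normalizer_of_alt_five [Finite F] (h6 : 6 ≤ Nat.card F)
    {H : Subgroup PGL(2, F)} (e : Nonempty (H ≃* alternatingGroup (Fin 5))) :
    ¬ pslIn F ≤ Subgroup.normalizer (H : Set PGL(2, F)) := by
  intro hle
  have := Matrix.ProjectiveSpecialLinearGroup.rank_two_simple (F := F) (by omega)
  have hs : IsSimpleGroup (pslIn F) := (pslInEquiv F).symm.isSimpleGroup
  have hL := le_pslIn_of_equiv_alternating e
  have hc := card_of_alt_five e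
  have hn : (H.subgroupOf (pslIn F)).Normal :=
    (Subgroup.normal_subgroupOf_iff_le_normalizer hL).2 hle
  rcases hn.eq_bot_or_eq_top with h | h
  · rw [Subgroup.subgroupOf_eq_bot, disjoint_iff, inf_eq_left.2 hL] at h
    rw [h, Subgroup.card_bot] at hc
    omega
  · have := Subgroup.card_le_of_le (Subgroup.subgroupOf_eq_top.1 h)
    have := sixty_lt_card_pslIn h6
    omega

/-- Over a prime field with at least seven elements, subgroups `A₅` are self-normalizing in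
`PGL(2, F)`. -/
theorem normalizer_eq_of_alt_five [Finite F] (hq : (Nat.card F).Prime) (h6 : 6 ≤ Nat.card F)
    {H : Subgroup PGL(2, F)} (e : Nonempty (H ≃* alternatingGroup (Fin 5))) :
    Subgroup.normalizer (H : Set PGL(2, F)) = H := by
  obtain ⟨p, hp⟩ := CharP.exists F
  have : Fact p.Prime := ⟨CharP.char_is_prime F p⟩
  have h2 : (2 : F) ≠ 0 := two_ne_zero_of_odd (hq.odd_of_ne_two (by omega))
  obtain ⟨B, hB⟩ := exists_tetra_le_of_alt_five h2 e
  have hc := card_of_alt_five e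
  have hle : H ≤ Subgroup.normalizer (H : Set PGL(2, F)) := Subgroup.le_normalizer
  refine (Subgroup.eq_of_le_of_card_ge hle ?_).symm
  rcases dickson_of_tetra_le h2 p (not_pslIn_le_normalizer_of_alt_five h6 e) (hB.trans hle) with
    ⟨h, -⟩ | ⟨h, -⟩ | ⟨k, h, m, -, hm, hk, -⟩
  · have := card_of_isPoly h
    omega
  · have := card_of_alt_five h
    omega
  · exact absurd hk (not_exists_pow_of_prime hq hm)

theorem exists_not_mem_pslIn [Finite F] (hodd : Odd (Nat.card F)) : ∃ t, t ∉ pslIn F := by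
  by_contra! hh
  have := index_pslIn_of_odd hodd
  rw [(Subgroup.eq_top_iff' _).2 hh, Subgroup.index_top] at this
  omega

/-- Subgroups of `PSL(2, F)` isomorphic to `X` versus their images in `PGL(2, F)`. -/
theorem card_psl_subgroups_eq (X : Type*) [Group X] :
    Nat.card {V : Subgroup PSL(2, F) // Nonempty (V ≃* X)} =
      Nat.card {W : Subgroup PGL(2, F) // Nonempty (W ≃* X) ∧ W ≤ pslIn F} :=
  Nat.card_congr
    { toFun := fun V => ⟨V.1.map (psl2pgl F), ⟨(V.1.equivMapOfInjective _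
        psl2pgl_injective).symm.trans V.2.some⟩, map_psl2pgl_le _⟩
      invFun := fun W => ⟨W.1.comap (psl2pgl F),
        ⟨(comapEquivOfLe psl2pgl_injective W.2.2).trans W.2.1.some⟩⟩
      left_inv := fun V => Subtype.ext
        (Subgroup.comap_map_eq_self_of_injective psl2pgl_injective _)
      right_inv := fun W => Subtype.ext (map_comap_psl2pgl W.2.2) }

theorem exists_alt_five_psl [Finite F] (h2 : (2 : F) ≠ 0)
    (h : 5 ∣ Nat.card F * (Nat.card F ^ 2 - 1)) :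
    ∃ H : Subgroup PGL(2, F), H ≤ pslIn F ∧ Nonempty (H ≃* alternatingGroup (Fin 5)) := by
  obtain ⟨t, ht⟩ := exists_golden_of_five_dvd h
  obtain ⟨B⟩ := nonempty_QB_of_finite (F := F)
  obtain ⟨H, -, h1, h2⟩ := exists_icosa h2 B ht
  exact ⟨H, h1, h2⟩

end CL.Dk
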