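/-
Elements of prime order with a conjugate normalising a group of symplectic type in dimension four.
-/
import Mathlib
import Cfsg.Agent.CLAS.Pauli2

set_option autoImplicit false

namespace CL.Pauli

open Matrix Subgroup Cfsg.Geo Module Polynomial CL.Witt CL.Witt.Form CL.GLn CL.Elus CL.PrimeCl CL.SpU
open scoped MatrixGroups

variable {F : Type*} [Field F] {ι : Type} [Fintype ι] [DecidableEq ι] {T : FormType F}
  {L R : Subgroup (GL ι F)} {f : Form T (ι → F)} {M : Matrix ι ι F} {x g : GL ι F}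
  {A B : Module.End F (ι → F)}

/-- Some conjugate of `A` under `L` normalises `R`. -/
def Hit (L R : Subgroup (GL ι F)) (A : Module.End F (ι → F)) : Prop :=
  ∃ g ∈ L, ∃ y ∈ normalizer (R : Set (GL ι F)), A * toLin' g.1 = toLin' g.1 * toLin' y.1

theorem hit_iff (x : GL ι F) :
    (∃ g ∈ L, g⁻¹ * x * g ∈ subgroupNormalizer R) ↔ Hit L R (toLin' x.1) := by
  refine exists_congr fun g => and_congr_right fun _ => ⟨fun h => ⟨_, h, ?_⟩, fun ⟨y, h1, h2⟩ => ?_⟩
  · simp only [Module.End.mul_eq_comp, ← toLin'_mul, ← Units.val_mul, mul_assoc,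
      mul_inv_cancel_left]
  · simp only [Module.End.mul_eq_comp, ← toLin'_mul, ← Units.val_mul, toLin'.injective.eq_iff,
      Units.val_inj] at h2
    rwa [mul_assoc, h2, inv_mul_cancel_left]

theorem Hit.of_smul (A : Module.End F (ι → F)) (b : F) (hb : b ≠ 0) (h : Hit L R (b • A)) :
    Hit L R A := by
  obtain ⟨g, h1, y, h2, h3⟩ := h
  obtain ⟨z, hz⟩ := exists_sc (ι := ι) (inv_ne_zero hb)
  refine ⟨g, h1, z * y, mul_mem (sc_mem_normalizer ⟨_, hz⟩) h2, ?_⟩
  rw [Units.val_mul, hz, smul_mul_assoc, one_mul, map_smul, mul_smul_comm, ← h3, smul_mul_assoc,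
    inv_smul_smul₀ hb]

/-- Similar semisimple isometries are conjugate under `L`. -/
structure Cj (L : Subgroup (GL ι F)) (f : Form T (ι → F)) : Prop where
  isom : ∀ A : Module.End F (ι → F), (∀ u v, f.B (A u) (A v) = f.B u v) → IsIsom f f A
  conj : ∀ A B : Module.End F (ι → F), IsIsom f f A → IsIsom f f B → A.IsSemisimple → Simil A B →
    ∃ g ∈ L, A * toLin' g.1 = toLin' g.1 * B

theorem Cj.isIsom (h : Cj L f) (hM : NM R f 1 M) : IsIsom f f (toLin' M) :=
  h.isom _ (by simpa using hM.2)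

theorem Cj.hit (h : Cj L f) (hM : NM R f 1 M) (hA : IsIsom f f A) (h1 : A.IsSemisimple)
    (h2 : Simil A (toLin' M)) : Hit L R A :=
  let ⟨g, h3, h4⟩ := h.conj _ _ hA (h.isIsom hM) h1 h2
  let ⟨y, h5, h6⟩ := hM.1
  ⟨g, h3, y, h5, h6 ▸ h4⟩

theorem cj_sl [Finite F] [Nonempty ι] : Cj (specialLinear ι F) (zeroForm F (ι → F)) := by
  refine ⟨fun A h => (alt_isIsom_iff _ _ _).2 h, fun A B _ _ h1 h2 => ?_⟩
  obtain ⟨A, rfl⟩ := toLin'.surjective A
  obtain ⟨B, rfl⟩ := toLin'.surjective B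
  obtain ⟨g, h3, h4⟩ := exists_conj_det ((isConj_iff_simil _ _).2 h2.symm)
    (exists_gl_commute_det_of_isSemisimple (h2.isSemisimple_iff.1 h1)) one_ne_zero
  exact ⟨g, Units.ext h4, by simp only [Module.End.mul_eq_comp, ← toLin'_mul, h3]⟩

theorem exists_gl_of_isomConj (h : IsomConj f f B A) :
    ∃ g : GL ι F, Orth.glEquiv ι F g ∈ f.O ∧ A * toLin' g.1 = toLin' g.1 * B := by
  obtain ⟨u, h1, h2⟩ := h
  obtain ⟨g, rfl⟩ := (Orth.glEquiv ι F).surjective u
  exact ⟨g, f.mem_O.2 h1, LinearMap.ext fun v => (h2 v).symm⟩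

theorem cj_sp [Finite F] (d : ℕ) : Cj (Cfsg.spGL d F) (Sp.spForm d F) := by
  refine ⟨fun A h => (alt_isIsom_iff _ _ _).2 h, fun A B hA hB h1 h2 => ?_⟩
  have hf := Sp.spForm_nondeg d F
  obtain ⟨g, h3, h4⟩ := exists_gl_of_isomConj
    ((rigid_alt hf hB (h2.isSemisimple_iff.1 h1)).isomConj hf hA h2.symm)
  exact ⟨g, FGL.mem_spGL_iff_O.2 h3, h4⟩

theorem cj_su [Fintype F] {q : ℕ} (hF : Fintype.card F = q ^ 2) (n : ℕ) [NeZero n] :
    Cj (Cfsg.GU n F q ⊓ specialLinear (Fin n) F) (Uni.std hF (Fin n)) := by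
  refine ⟨fun A h => (herm_isIsom_iff _ _ _).2 h, fun A B hA hB h1 h2 => ?_⟩
  have hf := Uni.std_nondeg hF (Fin n)
  obtain ⟨g, h3, h4⟩ := exists_gl_of_isomConj ((rigid_herm hf hB).isomConj hf hA h2.symm)
  obtain ⟨B, rfl⟩ := toLin'.surjective B
  have h5 := herm_norm_pow _ (Elus.norm_inv (Elus.norm_det hf ((mem_O _).1 h3)))
  obtain ⟨w, h6, h7, h8⟩ := exists_unitary_commute_det_eq hF ((isIsom_std_iff B).1 hB)
    (exists_gl_commute_det_of_isSemisimple (h2.isSemisimple_iff.1 h1)) h5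
  refine ⟨g * mkGU hF w h6, ⟨mul_mem ((Uni.mem_GU_iff hF).2 h3) (mkGU hF w h6).2, Units.ext ?_⟩, ?_⟩
  · change (g.1 * w).det = 1
    rw [det_mul, h8, Uni.det_glEquiv, mul_inv_cancel₀ g.det_ne_zero]
  · change A * toLin' (g.1 * w) = toLin' (g.1 * w) * _
    rw [toLin'_mul, ← Module.End.mul_eq_comp, ← mul_assoc, h4, mul_assoc, mul_assoc]
    simp only [Module.End.mul_eq_comp, ← toLin'_mul, h7]

/-- Isometries of order `r` are determined up to similarity by the rank of `A - 1`. -/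
structure Uniq (f : Form T (ι → F)) (r : ℕ) : Prop where
  hr : (r : F) ≠ 0
  dvd : ∀ A : Module.End F (ι → F), IsIsom f f A → A ^ r = 1 →
    r - 1 ∣ finrank F (LinearMap.range (A - 1))
  simil : ∀ A B : Module.End F (ι → F), IsIsom f f A → IsIsom f f B → A ^ r = 1 → B ^ r = 1 →
    finrank F (LinearMap.range (A - 1)) = finrank F (LinearMap.range (B - 1)) → Simil A B

section Uniq

variable [Fintype F] {r : ℕ} [hp : Fact r.Prime]

theorem uniq_of_ord (f : Form T (ι → F)) (hr : (r : F) ≠ 0) (h : ord F r = r - 1) : Uniq f r := by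
  refine ⟨hr, fun A _ h1 => ?_, fun A B _ _ h1 h2 h3 => ?_⟩
  · obtain ⟨m, k, h2⟩ := exists_hasM hr h1
    exact ⟨_, by rw [hasM_finrank_range hr h2, h]⟩
  obtain ⟨m, k, h4⟩ := exists_hasM hr h1
  obtain ⟨m', k', h5⟩ := exists_hasM hr h2
  rw [hasM_finrank_range hr h4, hasM_finrank_range hr h5, mul_right_inj' (PrimeCl.ord_pos hr).ne'] at h3
  obtain ⟨P, hP⟩ := Finset.card_eq_one.1 ((card_cyc hr).trans (by
    rw [h, Nat.div_self (by have := hp.out.two_le; omega)]))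
  obtain rfl : m = m' := by
    rw [(Multiset.eq_replicate_card (s := m)).2 fun Q hQ => Finset.mem_singleton.1
      (hP ▸ h4.mem Q hQ), h3, ← (Multiset.eq_replicate_card (s := m')).2 fun Q hQ =>
      Finset.mem_singleton.1 (hP ▸ h5.mem Q hQ)]
  exact h4.simil_of_finrank hr h5 rfl

theorem uniq_of_dat (hf : f.Nondeg) {s τ : ℕ} (D : Dat T r s (r - 1) τ) : Uniq f r := by
  rcases D.cases with h | ⟨h, h0, -⟩
  · exact uniq_of_ord f D.hr h.2.1.symm
  refine ⟨D.hr, fun A => D.dvd_finrank_range hf, fun A B hA hB h1 h2 h3 => ?_⟩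
  classical
  obtain ⟨m, k, h4⟩ := exists_hasM D.hr h1
  obtain ⟨m', k', h5⟩ := exists_hasM D.hr h2
  rw [hasM_finrank_range D.hr h4, hasM_finrank_range D.hr h5, mul_right_inj' D.ord_pos.ne'] at h3
  obtain ⟨S, -, h6, h7⟩ := exists_half_tw D.hr D.cop D.sq h
  rw [card_cyc D.hr, h0, Nat.mul_div_cancel _ D.ord_pos] at h7
  obtain ⟨P, rfl⟩ := Finset.card_eq_one.1 (show S.card = 1 by omega)
  have key : ∀ m : Multiset F[X], (∀ P ∈ m, P ∈ cycFactors F r) → m.map (tw s) = m → ∃ a,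
      m = Multiset.replicate a P + (Multiset.replicate a P).map (tw s) := fun m h8 h9 =>
    ⟨_, (eq_add_map_of_map_eq h6 h8 h9).trans (by rw [Multiset.eq_replicate_card.2 fun Q hQ =>
      Finset.mem_singleton.1 (Multiset.mem_filter.1 hQ).2])⟩
  obtain ⟨a, rfl⟩ := key m h4.mem (D.dual_eq ⟨f, hf, hA⟩ h4)
  obtain ⟨b, rfl⟩ := key m' h5.mem (D.dual_eq ⟨f, hf, hB⟩ h5)
  obtain rfl : a = b := by simp at h3; omega
  exact h4.simil_of_finrank D.hr h5 rfl

theorem toLin'_pow_eq_one {k : ℕ} (h : M ^ k = 1) : toLin' M ^ k = 1 := by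
  rw [← toLin'_pow, h, toLin'_one]; rfl

theorem Uniq.hit (h : Uniq f r) (hC : Cj L f) (hA : IsIsom f f A) (h1 : A ^ r = 1)
    (hM : NM R f 1 M) (h2 : M ^ r = 1)
    (h3 : finrank F (LinearMap.range (A - 1)) = finrank F (LinearMap.range (toLin' M - 1))) :
    Hit L R A :=
  hC.hit hM hA (isSemisimple_of_pow_eq_one h.hr h1)
    (h.simil _ _ hA (hC.isIsom hM) h1 (toLin'_pow_eq_one h2) h3)

end Uniq

/-- A two by two block of determinant one and trace `τ`. -/
structure Blk (x : GL ι F) (τ : F) : Prop where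
  cubic : x.1 ^ 3 = (τ + 1) • x.1 ^ 2 - (τ + 1) • x.1 + 1
  tr : trace x.1 = 2 + τ
  tr' : trace (x⁻¹).1 = 2 + τ
  rk : τ = 2 → ∃ v w, x.1 - (1 : F) • 1 = vecMulVec v w
  nsc : ¬ Sc x

theorem Blk.pow_three (h : Blk x (-1)) : x ^ 3 = 1 := Units.ext (by simpa using h.cubic)

theorem Blk.pow_five {τ : F} (h : Blk x τ) (h1 : τ ^ 2 + τ = 1) : x ^ 5 = 1 := Units.ext (by
  have h2 : x.1 ^ 4 = (τ + 1) • x.1 ^ 3 - (τ + 1) • x.1 ^ 2 + x.1 := by
    rw [pow_succ, h.cubic]; simp only [add_mul, sub_mul, smul_mul_assoc, ← pow_succ, ← pow_two,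
      one_mul, h.cubic]
  have h3 : x.1 ^ 5 = (τ + 1) • x.1 ^ 4 - (τ + 1) • x.1 ^ 3 + x.1 ^ 2 := by
    rw [pow_succ, h2]; simp only [add_mul, sub_mul, smul_mul_assoc, ← pow_succ, ← pow_two, h2]
  rw [Units.val_pow_eq_pow_val, h3, h2, h.cubic, Units.val_one]
  match_scalars <;> grind)

theorem exists_tau (p : ℕ) [hp : Fact p.Prime] [CharP F p] (h2 : p ≠ 2)
    (h : orderOf (p : ZMod 5) ≠ 4) : ∃ τ : F, τ ^ 2 + τ = 1 ∧ τ ^ p = τ := by
  have := Fact.mk Nat.prime_five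
  obtain ⟨s, hs⟩ := (ZMod.exists_sq_eq_prime_iff_of_mod_four_eq_one (p := 5) rfl h2).1 (by
      generalize (p : ZMod 5) = a at h
      simp only [Ne, orderOf_eq_iff four_pos] at h
      revert a; decide +revert)
  have h3 : (2 : ZMod p) ≠ 0 := Ring.two_ne_zero (by rwa [ZMod.ringChar_zmod_n])
  refine ⟨ZMod.castHom dvd_rfl F ((s - 1) / 2), ?_, by rw [← map_pow, ZMod.pow_card]⟩
  rw [← map_pow, ← map_add, ← map_one (ZMod.castHom dvd_rfl F)]
  congr 1
  field_simp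
  push_cast at hs
  linear_combination -hs

theorem three_le_of_rank (hc : Fintype.card ι = 4) {c : F} {v w : ι → F}
    (h : M - c • 1 = vecMulVec v w) :
    3 ≤ finrank F (LinearMap.ker (toLin' M - algebraMap F _ c)) := by
  rw [← (toLin'_eq_algebraMap_iff _ c).1 rfl, ← map_sub, h]
  have h1 := finrank_ker_add_range (toLin' (vecMulVec v w))
  have h2 := rank_vecMulVec_le v w
  rw [finrank_fintype_fun_eq_card, hc] at h1
  rw [Matrix.rank, ← toLin'_apply'] at h2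
  omega

theorem Sc.conj (h : Sc x) (g : GL ι F) : Sc (g⁻¹ * x * g) := by
  rwa [mul_assoc, h.comm, inv_mul_cancel_left]

theorem sc_conj_iff : Sc (g⁻¹ * x * g) ↔ Sc x :=
  ⟨fun h => by simpa [mul_assoc] using h.conj g⁻¹, fun h => h.conj g⟩

theorem sc_conj_pow {r : ℕ} (h : Sc (x ^ r)) : Sc ((g⁻¹ * x * g) ^ r) := by
  simpa using conj_pow (a := g⁻¹) (b := x) (i := r) ▸ by simpa using h.conj g

theorem trace_conj_mul : trace (g⁻¹ * x * g).1 * trace ((g⁻¹ * x * g)⁻¹).1 =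
    trace x.1 * trace (x⁻¹).1 := by
  rw [show (g⁻¹ * x * g)⁻¹ = g⁻¹ * x⁻¹ * g by group]
  simp only [Units.val_mul, trace_units_conj']

namespace Pau

variable [Fintype F] (h : Pau R)
include h

theorem not_hit_of_rank {r : ℕ} (hr : Odd r) (h1 : Sc (x ^ r)) (h2 : ¬ Sc x) {c : F}
    (h3 : 3 ≤ finrank F (LinearMap.ker (toLin' x.1 - algebraMap F _ c))) :
    g⁻¹ * x * g ∉ subgroupNormalizer R := fun h4 => by
  refine h2 (sc_conj_iff.1 (h.sc_of_rank h4 hr (sc_conj_pow h1) (c := c) ?_))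
  have h5 := ((isConj_iff_simil _ _).1 ((isConj_units_iff _ _).1
    (isConj_iff.2 ⟨g⁻¹, rfl⟩ : IsConj x _))).aeval (X - C c)
  rw [inv_inv, map_sub, map_sub, aeval_X, aeval_X, aeval_C, aeval_C] at h5
  rwa [← h5.finrank_ker]

theorem not_hit_five {τ : F} (hx : Blk x τ) (h1 : τ ^ 2 + τ = 1) :
    g⁻¹ * x * g ∉ subgroupNormalizer R := fun h2 => by
  have := Fact.mk Nat.prime_five
  have h3 : Sc (x ^ 5) := hx.pow_five h1 ▸ sc_one
  by_cases h4 : τ = 2
  · obtain ⟨v, w, h5⟩ := hx.rk h4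
    exact h.not_hit_of_rank (by decide) h3 hx.nsc (three_le_of_rank h.card h5) h2
  rcases h.odd_cases h2 (by decide) (sc_conj_pow h3) (mt sc_conj_iff.1 hx.nsc) with h5 | h5
  · have h6 := h5.2.1
    rw [trace_conj_mul, hx.tr, hx.tr'] at h6
    grind
  · exact absurd h5.1 (by decide)

theorem not_hit_three (hm : MT R) (hZ : Nat.card (Zc R) = 2) (hx : Blk x (-1)) :
    g⁻¹ * x * g ∉ subgroupNormalizer R := fun h2 => by
  have h3 : Sc (x ^ 3) := hx.pow_three ▸ sc_one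
  by_cases h4 : (-1 : F) = 2
  · obtain ⟨v, w, h5⟩ := hx.rk h4
    exact h.not_hit_of_rank (by decide) h3 hx.nsc (three_le_of_rank h.card h5) h2
  have h5 := h.trace_three hm hZ h2 (sc_conj_pow h3) (mt sc_conj_iff.1 hx.nsc)
  rw [trace_conj_mul, hx.tr, hx.tr'] at h5
  grind

theorem not_hit_big {r : ℕ} [hp : Fact r.Prime] (h2 : r ≠ 2) (h3 : r ≠ 3) (h5 : r ≠ 5)
    (hL : ∀ x ∈ L, Sc x → x ^ 4 = 1) (hΩ : r ∣ (subgroupNormalizer R).relIndex L) :
    ∃ x ∈ L, x ^ r = 1 ∧ ¬ Sc x ∧ ∀ g, g⁻¹ * x * g ∉ subgroupNormalizer R := by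
  obtain ⟨x, hx⟩ := exists_prime_orderOf_dvd_card' r (hΩ.trans (relIndex_dvd_card _ _))
  have h6 : x.1 ^ r = 1 := congrArg Subtype.val (hx ▸ pow_orderOf_eq_one x)
  have h7 : ¬ Sc x.1 := fun h7 => h2 ((Nat.prime_dvd_prime_iff_eq hp.out Nat.prime_two).1
    (hp.out.dvd_of_dvd_pow (n := 2) (hx ▸ orderOf_dvd_of_pow_eq_one (Subtype.ext (hL _ x.2 h7)))))
  refine ⟨x, x.2, h6, h7, fun g h8 => ?_⟩
  rcases h.odd_cases h8 (hp.out.odd_of_ne_two h2) (sc_conj_pow (h6 ▸ sc_one))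
    (mt sc_conj_iff.1 h7) with h9 | h9 <;> omega

theorem exists_j (hZ : Nat.card (Zc R) = 4) : ∃ j ∈ R, Sc j ∧ j * j = -1 := by
  by_contra h1
  have := h.nonempty
  have h2 : Zc R ≤ zpowers (-1) := fun z hz => by
    obtain ⟨h2, c, h3⟩ := h.mem_Zc.1 hz
    have h4 := (h.sq h2).resolve_right fun h4 => h1 ⟨z, h2, ⟨c, h3⟩, h4⟩
    have h5 : c * c = 1 := smul_one_inj' (ι := ι) (by
      simpa [h3, smul_smul] using congrArg Units.val h4)
    rcases mul_self_eq_one_iff.1 h5 with rfl | rfl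
    · rw [show z = 1 from Units.ext (by simpa using h3)]; exact one_mem _
    · rw [show z = -1 from Units.ext (by simpa using h3)]; exact mem_zpowers _
  have h3 := card_le_of_le h2
  have h4 := Nat.le_of_dvd two_pos (orderOf_dvd_of_pow_eq_one (x := (-1 : GL ι F)) (by simp))
  rw [Nat.card_zpowers] at h3
  omega

variable (hf : ∀ s ∈ R, ∀ u v, f.B (s.1 *ᵥ u) (s.1 *ᵥ v) = f.B u v) (hC : Cj L f)
  {γ : Fin 5 → GL ι F} (hγ : Fr R γ) (hA : IsIsom f f A)
include hf hC hγ hA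

omit hf hC hγ hA in
theorem finrank_range_le (A : Module.End F (ι → F)) : finrank F (LinearMap.range A) ≤ 4 :=
  (Submodule.finrank_le _).trans_eq (by rw [finrank_fintype_fun_eq_card, h.card])

theorem hit_five (hU : Uniq f 5) (h1 : A ^ 5 = 1) (h2 : A ≠ 1) : Hit L R A := by
  have := Fact.mk Nat.prime_five
  obtain ⟨M, h3, h4, h5⟩ := h.exists_five hf hγ
  have key : ∀ A : Module.End F (ι → F), IsIsom f f A → A ^ 5 = 1 → A ≠ 1 →
      finrank F (LinearMap.range (A - 1)) = 4 := fun A h1 h2 h3 =>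
    (h.finrank_range_le _).antisymm (Nat.le_of_dvd (finrank_range_pos h3) (hU.dvd A h1 h2))
  exact hU.hit hC hA h1 h3 h4 (by rw [key A hA h1 h2, key _ (hC.isIsom h3) (toLin'_pow_eq_one h4)
    fun h6 => h5 (toLin'.injective (h6.trans toLin'_one.symm))])

theorem hit_three (hZ : Nat.card (Zc R) = 4) (hU : Uniq f 3) (h1 : A ^ 3 = 1) (h2 : A ≠ 1) :
    Hit L R A := by
  have := Fact.mk Nat.prime_three
  obtain ⟨j, hj, h3, h4⟩ := h.exists_j hZ
  by_cases h5 : finrank F (LinearMap.range (A - 1)) = 4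
  · obtain ⟨M, h6, h7, h8⟩ := h.exists_three hf hγ (by exact_mod_cast hU.hr)
    exact hU.hit hC hA h1 h6 h7 (h5.trans h8.symm)
  obtain ⟨M, h6, h7, h8, h9⟩ := h.exists_three' hf hγ (by exact_mod_cast hU.hr) hj h3 h4
  have := hU.dvd A hA h1
  have := hU.dvd _ (hC.isIsom h6) (toLin'_pow_eq_one h7)
  have := finrank_range_pos h2
  have := finrank_range_pos (A := toLin' M) fun h6 => h8 (toLin'.injective (h6.trans toLin'_one.symm))
  have := h.finrank_range_le (A - 1)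
  have := h.finrank_range_le (toLin' M - 1)
  exact hU.hit hC hA h1 h6 h7 (by omega)

omit hA hf hC hγ in
theorem uniq_two : Uniq f 2 := uniq_of_ord f (by exact_mod_cast h.two) (by
  rw [ord, orderOf_eq_one_iff]
  exact (by decide : ∀ a : ZMod 2, a ≠ 0 → a = 1) _ (card_ne_zero_zmod (by exact_mod_cast h.two)))

theorem hit_two (h1 : A ^ 2 = 1) (h2 : ∀ c, A ≠ algebraMap F _ c)
    (hZ : Nat.card (Zc R) = 4 ∨ Even (finrank F (LinearMap.range (A - 1)))) : Hit L R A := by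
  have h3 := finrank_range_pos (A := A) (by simpa using h2 1)
  have h4 : finrank F (LinearMap.range (A - 1)) ≠ 4 := fun h4 => h2 (-1) (by
    have h5 := finrank_ker_add_range (A - 1)
    rw [finrank_fintype_fun_eq_card, h.card] at h5
    refine LinearMap.ext fun v => (eq_neg_of_add_eq_zero_left (show A v + v = 0 from ?_)).trans
      (by simp)
    refine (Submodule.eq_bot_iff _).1 (Submodule.finrank_eq_zero.1 (show finrank F
      (LinearMap.ker (A - 1)) = 0 by omega)) _ ?_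
    simp [show A (A v) = v from LinearMap.congr_fun h1 v, add_comm])
  have h5 := h.finrank_range_le (A - 1)
  by_cases h6 : finrank F (LinearMap.range (A - 1)) = 2
  · obtain ⟨M, h7, h8, h9⟩ := h.exists_two hf hγ
    exact h.uniq_two.hit hC hA h1 h7 h8 (h6.trans h9.symm)
  obtain ⟨j, hj, h7, h8⟩ := h.exists_j (hZ.resolve_right fun h7 => by grind)
  obtain ⟨M, h9, h10, h11, h12, h13⟩ := h.exists_refl hf hγ hj h7 h8
  by_cases h14 : finrank F (LinearMap.range (A - 1)) = 1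
  · exact h.uniq_two.hit hC hA h1 h9 h10 (h14.trans (h.rank_of_trace h10 h11 h12 (by omega)
      (by rw [h13]; norm_num)).symm)
  · refine h.uniq_two.hit hC hA h1 (M := -M) (by simpa using h9.smul (a := -1) (by simp))
      (by simpa using h10) ((h.rank_of_trace (M := -M) (k := 3) (by simpa using h10) 
      (by rwa [Ne, neg_eq_iff_eq_neg]) (by rwa [Ne, neg_inj]) (by omega) (by rw [trace_neg, h13]; norm_num)).symm ▸ by omega)

end Pau

end CL.Pauli
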