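/-
Elements of prime order of `SL₄`, `SU₄`, `Sp₄` and normalisers of groups of symplectic type.
-/
import Mathlib
import Cfsg.Agent.CLAS.Pauli3

set_option autoImplicit false
set_option linter.unusedSectionVars false

namespace CL.Pauli

open Matrix Subgroup Cfsg.Geo Module Polynomial CL.Witt CL.Witt.Form CL.GLn CL.Elus CL.PrimeCl CL.SpU
open scoped MatrixGroups

variable {F : Type*} [Field F] {ι : Type} [Fintype ι] [DecidableEq ι] {T : FormType F}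
  {L R : Subgroup (GL ι F)} {f : Form T (ι → F)} {x : GL ι F} {A B : Module.End F (ι → F)}

theorem exists_blk {M N : Matrix ι ι F} {τ : F} (h1 : M * N = 1)
    (h2 : M * M * M = (τ + 1) • (M * M) - (τ + 1) • M + 1) (h3 : trace M = 2 + τ)
    (h4 : trace N = 2 + τ) (h5 : τ = 2 → ∃ v w, M - 1 = vecMulVec v w) {i j : ι} (h6 : i ≠ j)
    (h7 : M i j ≠ 0) : ∃ x : GL ι F, x.1 = M ∧ Blk x τ :=
  ⟨⟨M, N, h1, mul_eq_one_comm.1 h1⟩, rfl, by simpa only [pow_succ, pow_zero, one_mul] using h2, h3,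
    h4, by simpa only [one_smul] using h5, fun ⟨z, h⟩ => h7 (by
      simpa [h6] using congrFun (congrFun h i) j)⟩

theorem exists_blk4 {a b c d : F} (hb : b ≠ 0) (h : a * d - b * c = 1) :
    ∃ x : GL (Fin 4) F, x.1 = !![a, b, 0, 0; c, d, 0, 0; 0, 0, 1, 0; 0, 0, 0, 1] ∧
      Blk x (a + d) := by
  refine exists_blk (N := !![d, -b, 0, 0; -c, a, 0, 0; 0, 0, 1, 0; 0, 0, 0, 1]) (i := 0) (j := 1)
    ?_ ?_ ?_ ?_ (fun h1 => ⟨![b, d - 1, 0, 0], ![(a - 1) / b, 1, 0, 0], ?_⟩) (by decide) hb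
  · ext i j; fin_cases i <;> fin_cases j <;> simp [mul_apply, Fin.sum_univ_four] <;> grind
  · ext i j; fin_cases i <;> fin_cases j <;> simp [mul_apply, Fin.sum_univ_four] <;> grind
  · simp [trace, Fin.sum_univ_four]; ring
  · simp [trace, Fin.sum_univ_four]; ring
  · ext i j; fin_cases i <;> fin_cases j <;> simp [vecMulVec_apply] <;> grind

theorem det_blk4 {a b c d : F} :
    det !![a, b, 0, 0; c, d, 0, 0; 0, 0, 1, 0; 0, 0, 0, 1] = a * d - b * c := by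
  simp [det_succ_row_zero, Fin.sum_univ_succ, Fin.succAbove, sub_eq_add_neg]

theorem exists_blk_sp (τ : F) : ∃ x ∈ Cfsg.spGL 2 F, Blk x τ := by
  obtain ⟨x, h1, h2⟩ := exists_blk (τ := τ) (i := .inl 0) (j := .inr 0)
    (M := fromBlocks !![0, 0; 0, 1] !![-1, 0; 0, 0] !![1, 0; 0, 0] !![τ, 0; 0, 1])
    (N := fromBlocks !![τ, 0; 0, 1] !![1, 0; 0, 0] !![-1, 0; 0, 0] !![0, 0; 0, 1])
    (by ext (i | i) (j | j) <;> fin_cases i <;> fin_cases j <;> simp [fromBlocks_multiply]) (by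
      ext (i | i) (j | j) <;> fin_cases i <;> fin_cases j <;> simp [fromBlocks_multiply] <;> ring)
    (by simp [trace]; ring) (by simp [trace]; ring)
    (fun h1 => ⟨Sum.elim ![-1, 0] ![1, 0], Sum.elim ![1, 0] ![1, 0], by
      ext (i | i) (j | j) <;> fin_cases i <;> fin_cases j <;> simp [vecMulVec_apply, h1] <;>
        norm_num⟩) (by simp) (by simp)
  refine ⟨x, Sp.mem_spGL_iff.2 (SymplecticGroup.mem_iff.2 ?_), h2⟩
  rw [h1]
  ext (i | i) (j | j) <;> fin_cases i <;> fin_cases j <;>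
    simp [fromBlocks_multiply, J, fromBlocks_transpose, vecMul, dotProduct]

theorem exists_blk_sl (τ : F) : ∃ x ∈ specialLinear (Fin 4) F, Blk x τ :=
  let ⟨x, h1, h2⟩ := exists_blk4 (a := 0) (b := -1) (c := 1) (d := τ) (by simp) (by simp)
  ⟨x, Units.ext (show x.1.det = 1 by rw [h1, det_blk4]; simp), by simpa using h2⟩

theorem exists_blk_su [Fintype F] {q : ℕ} (hF : Fintype.card F = q ^ 2) {a : F}
    (ha : a ^ (q + 1) ≠ 1) : ∃ x ∈ Cfsg.GU 4 F q ⊓ specialLinear (Fin 4) F, Blk x (a + a ^ q) := by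
  obtain ⟨c, hc⟩ := SqField.exists_norm_eq hF (μ := 1 - a ^ (q + 1)) (by
    rw [SqField.sub_pow_q hF, one_pow, SqField.norm_pow_q hF])
  have h0 : c ≠ 0 := by rintro rfl; exact ha (by grind)
  have h2 : a * a ^ q - -c ^ q * c = 1 := by grind
  obtain ⟨x, h1, h3⟩ := exists_blk4 (by simp [h0]) h2
  refine ⟨x, ⟨(SpU.mem_GU_iff hF).2 ?_, Units.ext (show x.1.det = 1 by rwa [h1, det_blk4])⟩, h3⟩
  rw [h1]
  ext i j
  fin_cases i <;> fin_cases j <;> simp [mul_apply, Fin.sum_univ_four, ct_apply,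
    SqField.zero_pow_q hF, SqField.neg_pow_q hF, SqField.pow_q_pow_q hF] <;> grind

/-- Every element of projective order `r` of `L` has a conjugate normalising `R`. -/
def El (L R : Subgroup (GL ι F)) (r : ℕ) : Prop :=
  ∀ x ∈ L, Sc (x ^ r) → (∀ z : F, x.1 ≠ z • 1) → ∃ g ∈ L, g⁻¹ * x * g ∈ subgroupNormalizer R

theorem not_el {r : ℕ} (h1 : x ∈ L) (h2 : x ^ r = 1) (h3 : ¬ Sc x)
    (h4 : ∀ g, g⁻¹ * x * g ∉ subgroupNormalizer R) : ¬ El L R r := fun h =>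
  let ⟨g, _, h5⟩ := h x h1 (h2 ▸ sc_one) fun z hz => h3 ⟨z, hz⟩
  h4 g h5

theorem el_of {r : ℕ} (h : ∀ x ∈ L, ∀ c, toLin' x.1 ^ r = algebraMap F _ c →
    (∀ c, toLin' x.1 ≠ algebraMap F _ c) → Hit L R (toLin' x.1)) : El L R r :=
  fun x h1 ⟨c, h2⟩ h3 => (hit_iff x).2 (h x h1 c ((pow_eq_smul_iff _ _ _).1 h2)
    fun c h4 => h3 c ((toLin'_eq_algebraMap_iff _ _).2 h4))

theorem el_of_coprime [Nonempty ι] (hf : f.Nondeg) (hL : ∀ x ∈ L, IsIsom f f (toLin' x.1))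
    {r N : ℕ} (hN : ∀ c, T.σ c * c = 1 → c ^ N = 1) (hc : r.Coprime N)
    (h : ∀ A : Module.End F (ι → F), IsIsom f f A → A ^ r = 1 → A ≠ 1 → Hit L R A) : El L R r :=
  el_of fun x h1 c h2 h3 => (forall_proj_iff hf hN hc (fun _ => True) _ (fun _ _ _ => trivial)
    Hit.of_smul).2 h _ (hL x h1) trivial ⟨c, h2⟩ h3

theorem smul_ne_algebraMap (h : ∀ c, A ≠ algebraMap F _ c) {b : F} (hb : b ≠ 0) (c : F) :
    b • A ≠ algebraMap F _ c := fun h1 => h (b⁻¹ * c) (by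
  rw [map_mul, ← Algebra.smul_def, ← h1, inv_smul_smul₀ hb])

theorem simil_of_sq_neg [Nonempty ι] {f : Form (FormType.alt F) (ι → F)} (hf : f.Nondeg)
    (h2 : (2 : F) ≠ 0) (hA : IsIsom f f A) (hB : IsIsom f f B) (h1 : A ^ 2 = algebraMap F _ (-1))
    (h3 : B ^ 2 = algebraMap F _ (-1)) : Simil A B := by
  rcases irreducible_or_root (r := 2) (-1 : F) with ⟨b, hb⟩ | hi
  · obtain ⟨U, W, h4, h5, h6⟩ := anti_pair hf hA h2 (b := b) ((pow_two b).symm.trans hb) (hb ▸ h1)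
    obtain ⟨U', W', h7, h8, h9⟩ := anti_pair hf hB h2 (b := b) ((pow_two b).symm.trans hb) (hb ▸ h3)
    obtain ⟨g, -, rfl, rfl⟩ := tsPair_trans hf h4 h7
    refine ⟨g, fun v => ?_⟩
    obtain ⟨u, hu, w, hw, rfl⟩ := Submodule.mem_sup.1 (h4.compl.sup_eq_top ▸ Submodule.mem_top :
      v ∈ U ⊔ W)
    simp [h5 u hu, h6 w hw, h8 (g u) ⟨u, hu, rfl⟩, h9 (g w) ⟨w, hw, rfl⟩]
  obtain ⟨k, h4⟩ := hasED_of_irreducible (A := A) (monic_X_pow_sub_C _ two_ne_zero) hi (by simp [h1])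
  obtain ⟨k', h5⟩ := hasED_of_irreducible (A := B) (monic_X_pow_sub_C _ two_ne_zero) hi (by simp [h3])
  obtain rfl : k = k' := by
    have := (det_of_pow_irreducible two_ne_zero h4).1
    have := (det_of_pow_irreducible two_ne_zero h5).1
    omega
  exact h4.simil h5

theorem pow_four_of_sl (hc : Fintype.card ι = 4) (h1 : x ∈ specialLinear ι F) (h2 : Sc x) :
    x ^ 4 = 1 := by
  obtain ⟨c, h2⟩ := h2
  have h3 : x.1.det = 1 := congrArg Units.val h1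
  rw [h2, det_smul, det_one, mul_one, hc] at h3
  exact Units.ext (by simp [h2, _root_.smul_pow, h3])

namespace Pau

variable [Fintype F] (h : Pau R)
include h

theorem el_iff {r : ℕ} [Fact r.Prime] (hL : ∀ x ∈ L, Sc x → x ^ 4 = 1)
    (hΩ : r ∣ (subgroupNormalizer R).relIndex L) {P Q : Prop} (h2 : El L R 2) (h3 : El L R 3 ↔ P)
    (h5 : El L R 5 ↔ Q) : El L R r ↔ r = 2 ∨ (r = 3 ∧ P) ∨ (r = 5 ∧ Q) := by
  by_cases h6 : r = 2
  · simp [h6, h2]
  by_cases h7 : r = 3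
  · simp [h7, h3]
  by_cases h8 : r = 5
  · simp [h8, h5]
  obtain ⟨x, h9, h10, h11, h12⟩ := h.not_hit_big h6 h7 h8 hL hΩ
  simp [h6, h7, h8, not_el h9 h10 h11 h12]

theorem not_el_five {τ : F} (h1 : x ∈ L) (hx : Blk x τ) (h2 : τ ^ 2 + τ = 1) : ¬ El L R 5 :=
  not_el h1 (hx.pow_five h2) hx.nsc fun _ => h.not_hit_five hx h2

omit h in
theorem not_el_refl {L R : Subgroup (GL (Fin 4) F)} (h : Pau R) {ω : F} (h1 : orderOf ω = 3)
    (hL : ∀ x : GL (Fin 4) F, x.1 = diagonal ![1, ω, ω, ω] → x.1.det = 1 → x ∈ L) :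
    ¬ El L R 3 := by
  have h2 : ω ^ 3 = 1 := h1 ▸ pow_orderOf_eq_one ω
  have h3 : (diagonal ![1, ω, ω, ω]).det = 1 := by simp [Fin.prod_univ_four]; grind
  let x := GeneralLinearGroup.mkOfDetNeZero _ (h3.trans_ne one_ne_zero)
  have h4 : x ^ 3 = 1 := Units.ext (by
    change diagonal _ ^ 3 = 1
    rw [diagonal_pow, ← diagonal_one]
    congr 1; ext i; fin_cases i <;> simp [h2])
  have h5 : ¬ Sc x := fun ⟨c, h5⟩ => by
    have h6 : 1 = c := by simpa [x] using congrFun (congrFun h5 0) 0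
    have h7 : ω = c := by simpa [x] using congrFun (congrFun h5 1) 1
    simp [h7, ← h6] at h1
  refine not_el (hL x rfl h3) h4 h5 fun _ => h.not_hit_of_rank (by decide) (h4 ▸ sc_one) h5
    (three_le_of_rank (c := ω) (v := ![1 - ω, 0, 0, 0]) (w := ![1, 0, 0, 0]) h.card ?_)
  ext i j
  fin_cases i <;> fin_cases j <;> simp [x, vecMulVec_apply]

end Pau

end CL.Pauli
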