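/-
Overgroups of subfield subgroups of prime index in special linear groups.
-/
import Cfsg.Agent.CLAS.RatTv

set_option autoImplicit false

namespace CL.Root.RatSL

open Module CL.Tv Cfsg Cfsg.Geo

variable {ι : Type} [Fintype ι] [DecidableEq ι] {F : Type*} [Field F] {F₀ : Subfield F}
  {P : GL ι F} {K : Subgroup (GL ι F)}

local notation "j" => ratMap F₀ P
local notation "V₀" => ι → F₀

variable (P) in
/-- The extension of a rational functional. -/
noncomputable def lift (θ : Dual F₀ V₀) : Dual F (ι → F) :=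
  ∑ i, (θ (Pi.single i 1) : F) • (LinearMap.proj i ∘ₗ (act P⁻¹ : (ι → F) →ₗ[F] (ι → F)))

theorem lift_apply (θ : Dual F₀ V₀) (x : ι → F) :
    lift P θ x = ∑ i, (θ (Pi.single i 1) : F) * act P⁻¹ x i := by
  simp [lift]

theorem lift_j (θ : Dual F₀ V₀) (v : V₀) : lift P θ (j v) = θ v := by
  rw [lift_apply, ratMap_apply, act_inv_act]
  conv_rhs => rw [pi_eq_sum_univ' v, map_sum]
  simp [mul_comm]

theorem lift_proj (i : ι) (x : ι → F) :
    lift P (LinearMap.proj i : Dual F₀ V₀) x = act P⁻¹ x i := by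
  rw [lift_apply, Finset.sum_eq_single i] <;> simp +contextual [eq_comm]

theorem lift_sub (θ θ' : Dual F₀ V₀) (x : ι → F) :
    lift P (θ - θ') x = lift P θ x - lift P θ' x := by
  simp [lift_apply, sub_mul]

theorem lift_smul (c : F₀) (θ : Dual F₀ V₀) : lift P (c • θ) = (c : F) • lift P θ := by
  refine LinearMap.ext fun x => ?_
  simp [lift_apply, Finset.mul_sum, mul_assoc]

theorem ext_j {W : Type*} [AddCommGroup W] [Module F W] {g h : (ι → F) →ₗ[F] W}
    (H : ∀ v, g (j v) = h (j v)) : g = h :=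
  LinearMap.ext_on_range (ratMap_span F₀ P) H

theorem j_smul (c : F₀) (v : V₀) : j (c • v) = (c : F) • j v := ratMap_smul F₀ P c v

theorem mem_range_of_lift {x : ι → F} (h : ∀ θ : Dual F₀ V₀, lift P θ x ∈ F₀) :
    x ∈ Set.range j :=
  (mem_range_ratMap F₀ P x).2 fun i => lift_proj (F₀ := F₀) (P := P) i x ▸ h _

theorem exists_lift_ne {x : ι → F} (hx : x ≠ 0) : ∃ θ : Dual F₀ V₀, lift P θ x ≠ 0 := by
  by_contra! H
  refine hx ((act P⁻¹).injective ?_)
  rw [map_zero]
  ext i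
  exact (lift_proj (F₀ := F₀) i x).symm.trans (H _)

omit [DecidableEq ι] in
theorem exists_ker₂ (hn : 3 ≤ Fintype.card ι) (θ θ' : Dual F₀ V₀) :
    ∃ u, u ≠ 0 ∧ θ u = 0 ∧ θ' u = 0 := by
  have h := LinearMap.finrank_range_add_finrank_ker (θ.prod θ')
  have h1 := Submodule.finrank_le (LinearMap.range (θ.prod θ'))
  rw [finrank_prod, finrank_self] at h1
  rw [finrank_fintype_fun_eq_card] at h
  obtain ⟨u, hu, hu0⟩ := (Submodule.ne_bot_iff (LinearMap.ker (θ.prod θ'))).1 (by
    intro e; rw [e, finrank_bot] at h; omega)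
  exact ⟨u, hu0, (Prod.ext_iff.1 hu).1, (Prod.ext_iff.1 hu).2⟩

omit [DecidableEq ι] in
theorem exists_ann₂ (hn : 3 ≤ Fintype.card ι) (u u' : V₀) :
    ∃ θ : Dual F₀ V₀, θ ≠ 0 ∧ θ u = 0 ∧ θ u' = 0 := by
  obtain ⟨x, hx⟩ : ∃ x, x ∉ Submodule.span F₀ {u, u'} := by
    by_contra! H
    have h1 := finrank_span_pair_le (F := F₀) u u'
    rw [(eq_top_iff (a := Submodule.span F₀ {u, u'})).2 fun x _ => H x, finrank_top, finrank_fintype_fun_eq_card] at h1
    omega
  obtain ⟨θ, h1, h2⟩ := exists_dual_one _ hx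
  exact ⟨θ, by rintro rfl; simp at h1, h2 u (Submodule.subset_span (by simp)),
    h2 u' (Submodule.subset_span (by simp))⟩

variable (F₀ P K) in
/-- `K` contains the rational transvections. -/
def Over : Prop := ∀ (u : V₀) (θ : Dual F₀ V₀), θ u = 0 → HasTv K (j u) (lift P θ)

theorem Over.spread (hK : Over F₀ P K) (hn : 3 ≤ Fintype.card ι) {u : V₀} {θ : Dual F₀ V₀}
    (hu : u ≠ 0) (hθ : θ ≠ 0) (h0 : θ u = 0) {c : F} (h : HasTv K (j u) (c • lift P θ))
    (u' : V₀) (θ' : Dual F₀ V₀) (h0' : θ' u' = 0) : HasTv K (j u') (c • lift P θ') := by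
  have A0 : ∀ {u u' : V₀} {θ : Dual F₀ V₀}, θ u = 0 → θ u' = 0 → u ∉ F₀ ∙ u' →
      HasTv K (j u) (c • lift P θ) → HasTv K (j u') (c • lift P θ) := by
    intro u u' θ h0 h0' hu h
    obtain ⟨θ1, h1, h2⟩ := exists_dual_one_zero hu
    have := h.comm_left (hK u' θ1 h2) (by simp [lift_j, h0]) (by simp [lift_j, h2])
      (by simp [lift_j, h0'])
    rwa [lift_j, h1, OneMemClass.coe_one, one_smul] at this
  have A : ∀ {u : V₀} {θ : Dual F₀ V₀}, u ≠ 0 → θ u = 0 → HasTv K (j u) (c • lift P θ) →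
      ∀ u', θ u' = 0 → HasTv K (j u') (c • lift P θ) := by
    intro u θ hu h0 h u' h0'
    by_cases hu' : u ∈ F₀ ∙ u'
    swap
    · exact A0 h0 h0' hu' h
    obtain ⟨θ1, h1, -⟩ := exists_dual_one_zero (F := F₀) (u := 0) (x := u) (by simpa using hu)
    obtain ⟨w, hw, hw1, hw2⟩ := exists_ker₂ hn θ θ1
    obtain ⟨s, rfl⟩ := Submodule.mem_span_singleton.1 hu'
    refine A0 hw1 h0' (fun H => ?_) (A0 h0 hw1 (fun H => ?_) h)
    · obtain ⟨t, rfl⟩ := Submodule.mem_span_singleton.1 H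
      rw [map_smul, smul_eq_mul] at h1 hw2
      rcases mul_eq_zero.1 hw2 with h | h
      · simp [h] at hw
      · simp [h] at h1
    · obtain ⟨t, ht⟩ := Submodule.mem_span_singleton.1 H
      rw [← ht, map_smul, hw2, smul_zero] at h1
      exact zero_ne_one h1
  obtain ⟨w, hw, hw1, hw2⟩ := exists_ker₂ hn θ θ'
  refine A hw hw2 ?_ u' h0'
  by_cases H : ∀ v, θ' v = 0 → θ v = 0
  · obtain ⟨s, rfl⟩ := exists_eq_smul_of_ker_le H
    have hs : s ≠ 0 := by rintro rfl; simp at hθ
    have := A hu h0 h (s⁻¹ • w) (by rw [map_smul, hw1, smul_zero])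
    rw [j_smul, HasTv.smul_left_iff, lift_smul, smul_smul, smul_smul] at this
    convert this using 2
    have : (s : F) ≠ 0 := by simpa using hs
    push_cast; field_simp
  · push Not at H
    obtain ⟨v, hv', hv⟩ := H
    have := (A hu h0 h w hw1).comm_right (hK ((θ v)⁻¹ • v) θ' (by simp [hv']))
      (by simp [lift_j, hw1]) (by simp [lift_j, hv']) (by simp [lift_j, hw2])
    rwa [LinearMap.smul_apply, lift_j, map_smul, smul_eq_mul, smul_eq_mul, inv_mul_cancel₀ hv,
      OneMemClass.coe_one, mul_one] at this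

/-- The ring of parameters of the transvections with rational centre and axis in `K`. -/
def Over.par (hK : Over F₀ P K) (hn : 4 ≤ Fintype.card ι) : Subalgebra F₀ F where
  carrier := {c | ∀ (u : V₀) (θ : Dual F₀ V₀), θ u = 0 → HasTv K (j u) (c • lift P θ)}
  add_mem' {c d} hc hd u θ h := by
    rw [add_smul]; exact (hc u θ h).add_right (hd u θ h) (by simp [lift_j, h])
  algebraMap_mem' c u θ h := by
    have := hK u (c • θ) (by simp [h])
    rwa [lift_smul] at this
  mul_mem' {c d} hc hd := by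
    obtain ⟨i, k, l, hik, hil, hkl⟩ := Fintype.two_lt_card_iff.1 (show 2 < Fintype.card ι by omega)
    have h1 := hc (Pi.single i 1) (LinearMap.proj k) (by simp [hik.symm])
    have h2 := hd (Pi.single k 1) (LinearMap.proj l) (by simp [hkl.symm])
    have := h1.comm_right h2 (by simp [lift_j, hik.symm]) (by simp [lift_j, hkl.symm])
      (by simp [lift_j, hil.symm])
    rw [LinearMap.smul_apply, lift_j, smul_smul] at this
    refine hK.spread (by omega) (u := Pi.single i 1) (θ := LinearMap.proj l) (by simp)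
      (fun h => by simpa using LinearMap.congr_fun h (Pi.single l 1)) (by simp [hil.symm]) ?_
    simpa using this

variable (F₀ P K) in
/-- The transvections with rational centre and axis in `K` are rational. -/
def Small : Prop := ∀ (u : V₀) (θ : Dual F₀ V₀), u ≠ 0 → θ ≠ 0 → θ u = 0 → ∀ c : F,
  HasTv K (j u) (c • lift P θ) → c ∈ F₀

theorem Over.SL_le_or_small (hK : Over F₀ P K) (hn : 4 ≤ Fintype.card ι)
    (hr : (finrank F₀ F).Prime) : specialLinear ι F ≤ K ∨ Small F₀ P K := by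
  have := Subalgebra.isSimpleOrder_of_finrank_prime F₀ F hr
  rcases eq_bot_or_eq_top (hK.par hn) with h | h
  · refine Or.inr fun u θ hu hθ h0 c hc => ?_
    have : c ∈ hK.par hn := hK.spread (by omega) hu hθ h0 hc
    rw [h, Algebra.mem_bot] at this
    obtain ⟨m, rfl⟩ := this
    exact m.2
  · left
    apply SL_le_of_full
    rw [eq_top_iff, ← ratMap_span F₀ P, Submodule.span_le]
    rintro _ ⟨u, rfl⟩ φ hφ
    by_cases hu : u = 0
    · rw [hu, map_zero]; exact HasTv.zero_left φ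
    obtain ⟨θ1, h1, -⟩ := exists_dual_one_zero (F := F₀) (u := 0) (x := u) (by simpa using hu)
    have e : φ = ∑ i, φ (j (Pi.single i 1)) • lift P (LinearMap.proj i - u i • θ1) := by
      refine ext_j (F₀ := F₀) (P := P) fun v => ?_
      have e1 : φ (j v) = ∑ i, φ (j (Pi.single i 1)) * v i := by
        conv_lhs => rw [pi_eq_sum_univ' v, map_sum, map_sum]
        simp [j_smul, mul_comm]
      have e2 : φ (j u) = ∑ i, φ (j (Pi.single i 1)) * u i := by
        conv_lhs => rw [pi_eq_sum_univ' u, map_sum, map_sum]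
        simp [j_smul, mul_comm]
      simp only [LinearMap.sum_apply, LinearMap.smul_apply, lift_j, LinearMap.sub_apply,
        LinearMap.proj_apply, smul_eq_mul, AddSubgroupClass.coe_sub, MulMemClass.coe_mul, mul_sub,
        Finset.sum_sub_distrib, ← mul_assoc, ← Finset.sum_mul]
      rw [← e1, ← e2, hφ, zero_mul, sub_zero]
    rw [e]
    refine (Finset.sum_induction _ (fun ψ : Dual F (ι → F) => ψ (j u) = 0 ∧ HasTv K (j u) ψ)
      (fun a b ha hb => ⟨by simp [ha.1, hb.1], ha.2.add_right hb.2 ha.1⟩)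
      ⟨rfl, HasTv.zero_right _⟩ fun i _ => ⟨by simp [lift_j, h1], ?_⟩).2
    have : φ (j (Pi.single i 1)) ∈ hK.par hn := by rw [h]; trivial
    exact this u _ (by simp [h1])

theorem Small.centre (hs : Small F₀ P K) (hK : Over F₀ P K) (hn : 3 ≤ Fintype.card ι) {x : ι → F}
    {θ : Dual F₀ V₀} (hθ : θ ≠ 0) (h0 : lift P θ x = 0) {c : F} (h : HasTv K x (c • lift P θ)) :
    c • x ∈ Set.range j := by
  refine mem_range_of_lift fun θ' => ?_
  obtain ⟨u, hu, h1, h2⟩ := exists_ker₂ hn θ θ'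
  have := h.comm_left (hK u θ' h2) (by simp [h0]) (by simp [lift_j, h2]) (by simp [lift_j, h1])
  rw [smul_smul] at this
  rw [map_smul, smul_eq_mul, mul_comm]
  exact hs u θ hu hθ h1 _ this

theorem Small.axis (hs : Small F₀ P K) (hK : Over F₀ P K) (hn : 3 ≤ Fintype.card ι) {v : V₀}
    (hv : v ≠ 0) {φ : Dual F (ι → F)} (h0 : φ (j v) = 0) (h : HasTv K (j v) φ) (u : V₀) :
    φ (j u) ∈ F₀ := by
  obtain ⟨θ, hθ, h1, h2⟩ := exists_ann₂ hn u v
  exact hs v θ hv hθ h2 _
    (h.comm_right (hK u θ h1) h0 (by simp [lift_j, h1]) (by simp [lift_j, h2]))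

theorem Small.rat_of_ann (hs : Small F₀ P K) (hK : Over F₀ P K) (hn : 3 ≤ Fintype.card ι)
    {x : ι → F} {φ : Dual F (ι → F)} (h0 : φ x = 0) (h : HasTv K x φ) {θ : Dual F₀ V₀}
    (hθ : θ ≠ 0) (hθx : lift P θ x = 0) (v : V₀) : φ (j v) • x ∈ Set.range j := by
  by_cases hx : x = 0
  · exact ⟨0, by simp [hx]⟩
  by_cases H : ∀ u, θ u = 0 → φ (j u) = 0
  · obtain ⟨v0, hv0⟩ : ∃ v0, θ v0 = 1 := by
      obtain ⟨w, hw⟩ : ∃ w, θ w ≠ 0 := by
        by_contra! H'; exact hθ (LinearMap.ext H')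
      exact ⟨(θ w)⁻¹ • w, by simp [hw]⟩
    have e : φ = φ (j v0) • lift P θ := ext_j (F₀ := F₀) (P := P) fun u => by
      have := H (u - θ u • v0) (by simp [hv0])
      rw [map_sub, map_sub, j_smul, map_smul, sub_eq_zero] at this
      rw [this, LinearMap.smul_apply, lift_j, smul_eq_mul, smul_eq_mul, mul_comm]
    rw [e] at h
    obtain ⟨w, hw⟩ := hs.centre hK hn hθ hθx h
    refine ⟨θ v • w, ?_⟩
    rw [j_smul, hw, smul_smul]
    conv_rhs => rw [e, LinearMap.smul_apply, lift_j, smul_eq_mul, mul_comm]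
  · push Not at H
    obtain ⟨u, hu, hu'⟩ := H
    obtain ⟨w, hw⟩ := hs.centre hK hn hθ hθx
      (h.comm_right (hK u θ hu) h0 (by simp [lift_j, hu]) hθx)
    have hw0 : w ≠ 0 := by
      rintro rfl
      rw [map_zero, eq_comm] at hw
      simp [hu', hx] at hw
    have e : x = (φ (j u))⁻¹ • j w := by rw [hw, smul_smul, inv_mul_cancel₀ hu', one_smul]
    have h' : HasTv K (j w) ((φ (j u))⁻¹ • φ) := by rwa [← HasTv.smul_left_iff, ← e]
    have := hs.axis hK hn hw0 (by simp [hw, h0]) h' v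
    refine ⟨(⟨_, this⟩ : F₀) • w, ?_⟩
    rw [j_smul]
    conv_rhs => rw [e, smul_smul]
    simp [mul_comm]

theorem Small.rat_of_ker (hs : Small F₀ P K) (hK : Over F₀ P K) (hn : 3 ≤ Fintype.card ι)
    {x : ι → F} {φ : Dual F (ι → F)} (h0 : φ x = 0) (h : HasTv K x φ) {u : V₀}
    (hu : u ≠ 0) (hφu : φ (j u) = 0) (v : V₀) : φ (j v) • x ∈ Set.range j := by
  obtain ⟨θ, hθ, h1, -⟩ := exists_ann₂ hn u u
  by_cases hθx : lift P θ x = 0
  · exact hs.rat_of_ann hK hn h0 h hθ hθx v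
  have h2 := hs.axis hK hn hu (by simp [hφu])
    (h.comm_left (hK u θ h1) h0 (by simp [lift_j, h1]) hφu)
  let ψ : Dual F₀ V₀ :=
    { toFun := fun w => ⟨_, h2 w⟩
      map_add' := fun a b => Subtype.ext (by simp [mul_add])
      map_smul' := fun c a => Subtype.ext (by simp [j_smul]) }
  have e : lift P ψ = lift P θ x • φ := ext_j (F₀ := F₀) (P := P) fun w => by
    rw [lift_j]; rfl
  by_cases hψ : ψ = 0
  · have : ψ v = 0 := by rw [hψ]; rfl
    have : lift P θ x * φ (j v) = 0 := congrArg Subtype.val this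
    exact ⟨0, by simp [(mul_eq_zero.1 this).resolve_left hθx]⟩
  exact hs.rat_of_ann hK hn h0 h hψ (by simp [e, h0]) v

theorem oppPair_tv' {x u : ι → F} {φ θ : Dual F (ι → F)} (hφ : φ x = 0) (hθ : θ u = 0) :
    OppPair (act (tv x φ hφ)) (act (tv u θ hθ)) (F ∙ x) (F ∙ u) (θ x * φ u) where
  yX s := by
    rw [act_tv, add_sub_cancel_left]
    exact Submodule.smul_mem _ _ (Submodule.mem_span_singleton_self x)
  yfix ξ hξ := by
    obtain ⟨s, rfl⟩ := Submodule.mem_span_singleton.1 hξ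
    simp [act_tv, hφ]
  eJ s := by
    rw [act_tv, add_sub_cancel_left]
    exact Submodule.smul_mem _ _ (Submodule.mem_span_singleton_self u)
  efix ξ hξ := by
    obtain ⟨s, rfl⟩ := Submodule.mem_span_singleton.1 hξ
    simp [act_tv, hθ]
  par ξ hξ := by
    obtain ⟨s, rfl⟩ := Submodule.mem_span_singleton.1 hξ
    rw [act_tv u, add_sub_cancel_left, act_tv]
    simp only [map_smul, smul_eq_mul]
    module

theorem hasTv_of_toE {k : (ι → F) ≃ₗ[F] (ι → F)} (hk : k ∈ toE K) {x : ι → F}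
    {φ : Dual F (ι → F)} (h : ∀ v, k v = v + φ v • x) : HasTv K x φ :=
  ⟨(actE ι F).symm k, hk, fun v => by rw [act_actE_symm, h]⟩

theorem Small.false_odd (hs : Small F₀ P K) (hK : Over F₀ P K) (hn : 3 ≤ Fintype.card ι)
    (hD : DicksonProp F) (hsq : ∀ l : F, l ^ 2 = -1 → l ∈ Set.range (algebraMap F₀ F))
    {x : ι → F} {φ : Dual F (ι → F)} (h0 : φ x = 0) (h : HasTv K x φ)
    (hx : ∀ θ : Dual F₀ V₀, lift P θ x = 0 → θ = 0) (hφ : ∀ u, φ (j u) = 0 → u = 0) : False := by
  have key : ∀ (u : V₀) (θ : Dual F₀ V₀), u ≠ 0 → θ ≠ 0 → θ u = 0 →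
      lift P θ x * φ (j u) ∈ F₀ := by
    intro u θ hu hθ h1
    have h1' : lift P θ (j u) = 0 := by simp [lift_j, h1]
    by_cases hl : (lift P θ x * φ (j u)) ^ 2 = -1
    · obtain ⟨m, hm⟩ := hsq _ hl
      rw [← hm]; exact m.2
    obtain ⟨k, hk, hk'⟩ := (oppPair_tv' h0 h1').exists_param hD (fun ω hω => by
      rw [(oppPair_tv' h1' h0).par ω hω, mul_comm])
      (mul_ne_zero (fun h => hθ (hx θ h)) fun h => hu (hφ u h)) hl (K := toE K)
      ((act_mem_toE _).1 ((hasTv_iff h0).1 h)) ((act_mem_toE _).1 ((hasTv_iff h1').1 (hK u θ h1)))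
    refine hs u θ hu hθ h1 _ (hasTv_of_toE hk fun v => ?_)
    rw [hk', act_tv, add_sub_cancel_left, smul_smul]; rfl
  obtain ⟨i, k, l, hik, hil, hkl⟩ := Fintype.two_lt_card_iff.1 (show 2 < Fintype.card ι by omega)
  have nz : ∀ k : ι, (LinearMap.proj k : Dual F₀ V₀) ≠ 0 :=
    fun k h => by simpa using LinearMap.congr_fun h (Pi.single k 1)
  have h1 := key (Pi.single i 1) (LinearMap.proj k) (by simp) (nz k) (by simp [hik.symm])
  have h2 := key (Pi.single i 1) (LinearMap.proj l) (by simp) (nz l) (by simp [hil.symm])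
  have := hx ((⟨_, h1⟩ : F₀) • LinearMap.proj l - (⟨_, h2⟩ : F₀) • LinearMap.proj k) (by
    rw [lift_sub, lift_smul, lift_smul]; simp only [LinearMap.smul_apply, smul_eq_mul]; ring)
  have := congrArg Subtype.val (LinearMap.congr_fun this (Pi.single l 1))
  simp only [LinearMap.sub_apply, LinearMap.smul_apply, LinearMap.proj_apply, Pi.single_eq_same,
    smul_eq_mul, mul_one, Pi.single_eq_of_ne hkl, mul_zero, sub_zero, LinearMap.zero_apply,
    ZeroMemClass.coe_zero] at this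
  rcases mul_eq_zero.1 this with h | h
  · exact nz k (hx _ h)
  · simpa using hφ _ h

theorem Small.false_two [Finite F] (hs : Small F₀ P K) (hK : Over F₀ P K)
    (hn : 4 ≤ Fintype.card ι) (h2 : (2 : F) = 0)
    {x : ι → F} {φ : Dual F (ι → F)} (h0 : φ x = 0) (h : HasTv K x φ)
    (hx : ∀ θ : Dual F₀ V₀, lift P θ x = 0 → θ = 0) (hφ : ∀ u, φ (j u) = 0 → u = 0) : False := by
  obtain ⟨ε⟩ := Function.Embedding.nonempty_of_card_le (α := Fin 4) (β := ι) (by simpa using hn)
  have hε : ∀ a b : Fin 4, (Pi.single (ε a) (1 : F₀) : V₀) (ε b) = if b = a then 1 else 0 := by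
    intro a b; simp [Pi.single_apply]
  set u1 : V₀ := Pi.single (ε 0) 1 with hu1
  set u2 : V₀ := Pi.single (ε 1) 1 with hu2
  set θ1 : Dual F₀ V₀ := LinearMap.proj (ε 2) with hθ1
  have n1 : φ (j u1) ≠ 0 := fun h => by simpa [hu1] using hφ _ h
  have n2 : φ (j u2) ≠ 0 := fun h => by simpa [hu2] using hφ _ h
  obtain ⟨t, ht⟩ : ∃ t : F₀, lift P θ1 x * φ (j u1) +
      lift P (LinearMap.proj (ε 3) - t • θ1) x * φ (j u2) ≠ 0 := by
    by_contra! H
    have e0 := H 0
    have e1 := H 1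
    rw [lift_sub, lift_smul] at e0 e1
    have : lift P θ1 x * φ (j u2) = 0 := by
      simp only [ZeroMemClass.coe_zero, zero_smul, LinearMap.zero_apply, OneMemClass.coe_one,
        one_smul] at e0 e1
      linear_combination e0 - e1
    have := hx _ ((mul_eq_zero.1 this).resolve_right n2)
    simpa [hθ1] using LinearMap.congr_fun this (Pi.single (ε 2) 1)
  set θ2 : Dual F₀ V₀ := LinearMap.proj (ε 3) - t • θ1 with hθ2
  have a11 : θ1 u1 = 0 := by simp [hθ1, hu1]
  have a12 : θ1 u2 = 0 := by simp [hθ1, hu2]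
  have a21 : θ2 u1 = 0 := by simp [hθ2, hθ1, hu1]
  have a22 : θ2 u2 = 0 := by simp [hθ2, hθ1, hu2]
  have b11 : lift P θ1 (j u1) = 0 := by simp [lift_j, a11]
  have b12 : lift P θ1 (j u2) = 0 := by simp [lift_j, a12]
  have b21 : lift P θ2 (j u1) = 0 := by simp [lift_j, a21]
  have b22 : lift P θ2 (j u2) = 0 := by simp [lift_j, a22]
  set e := act (tv _ _ b11) * act (tv _ _ b22) with he
  set y := act (tv x φ h0) with hy
  have heK : e ∈ toE K := (toE K).mul_mem ((act_mem_toE _).1 ((hasTv_iff b11).1 (hK _ _ a11)))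
    ((act_mem_toE _).1 ((hasTv_iff b22).1 (hK _ _ a22)))
  have hyK : y ∈ toE K := (act_mem_toE _).1 ((hasTv_iff h0).1 h)
  have he' : ∀ s, e s - s = lift P θ1 s • j u1 + lift P θ2 s • j u2 := fun s => by
    rw [he, LinearEquiv.mul_apply, act_tv, act_tv, map_add, map_smul, b12]; module
  have op : OppPair y e (F ∙ x) (Submodule.span F {j u1, j u2})
      (lift P θ1 x * φ (j u1) + lift P θ2 x * φ (j u2)) :=
    { yX := (oppPair_tv' h0 h0).yX
      yfix := (oppPair_tv' h0 h0).yfix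
      eJ := fun s => Submodule.mem_span_pair.2 ⟨_, _, (he' s).symm⟩
      efix := fun ω hω => by
        obtain ⟨s, s', rfl⟩ := Submodule.mem_span_pair.1 hω
        rw [← sub_eq_zero, he']; simp [b11, b12, b21, b22]
      par := fun ξ hξ => by
        obtain ⟨s, rfl⟩ := Submodule.mem_span_singleton.1 hξ
        rw [he', hy, act_tv]
        simp only [map_add, map_smul, smul_eq_mul]
        module }
  have hnc : ¬ IsConj y e := by
    intro hcj
    obtain ⟨g, hg⟩ := isConj_iff.1 hcj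
    have h1 : ∀ s, ∃ t : F, e s - s = t • g x := fun s => by
      obtain ⟨t, ht⟩ := Submodule.mem_span_singleton.1 (op.yX (g⁻¹ s))
      refine ⟨t, ?_⟩
      rw [← map_smul, ht, map_sub, ← hg, ← LinearEquiv.mul_apply g g⁻¹, mul_inv_cancel]
      rfl
    obtain ⟨s, hs⟩ := h1 (j (Pi.single (ε 3) 1))
    obtain ⟨s', hs'⟩ := h1 (j (Pi.single (ε 2) 1 + t • Pi.single (ε 3) 1))
    rw [he', lift_j, lift_j] at hs hs'
    simp only [hθ1, hθ2, hε, LinearMap.proj_apply, LinearMap.sub_apply, LinearMap.smul_apply,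
      Pi.add_apply, Pi.smul_apply] at hs hs'
    simp only [Fin.isValue, Fin.reduceEq, ↓reduceIte, ZeroMemClass.coe_zero, zero_smul, smul_eq_mul,
      mul_zero, sub_zero, OneMemClass.coe_one, one_smul, zero_add, add_zero, mul_one,
      sub_self] at hs hs'
    have e1 := congrArg (lift P (LinearMap.proj (ε 0) : Dual F₀ V₀)) hs
    have e2 := congrArg (lift P (LinearMap.proj (ε 0) : Dual F₀ V₀)) hs'
    have e3 := congrArg (lift P (LinearMap.proj (ε 1) : Dual F₀ V₀)) hs
    rw [lift_j, map_smul] at e1 e2 e3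
    simp only [hu1, hu2, hε, LinearMap.proj_apply, smul_eq_mul] at e1 e2 e3
    simp only [Fin.isValue, Fin.reduceEq, ↓reduceIte, ZeroMemClass.coe_zero,
      OneMemClass.coe_one] at e1 e2 e3
    rcases mul_eq_zero.1 e1.symm with h | h
    · simp [h] at e3
    · simp [h] at e2
  obtain ⟨m, hz1, hzz, hzX, hzJ⟩ := op.exists_central h2 ht hnc
  have two : ∀ v : ι → F, v + v = 0 := fun v => by rw [← two_smul F, h2, zero_smul]
  have sq : ∀ (g : (ι → F) ≃ₗ[F] (ι → F)), (∀ s, g (g s - s) = g s - s) → g * g = 1 :=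
    fun g hg => LinearEquiv.ext fun s => by
      have := hg s
      rw [map_sub] at this
      change g (g s) = s
      linear_combination (norm := module) this + two (g s) - two s
  have hc := CL.Inv.conj_pow_eq_inv (CL.Inv.conj_mul_eq_inv (sq y fun s => op.yfix _ (op.yX s))
    (sq e fun s => op.efix _ (op.eJ s))) m
  have hzK : (y * e) ^ m ∈ toE K := (toE K).pow_mem ((toE K).mul_mem hyK heK) m
  set z := (y * e) ^ m
  rw [inv_eq_of_mul_eq_one_right hzz, mul_inv_eq_iff_eq_mul] at hc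
  have hx0 : x ≠ 0 := by
    rintro rfl
    simpa [hθ1] using LinearMap.congr_fun (hx θ1 (map_zero _)) (Pi.single (ε 2) 1)
  have hφz : ∀ s, φ (z s - s) = 0 := fun s => by
    have := LinearEquiv.congr_fun hc s
    rw [LinearEquiv.mul_apply, LinearEquiv.mul_apply, hy, act_tv, act_tv, map_add, map_smul,
      hzX x (Submodule.mem_span_singleton_self x), add_right_inj] at this
    rw [map_sub, smul_left_injective F hx0 this, sub_self]
  set w := φ (j u2) • j u1 - φ (j u1) • j u2 with hw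
  let χ : Dual F (ι → F) := (φ (j u2))⁻¹ • (lift P (LinearMap.proj (ε 0) : Dual F₀ V₀) ∘ₗ
    ((z : (ι → F) →ₗ[F] (ι → F)) - LinearMap.id))
  have hχ : ∀ s, z s = s + χ s • w := fun s => by
    obtain ⟨a, b, hab⟩ := Submodule.mem_span_pair.1 (hzJ s)
    have e1 := hφz s
    have e2 : χ s = (φ (j u2))⁻¹ * a := by
      change (φ (j u2))⁻¹ * lift P (LinearMap.proj (ε 0) : Dual F₀ V₀) (z s - s) = _
      rw [← hab, map_add, map_smul, map_smul, lift_j, lift_j]
      simp [hu1, hu2]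
    rw [← hab, map_add, map_smul, map_smul, smul_eq_mul, smul_eq_mul] at e1
    have e3 : b = -((φ (j u2))⁻¹ * a * φ (j u1)) := by field_simp; linear_combination e1
    rw [← sub_eq_iff_eq_add', ← hab, e2, hw, smul_sub, smul_smul, smul_smul, e3,
      mul_right_comm _ a (φ (j u2)), inv_mul_cancel₀ n2, one_mul, neg_smul, sub_eq_add_neg]
  obtain ⟨v, hv⟩ : ∃ v, z (j v) ≠ j v := by
    by_contra! H
    exact hz1 (LinearEquiv.toLinearMap_injective (ext_j (F₀ := F₀) (P := P) H))
  have hw0 : w ≠ 0 := fun h => hv (by rw [hχ, h, smul_zero, add_zero])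
  have hχw : χ w = 0 := by
    have e1 : z (z w) = w := by rw [← LinearEquiv.mul_apply, hzz]; rfl
    rw [hχ w, map_add, map_smul, hχ w] at e1
    have e2 : (χ w ^ 2) • w = 0 := by
      linear_combination (norm := module) e1 - (χ w * h2) • w
    simpa [hw0] using e2
  obtain ⟨v', hv'⟩ := hs.rat_of_ann hK (by omega) hχw (hasTv_of_toE hzK hχ) (θ := θ1)
    (fun h => by simpa [hθ1] using LinearMap.congr_fun h (Pi.single (ε 2) 1))
    (by simp [hw, b11, b12]) v
  have : v' = 0 := hφ v' (by rw [hv', hw]; simp [mul_comm])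
  rw [this, map_zero] at hv'
  exact hv (by rw [hχ, ← hv', add_zero])

theorem Small.rat [Finite F] (hs : Small F₀ P K) (hK : Over F₀ P K) (hn : 4 ≤ Fintype.card ι)
    (hr : (finrank F₀ F).Prime) (hD : (2 : F) ≠ 0 → DicksonProp F)
    {x : ι → F} {φ : Dual F (ι → F)} (h0 : φ x = 0) (h : HasTv K x φ) (v : V₀) :
    φ (j v) • x ∈ Set.range j := by
  by_cases hx : ∀ θ : Dual F₀ V₀, lift P θ x = 0 → θ = 0
  swap
  · push Not at hx
    obtain ⟨θ, h1, h2⟩ := hx
    exact hs.rat_of_ann hK (by omega) h0 h h2 h1 v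
  by_cases hφ : ∀ u, φ (j u) = 0 → u = 0
  swap
  · push Not at hφ
    obtain ⟨u, h1, h2⟩ := hφ
    exact hs.rat_of_ker hK (by omega) h0 h h2 h1 v
  exfalso
  by_cases h2 : (2 : F) = 0
  · exact hs.false_two hK hn h2 h0 h hx hφ
  refine hs.false_odd hK (by omega) (hD h2) (fun l hl => mem_range_of_sq_eq_neg_one hr ?_ hl)
    h0 h hx hφ
  intro hr2
  let L : V₀ →ₗ[F₀] F :=
    { toFun := fun u => φ (j u)
      map_add' := fun a b => by simp
      map_smul' := fun c a => by rw [j_smul, map_smul]; rfl }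
  have := LinearMap.finrank_le_finrank_of_injective (f := L)
    ((injective_iff_map_eq_zero L).2 hφ)
  rw [finrank_fintype_fun_eq_card] at this
  omega

theorem mem_subfield_of_le [Finite F] {g : GL ι F} {μ : F} (hμ : μ ≠ 0)
    (h : ∀ v, μ • act g (j v) ∈ Set.range j) : g ∈ subfieldSubgroup F₀ P := by
  choose l hl using h
  have hinj : Function.Injective l := fun v v' e => by
    have := hl v
    rw [e, hl v'] at this
    exact (ratMap_injective F₀ P ((act g).injective (smul_right_injective _ hμ this))).symm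
  refine (mem_subfieldSubgroup_iff F₀ P g).2 ⟨μ, hμ, fun w => ⟨?_, ?_⟩⟩
  · rintro ⟨v, rfl⟩; exact ⟨l v, hl v⟩
  · rintro ⟨v, hv⟩
    obtain ⟨v', rfl⟩ := Finite.injective_iff_surjective.1 hinj v
    rw [hl] at hv
    exact ⟨v', (act g).injective (smul_right_injective _ hμ hv)⟩

theorem Small.mem [Finite F] (hs : Small F₀ P K) (hK : Over F₀ P K) (hn : 4 ≤ Fintype.card ι)
    (hr : (finrank F₀ F).Prime) (hD : (2 : F) ≠ 0 → DicksonProp F) {g : GL ι F} (hg : g ∈ K) :
    g ∈ subfieldSubgroup F₀ P := by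
  have key : ∀ (u : V₀) (θ : Dual F₀ V₀), θ u = 0 → ∀ w, act g w ∈ Set.range j →
      lift P θ w • act g (j u) ∈ Set.range j := by
    rintro u θ h w ⟨v, hv⟩
    have := hs.rat hK hn hr hD (by simp [act_inv_act, lift_j, h]) ((hK u θ h).conj hg) v
    simpa [hv, act_inv_act] using this
  obtain ⟨i⟩ : Nonempty ι := Fintype.card_pos_iff.1 (by omega)
  set w := act g⁻¹ (j (Pi.single i 1)) with hw
  have hw' : act g w ∈ Set.range j := ⟨_, (act_act_inv g _).symm⟩
  obtain ⟨θ, hθ⟩ := exists_lift_ne (F₀ := F₀) (P := P) (x := w) (fun h => by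
    have := ratMap_injective F₀ P (((act g⁻¹).map_eq_zero_iff.1 h).trans (map_zero _).symm)
    simp at this)
  refine mem_subfield_of_le hθ fun u => ?_
  by_cases hu : θ u = 0
  · exact key u θ hu w hw'
  obtain ⟨u0, hu0, h1, -⟩ := exists_ker₂ (by omega) θ θ
  obtain ⟨θ', h2, h3⟩ := exists_dual_one_zero (F := F₀) (x := u0) (u := u) fun h => by
    obtain ⟨s, rfl⟩ := Submodule.mem_span_singleton.1 h
    simp [hu] at h1
    simp [h1] at hu0
  have := key u θ' h3 (lift P θ w • j u0) (by rw [map_smul]; exact key u0 θ h1 w hw')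
  rwa [map_smul, lift_j, h2, OneMemClass.coe_one, smul_eq_mul, mul_one] at this

theorem isMaximalIn [Finite F] (hn : 4 ≤ Fintype.card ι) (hr : (finrank F₀ F).Prime)
    (hD : (2 : F) ≠ 0 → DicksonProp F) :
    IsMaximalIn (specialLinear ι F) (subfieldSubgroup F₀ P ⊓ specialLinear ι F) := by
  refine isMaximalIn_of inf_le_right (fun h => ?_) ?_
  · obtain ⟨c, hc⟩ : ∃ c : F, c ∉ F₀ := by
      by_contra! H
      have : (⊥ : Subalgebra F₀ F) = ⊤ :=
        eq_top_iff.2 fun c _ => Algebra.mem_bot.2 ⟨⟨c, H c⟩, rfl⟩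
      rw [Subalgebra.bot_eq_top_iff_finrank_eq_one] at this
      rw [this] at hr
      exact Nat.not_prime_one hr
    obtain ⟨i, k, hik⟩ := Fintype.one_lt_card_iff.1 (show 1 < Fintype.card ι by omega)
    have h0 : (c • lift P (LinearMap.proj k : Dual F₀ V₀)) (j (Pi.single i 1)) = 0 := by
      simp [lift_j, hik.symm]
    obtain ⟨μ, hμ, H⟩ := (mem_subfieldSubgroup_iff F₀ P _).1 (h (tv_mem_SL _ _ h0)).1
    obtain ⟨v, hv⟩ := (H _).1 ⟨Pi.single k 1, rfl⟩
    have e1 := congrArg (lift P (LinearMap.proj i : Dual F₀ V₀)) hv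
    have e2 := congrArg (lift P (LinearMap.proj k : Dual F₀ V₀)) hv
    simp only [act_tv, map_smul, map_add, LinearMap.smul_apply, lift_j, LinearMap.proj_apply,
      Pi.single_eq_same, Pi.single_eq_of_ne hik, Pi.single_eq_of_ne hik.symm, smul_eq_mul,
      OneMemClass.coe_one, ZeroMemClass.coe_zero, mul_one, mul_zero, zero_add, add_zero] at e1 e2
    refine hc ?_
    have : c = (v i : F) / v k := by rw [e1, e2]; field_simp
    rw [this]
    exact F₀.div_mem (v i).2 (v k).2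
  · rintro K h1 h2 ⟨g, hg, hg'⟩
    have hK : Over F₀ P K := fun u θ h => by
      have h0 : lift P θ (j u) = 0 := by simp [lift_j, h]
      refine (hasTv_iff h0).2 (h1 ⟨mem_subfield_of_le one_ne_zero fun v => ⟨v + θ v • u, ?_⟩,
        tv_mem_SL _ _ _⟩)
      rw [one_smul, act_tv, lift_j, map_add, j_smul]
    exact (hK.SL_le_or_small hn hr).resolve_right fun hs =>
      hg' ⟨hs.mem hK hn hr hD hg, h2 hg⟩

end CL.Root.RatSL
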