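import Mathlib
import Cfsg.Agent.CLAS.Ref8

/-!
Orthogonal decompositions into planes: an overgroup of the stabiliser contains an element outside
the stabiliser which maps a non-singular vector of a member into a member.
-/

set_option autoImplicit false
set_option linter.unusedSectionVars false

namespace CL.Witt.Form

open Module

variable {F : Type*} [Field F] [Finite F] {V : Type*} [AddCommGroup V] [Module F V]
  [FiniteDimensional F V] {f : Form (FormType.quad F) V} {K : Subgroup (V ≃ₗ[F] V)}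

theorem quad_cmp (hf : f.Nondeg) (h5 : 5 ≤ finrank F V) {W : Submodule F V}
    (hW : (f.restrict W).Nondeg) (h2 : 2 ≤ finrank F W) : f.Cmp W := by
  have hQ := FGL.toQuad_nondeg hf
  have k : ∀ g : Orth.O f.toQuad, Orth.dsign g = -1 → ∃ b ∈ W, f.rf b * g ∈ f.E := fun g hg => by
    obtain ⟨d, hd⟩ := Orth.exists_isSpin hQ g
    obtain ⟨b, hb, qb⟩ := exists_q_eq_mem hW h2 d
    have h0 : f.toQuad b ≠ 0 := by rw [toQuad_apply, qb]; exact hd.1
    exact ⟨b, hb, (hf.mem_E_iff_dsign h5 (Orth.refl f.toQuad b * g)).2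
      ⟨by rw [Orth.dsign_refl_mul hQ _ h0, hg, neg_neg], by
        rw [Orth.spin_refl_mul hQ _ h0, hd.spin_eq, toQuad_apply, qb, Int.units_mul_self]⟩⟩
  have k' : ∀ b ∈ W, ∀ v ∈ f.perp W, f.rf b v = v := fun b hb v hv => rf_of_perp (hv b hb)
  intro g hg
  obtain ⟨d, hd, h1, h3⟩ : ∃ d ∈ f.O, (∀ v ∈ f.perp W, d v = v) ∧ d * g ∈ f.E := by
    rcases Int.units_eq_one_or (Orth.dsign ⟨g, O_eq_orth f ▸ hg⟩) with e | e
    · obtain ⟨a, ha, qa⟩ := exists_q_eq_mem hW h2 1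
      obtain ⟨b, hb, h⟩ := k (Orth.refl f.toQuad a * ⟨g, O_eq_orth f ▸ hg⟩)
        (by rw [Orth.dsign_refl_mul hQ _ (by rw [toQuad_apply, qa]; exact one_ne_zero), e])
      exact ⟨f.rf b * f.rf a, mul_mem (rf_mem_O b) (rf_mem_O a), fun v hv => by
        rw [LinearEquiv.mul_apply, k' a ha v hv, k' b hb v hv], by rw [mul_assoc]; exact h⟩
    · obtain ⟨b, hb, h⟩ := k _ e
      exact ⟨_, rf_mem_O b, k' b hb, h⟩
  exact ⟨d, hd, h1, by simpa [mul_assoc] using conj_mem_E hg h3⟩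

omit [Finite F] [FiniteDimensional F V] in
theorem perp_of_rf_mul_rf {x y v : V} (hx : f.q x ≠ 0) (hy : f.q y ≠ 0) (hxy : x ∉ F ∙ y)
    (h : f.rf x (f.rf y v) = v) : f.B x v = 0 ∧ f.B y v = 0 := by
  have h1 : ((f.q x)⁻¹ * f.B x v) • x = ((f.q y)⁻¹ * f.B y v) • y := by
    have := congrArg (f.rf x) h
    rw [rf_rf, rf_apply, rf_apply] at this
    exact (sub_right_injective this).symm
  have h2 : f.B x v = 0 := by
    by_contra h2
    exact hxy ((Submodule.smul_mem_iff _ (mul_ne_zero (inv_ne_zero hx) h2)).1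
      (h1 ▸ Submodule.smul_mem _ _ (Submodule.mem_span_singleton_self y)))
  rw [h2, mul_zero, zero_smul, eq_comm, smul_eq_zero] at h1
  exact ⟨h2, (mul_eq_zero.1 (h1.resolve_right fun e => hy (e ▸ f.q_zero))).resolve_left
    (inv_ne_zero hy)⟩

omit [Finite F] [FiniteDimensional F V] in
theorem rf_mul_rf_sub_mem (x y v : V) :
    (f.rf x * f.rf y) v - v ∈ Submodule.span F {x, y} :=
  Submodule.mem_span_pair.2 ⟨-((f.q x)⁻¹ * f.B x (f.rf y v)), -((f.q y)⁻¹ * f.B y v), by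
    rw [LinearEquiv.mul_apply, rf_apply x, rf_apply y]; module⟩

omit [Finite F] [FiniteDimensional F V] in
theorem q_hyp1 {x w : V} (hx : f.q x = 0) (hw : f.q w = 0) (hxw : f.B x w = 1) (γ : F) :
    f.q (γ • x + w) = γ := by
  rw [quad_q_add, quad_q_smul, hx, hw, qB_smul_left, hxw]; ring

omit [Finite F] [FiniteDimensional F V] in
theorem tor_apply {x w : V} (hx : f.q x = 0) (hw : f.q w = 0) (hxw : f.B x w = 1) {γ : F}
    (hγ : γ ≠ 0) (v : V) : (f.rf (γ • x + w) * f.rf (x + w)) v =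
      v + ((γ - 1) * f.B w v) • x + ((γ⁻¹ - 1) * f.B x v) • w := by
  have h2 : f.q (x + w) = 1 := by simp [quad_q_add, hx, hw, hxw]
  rw [LinearEquiv.mul_apply, rf_apply, rf_apply, q_hyp1 hx hw hxw, h2]
  simp only [map_sub, map_smul, map_add, LinearMap.add_apply, qB_smul_left, qB_self, hx, hw, hxw,
    qB_comm w x, smul_eq_mul]
  match_scalars <;> field_simp <;> ring

section plane

variable {W : Submodule F V} (hW : (f.restrict W).Nondeg) (h2 : finrank F W = 2)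

omit [Finite F] in
include h2 in
theorem plane_le {a b : V} (ha : a ∈ W) (hb : b ∈ W) (hb0 : b ≠ 0) (hab : a ∉ F ∙ b) :
    W ≤ Submodule.span F {a, b} :=
  (Submodule.eq_of_le_of_finrank_eq (Submodule.span_le.2 (by rintro _ (rfl | rfl) <;> assumption))
    (by rw [h2, finrank_span_pair_of hb0 hab])).ge

include hW h2

omit [Finite F] in
theorem plane_eq_zero {a b v : V} (ha : a ∈ W) (hb : b ∈ W) (hb0 : b ≠ 0) (hab : a ∉ F ∙ b)
    (hv : v ∈ W) (h1 : f.B a v = 0) (h3 : f.B b v = 0) : v = 0 :=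
  restrict_nondeg_iff'.1 hW v hv fun _ hw =>
    f.mem_perp_span_pair.2 ⟨h1, h3⟩ _ (plane_le h2 ha hb hb0 hab hw)

omit [Finite F] in
theorem plane_gram {a b : V} (ha : a ∈ W) (hb : b ∈ W) (hb0 : b ≠ 0) (hab : a ∉ F ∙ b) :
    f.B a b ^ 2 ≠ 4 * f.q a * f.q b := fun e => by
  have h1 := plane_eq_zero hW h2 ha hb hb0 hab (v := (2 * f.q b) • a - f.B a b • b)
    (W.sub_mem (W.smul_mem _ ha) (W.smul_mem _ hb))
    (by simp only [map_sub, map_smul, qB_self, smul_eq_mul]; linear_combination -e)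
    (by simp only [map_sub, map_smul, qB_self, smul_eq_mul, qB_comm b a]; ring)
  have h3 : 2 * f.q b = 0 := by
    by_contra h3
    exact hab ((Submodule.smul_mem_iff _ h3).1 (sub_eq_zero.1 h1 ▸
      Submodule.smul_mem _ _ (Submodule.mem_span_singleton_self b)))
  rw [h3, zero_smul, zero_sub, neg_eq_zero, smul_eq_zero, or_iff_left hb0] at h1
  exact hb0 (plane_eq_zero hW h2 ha hb hb0 hab hb h1 (by rw [qB_self, h3]))

omit [Finite F] in
theorem plane_move {a b v : V} (ha : a ∈ W) (hb : b ∈ W) (qa : f.q a ≠ 0) (qb : f.q b ≠ 0)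
    (hab : a ∉ F ∙ b) (hv : v ∈ W) (h : f.rf a (f.rf b v) = v) : v = 0 :=
  have := perp_of_rf_mul_rf qa qb hab h
  plane_eq_zero hW h2 ha hb (fun e => qb (e ▸ f.q_zero)) hab hv this.1 this.2

omit [Finite F] in
theorem plane_perp {z : V} (hz : z ∈ W) (qz : f.q z ≠ 0) :
    ∃ p ∈ W, f.q p ≠ 0 ∧ f.B p z = 0 := by
  by_cases h : (2 : F) = 0
  · exact ⟨z, hz, qz, B_self_two h z⟩
  have z0 : z ≠ 0 := fun e => qz (e ▸ f.q_zero)
  obtain ⟨p, hp, p0, h1⟩ := exists_mem_perp_ne_zero hW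
    ((Submodule.span_singleton_le_iff_mem _ _).2 hz) (by rw [finrank_span_singleton z0]; omega)
  have h3 := f.mem_perp_span_singleton.1 h1
  refine ⟨p, hp, fun e => plane_gram hW h2 hz hp p0 (not_mem_span_of_B (f := f) (d := z)
    (by rw [qB_self]; exact mul_ne_zero h qz) h3) (by simp [h3, e]), f.B_eq_zero_symm h3⟩

theorem Good.exists_partner (hG : f.Good W) {a : V} (ha : a ∈ W) (qa : f.q a ≠ 0) :
    ∃ b ∈ W, f.q b = f.q a ∧ b ∉ F ∙ a ∧ f.B a b ≠ 0 := by
  by_contra! H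
  have a0 : a ≠ 0 := fun e => qa (e ▸ f.q_zero)
  rcases hG.conn hW qa (F ∙ a) _ le_rfl (fun v hv e => (em _).imp_right fun e' =>
    f.mem_perp_span_singleton.2 (H v hv e e')) with h | h
  · have := Submodule.finrank_mono h
    rw [finrank_span_singleton a0] at this
    omega
  · exact a0 (restrict_nondeg_iff'.1 hW a ha fun v hv =>
      f.B_eq_zero_symm (f.mem_perp_span_singleton.1 (h hv)))

omit h2 in
theorem Good.exists_B_ne (hG : f.Good W) (h2 : 2 ≤ finrank F W) {c : F} (hc : c ≠ 0) {v : V}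
    (hv : v ∉ f.perp W) : ∃ a ∈ W, f.q a = c ∧ f.B a v ≠ 0 := by
  by_contra! H
  obtain ⟨y, hy, qy⟩ := exists_q_eq_mem hW h2 c
  exact hv fun a ha => f.B_eq_zero_symm (f.mem_perp_span_singleton.1
    ((hG.oIrr hW).le_of_q_eq (W := f.perp (F ∙ v)) hy (fun e => hc (qy ▸ e ▸ f.q_zero)) qy
      (fun a ha e => f.mem_perp_span_singleton.2 (f.B_eq_zero_symm (H a ha e))) ha))

omit [Finite F] in
/-- An isometry of a plane moving vectors along a line is an involution. -/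
theorem plane_invol {g : V ≃ₗ[F] V} (hg : g ∈ f.O) {P : Submodule F V} (hP : ¬ W ≤ P)
    (h : ∀ v ∈ W, g v - v ∈ W ⊓ P) {v : V} (hv : v ∈ W) : g (g v) = v := by
  by_cases p0 : g v - v = 0
  · rw [sub_eq_zero.1 p0, sub_eq_zero.1 p0]
  obtain ⟨p, hp⟩ : ∃ p, g v - v = p := ⟨_, rfl⟩
  have hpW := hp ▸ h v hv
  rw [hp] at p0
  have k : ∀ w ∈ W, ∃ l : F, g w = w + l • p := fun w hw => by
    obtain ⟨l, hl⟩ := Submodule.mem_span_singleton.1 (not_not.1 fun e => hP
      ((plane_le h2 (h w hw).1 hpW.1 p0 e).trans (Submodule.span_le.2 (by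
        rintro _ (rfl | rfl)
        exacts [(h w hw).2, hpW.2]))))
    exact ⟨l, by rw [hl]; abel⟩
  obtain ⟨l, hl⟩ := k p hpW.1
  have e : g v = v + p := by rw [← hp]; abel
  have e1 := mem_O_q hg v
  have e2 := mem_O_B hg v p
  rw [e, quad_q_add] at e1
  rw [e, hl] at e2
  simp only [map_add, map_smul, LinearMap.add_apply, qB_self, smul_eq_mul] at e2
  by_cases qp : f.q p = 0
  · obtain ⟨w, hw, -, hpw⟩ := exists_partner_mem qp hpW.1 fun e =>
      p0 (restrict_nondeg_iff'.1 hW p hpW.1 e)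
    obtain ⟨m, hm⟩ := k w hw
    have e3 := mem_O_B hg w p
    rw [hm, hl] at e3
    simp only [map_add, map_smul, LinearMap.add_apply, qB_smul_left, qB_self, smul_eq_mul, qp,
      qB_comm w p, hpw] at e3
    obtain ⟨t, rfl⟩ := Submodule.mem_span_singleton.1 (not_not.1 fun e =>
      plane_gram hW h2 hv hpW.1 p0 e (by rw [qp, show f.B v p = 0 by linear_combination e1 - qp]; simp))
    rw [map_smul, hl, show l = 0 by linear_combination e3] at hp
    exact absurd (by simpa using hp.symm) p0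
  · have : l = -2 := mul_right_cancel₀ qp (by linear_combination e2 - l * e1)
    rw [e, map_add, e, hl, this]
    module

end plane

variable {ι : Type*} [Fintype ι] {D : ι → Submodule F V}

variable (f D) in
/-- A decomposition into at least five isometric planes. -/
structure PD : Prop extends f.SDec D where
  two : ∀ i, finrank F (D i) = 2
  good : ∀ i, f.Good (D i)
  iso : f.Isom D
  five : 5 ≤ Fintype.card ι
  h5 : 5 ≤ finrank F V

namespace PD

variable (h : f.PD D)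
include h

theorem ex (l : List ι) (hl : l.length < 5) : ∃ a, a ∉ l :=
  exists_notMem_of_lt l (by rw [Nat.card_eq_fintype_card]; exact hl.trans_le h.five)

theorem cmp (i : ι) : f.Cmp (D i) := quad_cmp h.nondeg' h.h5 (h.nondeg i) (h.two i).ge

theorem exists_q (i : ι) (c : F) : ∃ a ∈ D i, f.q a = c := exists_q_eq_mem (h.nondeg i) (h.two i).ge c

theorem partner {i : ι} {a : V} (ha : a ∈ D i) (qa : f.q a ≠ 0) :
    ∃ b ∈ D i, f.q b = f.q a ∧ b ∉ F ∙ a ∧ f.B a b ≠ 0 :=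
  (h.good i).exists_partner (h.nondeg i) (h.two i) ha qa

theorem exists_B {i : ι} {c : F} (hc : c ≠ 0) {v : V} (hv : h.pr i v ≠ 0) :
    ∃ a ∈ D i, f.q a = c ∧ f.B a v ≠ 0 :=
  (h.good i).exists_B_ne (h.nondeg i) (h.two i).ge hc (mt h.pr_eq_zero_iff.2 hv)

theorem invol_or {g : V ≃ₗ[F] V} (hg : g ∈ dstab D) (hO : g ∈ f.O) {P : Submodule F V}
    (hP : finrank F P ≤ 2) (H : ∀ v, g v - v ∈ P) : (∀ v, g (g v) = v) ∨ ∃ j, D j ≤ P := by
  refine or_iff_not_imp_right.2 fun hn v => ?_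
  obtain ⟨π, hπ⟩ := hg
  have k : ∀ s, ∀ v ∈ D s, g v ∈ D (π s) := fun s v hv => hπ s ▸ ⟨v, hv, rfl⟩
  rw [← h.sum_pr v, map_sum, map_sum]
  refine Finset.sum_congr rfl fun s _ => ?_
  by_cases e : π s = s
  · exact plane_invol (h.nondeg s) (h.two s) hO (not_exists.1 hn s)
      (fun w hw => ⟨sub_mem (e ▸ k s w hw) hw, H w⟩) (h.pr_mem s v)
  let φ : D s →ₗ[F] P := LinearMap.codRestrict P
    (((g : V →ₗ[F] V) - LinearMap.id) ∘ₗ (D s).subtype) fun w => H w
  have hφ : Function.Injective φ := (injective_iff_map_eq_zero φ).2 fun w hw => by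
    by_contra w0
    have : g w = w := sub_eq_zero.1 (congrArg Subtype.val hw)
    exact e (h.eq_of_mem (this ▸ k s w w.2) w.2 (by simpa using w0))
  have := LinearMap.finrank_le_finrank_of_injective hφ
  obtain ⟨w, hw⟩ := (LinearMap.injective_iff_surjective_of_finrank_eq_finrank
    (by have := h.two s; omega)).1 hφ ⟨_, H (g (h.pr s v))⟩
  have e1 : g w - w = g (g (h.pr s v)) - g (h.pr s v) := congrArg Subtype.val hw
  have e2 := congrArg (h.pr (π s)) e1
  rw [map_sub, map_sub, h.pr_of_mem (k s w w.2), h.pr_of_ne e w.2,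
    h.pr_of_mem (k s _ (h.pr_mem s v)), h.pr_of_ne (fun e' => e (π.injective e').symm)
      (k _ _ (k s _ (h.pr_mem s v))), sub_zero, zero_sub, ← map_neg] at e2
  rw [g.injective e2, map_neg] at e1
  linear_combination (norm := module) -e1

theorem exists_fix {g : V ≃ₗ[F] V} (hg : g ∈ dstab D) {x y : V}
    (H : ∀ v, g v - v ∈ Submodule.span F {x, y}) : ∃ s, ∀ v ∈ D s, g v = v := by
  by_contra! hn
  obtain ⟨π, hπ⟩ := hg
  choose v hv hv' using hn
  have k : ∀ s, g (v s) ∈ D (π s) := fun s => hπ s ▸ ⟨_, hv s, rfl⟩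
  have k1 : ∀ s, h.pr s (g (v s) - v s) ≠ 0 := fun s => by
    by_cases e : s = π s
    · rw [h.pr_of_mem (sub_mem (by simpa only [← e] using k s) (hv s))]; exact sub_ne_zero.2 (hv' s)
    · rw [map_sub, h.pr_of_ne e (k s), h.pr_of_mem (hv s), zero_sub, neg_ne_zero]
      exact fun e => hv' s (by rw [e, map_zero])
  have k2 : ∀ s l, l ≠ s → l ≠ π s → h.pr l (g (v s) - v s) = 0 := fun s l h1 h2 => by
    rw [map_sub, h.pr_of_ne h1 (hv s), h.pr_of_ne h2 (k s), sub_zero]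
  obtain ⟨s, -⟩ := h.ex [] (by simp)
  obtain ⟨r, hr⟩ := h.ex [s, π s] (by simp)
  obtain ⟨t, ht⟩ := h.ex [s, π s, r, π r] (by simp)
  simp only [List.mem_cons, List.not_mem_nil, or_false, not_or] at hr ht
  obtain ⟨a, b, e⟩ := Submodule.mem_span_pair.1 (span_pair_le_of (H (v s)) (H (v r))
    (sub_ne_zero.2 (hv' s)) (fun e => by
      obtain ⟨a, e⟩ := Submodule.mem_span_singleton.1 e
      exact k1 r (by rw [← e, map_smul, k2 s r hr.1 hr.2, smul_zero])) (H (v t)))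
  exact k1 t (by rw [← e, map_add, map_smul, map_smul, k2 s t ht.1 ht.2.1,
    k2 r t ht.2.2.1 ht.2.2.2, smul_zero, smul_zero, add_zero])

section B

variable {M : Subgroup (V ≃ₗ[F] V)} (hM : dstab D ⊓ f.E ≤ M) (hO : M ≤ f.O)
  (hs : ∀ m ∈ M, ∀ i j, ∀ v ∈ D i, f.q v ≠ 0 → m v ∈ D j → m ∈ dstab D)
  {g : V ≃ₗ[F] V} (hg : g ∈ M) (hn : g ∉ dstab D)
include hM hO hs hg

theorem conj_mem {i j l : ι} {b p p' : V} (hb : b ∈ D i) (qb : f.q b ≠ 0) (hp : p ∈ D j)
    (hp' : p' ∈ D l) (qp : f.q p ≠ 0) (qp' : f.q p' ≠ 0)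
    (e : Orth.sqSign (f.q p) = Orth.sqSign (f.q p')) (h1 : f.B p (g b) = 0)
    (h2 : f.B p' (g b) = 0) : f.rf (g⁻¹ p) * f.rf (g⁻¹ p') ∈ dstab D := by
  rw [← rf_conj_mul (hO (inv_mem hg))]
  refine hs _ (mul_mem (mul_mem (inv_mem hg) (hM (h.rf_mul_rf_mem h.h5 hp hp' qp qp' e)))
    (inv_mem (inv_mem hg))) i i b hb qb ?_
  simpa [rf_of_perp h1, rf_of_perp h2] using hb

include hn

theorem full_supp {i : ι} {b : V} (hb : b ∈ D i) (qb : f.q b ≠ 0) (j : ι) :
    h.pr j (g b) ≠ 0 := fun e => by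
  obtain ⟨a, ha, qa⟩ := h.exists_q j 1
  have qa' : f.q a ≠ 0 := qa ▸ one_ne_zero
  obtain ⟨a', ha', q1, h1, h2⟩ := h.partner ha qa'
  have k := h.pr_eq_zero_iff.1 e
  have hO' := hO (inv_mem hg)
  rcases h.invol_or (h.conj_mem hM hO hs hg hb qb ha' ha (q1 ▸ qa') qa' (by rw [q1]) (k _ ha')
    (k _ ha)) (mul_mem (rf_mem_O _) (rf_mem_O _)) (finrank_span_pair_le _ _)
    (rf_mul_rf_sub_mem _ _) with H | ⟨l, H⟩
  · have := H (g⁻¹ a')
    rw [← rf_conj_mul hO'] at this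
    simp only [LinearEquiv.mul_apply, inv_inv, LinearEquiv.coe_inv, LinearEquiv.apply_symm_apply,
      EmbeddingLike.apply_eq_iff_eq] at this
    have h3 : f.rf (f.rf a' a) (f.rf a a') = a' := by
      rw [← rf_conj (rf_mem_O a'), rf_inv]; exact this
    refine h2 (perp_of_rf_mul_rf (by rwa [mem_O_q (rf_mem_O _)]) qa' (fun e => h1 ?_) h3).2
    rw [rf_apply, Submodule.sub_mem_iff_right _ (Submodule.mem_span_singleton_self a),
      Submodule.smul_mem_iff _ (by simp [q1, qa', qB_comm a' a, h2])] at e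
    exact e
  · obtain ⟨v, hv, qv⟩ := h.exists_q l 1
    obtain ⟨w, hw, e⟩ := exists_of_mem_span_map ha' ha (H hv)
    exact hn (hs g hg l j v hv (qv ▸ one_ne_zero) (by simpa [← e] using hw))

theorem not_two {i j l : ι} {b p p' : V} (hb : b ∈ D i) (qb : f.q b ≠ 0) (hjl : j ≠ l)
    (hp : p ∈ D j) (hp' : p' ∈ D l) (qp : f.q p ≠ 0) (qp' : f.q p' ≠ 0)
    (e : Orth.sqSign (f.q p) = Orth.sqSign (f.q p')) (h1 : f.B p (g b) = 0)
    (h2 : f.B p' (g b) = 0) : False := by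
  obtain ⟨s, H⟩ := h.exists_fix (h.conj_mem hM hO hs hg hb qb hp hp' qp qp' e h1 h2)
    (rf_mul_rf_sub_mem _ _)
  have hO' := hO (inv_mem hg)
  refine h.full_supp hM hO hs (inv_mem hg) (mt (inv_mem_iff.1) hn) hp qp s
    (h.pr_eq_zero_iff.2 fun v hv => f.B_eq_zero_symm (perp_of_rf_mul_rf
      (by rwa [mem_O_q hO']) (by rwa [mem_O_q hO']) (map_not_mem_span _ fun e => hjl
        (h.eq_of_mem hp ((Submodule.span_singleton_le_iff_mem _ _).2 hp' e)
          fun e => qp (e ▸ f.q_zero))) (H v hv)).1)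

theorem card_le_two [DecidableEq F] {i : ι} {b : V} (hb : b ∈ D i) (qb : f.q b ≠ 0) :
    (Finset.univ.filter fun j => f.q (h.pr j (g b)) ≠ 0).card ≤ 2 := by
  by_contra! H
  obtain ⟨j, l, m, hj, hl, hm, jl, jm, lm⟩ := Finset.two_lt_card_iff.1 H
  have k : ∀ j ∈ Finset.univ.filter fun j => f.q (h.pr j (g b)) ≠ 0,
      ∃ p ∈ D j, f.q p ≠ 0 ∧ f.B p (g b) = 0 := fun j hj => by
    obtain ⟨p, hp, qp, e⟩ := plane_perp (h.nondeg j) (h.two j) (h.pr_mem j _)
      (Finset.mem_filter.1 hj).2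
    exact ⟨p, hp, qp, h.B_pr hp _ ▸ e⟩
  obtain ⟨p, hp, qp, ep⟩ := k j hj
  obtain ⟨r, hr, qr, er⟩ := k l hl
  obtain ⟨s, hs', qs, es⟩ := k m hm
  have k1 := h.not_two hM hO hs hg hn hb qb jl hp hr qp qr
  have k2 := h.not_two hM hO hs hg hn hb qb jm hp hs' qp qs
  have k3 := h.not_two hM hO hs hg hn hb qb lm hr hs' qr qs
  rcases Int.units_eq_one_or (Orth.sqSign (f.q p)) with a | a <;>
    rcases Int.units_eq_one_or (Orth.sqSign (f.q r)) with b | b <;>
    rcases Int.units_eq_one_or (Orth.sqSign (f.q s)) with c | c <;> simp_all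

omit hn in
theorem not_null (h4 : 4 ≤ Nat.card F) {i j : ι} {u w : V} (hu : u ∈ D i) (hw : w ∈ D i)
    (qu : f.q u = 0) (qw : f.q w = 0) (uw : f.B u w = 1) (h1 : h.pr j (g w) = 0)
    (h2 : h.pr j (g u) ≠ 0) (h3 : f.q (h.pr j (g u)) = 0) : False := by
  obtain ⟨μ, hμ⟩ := exists_notMem_of_lt [(0 : F), 1, -1] (by simp; omega)
  simp only [List.mem_cons, List.not_mem_nil, or_false, not_or] at hμ
  obtain ⟨γ, γ0, γ1, hγ⟩ : ∃ γ : F, γ ≠ 0 ∧ γ ≠ 1 ∧ Orth.sqSign γ = 1 :=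
    ⟨μ * μ, by simp [hμ.1], by simp [mul_self_eq_one_iff, hμ.2], Orth.sqSign_mul_self μ⟩
  have k : ∀ l, ∀ u ∈ D l, ∀ w ∈ D l, f.q u = 0 → f.q w = 0 → f.B u w = 1 →
      f.rf (γ • u + w) * f.rf (u + w) ∈ M := fun l u hu w hw qu qw uw => by
    have h1 := q_hyp1 qu qw uw γ
    have h2 : f.q (u + w) = 1 := by simp [quad_q_add, qu, qw, uw]
    exact hM (h.rf_mul_rf_mem h.h5 (add_mem (Submodule.smul_mem _ _ hu) hw) (add_mem hu hw)
      (by rwa [h1]) (h2 ▸ one_ne_zero) (by rw [h1, h2, hγ, Orth.sqSign_one]))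
  obtain ⟨σ, hσ⟩ : ∃ σ, h.pr j (g u) = σ := ⟨_, rfl⟩
  have σj : σ ∈ D j := hσ ▸ h.pr_mem j _
  rw [hσ] at h2 h3
  obtain ⟨σ', σj', qσ', σσ⟩ := exists_partner_mem h3 σj fun e => h2 (h.eq_zero σj e)
  have gO := hO hg
  have t1 := mul_mem (mul_mem hg (k i u hu w hw qu qw uw)) (inv_mem hg)
  rw [rf_conj_mul gO, map_add, map_add, map_smul] at t1
  obtain ⟨x, hx⟩ : ∃ x, g u = x := ⟨_, rfl⟩
  obtain ⟨y, hy⟩ : ∃ y, g w = y := ⟨_, rfl⟩
  have qx : f.q x = 0 := hx ▸ (mem_O_q gO u).trans qu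
  have qy : f.q y = 0 := hy ▸ (mem_O_q gO w).trans qw
  have xy : f.B x y = 1 := hx ▸ hy ▸ (mem_O_B gO u w).trans uw
  rw [hx, hy] at t1
  rw [hx] at hσ
  rw [hy] at h1
  have b1 : f.B σ x = 0 := by rw [← h.B_pr σj, hσ, qB_self, h3, mul_zero]
  have b2 : f.B σ' x = 1 := by rw [← h.B_pr σj', hσ, qB_comm, σσ]
  have b3 : f.B σ y = 0 := h.pr_eq_zero_iff.1 h1 _ σj
  have b4 : f.B σ' y = 0 := h.pr_eq_zero_iff.1 h1 _ σj'
  have t2 := k j σ σj σ' σj' h3 qσ' σσ
  have t3 := mul_mem (mul_mem t2 t1) (inv_mem t2)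
  have e1 := tor_apply h3 qσ' σσ γ0 x
  have e2 := tor_apply h3 qσ' σσ γ0 y
  simp only [b1, b2, b3, b4, mul_zero, zero_smul, add_zero, mul_one] at e1 e2
  rw [rf_conj_mul (hO t2), map_add, map_add, map_smul, e1, e2] at t3
  have ok : f.EichOK y (((1 - γ⁻¹) * (γ - 1)) • σ) 0 :=
    ⟨qy, by rw [B_smul_right, qB_comm, b3, mul_zero], (f.q_smul_eq_zero h3 _).symm⟩
  have t4 : f.Es M y (((1 - γ⁻¹) * (γ - 1)) • σ) := ⟨0, ok, by
    convert mul_mem t3 (inv_mem t1)
    rw [eq_mul_inv_iff_mul_eq]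
    ext v
    rw [LinearEquiv.mul_apply, quad_ei_apply ok, tor_apply qx qy xy γ0, tor_apply
      (by simp [quad_q_add, quad_q_smul, qx, h3, qB_comm x σ, b1]) qy
      (by simp [xy, b3]) γ0]
    simp only [map_add, map_smul, LinearMap.add_apply, qB_smul_left, qB_self, qy, qB_comm y x, xy, b1, b3,
      smul_eq_mul]
    match_scalars <;> field_simp <;> ring⟩
  have c0 : (1 - γ⁻¹) * (γ - 1) ≠ 0 :=
    mul_ne_zero (sub_ne_zero.2 fun e => γ1 (by rw [← inv_inv γ, ← e, inv_one])) (sub_ne_zero.2 γ1)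
  have t5 := t4.swap (f.q_smul_eq_zero h3 _)
  obtain ⟨z, hz⟩ : ∃ z, ((1 - γ⁻¹) * (γ - 1)) • σ = z := ⟨_, rfl⟩
  have zj : z ∈ D j := hz ▸ Submodule.smul_mem _ _ σj
  have zσ : f.B z σ' ≠ 0 := by rwa [← hz, qB_smul_left, σσ, mul_one]
  rw [hz] at t5
  obtain ⟨l, lj, hl⟩ := h.exists_pr_ne (i := j) (v := y) fun e => by
    rw [h.pr_of_mem e] at h1
    simp [h1] at xy
  obtain ⟨a, ha, qa⟩ := h.exists_q l 1
  have qa' : f.q a ≠ 0 := qa ▸ one_ne_zero
  obtain ⟨a', ha', q1, h5, -⟩ := h.partner ha qa'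
  have t6 := hM (h.rf_mul_rf_mem h.h5 ha' ha (q1 ▸ qa') qa' (by rw [q1]))
  obtain ⟨β, ok', t7⟩ := (t5.map_fix t6 (hO t6) (by
    rw [LinearEquiv.mul_apply, rf_of_perp (h.B_eq lj ha zj), rf_of_perp (h.B_eq lj ha' zj)])).sub t5
  have rl : (f.rf a' * f.rf a) y - y ∈ D l := Submodule.span_le.2
    (by rintro _ (rfl | rfl) <;> assumption) (rf_mul_rf_sub_mem a' a y)
  have r0 : (f.rf a' * f.rf a) y - y ≠ 0 := fun e => by
    have := perp_of_rf_mul_rf (q1 ▸ qa') qa' h5 (sub_eq_zero.1 e)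
    exact hl (plane_eq_zero (h.nondeg l) (h.two l) ha' ha (fun e => qa' (e ▸ f.q_zero)) h5
      (h.pr_mem l y) (h.B_pr ha' y ▸ this.1) (h.B_pr ha y ▸ this.2))
  obtain ⟨m, hm⟩ := h.ex [j, l] (by simp)
  simp only [List.mem_cons, List.not_mem_nil, or_false, not_or] at hm
  obtain ⟨v, hv, qv⟩ := h.exists_q m 1
  obtain ⟨n, hn⟩ := exists_mem_of_mem_dstab (hs _ t7 m m v hv (qv ▸ one_ne_zero) (by
    rwa [ok'.ei_apply_fix (h.B_eq (Ne.symm hm.1) zj hv) (h.B_eq (Ne.symm hm.2) rl hv)])) j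
  refine h.add_not_mem (sub_mem σj' (Submodule.smul_mem _
    (f.B ((f.rf a' * f.rf a) y - y) σ' + β * f.B z σ') zj)) (fun e => zσ ?_)
    (h.orth j l lj.symm (Submodule.smul_mem _ (f.B z σ') rl)) (smul_ne_zero zσ r0) n ?_
  · simpa [qB_self, ok'.1] using congrArg (f.B z) e
  · convert hn σ' σj' using 1
    rw [quad_ei_apply ok']; abel

theorem star_false : False := by
  classical
  by_cases hp : ∃ i, ¬ f.Plus (D i)
  · obtain ⟨i, hi⟩ := hp
    obtain ⟨b, hb, qb⟩ := h.exists_q i 1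
    have := h.card_le_two hM hO hs hg hn hb (qb ▸ one_ne_zero)
    rw [Finset.filter_true_of_mem (p := fun j => f.q (h.pr j (g b)) ≠ 0) fun j _ e => hi
      ((plus_of_singular (h.two j) (h.pr_mem j _) (h.full_supp hM hO hs hg hn hb
        (qb ▸ one_ne_zero) j) e).of_isom (h.iso j i)), Finset.card_univ] at this
    have := h.five
    omega
  push Not at hp
  obtain ⟨i, -⟩ := h.ex [] (by simp)
  have h6 : 6 ≤ Nat.card F := by
    have := h.good i
    have := h.two i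
    unfold Good at *
    simp only [hp i, not_true, and_false, or_false] at *
    omega
  obtain ⟨u, hu, u0, qu⟩ := (hp i).exists_singular (by rw [h.two]; omega)
  obtain ⟨w, hw, qw, uw⟩ := exists_partner_mem qu hu fun e => u0 (h.eq_zero hu e)
  have k : ∀ a b : F, a ≠ 0 → b ≠ 0 → a • u + b • w ∈ D i ∧ f.q (a • u + b • w) ≠ 0 :=
    fun a b ha hb => ⟨add_mem (Submodule.smul_mem _ _ hu) (Submodule.smul_mem _ _ hw), by
      simp [quad_q_add, quad_q_smul, qu, qw, uw, ha, hb]⟩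
  obtain ⟨j, j1, j2, j3⟩ : ∃ j, f.q (h.pr j (g w)) = 0 ∧ f.B (h.pr j (g u)) (h.pr j (g w)) = 0 ∧
      f.q (h.pr j (g u)) = 0 := by
    by_contra H
    have := Fintype.ofFinite F
    have := Finset.card_mul_le_card_mul (s := Finset.univ.erase (0 : F)) (t := Finset.univ)
      (fun s j => f.q (h.pr j (g ((1 : F) • u + s • w))) = 0) (m := Fintype.card ι - 2) (n := 2)
      (fun s hs' => by
        have h1 := k 1 s one_ne_zero (Finset.mem_erase.1 hs').1
        have := h.card_le_two hM hO hs hg hn h1.1 h1.2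
        have h2 := Finset.card_filter_add_card_filter_not (s := Finset.univ)
          fun j => f.q (h.pr j (g ((1 : F) • u + s • w))) = 0
        rw [Finset.card_univ] at h2
        simp only [Finset.bipartiteAbove, ne_eq] at this ⊢
        omega) fun j _ => by
        obtain ⟨r, r', hr⟩ := quad_roots (α := f.q (h.pr j (g w)))
          (β := f.B (h.pr j (g u)) (h.pr j (g w))) (γ := f.q (h.pr j (g u))) (by
            by_contra! e
            exact H ⟨j, e⟩)
        refine (Finset.card_le_card (t := {r, r'}) fun s hs => ?_).trans Finset.card_le_two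
        have := (Finset.mem_filter.1 hs).2
        simp only [one_smul, map_add, map_smul, quad_q_add_smul] at this
        simpa using hr s this
    rw [Finset.card_erase_of_mem (Finset.mem_univ _), Finset.card_univ, Finset.card_univ,
      Fintype.card_eq_nat_card] at this
    have h5 := h.five
    have := Nat.mul_le_mul_right (Fintype.card ι - 2) (show 5 ≤ Nat.card F - 1 by omega)
    omega
  have k' : ∀ a b : F, a ≠ 0 → b ≠ 0 → a • h.pr j (g u) + b • h.pr j (g w) ≠ 0 := fun a b ha hb => by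
    simpa using h.full_supp hM hO hs hg hn (k a b ha hb).1 (k a b ha hb).2 j
  by_cases e : h.pr j (g w) = 0
  · exact h.not_null hM hO hs hg (by omega) hu hw qu qw uw e
      (by simpa [e] using k' 1 1 one_ne_zero one_ne_zero) j3
  by_cases e' : h.pr j (g u) = 0
  · exact h.not_null hM hO hs hg (by omega) hw hu qw qu ((qB_comm w u).trans uw) e' e j1
  obtain ⟨a, ha⟩ := Submodule.mem_span_singleton.1 (not_not.1 fun e'' =>
    plane_gram (h.nondeg j) (h.two j) (h.pr_mem j (g u)) (h.pr_mem j (g w)) e e'' (by simp [j1, j2]))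
  exact k' 1 (-a) one_ne_zero (fun e => e' (by rw [← ha, neg_eq_zero.1 e, zero_smul]))
    (by rw [← ha]; module)

end B

theorem exists_block {M : Subgroup (V ≃ₗ[F] V)} (hM : dstab D ⊓ f.E ≤ M) (hO : M ≤ f.O)
    {g : V ≃ₗ[F] V} (hg : g ∈ M) (hn : g ∉ dstab D) :
    ∃ m ∈ M, m ∉ dstab D ∧ ∃ i j, ∃ v ∈ D i, f.q v ≠ 0 ∧ m v ∈ D j := by
  by_contra! H
  exact h.star_false hM hO (fun m hm i j v hv qv e => not_not.1 fun e' => H m hm e' i j v hv qv e)
    hg hn

end PD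

end CL.Witt.Form
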