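import Mathlib
import Cfsg.Agent.CLAS.Ref9

/-!
Maximality of the stabiliser of an orthogonal decomposition into planes.
-/

set_option autoImplicit false
set_option linter.unusedSectionVars false

namespace CL.Witt

open Module

theorem exists_eq_of_fibres {F : Type*} [Field F] [Finite F] {φ ψ : F → F} (h1 : ∀ s, φ s ≠ 0)
    (h2 : ∀ s, ψ s ≠ 0) (h3 : ∀ z, ∃ r r', ∀ s, φ s = z → s = r ∨ s = r')
    (h4 : ∀ z, ∃ r r', ∀ s, ψ s = z → s = r ∨ s = r') : ∃ s s', φ s = ψ s' := by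
  classical
  have := Fintype.ofFinite F
  have k : ∀ φ : F → F, (∀ z, ∃ r r', ∀ s, φ s = z → s = r ∨ s = r') →
      Fintype.card F ≤ 2 * (Finset.univ.image φ).card := fun φ h =>
    Finset.card_le_mul_card_image _ 2 fun z _ => by
      obtain ⟨r, r', h⟩ := h z
      exact (Finset.card_le_card (t := {r, r'}) fun s hs => by
        simpa using h s (Finset.mem_filter.1 hs).2).trans Finset.card_le_two
  by_contra! H
  have h5 := Finset.card_le_card (s := Finset.univ.image φ ∪ Finset.univ.image ψ)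
    (t := Finset.univ.erase 0) fun z hz => by
      simp only [Finset.mem_union, Finset.mem_image, Finset.mem_univ, true_and] at hz
      rcases hz with ⟨s, rfl⟩ | ⟨s, rfl⟩ <;> simp [h1, h2]
  rw [Finset.card_union_of_disjoint (Finset.disjoint_left.2 fun z hz hz' => by
    simp only [Finset.mem_image, Finset.mem_univ, true_and] at hz hz'
    obtain ⟨s, rfl⟩ := hz
    obtain ⟨s', e⟩ := hz'
    exact H s s' e.symm), Finset.card_erase_of_mem (Finset.mem_univ _), Finset.card_univ] at h5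
  have := k φ h3
  have := k ψ h4
  have := Fintype.card_pos (α := F)
  omega

namespace Form

variable {F : Type*} [Field F] [Finite F] {V : Type*} [AddCommGroup V] [Module F V]
  [FiniteDimensional F V] {f : Form (FormType.quad F) V} {K : Subgroup (V ≃ₗ[F] V)} {c : F}

omit [Finite F] [FiniteDimensional F V] in
theorem fibre_inv {y : V} (hy : f.q y ≠ 0) (a : V) {κ : F} (hκ : κ ≠ 0) (γ z : F) :
    ∃ r r', ∀ s : F, γ + κ * (f.q (a + s • y))⁻¹ = z → s = r ∨ s = r' := by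
  obtain ⟨r, r', h⟩ := quad_roots (α := f.q y) (β := f.B a y) (γ := f.q a - (κ⁻¹ * (z - γ))⁻¹)
    (Or.inl hy)
  refine ⟨r, r', fun s e => h s ?_⟩
  rw [← e, add_sub_cancel_left, inv_mul_cancel_left₀ hκ, inv_inv, quad_q_add_smul]; ring

omit [Finite F] [FiniteDimensional F V] in
theorem Es.proj {u v a : V} (h : f.Es K u v) (ha : f.Rf K a) (hau : f.B a u = 0) :
    f.Es K u (((f.q a)⁻¹ * f.B a v) • a) := by
  simpa [rf_apply] using h.sub (h.map_fix ha.2 (rf_mem_O a) (rf_of_perp hau))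

variable (f K c) in
/-- A full subspace from which the whole space can be reached. -/
def St2 : Prop := ∃ Z : Submodule F V, (f.restrict Z).Nondeg ∧ f.Full K Z ∧
  (∃ y ∈ Z, f.Rc K c y) ∧ (5 ≤ finrank F Z ∨ finrank F Z = 3 ∧ 4 ≤ Nat.card F)

theorem St2.exists_split (h : f.St2 K c) (hf : f.Nondeg)
    (hs : Submodule.span F {y | f.Rc K c y} = ⊤) : ∃ Z : Submodule F V, (f.restrict Z).Nondeg ∧
      f.Full K Z ∧ f.Good Z ∧ 3 ≤ finrank F Z ∧ (∀ y ∈ Z, f.q y = c → f.Rc K c y) ∧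
      (∃ y ∈ Z, f.Rc K c y) ∧ ∀ y, f.Rc K c y → y ∈ Z ∨ y ∈ f.perp Z := by
  obtain ⟨Z₀, h0, h1, ⟨y, hy, ry⟩, hd | hd⟩ := h
  swap
  · exact St.exists_split ⟨Z₀, h0, h1, ⟨y, hy, ry⟩, Or.inr hd⟩
      (two_ne_zero_of_odd' h0 (by rw [hd.1]; decide)) hf hs
  obtain ⟨x, hx, w, hw, qx, qw, xw⟩ := quad_exists_hyp h0 (by omega)
  have k : ∀ Z, Z₀ ≤ Z → 5 ≤ finrank F Z := fun Z hZ => hd.trans (Submodule.finrank_mono hZ)
  obtain ⟨Z, hZ, nd, fu, sp⟩ := Form.exists_split (R := {y | f.Rc K c y}) (fun y r => r.1.rk) hf hs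
    h0 h1 hx hw qx qw (by simp [xw]) fun Z hZ nd fu z hz hz0 t ht r => by
      by_cases hq : f.q z = 0
      · exact fu.mem_SZ_of_rf_sing nd (Or.inl ((quad_iso3 _).idx2 nd (k Z hZ))) hz hz0 hq ht r.1
      · exact fu.mem_SZ_of_rf_four nd (by have := k Z hZ; omega) hz hq ht r.1
  have := k Z hZ
  exact ⟨Z, nd, fu, Or.inl this, by omega, fun b hb e =>
    ⟨fu.rf_of_q_eq nd (by omega) (hZ hy) hb ry.1 (e.trans ry.2.symm), e⟩, ⟨y, hZ hy, ry⟩, sp⟩

variable {ι : Type*} [Fintype ι] {D : ι → Submodule F V}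

omit [Finite F] in
theorem SDec.plus_top (h : f.SDec D) (hp : ∀ i, f.Plus (D i)) : f.Plus ⊤ := by
  classical
  suffices ∀ s : Finset ι, f.Plus (s.sup D) by
    have := this Finset.univ
    rwa [h.eq_top_of fun j => Finset.le_sup (Finset.mem_univ j)] at this
  intro s
  induction s using Finset.induction_on with
  | empty => exact ⟨⊥, bot_le, (quad_totSing_iff _ _).2 (by simp [q_zero]),
      by rw [Finset.sup_empty]; simp⟩
  | insert i s hi ih =>
    obtain ⟨U, h1, h2, h3⟩ := hp i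
    obtain ⟨U', h1', h2', h3'⟩ := ih
    have k : s.sup D ≤ f.perp (D i) := Finset.sup_le fun j hj => h.orth i j (by rintro rfl; exact hi hj)
    have k' : ∀ A ≤ D i, ∀ B ≤ s.sup D, finrank F (A ⊔ B : Submodule F V) =
        finrank F A + finrank F B := fun A hA B hB => by
      rw [← Submodule.finrank_sup_add_finrank_inf_eq, (eq_bot_iff (a := A ⊓ B)).2 fun v hv =>
        h.eq_zero (hA hv.1) (k (hB hv.2)), finrank_bot, add_zero]
    rw [Finset.sup_insert]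
    refine ⟨U ⊔ U', sup_le_sup h1 h1', (quad_totSing_iff _ _).2 fun w hw => ?_, ?_⟩
    · obtain ⟨a, ha, b, hb, rfl⟩ := Submodule.mem_sup.1 hw
      rw [f.q_add_of_B_eq_zero (k (h1' hb) a (h1 ha)), h2.1 a ha, h2'.1 b hb, add_zero]
    · rw [k' U h1 U' h1', k' _ le_rfl _ le_rfl]; omega

theorem PD.exists_points (h : f.PD D) (h2 : (2 : F) ≠ 0) (i : ι) : ∃ A : Finset V,
    (∀ a ∈ A, a ∈ D i ∧ f.q a ≠ 0) ∧ (∀ a ∈ A, ∀ b ∈ A, a ∈ F ∙ b → a = b) ∧ 6 ≤ A.card ∧
      Nat.card F ≤ A.card + 1 := by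
  classical
  have := Fintype.ofFinite F
  obtain ⟨v, hv, qv⟩ := h.exists_q i 1
  have qv' : f.q v ≠ 0 := qv ▸ one_ne_zero
  have v0 : v ≠ 0 := fun e => qv' (e ▸ f.q_zero)
  obtain ⟨y, hy, -, yv, -⟩ := h.partner hv qv'
  have inj : ∀ s s' : F, y + s • v ∈ F ∙ (y + s' • v) → s = s' := fun s s' e => by
    obtain ⟨a, e⟩ := Submodule.mem_span_singleton.1 e
    by_cases h1 : a = 1
    · rw [h1, one_smul, add_right_inj] at e
      exact (smul_left_injective F v0 e).symm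
    · refine (yv (Submodule.mem_span_singleton.2 ⟨(a - 1)⁻¹ * (s - a * s'), ?_⟩)).elim
      rw [mul_smul, inv_smul_eq_iff₀ (sub_ne_zero.2 h1)]
      linear_combination (norm := module) -e
  set S := Finset.univ.filter fun s : F => f.q (y + s • v) ≠ 0 with hS
  have hc : (insert v (S.image fun s => y + s • v)).card = S.card + 1 := by
    rw [Finset.card_insert_of_notMem (by
      simp only [Finset.mem_image, not_exists, not_and]
      exact fun s _ e => add_smul_not_mem yv s (by rw [e]; exact Submodule.mem_span_singleton_self _)),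
      Finset.card_image_of_injective _ fun s s' e => inj s s'
        (by simp only [e, Submodule.mem_span_singleton_self])]
  have h3 : Nat.card F ≤ S.card + 2 := by
    obtain ⟨r, r', hr⟩ := quad_roots (α := f.q v) (β := f.B y v) (γ := f.q y) (Or.inl qv')
    have := Finset.card_le_card (s := Finset.univ) (t := S ∪ {r, r'}) fun s _ => by
      by_cases e : f.q (y + s • v) = 0
      · exact Finset.mem_union_right _ (by simpa using hr s (quad_q_add_smul (f := f) y v s ▸ e))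
      · exact Finset.mem_union_left _ (by simpa [hS] using e)
    have h4 := Finset.card_union_le S {r, r'}
    have h5 := Finset.card_le_two (a := r) (b := r')
    rw [Finset.card_univ, Fintype.card_eq_nat_card] at this
    omega
  have h4 : ¬ f.Plus (D i) → S.card = Nat.card F := fun hp => by
    rw [hS, Finset.filter_true_of_mem (p := fun s : F => f.q (y + s • v) ≠ 0) fun s _ e => hp
      (plus_of_singular (h.two i)
      (add_mem hy (Submodule.smul_mem _ _ hv)) (fun e => add_smul_not_mem yv s (e ▸ zero_mem _)) e),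
      Finset.card_univ, Fintype.card_eq_nat_card]
  have h5 := FiniteField.odd_card_of_char_ne_two (Orth.ringChar_ne_two_of h2)
  have h6 := three_le_card h2
  rw [Fintype.card_eq_nat_card] at h5
  refine ⟨insert v (S.image fun s => y + s • v), fun a ha => ?_, fun a ha b hb e => ?_, ?_, by omega⟩
  · rcases Finset.mem_insert.1 ha with rfl | ha
    · exact ⟨hv, qv'⟩
    · obtain ⟨s, hs, rfl⟩ := Finset.mem_image.1 ha
      exact ⟨add_mem hy (Submodule.smul_mem _ _ hv), (Finset.mem_filter.1 hs).2⟩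
  · simp only [Finset.mem_insert, Finset.mem_image] at ha hb
    rcases ha with rfl | ⟨s, -, rfl⟩ <;> rcases hb with rfl | ⟨s', -, rfl⟩
    · rfl
    · exact absurd e (not_mem_span_comm v0 (add_smul_not_mem yv s'))
    · exact absurd e (add_smul_not_mem yv s)
    · rw [inj s s' e]
  · have := h.good i
    have := h.two i
    unfold Good at *
    by_cases hp : f.Plus (D i)
    · simp only [hp, not_true, and_false, or_false] at *; omega
    · have := h4 hp; omega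

theorem PD.dk (h : f.PD D) (h2 : (2 : F) ≠ 0) (hc : c ≠ 0) {i : ι}
    (hK : ∀ a ∈ D i, f.q a = c → f.Rf K a) {x : V} (hx : f.Rf K x) (h0 : h.pr i x ≠ 0)
    (h1 : f.q (h.pr i x) ≠ f.q x) : ∃ X : Submodule F V, (f.restrict X).Nondeg ∧ finrank F X = 3 ∧
      D i ≤ X ∧ x ∈ X ∧ (∀ v ∈ X, ∃ γ : F, v - γ • x ∈ D i) ∧ (f.Full K X ∨ ∃ N N', Dk.Bd F N N' ∧
        f.Small K X N ∧ (f.Small K X N' ∨ ∃ k ∈ K, (∀ v ∈ X, k v = -v) ∧ ∀ v, k v - v ∈ X)) := by
  obtain ⟨b, hb, qb, bx⟩ := h.exists_B hc h0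
  obtain ⟨a, ha, qa, ab, ba⟩ := h.partner hb (qb ▸ hc)
  have b0 : b ≠ 0 := fun e => hc (qb ▸ e ▸ f.q_zero)
  have hle := plane_le (h.two i) ha hb b0 ab
  have hg : f.gram a b x ≠ 0 := by
    obtain ⟨α, β, e⟩ := Submodule.mem_span_pair.1 (hle (h.pr_mem i x))
    have h3 := plane_gram (h.nondeg i) (h.two i) ha hb b0 ab
    have h4 : f.q (h.pr i x) = α ^ 2 * f.q a + β ^ 2 * f.q b + α * β * f.B a b := by
      rw [← e, quad_q_add, quad_q_smul, quad_q_smul, qB_smul_left, B_smul_right, mul_assoc]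
    refine fun e' => mul_ne_zero (sub_ne_zero.2 h1) (sub_ne_zero.2 h3) ?_
    rw [gram, ← h.B_pr ha x, ← h.B_pr hb x, ← e] at e'
    simp only [map_add, map_smul, smul_eq_mul, qB_self, qB_comm b a] at e'
    rw [h4]
    linear_combination e'
  obtain ⟨nd, h3⟩ := nondeg_of_gram h2 hg
  have m : ∀ v ∈ ({a, b, x} : Set V), v ∈ Submodule.span F {a, b, x} := fun v hv =>
    Submodule.subset_span hv
  refine ⟨_, nd, h3, hle.trans (Submodule.span_mono (by grind)), m x (by simp), fun v hv => ?_,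
    dk3 h2 nd h3 (m a (by simp)) (m b (by simp)) (m x (by simp)) (hK a ha (qa.trans qb))
      (hK b hb qb) hx (by rwa [qB_comm]) bx hg⟩
  obtain ⟨α, β, γ, rfl⟩ := Submodule.mem_span_triple.1 hv
  exact ⟨γ, by simpa using add_mem (Submodule.smul_mem _ α ha) (Submodule.smul_mem _ β hb)⟩

variable (f D K c) in
/-- `K` contains the stabiliser of the planes and their reflections of norm `c`. -/
structure PK : Prop extends f.PD D where
  le : dstab D ⊓ f.E ≤ K
  hO : K ≤ f.O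
  c0 : c ≠ 0
  rc : ∀ {i a}, a ∈ D i → f.q a = c → f.Rc K c a

namespace PK

variable (h : f.PK K c D)
include h

theorem rf' {i : ι} {a : V} (ha : a ∈ D i) (qa : f.q a ≠ 0)
    (e : Orth.sqSign (f.q a) = Orth.sqSign c) : f.Rf K a := by
  obtain ⟨b, hb, qb⟩ := h.exists_q i c
  exact h.rf_of_rf h.h5 h.le hb ha (h.rc hb qb).1 qa (by rwa [qb])

theorem rf_two (h2 : (2 : F) = 0) {i : ι} {a : V} (ha : a ∈ D i) (qa : f.q a ≠ 0) : f.Rf K a :=
  h.rf' ha qa (by simp only [Orth.sqSign_of_two_eq_zero h2])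

theorem finish (hS : f.St2 K c) : f.E ≤ K := by
  obtain ⟨Z, nd, fu, hG, h3, hc, ⟨y, hy, ry⟩, sp⟩ := hS.exists_split h.nondeg'
    (h.eq_top_of fun i => by
      obtain ⟨a, ha, qa⟩ := h.exists_q i c
      exact ((h.good i).oIrr (h.nondeg i)).le_of_q_eq ha (h.rc ha qa).1.ne_zero qa fun v hv e =>
        Submodule.subset_span (h.rc hv e))
  have k : ∀ i, D i ≤ Z ∨ D i ≤ f.perp Z := fun i =>
    (h.good i).conn (h.nondeg i) h.c0 _ _ le_rfl fun v hv e => sp v (h.rc hv e)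
  have k' : ∀ i, ∀ b ∈ Z, h.pr i b ≠ 0 → D i ≤ Z := fun i b hb e => (k i).resolve_right fun e' =>
    e (h.pr_eq_zero_iff.2 fun d hd => f.B_eq_zero_symm (e' hd b hb))
  refine Full.E_le (h.eq_top_of (fun o => (k o).resolve_right fun ho => ?_) ▸ fu)
  obtain ⟨i, hi⟩ := h.exists_q_pr_ne ry.1.1
  obtain ⟨b, hb, qb, h1, h2⟩ : ∃ b ∈ Z, f.q b = c ∧ b ∉ D i ∧ b ∉ f.perp (D i) := by
    by_contra! H
    rcases hG.conn nd h.c0 (D i) _ le_rfl fun v hv e => (em _).imp_right (H v hv e) with e | e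
    · have := Submodule.finrank_mono e
      have := h.two i
      omega
    · exact hi (by rw [h.pr_eq_zero_iff.2 (e hy), q_zero])
  obtain ⟨j, ji, hj⟩ := h.exists_pr_ne h1
  have jo : j ≠ o := fun e => hj (h.pr_eq_zero_iff.2 fun d hd =>
    f.B_eq_zero_symm (ho (e ▸ hd) b hb))
  obtain ⟨s, hs, s1, s2⟩ := h.exists_E_two h.nondeg' h.iso h.cmp ji.symm jo.symm
  have sO := E_le_O hs.2
  rcases sp _ ((hc b hb qb).map (h.le hs) sO) with e | e
  · exact h2 fun d hd => (mem_O_B sO d b).symm.trans (f.B_eq_zero_symm (ho (s1 d hd) _ e))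
  · exact hj (h.pr_eq_zero_iff.2 fun d hd =>
      (mem_O_B sO d b).symm.trans (e _ (k' j b hb hj (s2 d hd))))

theorem pr_rf {i k : ι} (hk : k ≠ i) {a : V} (ha : a ∈ D i) (x : V) :
    h.pr k (f.rf x a) = -((f.q x)⁻¹ * f.B x a) • h.pr k x := by
  rw [rf_apply, map_sub, map_smul, h.pr_of_ne hk ha, zero_sub, neg_smul]

theorem shift (h2 : (2 : F) ≠ 0 ∨ 5 ≤ Nat.card F) {x : V} (hx : f.Rc K c x) {i j : ι} (hij : i ≠ j)
    (hi : h.pr i x ≠ 0) (hj : h.pr j x ≠ 0) : ∃ y, f.Rc K c y ∧ (∀ k, h.pr k x = 0 → h.pr k y = 0) ∧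
      ∃ i j, i ≠ j ∧ h.pr i y ≠ 0 ∧ h.pr j y ≠ 0 ∧ f.q (h.pr i y) ≠ c := by
  by_cases qi : f.q (h.pr i x) = c
  swap; · exact ⟨x, hx, fun _ => id, i, j, hij, hi, hj, qi⟩
  by_cases qj : f.q (h.pr j x) = c
  swap; · exact ⟨x, hx, fun _ => id, j, i, hij.symm, hj, hi, qj⟩
  have c0 := h.c0
  obtain ⟨a, ha, qa, h1, h3, h4⟩ : ∃ a ∈ D i, f.q a = c ∧ f.B (h.pr i x) a ≠ 0 ∧
      f.B (h.pr i x) a ^ 2 ≠ c ^ 2 ∧ a ≠ (c⁻¹ * f.B (h.pr i x) a) • h.pr i x := by
    obtain ⟨a, ha, qa, h1, h3⟩ := h.partner (h.pr_mem i x) (qi.trans_ne c0)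
    by_cases h2' : (2 : F) = 0
    · obtain ⟨r, r', hr⟩ := quad_roots (α := c) (β := f.B a (h.pr i x))
        (γ := f.q a - c⁻¹ * f.B (h.pr i x) a ^ 2) (Or.inl c0)
      obtain ⟨s, hs, h4⟩ := exists_q_add_smul_ne (qi.trans_ne c0) a [r, r']
        (by have := h2.resolve_left (not_not.2 h2'); simp; omega)
      obtain ⟨l, l0, hl⟩ := exists_smul_q_eq_two h2' h4 c0
      refine ⟨_, Submodule.smul_mem _ l (add_mem ha (Submodule.smul_mem _ s (h.pr_mem i x))), hl,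
        by simpa [B_self_two h2', l0] using h3, fun e => hs ?_, fun e => add_smul_not_mem h1 s
          ((Submodule.smul_mem_iff _ l0).1 (e ▸ Submodule.smul_mem _ _
            (Submodule.mem_span_singleton_self _)))⟩
      rw [quad_q_smul, quad_q_add_smul, qi] at hl
      simp only [map_add, map_smul, B_self_two h2', smul_eq_mul] at e
      simpa using hr s (mul_left_cancel₀ (pow_ne_zero 2 l0) (by
        linear_combination hl - c⁻¹ * e - c * mul_inv_cancel₀ c0))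
    by_cases h3' : (3 : F) = 0
    · refine ⟨a, ha, qa.trans qi, h3, fun e => plane_gram (h.nondeg i) (h.two i) ha (h.pr_mem i x) hi
        h1 ?_, fun e => h1 (e ▸ Submodule.smul_mem _ _ (Submodule.mem_span_singleton_self _))⟩
      rw [qB_comm, e, qa, qi]
      linear_combination -c ^ 2 * h3'
    · refine ⟨_, h.pr_mem i x, qi, ?_, fun e => ?_, fun e => hi ?_⟩
      · rw [qB_self, qi]; exact mul_ne_zero h2' c0
      · rw [qB_self, qi] at e
        exact mul_ne_zero h3' (pow_ne_zero 2 c0) (by linear_combination e)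
      · rw [qB_self, qi, mul_comm 2 c, inv_mul_cancel_left₀ c0] at e
        linear_combination (norm := module) -e
  rw [h.B_pr' ha] at h1 h3 h4
  refine ⟨_, hx.rf (h.rc ha qa), fun k hk => ?_, j, i, hij.symm, ?_, ?_, fun e => h3 ?_⟩
  · rw [h.pr_rf (by rintro rfl; exact hi hk) ha, hk, smul_zero]
  · rw [h.pr_rf hij.symm ha]
    exact smul_ne_zero (by simp [hx.1.1, h1]) hj
  · rwa [rf_apply, map_sub, map_smul, h.pr_of_mem ha, hx.2, sub_ne_zero]
  · rw [h.pr_rf hij.symm ha, quad_q_smul, qj, hx.2] at e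
    field_simp at e
    linear_combination e

theorem es_block {k : ι} {u a : V} (hu : u ∈ f.perp (D k)) (ha : a ∈ D k) (qa : f.q a = c)
    (H : ∀ s : F, f.Es K u (s • a)) : ∀ w ∈ D k, f.Es K u w := fun w hw => by
  obtain ⟨b, hb, qb, h1, h2⟩ := h.partner ha (qa ▸ h.c0)
  obtain ⟨α, β, rfl⟩ := Submodule.mem_span_pair.1
    (plane_le (h.two k) hb ha (h.rc ha qa).1.ne_zero h1 hw)
  have rb := (h.rc hb (qb.trans qa)).1
  refine Es.add ?_ (H β)
  have := (H (α * f.q b * (f.B a b)⁻¹)).proj rb (hu b hb)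
  rwa [B_smul_right, qB_comm b a, inv_mul_cancel_right₀ h2, mul_comm α,
    inv_mul_cancel_left₀ rb.1] at this

theorem st_of_es {u : V} {i k : ι} (l : ι) (hi : h.pr i u ≠ 0) (ki : k ≠ i) (kl : k ≠ l)
    (hu : ∀ m, m ≠ i → m ≠ l → u ∈ f.perp (D m)) (H : ∀ w ∈ D k, f.Es K u w) : f.St2 K c := by
  classical
  obtain ⟨m, hm⟩ := h.ex [i, l, k] (by simp)
  simp only [List.mem_cons, List.not_mem_nil, or_false, not_or] at hm
  obtain ⟨s, hs, -, s2, s3⟩ := h.exists_E_swap h.nondeg' h.iso (i := m) (j := k) (h.cmp m)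
  have sO := E_le_O hs.2
  obtain ⟨b, hb, qb, bu⟩ := h.exists_B h.c0 hi
  obtain ⟨a, ha, qa⟩ := h.exists_q k c
  obtain ⟨Z, nd, fu, hd, hle, -⟩ := exists_full ⟨(H 0 (zero_mem _)).hu, quad_tv⟩ (h.rc hb qb).1.rk
    (by rwa [qB_comm]) (restrict_nondeg_sup (h.nondeg k) (h.nondeg m) (h.orth k m (Ne.symm hm.2.2)))
    (fun w hw => by
      obtain ⟨y, hy, z, hz, rfl⟩ := Submodule.mem_sup.1 hw
      rw [B_add_left, hu k ki kl y hy, hu m hm.1 hm.2.1 z hz, add_zero]) fun w hw => by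
      obtain ⟨y, hy, z, hz, rfl⟩ := Submodule.mem_sup.1 hw
      have e : (D k).map (s : V →ₗ[F] V) = D m := Submodule.eq_of_le_of_finrank_eq
        (by rintro _ ⟨v, hv, rfl⟩; exact s2 v hv) (by rw [LinearEquiv.finrank_map_eq, h.two, h.two])
      obtain ⟨v, hv, rfl⟩ := e.ge hz
      exact (H y hy).add ((H v hv).map_fix (h.le hs) sO (s3 u (hu m hm.1 hm.2.1) (hu k ki kl)))
  have h4 := Submodule.finrank_sup_add_finrank_inf_eq (D k) (D m)
  rw [(eq_bot_iff (a := D k ⊓ D m)).2 fun v hv => not_not.1 fun e =>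
    hm.2.2 (h.eq_of_mem hv.2 hv.1 e), finrank_bot, h.two, h.two] at h4
  exact ⟨Z, nd, fu, ⟨a, hle (Submodule.mem_sup_left ha), h.rc ha qa⟩, Or.inl (by omega)⟩

theorem st_sing (h4 : 4 ≤ Nat.card F) {x : V} (hx : f.Rf K x) {i k : ι} (ki : k ≠ i)
    (hi : h.pr i x ≠ 0) (qi : f.q (h.pr i x) = 0) (hk : h.pr k x ≠ 0) : f.St2 K c := by
  have ui := h.pr_mem i x
  have ti := h.sub_pr_mem i x
  obtain ⟨w, hw, qw, uw⟩ := exists_partner_mem qi ui fun e => hi (h.eq_zero ui e)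
  have hs : ∀ μ : F, μ ≠ 0 → ∃ g ∈ K, g ∈ f.O ∧ g (h.pr i x) = (μ ^ 2) • h.pr i x ∧
      g (x - h.pr i x) = x - h.pr i x := fun μ hμ => by
    have h1 := q_hyp1 qi qw uw (μ ^ 2)
    have h2 : f.q (h.pr i x + w) = 1 := by simpa using q_hyp1 qi qw uw 1
    have h3 := h.le (h.rf_mul_rf_mem h.h5 (add_mem (Submodule.smul_mem _ (μ ^ 2) ui) hw)
      (add_mem ui hw) (by simp [h1, hμ]) (by simp [h2])
      (by rw [h1, h2, sq, Orth.sqSign_mul_self, Orth.sqSign_one]))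
    refine ⟨_, h3, h.hO h3, ?_, ?_⟩
    · rw [tor_apply qi qw uw (pow_ne_zero 2 hμ), qB_comm w, uw, qB_self, qi]; module
    · rw [tor_apply qi qw uw (pow_ne_zero 2 hμ), ti w hw, ti _ ui]; module
  obtain ⟨μ, hμ⟩ := exists_notMem_of_lt [(0 : F), 1, -1] (by simp; omega)
  simp only [List.mem_cons, List.not_mem_nil, or_false, not_or] at hμ
  obtain ⟨g, hg, hO, g1, g2⟩ := hs μ hμ.1
  obtain ⟨γ, γ0, e⟩ := Rf.es_of_scale qi (ti _ ui) (by simpa using hx) hg hO
    (by simp [sq, mul_self_eq_one_iff, hμ.2]) g1 g2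
  obtain ⟨a, ha, qa, ax⟩ := h.exists_B h.c0 hk
  have ra := (h.rc ha qa).1
  have hu : ∀ m, m ≠ i → h.pr i x ∈ f.perp (D m) := fun m hm => h.orth m i hm ui
  refine h.st_of_es i (by rwa [h.pr_pr]) ki ki (fun m hm _ => hu m hm)
    (h.es_block (hu k ki) ha qa fun s => ?_)
  have := (e.smul_of_sq hs γ0 (s * f.q a * (f.B a x)⁻¹)).proj ra (hu k ki a ha)
  rwa [B_smul_right, map_sub, hu k ki a ha, sub_zero, inv_mul_cancel_right₀ ax, mul_comm s,
    inv_mul_cancel_left₀ ra.1] at this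

theorem st_even_plus (h2 : (2 : F) = 0) (hp : ∀ i, f.Plus (D i)) {x : V} (hx : f.Rc K c x)
    {i j : ι} (hij : i ≠ j) (hi : h.pr i x ≠ 0) (hj : h.pr j x ≠ 0) : f.St2 K c := by
  have h6 : 6 ≤ Nat.card F := by
    have := h.good i
    have := h.two i
    unfold Good at *
    simp only [hp i, not_true, and_false, or_false] at *
    omega
  obtain ⟨x, hx, -, i, j, hij, hi, hj, qi⟩ := h.shift (Or.inr (by omega)) hx hij hi hj
  by_cases q0 : f.q (h.pr i x) = 0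
  · exact h.st_sing (by omega) hx.1 hij.symm hi q0 hj
  obtain ⟨u, hu, u0, qu⟩ := (hp i).exists_singular (by rw [h.two]; omega)
  have h1 : f.B (h.pr i x) u ≠ 0 := fun e => plane_gram (h.nondeg i) (h.two i) (h.pr_mem i x) hu u0
    (fun e => by
      obtain ⟨a, e⟩ := Submodule.mem_span_singleton.1 e
      exact q0 (e ▸ f.q_smul_eq_zero qu a)) (by simp [e, qu])
  have ha := add_mem hu (Submodule.smul_mem _ (c⁻¹ * f.B (h.pr i x) u) (h.pr_mem i x))
  have h3 : f.B x (u + (c⁻¹ * f.B (h.pr i x) u) • h.pr i x) = f.B (h.pr i x) u := by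
    rw [← h.B_pr' ha]; simp [B_self_two h2]
  have c0 := h.c0
  have ra := h.rf_two h2 ha fun e => by
    rw [quad_q_add_smul, qu, qB_comm u] at e
    field_simp at e
    exact mul_ne_zero (pow_ne_zero 2 h1) (sub_ne_zero.2 qi)
      (by linear_combination e - f.B (h.pr i x) u ^ 2 * c * h2)
  have h4 : h.pr i (f.rf x (u + (c⁻¹ * f.B (h.pr i x) u) • h.pr i x)) = u := by
    rw [rf_apply, map_sub, h.pr_of_mem ha, map_smul, h3, hx.2, add_sub_cancel_right]
  refine h.st_sing (by omega) (hx.1.rf ra) hij.symm (by rwa [h4]) (by rwa [h4]) ?_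
  rw [h.pr_rf hij.symm ha, h3]
  exact smul_ne_zero (by simp [hx.1.1, h1]) hj

section minus

variable (h2 : (2 : F) = 0) (hp : ∀ {i v}, v ∈ D i → v ≠ 0 → f.q v ≠ 0)
include h2 hp

theorem es_scalar {k : ι} {u b : V} (hu : u ∈ f.perp (D k)) (hb : b ∈ D k) (b0 : b ≠ 0)
    (H : f.Es K u b) (γ : F) : f.Es K u (γ • b) := by
  have qb := hp hb b0
  obtain ⟨a, ha, -, h1, h3⟩ := h.partner hb qb
  have k1 : ∀ s : F, f.q (a + s • b) ≠ 0 := fun s => hp (add_mem ha (Submodule.smul_mem _ s hb))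
    fun e => add_smul_not_mem h1 s (e ▸ zero_mem _)
  have κ0 : (f.q b)⁻¹ * f.B b a ^ 2 ≠ 0 := by simp [qb, h3]
  have k2 : ∀ s : F, f.Es K u (((f.q b)⁻¹ * f.B b a ^ 2 * (f.q (a + s • b))⁻¹) • b) := fun s => by
    have m := add_mem ha (Submodule.smul_mem _ s hb)
    convert (H.proj (h.rf_two h2 m (k1 s)) (hu _ m)).proj (h.rf_two h2 hb qb) (hu _ hb) using 2
    simp only [map_add, map_smul, LinearMap.add_apply, qB_smul_left, B_self_two h2, qB_comm a b,
      smul_eq_mul]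
    ring
  by_cases e : ∃ s : F, γ + (f.q b)⁻¹ * f.B b a ^ 2 * (f.q (a + s • b))⁻¹ = 0
  · obtain ⟨s, e⟩ := e
    rw [eq_neg_of_add_eq_zero_left e, neg_smul]
    exact (k2 s).neg
  obtain ⟨s, s', e⟩ := exists_eq_of_fibres (not_exists.1 e)
    (fun s => by simpa using mul_ne_zero κ0 (inv_ne_zero (k1 s))) (fibre_inv qb a κ0 γ)
    (fibre_inv qb a κ0 0)
  rw [zero_add] at e
  rw [eq_sub_of_add_eq e, sub_smul]
  exact (k2 s').sub (k2 s)

theorem st_three {x : V} (hx : f.Rf K x) {i l k : ι} (il : i ≠ l) (ki : k ≠ i) (kl : k ≠ l)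
    (hi : h.pr i x ≠ 0) (hl : h.pr l x ≠ 0) (hk : h.pr k x ≠ 0) : f.St2 K c := by
  have k0 : ∀ i, h.pr i x ≠ 0 → ∃ φ : F → F, (∀ s, φ s ≠ 0) ∧
      (∀ z, ∃ r r', ∀ s, φ s = z → s = r ∨ s = r') ∧ ∀ s, ∃ a ∈ D i, f.q a ≠ 0 ∧
        f.q (((f.q a)⁻¹ * f.B a x) • a) = φ s := fun i hi => by
    have qi := hp (h.pr_mem i x) hi
    obtain ⟨a, ha, -, h1, h3⟩ := h.partner (h.pr_mem i x) qi
    have k1 : ∀ s : F, f.q (a + s • h.pr i x) ≠ 0 := fun s => hp (add_mem ha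
      (Submodule.smul_mem _ s (h.pr_mem i x))) fun e => add_smul_not_mem h1 s (e ▸ zero_mem _)
    refine ⟨_, fun s => by simpa using mul_ne_zero (pow_ne_zero 2 h3) (inv_ne_zero (k1 s)),
      fibre_inv qi a (pow_ne_zero 2 h3) 0, fun s => ⟨_, add_mem ha
        (Submodule.smul_mem _ s (h.pr_mem i x)), k1 s, ?_⟩⟩
    have := k1 s
    rw [quad_q_smul, ← h.B_pr (add_mem ha (Submodule.smul_mem _ s (h.pr_mem i x))), B_add_left,
      qB_smul_left, B_self_two h2, qB_comm a]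
    field_simp
    ring
  obtain ⟨φ, φ0, φ1, φ2⟩ := k0 i hi
  obtain ⟨ψ, ψ0, ψ1, ψ2⟩ := k0 l hl
  obtain ⟨s, s', e⟩ := exists_eq_of_fibres φ0 ψ0 φ1 ψ1
  obtain ⟨a, ha, qa, ea⟩ := φ2 s
  obtain ⟨b, hb, qb, eb⟩ := ψ2 s'
  have ab := h.B_eq il ha hb
  obtain ⟨u, hu⟩ : ∃ u, -(((f.q a)⁻¹ * f.B a x) • a + ((f.q b)⁻¹ * f.B b x) • b) = u := ⟨_, rfl⟩
  have e1 : f.rf a (f.rf b x) = x + u := by
    rw [rf_apply a, rf_apply b, map_sub, map_smul, ab, ← hu]; module
  have qu : f.q u = 0 := by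
    rw [← hu, q_neg, f.q_add_of_B_eq_zero (by simp [ab]), ea, eb, e]
    linear_combination ψ s' * h2
  have ux : f.B u x = 0 := by
    have := (mem_O_q (rf_mem_O (f := f) a) _).trans (mem_O_q (rf_mem_O b) x)
    rw [e1, quad_q_add, qu, qB_comm] at this
    linear_combination this
  have hu' : ∀ m, m ≠ i → m ≠ l → u ∈ f.perp (D m) := fun m h1 h3 => hu ▸ neg_mem (add_mem
    (h.orth m i h1 (Submodule.smul_mem _ _ ha)) (h.orth m l h3 (Submodule.smul_mem _ _ hb)))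
  obtain ⟨d, hd, qd, dx⟩ := h.exists_B h.c0 hk
  have rd := (h.rc hd qd).1
  have e2 := (hx.step (by
    rw [← e1]; exact (h.rf_two h2 ha qa).rf ((h.rf_two h2 hb qb).rf hx)) qu ux).proj rd
    (hu' k ki kl d hd)
  have h0 : (f.q d)⁻¹ * f.B d ((f.q x)⁻¹ • x) ≠ 0 := by simp [rd.1, hx.1, dx]
  refine h.st_of_es l (fun e => φ0 s ?_) ki kl hu' (h.es_block (hu' k ki kl) hd qd fun t => ?_)
  · rw [← hu, map_neg, map_add, h.pr_of_mem (Submodule.smul_mem _ _ ha),
      h.pr_of_ne il (Submodule.smul_mem _ _ hb), add_zero, neg_eq_zero] at e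
    rw [← ea, e, q_zero]
  · have := h.es_scalar h2 hp (hu' k ki kl) (Submodule.smul_mem _ _ hd)
      (smul_ne_zero h0 rd.ne_zero) e2 (t * ((f.q d)⁻¹ * f.B d ((f.q x)⁻¹ • x))⁻¹)
    rwa [smul_smul, inv_mul_cancel_right₀ h0] at this

theorem st_even_minus {x : V} (hx : f.Rf K x) {i l : ι} (il : i ≠ l) (hi : h.pr i x ≠ 0)
    (hl : h.pr l x ≠ 0) : f.St2 K c := by
  classical
  obtain ⟨k, hk⟩ := h.ex [i, l] (by simp)
  simp only [List.mem_cons, List.not_mem_nil, or_false, not_or] at hk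
  by_cases H : ∃ k, k ≠ i ∧ k ≠ l ∧ h.pr k x ≠ 0
  · obtain ⟨k, h1, h3, h4⟩ := H
    exact h.st_three h2 hp hx il h1 h3 hi hl h4
  push Not at H
  have e : x = h.pr i x + h.pr l x := by
    refine sub_eq_zero.1 (h.eq_zero_of_pr fun m => ?_)
    by_cases h1 : m = i
    · simp [h1, h.pr_pr, h.pr_pr_ne il]
    by_cases h3 : m = l
    · simp [h3, h.pr_pr, h.pr_pr_ne il.symm]
    · simp [H m h1 h3, h.pr_pr_ne h1, h.pr_pr_ne h3]
  obtain ⟨s, hs, s1, -, s3⟩ := h.exists_E_swap h.nondeg' h.iso (i := l) (j := k) (h.cmp l)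
  obtain ⟨a, ha, qa, h1, h3⟩ := h.partner (h.pr_mem i x) (hp (h.pr_mem i x) hi)
  have ra := h.rf_two h2 ha (qa ▸ hp (h.pr_mem i x) hi)
  have zk := s1 _ (h.pr_mem l x)
  have z0 : s (h.pr l x) ≠ 0 := by simpa using hl
  obtain ⟨z, hz⟩ : ∃ z, s (h.pr l x) = z := ⟨_, rfl⟩
  have r1 := ra.rf (hx.map (h.le hs) (E_le_O hs.2))
  rw [hz] at zk z0
  rw [e, map_add, s3 _ (h.orth l i il.symm (h.pr_mem i x)) (h.orth k i hk.1 (h.pr_mem i x)), hz,
    map_add, rf_of_perp (h.B_eq (Ne.symm hk.1) ha zk)] at r1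
  have m1 := rf_mem_of_mem (f := f) ha (h.pr_mem i x)
  have b1 : f.B x (f.rf a (h.pr i x) + z) ≠ 0 := by
    rw [map_add, ← h.B_pr' m1, ← h.B_pr' zk, H k hk.1 hk.2, rf_apply]
    simp [B_self_two h2, ra.1, h3, qB_comm a]
  refine h.st_three h2 hp (hx.rf r1) il hk.1 hk.2 (fun e => h1 ?_) ?_ ?_
  · rw [rf_apply x, map_sub, map_add, h.pr_of_mem m1, h.pr_of_ne (Ne.symm hk.1) zk, add_zero,
      map_smul, sub_eq_zero, rf_apply] at e
    rw [← Submodule.smul_mem_iff _ (s := (f.q a)⁻¹ * f.B a (h.pr i x))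
      (by simp [ra.1, h3, qB_comm a]), ← Submodule.sub_mem_iff_right _
      (Submodule.mem_span_singleton_self (h.pr i x)), e]
    exact Submodule.smul_mem _ _ (Submodule.mem_span_singleton_self _)
  · rw [rf_apply x, map_sub, map_add, h.pr_of_ne il.symm m1, h.pr_of_ne (Ne.symm hk.2) zk, add_zero,
      map_smul, zero_sub, neg_ne_zero]
    exact smul_ne_zero (mul_ne_zero (inv_ne_zero hx.1) b1) hl
  · rwa [rf_apply x, map_sub, map_add, h.pr_of_ne hk.1 m1, h.pr_of_mem zk, zero_add,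
      map_smul, H k hk.1 hk.2, smul_zero, sub_zero]

end minus

section odd

variable (h2 : (2 : F) ≠ 0)
include h2

theorem four_le : 4 ≤ Nat.card F := by
  obtain ⟨i, -⟩ := h.ex [] (by simp)
  have := Fintype.ofFinite F
  have h5 := FiniteField.odd_card_of_char_ne_two (Orth.ringChar_ne_two_of h2)
  rw [Fintype.card_eq_nat_card] at h5
  have := three_le_card h2
  have := h.good i
  have := h.two i
  unfold Good at *
  omega

theorem st_of_full {X : Submodule F V} (nd : (f.restrict X).Nondeg) (h3 : finrank F X = 3)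
    (fu : f.Full K X) {x : V} (hx : f.Rc K c x) (xX : x ∈ X) : f.St2 K c :=
  ⟨X, nd, fu, ⟨x, xX, hx⟩, Or.inr ⟨h3, h.four_le h2⟩⟩

theorem st_zero {x : V} (hx : f.Rc K c x) {i j k : ι} (hij : i ≠ j) (hi : h.pr i x ≠ 0)
    (hj : h.pr j x ≠ 0) (hk : h.pr k x = 0) : f.St2 K c := by
  obtain ⟨x, hx, hz, i, -, -, hi, -, qi⟩ := h.shift (Or.inl h2) hx hij hi hj
  replace hk := hz k hk
  have ik : i ≠ k := by rintro rfl; exact hi hk
  obtain ⟨ν, ν0, hν⟩ := Orth.exists_sqSign_eq_neg_one h2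
  obtain ⟨b, hb, qb⟩ := h.exists_q k (ν * c)
  have rr := rf_mul_self (f := f) b
  let L : Subgroup (V ≃ₗ[F] V) :=
    { carrier := {g | Commute g (f.rf b) ∧ (g ∈ K ∨ g * f.rf b ∈ K)}
      one_mem' := ⟨Commute.one_left _, Or.inl (one_mem _)⟩
      mul_mem' := by
        rintro g g' ⟨c1, h1 | h1⟩ ⟨c2, h3 | h3⟩ <;> refine ⟨c1.mul_left c2, ?_⟩
        · exact Or.inl (mul_mem h1 h3)
        · exact Or.inr (by rw [mul_assoc]; exact mul_mem h1 h3)
        · exact Or.inr (by rw [mul_assoc, c2.eq, ← mul_assoc]; exact mul_mem h1 h3)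
        · have := mul_mem h1 h3
          rw [c2.eq, mul_assoc, ← mul_assoc (f.rf b), rr, one_mul] at this
          exact Or.inl this
      inv_mem' := by
        rintro g ⟨c1, h1 | h1⟩ <;> refine ⟨c1.inv_left, ?_⟩
        · exact Or.inl (inv_mem h1)
        · have := inv_mem h1
          rw [c1.eq, mul_inv_rev, rf_inv] at this
          exact Or.inr this }
  have k1 : ∀ a ∈ D i, f.q a ≠ 0 → f.Rf L a := fun a ha qa => ⟨qa, rf_comm (h.B_eq ik ha hb), by
    by_cases e : Orth.sqSign (f.q a) = Orth.sqSign c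
    · exact Or.inl (h.rf' ha qa e).2
    · refine Or.inr (h.le (h.rf_mul_rf_mem h.h5 ha hb qa (qb ▸ mul_ne_zero ν0 h.c0) ?_))
      rw [qb, Orth.sqSign_mul ν0 h.c0, hν, neg_one_mul]
      exact Int.units_ne_iff_eq_neg.1 e⟩
  obtain ⟨X, nd, h3, hle, xX, -, fu | ⟨N, N', hN, hS, -⟩⟩ := h.dk (K := L) h2 h.c0
    (fun a ha qa => k1 a ha (qa ▸ h.c0)) ⟨hx.1.1, rf_comm (f.B_eq_zero_symm
      (h.pr_eq_zero_iff.1 hk b hb)), Or.inl hx.1.2⟩ hi (by rwa [hx.2])
  · refine h.st_of_full h2 nd h3 (fun u v a ok hu hv => Es.quad_mem ?_ ok) hx xX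
    obtain ⟨a', ok', c1, m⟩ := fu.es ok.hu (v := (2 : F)⁻¹ • v) (by simp [ok.huv]) hu
      (X.smul_mem _ hv)
    have : f.Es K u ((2 : F)⁻¹ • v + (2 : F)⁻¹ • v) := ⟨_, ok'.add ok', by
      rw [← ok'.ei_mul ok']
      rcases m with m | m
      · exact mul_mem m m
      · have := mul_mem m m
        rwa [mul_assoc, ← mul_assoc (f.rf b), ← c1.eq, mul_assoc, rr, mul_one] at this⟩
    rwa [← add_smul, ← two_mul, mul_inv_cancel₀ h2, one_smul] at this
  obtain ⟨A, A1, A2, A3, A4⟩ := h.exists_points h2 i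
  have := hS.2 (x - h.pr i x) (sub_mem xX (hle (h.pr_mem i x))) (fun e => qi (by
    linear_combination hx.2 - h.q_eq_add i x - e)) A 1 (fun y hy => ⟨hle (A1 y hy).1,
      f.B_eq_zero_symm (h.sub_pr_mem i x y (A1 y hy).1), k1 y (A1 y hy).1 (A1 y hy).2⟩)
    fun y hy B hB H => Finset.card_le_one.2 fun a ha b hb =>
      (A2 a (hB ha) y hy (H a ha)).trans (A2 b (hB hb) y hy (H b hb)).symm
  rcases hN with ⟨rfl, -⟩ | ⟨rfl, m, hm, e⟩
  · omega
  · have := Nat.pow_le_pow_right (show 0 < N' by omega) hm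
    nlinarith

theorem level (hp : (Nat.card F).Prime) (hS : ¬ f.St2 K c) {x y : V} (hx : f.Rc K c x)
    (hy : f.Rc K c y) (hxy : f.B x y = 2 * c) : y = x := by
  by_contra hn
  obtain ⟨i, hi⟩ : ∃ i, h.pr i (y - x) ≠ 0 := by
    by_contra! H
    exact hn (sub_eq_zero.1 (h.eq_zero_of_pr H))
  obtain ⟨a, ha, qa, hi⟩ := h.exists_B h.c0 hi
  have h1 : f.B x (y - x) = 0 := by rw [map_sub, hxy, qB_self, hx.2, sub_self]
  have qu : f.q (y - x) = 0 := by
    rw [q_sub, hx.2, hy.2, qB_comm, hxy]; simp [FormType.quad, two_mul]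
  have e1 := hx.1.step (by simpa using hy.1) qu (f.B_eq_zero_symm h1)
  obtain ⟨Z, nd, fu, hd, hle, -⟩ := exists_full ⟨qu, quad_tv⟩ (h.rc ha qa).1.rk
    (by rwa [qB_comm]) (restrict_nondeg_span_singleton (t := x)
      (by rw [qB_self]; exact mul_ne_zero h2 hx.1.1)) (f.mem_perp_span_singleton.2 h1)
    fun w hw => by
      obtain ⟨a, rfl⟩ := Submodule.mem_span_singleton.1 hw
      simpa [smul_smul, hx.1.1] using e1.smul_prime hp (a * f.q x)
  rw [finrank_span_singleton hx.1.ne_zero] at hd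
  exact hS (h.st_of_full h2 nd hd.symm fu hx (hle (Submodule.mem_span_singleton_self x)))

theorem full_case (hS : ¬ f.St2 K c) {x : V} (hx : f.Rc K c x) (hf : ∀ i, h.pr i x ≠ 0) {i : ι}
    (qi : f.q (h.pr i x) ≠ c) : (Nat.card F).Prime ∧ ∃ a ∈ D i, f.q a = c ∧ f.B a x = c := by
  classical
  obtain ⟨j, hj⟩ := h.ex [i] (by simp)
  obtain ⟨l, hl⟩ := h.ex [i, j] (by simp)
  obtain ⟨m, hm⟩ := h.ex [i, j, l] (by simp)
  simp only [List.mem_cons, List.not_mem_nil, or_false, not_or] at hj hl hm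
  obtain ⟨X, nd, h3, hle, xX, hX, fu | ⟨N, N', hN, -, hs | ⟨k, hk, k1, k2⟩⟩⟩ := h.dk (K := K) h2 h.c0
    (fun a ha qa => (h.rc ha qa).1) hx.1 (hf i) (by rwa [hx.2])
  · exact absurd (h.st_of_full h2 nd h3 fu hx xX) hS
  swap
  · obtain ⟨a, ha, qa, ax⟩ := h.exists_B h.c0 (hf j)
    obtain ⟨γ, hγ⟩ := hX _ (k2 a)
    have kO := h.hO hk
    have k3 : ∀ v ∈ X, f.B v (k a) = -f.B v a := fun v hv => by
      rw [← mem_O_B kO v a, k1 v hv, B_neg_left, neg_neg]
    have k4 : h.pr i (k a) = 0 := h.pr_eq_zero_iff.2 fun d hd => by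
      rw [k3 d (hle hd), h.B_eq (Ne.symm hj) hd ha, neg_zero]
    have k5 : ∀ l, l ≠ i → l ≠ j → h.pr l (k a) = γ • h.pr l x := fun l h1 h3 => by
      have := h.pr_of_ne h1 hγ
      rwa [map_sub, map_sub, h.pr_of_ne h3 ha, sub_zero, map_smul, sub_eq_zero] at this
    have γ0 : γ ≠ 0 := by
      rintro rfl
      have := h.pr_of_mem hγ
      rw [zero_smul, sub_zero, map_sub, k4, h.pr_of_ne (Ne.symm hj) ha, sub_zero, eq_comm,
        sub_eq_zero] at this
      have h4 := k3 x xX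
      rw [this, qB_comm] at h4
      exact mul_ne_zero h2 ax (by linear_combination h4)
    exact absurd (h.st_zero h2 ((h.rc ha qa).map hk kO) (Ne.symm hm.2.2)
      (by rw [k5 l hl.1 hl.2]; exact smul_ne_zero γ0 (hf l))
      (by rw [k5 m hm.1 hm.2.1]; exact smul_ne_zero γ0 (hf m)) k4) hS
  obtain ⟨A, A1, A2, A3, A4⟩ := h.exists_points h2 i
  obtain ⟨a, ha, qa, ax⟩ := h.exists_B h.c0 (hf i)
  have ra := h.rc ha qa
  have h4 := hs.2 (x - h.pr i x) (sub_mem xX (hle (h.pr_mem i x))) (fun e => qi (by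
    linear_combination hx.2 - h.q_eq_add i x - e)) (A.image fun v => f.rf v a) 2 (fun y hy => by
      obtain ⟨v, hv, rfl⟩ := Finset.mem_image.1 hy
      have := rf_mem_of_mem (f := f) (A1 v hv).1 ha
      exact ⟨hle this, f.B_eq_zero_symm (h.sub_pr_mem i x _ this),
        (h.rc this ((mem_O_q (rf_mem_O v) a).trans qa)).1⟩) fun y hy B hB H =>
    (Finset.card_le_card (t := {y, -y}) fun z hz => by
      obtain ⟨s, rfl⟩ := Submodule.mem_span_singleton.1 (H z hz)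
      obtain ⟨v, -, e⟩ := Finset.mem_image.1 hy
      obtain ⟨w, -, e'⟩ := Finset.mem_image.1 (hB hz)
      have h1 := mem_O_q (rf_mem_O (f := f) w) a
      rw [e', quad_q_smul, ← e, mem_O_q (rf_mem_O v), mul_eq_right₀ ra.1.1, sq,
        mul_self_eq_one_iff] at h1
      rcases h1 with rfl | rfl <;> simp).trans Finset.card_le_two
  rw [Finset.card_image_of_injOn fun v hv w hw e => A2 v hv w hw (not_not.1 fun e' =>
    ra.1.ne_zero (plane_move (h.nondeg i) (h.two i) (A1 v hv).1 (A1 w hw).1 (A1 v hv).2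
      (A1 w hw).2 e' ha (by rw [← e, rf_rf])))] at h4
  obtain rfl : N' = 3 := by
    rcases hN with ⟨-, rfl⟩ | ⟨-, m, hm, e⟩
    · rfl
    · have := Nat.pow_le_pow_right (show 0 < N' by omega) hm
      nlinarith
  constructor
  · have := Fintype.ofFinite F
    have h5 := FiniteField.odd_card_of_char_ne_two (Orth.ringChar_ne_two_of h2)
    rw [Fintype.card_eq_nat_card] at h5
    have := h.four_le h2
    obtain e | e : Nat.card F = 5 ∨ Nat.card F = 7 := by omega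
    all_goals rw [e]; norm_num
  obtain ⟨g, g1, g2, g3⟩ := hs.1 x xX a (hle ha) hx.1 ra.1 fun e => by
    obtain ⟨s, e⟩ := Submodule.mem_span_singleton.1 e
    exact hf j (by rw [← e, map_smul, h.pr_of_ne hj ha, smul_zero])
  rw [hx.2, qa, qB_comm] at g3
  rcases Dk.tau_of_le_three g1 g2 with e | e <;> rw [e] at g3
  · exact absurd (pow_eq_zero_iff two_ne_zero |>.1 (by rw [← g3, zero_mul])) ax
  rw [one_mul, sq, eq_comm, mul_self_eq_mul_self_iff] at g3
  rcases g3 with e | e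
  · exact ⟨a, ha, qa, e⟩
  · exact ⟨-a, neg_mem ha, by rw [q_neg, qa], by rw [B_neg_left, e, neg_neg]⟩

theorem st_odd {x : V} (hx : f.Rc K c x) {i j : ι} (hij : i ≠ j) (hi : h.pr i x ≠ 0)
    (hj : h.pr j x ≠ 0) : f.St2 K c := by
  by_contra hS
  obtain ⟨x, hx, -, i, j, hij, hi, hj, qi⟩ := h.shift (Or.inl h2) hx hij hi hj
  have hf : ∀ k, h.pr k x ≠ 0 := fun k hk => hS (h.st_zero h2 hx hij hi hj hk)
  have hp := (h.full_case h2 hS hx hf qi).1
  choose a ha qa ax using fun i => (h.full_case h2 hS hx hf (i := i) fun e => by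
    obtain ⟨j, hj⟩ := h.ex [i] (by simp)
    have := h.level h2 hp hS (h.rc (h.pr_mem i x) e) hx
      (by rw [← h.B_pr (h.pr_mem i x), qB_self, e])
    exact hf j (by rw [this, h.pr_pr_ne (by simpa using hj)])).2
  obtain ⟨k, hk⟩ := h.ex [i, j] (by simp)
  obtain ⟨l, hl⟩ := h.ex [i, j, k] (by simp)
  obtain ⟨m, hm⟩ := h.ex [i, j, k, l] (by simp)
  simp only [List.mem_cons, List.not_mem_nil, or_false, not_or] at hk hl hm
  have r := fun i => h.rc (ha i) (qa i)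
  have b : ∀ {i j}, i ≠ j → f.B (a i) (a j) = 0 := fun e => h.B_eq e (ha _) (ha _)
  have h1 := ((r i).rf ((r j).rf ((r k).rf ((r l).rf hx)))).neg
  simp only [rf_apply, map_sub, qa, ax, inv_mul_cancel₀ h.c0, one_smul, b hij,
    b (Ne.symm hk.1), b (Ne.symm hk.2), b (Ne.symm hl.1), b (Ne.symm hl.2.1), b (Ne.symm hl.2.2),
    mul_zero, zero_smul, sub_zero] at h1
  have h3 := congrArg (h.pr m) (h.level h2 hp hS hx h1 (by
    simp only [map_neg, map_sub, qB_comm x (a _), ax, qB_self, hx.2]; ring))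
  simp only [map_neg, map_sub, h.pr_of_ne hm.1 (ha i), h.pr_of_ne hm.2.1 (ha j),
    h.pr_of_ne hm.2.2.1 (ha k), h.pr_of_ne hm.2.2.2 (ha l), sub_zero] at h3
  exact smul_ne_zero h2 (hf m) (by linear_combination (norm := module) -h3)

end odd

theorem E_le {x : V} (hx : f.Rc K c x) (hn : ¬ ∃ i, x ∈ D i) : f.E ≤ K := by
  obtain ⟨i, hi⟩ := h.exists_q_pr_ne hx.1.1
  replace hi : h.pr i x ≠ 0 := fun e => hi (by rw [e, q_zero])
  obtain ⟨j, ji, hj⟩ := h.exists_pr_ne (not_exists.1 hn i)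
  refine h.finish ?_
  by_cases h2 : (2 : F) = 0
  swap; · exact h.st_odd h2 hx ji hj hi
  by_cases hp : ∀ i, f.Plus (D i)
  · exact h.st_even_plus h2 hp hx ji hj hi
  obtain ⟨l, hl⟩ := not_forall.1 hp
  exact h.st_even_minus h2 (fun hv v0 e => hl ((plus_of_singular (h.two _) hv v0 e).of_isom
    (h.iso _ l))) hx.1 ji hj hi

end PK

theorem PD.E_le (h : f.PD D) {M : Subgroup (V ≃ₗ[F] V)} (hM : dstab D ⊓ f.E ≤ M) (hO : M ≤ f.O)
    {g : V ≃ₗ[F] V} (hg : g ∈ M) (hn : g ∉ dstab D) : f.E ≤ M := by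
  obtain ⟨m, hm, mn, i, j, v, hv, qv, mv⟩ := h.exists_block hM hO hg hn
  obtain ⟨a, ⟨l, ha⟩, qa, H⟩ := h.exists_not_mem_quad h.two le_rfl h.good (hO hm) mn qv
  have qm := mem_O_q (hO hm)
  refine E_le_of_ktrick h.nondeg' h.h5 hM qv (h.rf_mem_dstab hv) fun K hK rv _ h6 => ?_
  refine (PK.E_le (K := K ⊓ f.O) (c := f.q v) ⟨h, le_inf hK fun g hg => E_le_O hg.2, inf_le_right,
    qv, fun hb qb => ⟨⟨qb ▸ qv, (h.rf_of_rf h.h5 hK hv hb rv (qb ▸ qv) (by rw [qb])).2, rf_mem_O _⟩,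
      qb⟩⟩ ⟨⟨by rwa [qm, qa], h6 _ ?_, rf_mem_O _⟩, (qm a).trans qa⟩ H).trans inf_le_left
  have := mul_mem (mul_mem (mul_mem hm (hM (h.rf_mul_rf_mem h.h5 ha hv (qa ▸ qv) qv (by rw [qa]))))
    (inv_mem hm)) (hM (h.rf_mul_rf_mem h.h5 mv hv (by rwa [qm]) qv (by rw [qm])))
  rwa [rf_conj_mul (hO hm), mul_assoc, ← mul_assoc (f.rf (m v)), rf_mul_self, one_mul] at this

end Form

end CL.Witt

namespace CL.FGL

open Module Matrix Cfsg Cfsg.Geo CL.Witt CL.Witt.Form CL.Orth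

/-- Orthogonal decompositions into at least five planes. -/
theorem quad_plane_isMaximalIn {F : Type*} [Field F] [Fintype F] {ι : Type} [Fintype ι]
    [DecidableEq ι] (Q : QuadraticForm F (ι → F)) (hf : (ofQuad Q).Nondeg)
    (hn : 9 ≤ Fintype.card ι) {t : ℕ} {D : Fin t → Submodule F (ι → F)}
    (hD : IsOrthogonalMDecomposition Q 2 D)
    (hq : 6 ≤ Fintype.card F ∨ Fintype.card F ≠ 3 ∧
      ((¬ ∀ i, IsPlusTypeOn Q (D i)) ∨ ¬ IsPlusTypeOn Q ⊤)) :
    IsMaximalIn (omegaGL Q) (decompositionStabilizer D ⊓ omegaGL Q) := by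
  have hd := hD.decomp.decomp.finrank_eq
  have h1 := Sp.mul_eq_finrank_of_isMDecomposition hD.decomp.decomp
  refine decomp_isMaximalIn (fun _ => mem_omegaGL_iff_E Q hf (by omega))
    (quad_not_E_le_dstab Q hf hD.decomp (by omega)) fun M h2 h3 g hg hg' => PD.E_le
      ⟨sdec_of _ (quad_B_iff Q) hD.decomp, hd, fun i => ?_, isom_of Q hD, by simp; omega,
        by simp; omega⟩ h2 (fun g hg => E_le_O (h3 hg)) hg hg'
  rw [← Nat.card_eq_fintype_card] at hq
  refine Or.inr (Or.inr (Or.inr ⟨hd i, hq.imp_right fun h => ⟨h.1, fun hp => ?_⟩⟩))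
  have k := fun j => hp.of_isom (isom_of Q hD i j)
  exact h.2.elim (fun h => h fun j => (plus_iff Q).2 (k j)) fun h =>
    h ((plus_iff Q).2 ((sdec_of _ (quad_B_iff Q) hD.decomp).plus_top k))

end CL.FGL
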