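import Mathlib
import Cfsg.Agent.CLAS.Ref5

/-!
Reducible maximal subgroups of even-dimensional orthogonal groups, in the form of the tables.
-/

set_option autoImplicit false

namespace CL.FGL

open Module Matrix Cfsg Cfsg.Geo CL.Witt CL.Witt.Form CL.Orth

variable {F : Type*} [Field F] [Fintype F] {n : ℕ} {Q : (Fin n → F) → F}
  (hQ : IsNondegenerateQuadraticForm Q) (hn : 7 ≤ n) {W : Submodule F (Fin n → F)}
include hQ hn

theorem tab_ts (hW0 : W ≠ ⊥) (hW : IsTotallySingularQuad Q W)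
    (h : 2 * (finrank F W + 1) = n → ¬ IsPlusTypeOn Q ⊤) :
    IsMaximalIn (omegaGL Q) (subspaceStabilizer W ⊓ omegaGL Q) := by
  have hQ' := quadOf_nondeg hQ
  have hW' := (quad_totSing_iff' (quadOf hQ)).1 hW
  refine parabolic_isMaximalIn hQ' (fun _ => mem_omegaGL_iff_E (quadOf hQ) hQ' (by simp; omega))
    (Or.inr (by simp; omega)) hW0 hW' ?_
  by_cases hdim : 2 * (finrank F W + 1) = n
  · refine Or.inr fun x hx hq => ?_
    by_contra hxW
    refine h hdim ⟨W ⊔ F ∙ x, le_top, (quad_totSing_iff' (quadOf hQ)).2 (hW'.sup_span hq hx), ?_⟩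
    rw [Submodule.finrank_sup_span_singleton hxW]
    simpa using hdim
  · exact Or.inl (Or.inr (by simpa using hdim))

theorem tab_odd (he : Even n) (hW1 : W ≠ ⊤) (ho : Odd (finrank F W)) (h : 2 * finrank F W ≠ n)
    (hW : IsNondegenerateOn (QuadraticMap.polar Q) W) :
    IsMaximalIn (omegaGL Q) (subspaceStabilizer W ⊓ omegaGL Q) := by
  rw [Nat.odd_iff] at ho
  rw [Nat.even_iff] at he
  exact quad_nondeg_isMaximalIn7 (quadOf hQ) (quadOf_nondeg hQ) (by simpa using hn)
    (by rintro rfl; simp at ho) hW1 hW (fun e => (h (by simpa using e)).elim)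
    fun _ => ⟨fun _ => by omega, fun e => by simp at e; omega⟩

theorem tab_even {k : ℕ} (hk : finrank F W = k) (h0 : 0 < k) (h1 : k + 2 < n)
    (hW : IsNondegenerateOn (QuadraticMap.polar Q) W)
    (h2 : k = 2 → Fintype.card F ≤ 3 → ¬ IsPlusTypeOn Q W)
    (h3 : 2 * k = n → Even k ∧ ¬ IsPlusTypeOn Q ⊤) :
    IsMaximalIn (omegaGL Q) (subspaceStabilizer W ⊓ omegaGL Q) :=
  quad_nondeg_isMaximalIn7 (quadOf hQ) (quadOf_nondeg hQ) (by simpa using hn)
    (by rintro rfl; simp at hk; omega) (by rintro rfl; simp at hk; omega) hW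
    (fun e => Or.inl (hk ▸ h3 (by simpa [hk] using e)))
    fun h => ⟨fun e => h2 (hk ▸ e) h, fun e => by simp at e; omega⟩

theorem tab_point (hchar : ¬ Odd (Fintype.card F)) {v : Fin n → F} (hv : Q v ≠ 0) :
    IsMaximalIn (omegaGL Q) (subspaceStabilizer (Submodule.span F {v}) ⊓ omegaGL Q) :=
  quad_point_isMaximalIn (quadOf hQ) (quadOf_nondeg hQ) (by simpa using hn) hchar hv

end CL.FGL
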