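import Mathlib
import Cfsg.Agent.CLAS.AutCorr

/-!
# Groups acting on a symplectic 4-space in characteristic 2: frames and unipotent coordinates
-/

set_option autoImplicit false
set_option linter.unusedSectionVars false
set_option linter.unusedVariables false

namespace CL.Sp4E

variable {F V G : Type*} [Field F] [CharP F 2] [AddCommGroup V] [Module F V] [Group G]
  [DistribMulAction G V] [SMulCommClass G F V]

theorem veq (F : Type*) [Field F] [Module F V] {u v : V} (h : (1 : F) • u = (1 : F) • v) : u = v := by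
  simpa using h

/-- identities of vectors in characteristic `2` -/
scoped macro "vec2" F:term : tactic => `(tactic| (apply veq $F; match_scalars <;> grind))

theorem gsmul (g : G) (c : F) (v : V) : g • c • v = c • g • v := smul_comm g c v

theorem exists_sq [Finite F] (a : F) : ∃ b : F, b ^ 2 = a := by
  obtain ⟨b, hb⟩ := (bijective_frobenius F 2).2 a
  exact ⟨b, hb⟩

theorem sq_inj {a b : F} (h : a ^ 2 = b ^ 2) : a = b := by
  have : (a + b) ^ 2 = 0 := by grind
  have := pow_eq_zero_iff (two_ne_zero) |>.1 this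
  grind

/-- the set stabiliser -/
def stab (G : Type*) [Group G] [Finite G] [MulAction G V] (W : Set V) : Subgroup G where
  carrier := {g | ∀ v ∈ W, g • v ∈ W}
  one_mem' := fun v hv => by simpa using hv
  mul_mem' := fun {a b} ha hb v hv => by rw [mul_smul]; exact ha _ (hb _ hv)
  inv_mem' := fun {g} hg => by
    obtain ⟨n, hn⟩ : g⁻¹ ∈ Submonoid.powers g :=
      mem_powers_iff_mem_zpowers.2 (Subgroup.inv_mem _ (Subgroup.mem_zpowers g))
    rw [← hn]
    clear hn
    induction n with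
    | zero => intro v hv; simpa using hv
    | succ n ih => intro v hv; simp only [pow_succ, mul_smul]; exact ih _ (hg v hv)

theorem mem_stab [Finite G] {W : Set V} {g : G} : g ∈ stab G W ↔ ∀ v ∈ W, g • v ∈ W := Iff.rfl

/-- `G` acts faithfully on the symplectic `4`-space `(V, B)`. -/
structure St (G : Type*) [Group G] [DistribMulAction G V] (B : LinearMap.BilinForm F V) : Prop where
  alt : ∀ v, B v v = 0
  nd : ∀ v, (∀ w, B v w = 0) → v = 0
  dim : Module.finrank F V = 4
  inv : ∀ (g : G) (u v : V), B (g • u) (g • v) = B u v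
  faith : ∀ g : G, (∀ v : V, g • v = v) → g = 1

/-- symplectic frames -/
structure Frame (B : LinearMap.BilinForm F V) where
  e : V
  f : V
  g : V
  h : V
  eh : B e h = 1
  fg : B f g = 1
  ef : B e f = 0
  eg : B e g = 0
  fh : B f h = 0
  gh : B g h = 0

variable {B : LinearMap.BilinForm F V}

/-- `B v (s v) = (B v p)²` -/
def Pv (B : LinearMap.BilinForm F V) (s : G) (p : V) : Prop := ∀ v, B v (s • v) = B v p ^ 2

/-- Eichler transformations -/
def Ei (B : LinearMap.BilinForm F V) (s : G) (e w : V) (d : F) : Prop :=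
  ∀ v, s • v = v + B v e • w + (B v w + d * B v e) • e

/-- transvections -/
def Tv (B : LinearMap.BilinForm F V) (s : G) (p : V) : Prop := ∀ v, s • v = v + B v p • p

namespace St

variable (hS : St G B)
include hS

theorem symm (u v : V) : B u v = B v u := by
  have h := hS.alt (u + v)
  simp only [map_add, LinearMap.add_apply, hS.alt] at h
  grind

theorem inv' (g : G) (u v : V) : B (g • u) v = B u (g⁻¹ • v) := by
  rw [← hS.inv g u, smul_inv_smul]

theorem inv'' (g : G) (u v : V) : B (g⁻¹ • u) v = B u (g • v) := by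
  rw [hS.inv', inv_inv]

theorem ext' {u v : V} (h : ∀ w, B u w = B v w) : u = v :=
  sub_eq_zero.1 (hS.nd _ fun w => by rw [map_sub, LinearMap.sub_apply, h, sub_self])

theorem gext {s t : G} (h : ∀ v : V, s • v = t • v) : s = t := by
  have := hS.faith (t⁻¹ * s) fun v => by rw [mul_smul, h, inv_smul_smul]
  rw [inv_mul_eq_one] at this
  exact this.symm

theorem finite [Finite F] : Finite V := by
  have : Module.Finite F V := Module.finite_of_finrank_pos (by rw [hS.dim]; norm_num)
  exact Module.finite_of_finite F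

theorem exists_one {v : V} (hv : v ≠ 0) : ∃ w, B v w = 1 := by
  obtain ⟨w, hw⟩ : ∃ w, B v w ≠ 0 := by
    by_contra h
    push Not at h
    exact hv (hS.nd v h)
  exact ⟨(B v w)⁻¹ • w, by simp [hw]⟩

theorem exists_frame {e f : V} (he : e ≠ 0) (hef : B e f = 0) (hf : ∀ c : F, f ≠ c • e) :
    ∃ R : Frame B, R.e = e ∧ R.f = f := by
  obtain ⟨h1, hh1⟩ := hS.exists_one he
  obtain ⟨g1, hg1⟩ := hS.exists_one (v := f + B f h1 • e) fun h => hf (B f h1) (by
    have : f = (f + B f h1 • e) + B f h1 • e := by vec2 F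
    rwa [h, zero_add] at this)
  simp only [map_add, map_smul, LinearMap.add_apply, LinearMap.smul_apply, smul_eq_mul] at hg1
  have a1 := hS.alt
  have s := hS.symm
  refine ⟨⟨e, f, g1 + B e g1 • h1, h1 + B f h1 • (g1 + B e g1 • h1) + B (g1 + B e g1 • h1) h1 • f,
    ?_, ?_, hef, ?_, ?_, ?_⟩, rfl, rfl⟩ <;>
  simp only [map_add, map_smul, LinearMap.add_apply, LinearMap.smul_apply, smul_eq_mul, a1,
    s g1 f, s h1 f, s h1 g1] <;> grind

theorem Pv_conj {s : G} {p : V} (h : Pv B s p) (g : G) : Pv B (g * s * g⁻¹) (g • p) := fun v => by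
  rw [mul_smul, mul_smul, ← hS.inv'' g v, h, hS.inv'']

theorem Pv_unique {s : G} {p p' : V} (h : Pv B s p) (h' : Pv B s p') : p = p' :=
  hS.ext' fun w => by rw [hS.symm p, hS.symm p']; exact sq_inj ((h w).symm.trans (h' w))

theorem Pv_fix {s c : G} {p : V} (h : Pv B s p) (hc : c * s = s * c) : c • p = p := by
  have := hS.Pv_conj h c
  rw [hc, mul_inv_cancel_right] at this
  exact hS.Pv_unique this h

theorem Ei_conj {s : G} {e w : V} {d : F} (h : Ei B s e w d) (g : G) :
    Ei B (g * s * g⁻¹) (g • e) (g • w) d := fun v => by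
  rw [mul_smul, mul_smul, h]
  simp only [smul_add, gsmul, smul_inv_smul, hS.inv'']

theorem Tv_conj {s : G} {p : V} (h : Tv B s p) (g : G) : Tv B (g * s * g⁻¹) (g • p) := fun v => by
  rw [mul_smul, mul_smul, h]
  simp only [smul_add, gsmul, smul_inv_smul, hS.inv'']

theorem Tv_Pv {s : G} {p : V} (h : Tv B s p) : Pv B s p := fun v => by
  rw [h]; simp [hS.alt, sq]

end St

theorem Ei_scale {s : G} {e w : V} {d : F} (c : F) (h : Ei B s (c • e) w d) :
    Ei B s e (c • w) (c ^ 2 * d) := fun v => by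
  rw [h]; simp only [map_smul, smul_eq_mul]; vec2 F

theorem Ei_add {s : G} {e w : V} {d : F} (c : F) (h : Ei B s e (w + c • e) d) : Ei B s e w d := fun v => by
  rw [h]; simp only [map_add, map_smul, smul_eq_mul]; vec2 F

namespace Frame

variable (R : Frame B)

/-- coordinates on the unipotent radical of the flag stabiliser -/
structure Co (s : G) (X Y C D : F) : Prop where
  e : s • R.e = R.e
  f : s • R.f = R.f + X • R.e
  g : s • R.g = R.g + Y • R.f + C • R.e
  h : s • R.h = R.h + X • R.g + (C + X * Y) • R.f + D • R.e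

/-- the unipotent subgroup of the frame -/
def U (G : Type*) [Group G] [DistribMulAction G V] [SMulCommClass G F V] : Subgroup G where
  carrier := {s | s • R.e = R.e ∧ ∃ x : F, s • R.f = R.f + x • R.e}
  one_mem' := ⟨one_smul _ _, 0, by simp⟩
  mul_mem' := fun {a b} ⟨ha, x, hx⟩ ⟨hb, y, hy⟩ => ⟨by rw [mul_smul, hb, ha], x + y, by
    rw [mul_smul, hy, smul_add, gsmul, hx, ha]; module⟩
  inv_mem' := fun {a} ⟨ha, x, hx⟩ => by
    have h1 : a⁻¹ • R.e = R.e := by rw [inv_smul_eq_iff, ha]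
    refine ⟨h1, x, ?_⟩
    rw [inv_smul_eq_iff, smul_add, gsmul, hx, ha]; vec2 F

theorem mem_U {s : G} : s ∈ R.U G ↔ s • R.e = R.e ∧ ∃ x : F, s • R.f = R.f + x • R.e := Iff.rfl

theorem e_ne : R.e ≠ 0 := fun h => by simpa [h] using R.eh

end Frame

/-- simp set for pairings of frame vectors -/
theorem St.gram (hS : St G B) (R : Frame B) :
    (B R.e R.e = 0 ∧ B R.e R.f = 0 ∧ B R.e R.g = 0 ∧ B R.e R.h = 1) ∧
    (B R.f R.e = 0 ∧ B R.f R.f = 0 ∧ B R.f R.g = 1 ∧ B R.f R.h = 0) ∧
    (B R.g R.e = 0 ∧ B R.g R.f = 1 ∧ B R.g R.g = 0 ∧ B R.g R.h = 0) ∧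
    (B R.h R.e = 1 ∧ B R.h R.f = 0 ∧ B R.h R.g = 0 ∧ B R.h R.h = 0) := by
  have s := hS.symm
  exact ⟨⟨hS.alt _, R.ef, R.eg, R.eh⟩, ⟨s _ _ ▸ R.ef, hS.alt _, R.fg, R.fh⟩,
    ⟨s _ _ ▸ R.eg, s _ _ ▸ R.fg, hS.alt _, R.gh⟩, s _ _ ▸ R.eh, s _ _ ▸ R.fh, s _ _ ▸ R.gh, hS.alt _⟩

/-- expand pairings against the frame -/
scoped macro "gsimp" hS:term "," R:term loc:(Lean.Parser.Tactic.location)? : tactic =>
  `(tactic| simp only [map_add, map_smul, LinearMap.add_apply, LinearMap.smul_apply, smul_eq_mul,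
    St.gram $hS $R, mul_zero, mul_one, add_zero, zero_add, map_zero, LinearMap.zero_apply] $[$loc]?)

namespace St

variable (hS : St G B) (R : Frame B)
include hS

theorem eq_zero {v : V} (h1 : B v R.e = 0) (h2 : B v R.f = 0) (h3 : B v R.g = 0) (h4 : B v R.h = 0) :
    v = 0 := by
  have : Module.Finite F V := Module.finite_of_finrank_pos (by rw [hS.dim]; norm_num)
  have li : LinearIndependent F ![R.e, R.f, R.g, R.h] := by
    rw [Fintype.linearIndependent_iff]
    intro c hc
    simp only [Fin.sum_univ_four, Matrix.cons_val] at hc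
    have h1 := congrArg (B · R.e) hc
    have h2 := congrArg (B · R.f) hc
    have h3 := congrArg (B · R.g) hc
    have h4 := congrArg (B · R.h) hc
    gsimp hS, R at h1 h2 h3 h4
    intro i; fin_cases i <;> assumption
  have sp := li.span_eq_top_of_card_eq_finrank (by simp [hS.dim])
  refine hS.nd v fun w => ?_
  have hw : w ∈ Submodule.span F (Set.range ![R.e, R.f, R.g, R.h]) := sp ▸ Submodule.mem_top
  obtain ⟨c, rfl⟩ := (Submodule.mem_span_range_iff_exists_fun F).1 hw
  simp [Fin.sum_univ_four, h1, h2, h3, h4]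

theorem fext {u v : V} (h1 : B u R.e = B v R.e) (h2 : B u R.f = B v R.f) (h3 : B u R.g = B v R.g)
    (h4 : B u R.h = B v R.h) : u = v :=
  sub_eq_zero.1 (hS.eq_zero R (by simp [h1]) (by simp [h2]) (by simp [h3]) (by simp [h4]))

theorem exp (v : V) : v = B v R.h • R.e + B v R.g • R.f + B v R.f • R.g + B v R.e • R.h := by
  apply hS.fext R <;> gsimp hS, R

theorem pair (u v : V) : B u v = B u R.e * B v R.h + B u R.f * B v R.g + B u R.g * B v R.f +
    B u R.h * B v R.e := by
  conv_lhs => rw [hS.exp R v]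
  gsimp hS, R
  ring

theorem exp_perp {v : V} (h : B v R.e = 0) : v = B v R.h • R.e + B v R.g • R.f + B v R.f • R.g := by
  conv_lhs => rw [hS.exp R v, h, zero_smul, add_zero]

theorem exp_line {v : V} (h : B v R.e = 0) (h' : B v R.f = 0) : v = B v R.h • R.e + B v R.g • R.f := by
  conv_lhs => rw [hS.exp_perp R h, h', zero_smul, add_zero]

theorem exists_co {s : G} (hs : s ∈ R.U G) : ∃ X Y C D : F, R.Co s X Y C D := by
  obtain ⟨he, X, hf⟩ := hs
  have g1 := hS.inv s R.g R.e
  have g2 := hS.inv s R.g R.f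
  have h1 := hS.inv s R.h R.e
  have h2 := hS.inv s R.h R.f
  rw [he] at g1 h1
  rw [hf] at g2 h2
  gsimp hS, R at g1 g2 h1 h2
  have hg : s • R.g = R.g + B (s • R.g) R.g • R.f + B (s • R.g) R.h • R.e := by
    apply hS.fext R <;> gsimp hS, R <;> grind
  have h3 := hS.inv s R.h R.g
  rw [hg] at h3
  gsimp hS, R at h3
  refine ⟨X, _, _, B (s • R.h) R.h, he, hf, hg, ?_⟩
  apply hS.fext R <;> gsimp hS, R <;> grind

variable {R}

theorem co_act {s : G} {X Y C D : F} (h : R.Co s X Y C D) (v : V) :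
    s • v = v + B v R.e • (X • R.g + (C + X * Y) • R.f + D • R.e) + B v R.f • (Y • R.f + C • R.e) +
      (B v R.g * X) • R.e := by
  have hv := hS.exp R v
  generalize B v R.e = a at hv ⊢
  generalize B v R.f = b at hv ⊢
  generalize B v R.g = c at hv ⊢
  generalize B v R.h = d at hv ⊢
  subst hv
  simp only [smul_add, gsmul, h.e, h.f, h.g, h.h]
  module

theorem co_ext {s t : G} {X Y C D : F} (h : R.Co s X Y C D) (h' : R.Co t X Y C D) : s = t :=
  hS.gext fun v => by rw [hS.co_act h, hS.co_act h']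

theorem co_inj {s : G} {X Y C D X' Y' C' D' : F} (h : R.Co s X Y C D) (h' : R.Co s X' Y' C' D') :
    X = X' ∧ Y = Y' ∧ C = C' ∧ D = D' := by
  have h1 := congrArg (B · R.h) (h.f.symm.trans h'.f)
  have h2 := congrArg (B · R.g) (h.g.symm.trans h'.g)
  have h3 := congrArg (B · R.h) (h.g.symm.trans h'.g)
  have h4 := congrArg (B · R.h) (h.h.symm.trans h'.h)
  gsimp hS, R at h1 h2 h3 h4
  exact ⟨h1, h2, h3, h4⟩

theorem co_qf {s : G} {X Y C D : F} (h : R.Co s X Y C D) (v : V) :
    B v (s • v) = Y * B v R.f ^ 2 + D * B v R.e ^ 2 + X * Y * B v R.f * B v R.e := by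
  rw [hS.co_act h]
  gsimp hS, R
  rw [hS.alt]
  grind

theorem co_Pv {s : G} {X Y C D a b : F} (h : R.Co s X Y C D) (hXY : X * Y = 0) (ha : a ^ 2 = D)
    (hb : b ^ 2 = Y) : Pv B s (a • R.e + b • R.f) := fun v => by
  rw [hS.co_qf h]
  gsimp hS, R
  grind

theorem co_Ei {s : G} {X C D : F} (h : R.Co s X 0 C D) : Ei B s R.e (X • R.g + C • R.f) D := fun v => by
  rw [hS.co_act h]
  gsimp hS, R
  vec2 F

theorem Ei_co {s : G} {w : V} {d : F} (h : Ei B s R.e w d) (hw : B w R.e = 0) :
    R.Co s (B w R.f) 0 (B w R.g) d := by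
  have h1 := hS.exp_perp R hw
  generalize B w R.f = b at h1 ⊢
  generalize B w R.g = c at h1 ⊢
  generalize B w R.h = a at h1
  subst h1
  refine ⟨?_, ?_, ?_, ?_⟩ <;> rw [h] <;> gsimp hS, R <;> vec2 F

theorem co_Tv {s : G} {a b : F} (h : R.Co s 0 (b ^ 2) (a * b) (a ^ 2)) :
    Tv B s (a • R.e + b • R.f) := fun v => by
  rw [hS.co_act h]
  gsimp hS, R
  vec2 F

end St

namespace Frame

variable {R : Frame B}

theorem co_one : R.Co (1 : G) 0 0 0 0 := ⟨by simp, by simp, by simp, by simp⟩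

theorem Co.mem {s : G} {X Y C D : F} (h : R.Co s X Y C D) : s ∈ R.U G := ⟨h.e, X, h.f⟩

theorem Co.congr {s : G} {X Y C D X' Y' C' D' : F} (h : R.Co s X Y C D) (h1 : X = X') (h2 : Y = Y')
    (h3 : C = C') (h4 : D = D') : R.Co s X' Y' C' D' := by
  subst h1 h2 h3 h4; exact h

theorem Co.mul {s t : G} {X Y C D X' Y' C' D' : F} (h : R.Co s X Y C D) (h' : R.Co t X' Y' C' D') :
    R.Co (s * t) (X + X') (Y + Y') (C + C' + X * Y') (D + D' + X * (C' + X' * Y') + C * X') := by
  refine ⟨?_, ?_, ?_, ?_⟩ <;>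
  simp only [mul_smul, h'.e, h'.f, h'.g, h'.h, smul_add, gsmul, h.e, h.f, h.g, h.h] <;> vec2 F

theorem Co.sq {s : G} {X Y C D : F} (h : R.Co s X Y C D) : R.Co (s * s) 0 0 (X * Y) (X ^ 2 * Y) :=
  (h.mul h).congr (by grind) (by grind) (by grind) (by grind)

end Frame

end CL.Sp4E
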