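import Cfsg.Agent.CLAS.Sp4E1

/-!
# Flags, tori, and groups containing two transvections with the same centre
-/

set_option autoImplicit false
set_option linter.unusedSectionVars false
set_option linter.unusedVariables false
set_option linter.unnecessarySeqFocus false

namespace CL.Sp4E

variable {F V G : Type*} [Field F] [CharP F 2] [Finite F] [AddCommGroup V] [Module F V] [Group G]
  [DistribMulAction G V] [SMulCommClass G F V] {B : LinearMap.BilinForm F V}

/-- a copy of the group action -/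
def hid (g : G) (v : V) : V := g • v

theorem hid_eq (G : Type*) [Group G] [DistribMulAction G V] (g : G) (v : V) : g • v = hid g v := rfl

/-- hide the group action from `module` -/
scoped macro "gact" G:term : tactic => `(tactic| simp only [hid_eq $G])

theorem St.exists_flag (hS : St G B) {S : Subgroup G} (hp : IsPGroup 2 S) :
    ∃ R : Frame B, S ≤ R.U G := by
  have := hS.finite
  have : Module.Finite F V := Module.finite_of_finrank_pos (by rw [hS.dim]; norm_num)
  have : Nontrivial V := Module.nontrivial_of_finrank_pos (R := F) (by rw [hS.dim]; norm_num)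
  have h2 : ∀ v : V, 2 • v = 0 := fun v => by rw [two_smul]; vec2 F
  obtain ⟨v, hv⟩ := exists_ne (0 : V)
  obtain ⟨e, -, he, he'⟩ := AutCorr.exists_fixed_mod hp h2 ⊥ ⊤ (by simp) (by simp)
    (AddSubgroup.mem_top v) (by simpa using hv)
  replace he : e ≠ 0 := by simpa using he
  replace he' : ∀ s ∈ S, s • e = e := fun s hs => sub_eq_zero.1 (by simpa using he' s hs)
  obtain ⟨x, hx, hx'⟩ : ∃ x ∈ LinearMap.ker (B e), x ∉ F ∙ e := by
    by_contra h
    push Not at h
    have h1 := Submodule.finrank_mono (show LinearMap.ker (B e) ≤ F ∙ e from h)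
    have h3 := LinearMap.finrank_range_add_finrank_ker (B e)
    have h4 := Submodule.finrank_le (LinearMap.range (B e))
    rw [finrank_span_singleton he] at h1
    rw [hS.dim] at h3
    rw [Module.finrank_self] at h4
    omega
  obtain ⟨f, hf, hf', hf''⟩ := AutCorr.exists_fixed_mod hp h2 (F ∙ e).toAddSubgroup
    (LinearMap.ker (B e)).toAddSubgroup
    (fun s hs y hy => by
      obtain ⟨c, rfl⟩ := Submodule.mem_span_singleton.1 hy
      exact Submodule.mem_span_singleton.2 ⟨c, by rw [gsmul, he' s hs]⟩)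
    (fun s hs y hy => by
      change B e (s • y) = 0
      rw [← he' s hs, hS.inv]; exact hy) hx hx'
  obtain ⟨R, rfl, rfl⟩ := hS.exists_frame he hf fun c h => hf' (Submodule.mem_span_singleton.2 ⟨c, h.symm⟩)
  refine ⟨R, fun s hs => ⟨he' s hs, ?_⟩⟩
  obtain ⟨c, hc⟩ := Submodule.mem_span_singleton.1 (hf'' s hs)
  exact ⟨c, by rw [hc, add_sub_cancel]⟩

theorem zeta_pow {β : F} (hβ : β ≠ 0) : ∃ k : ℕ, (!![1 + β ^ 2, β; β, 1] : Matrix (Fin 2) (Fin 2) F) ^ k =
    !![β, 1; 1, 0] := by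
  set ζ : Matrix (Fin 2) (Fin 2) F := !![β, 1; 1, 0] with hζ
  have h2 : ζ ^ 2 = !![1 + β ^ 2, β; β, 1] := by
    ext i j; fin_cases i <;> fin_cases j <;> simp [hζ, sq, Matrix.mul_apply, Fin.sum_univ_two, add_comm]
  have h1 : ∀ n : ℕ, ∃ a b : F, ζ ^ n = !![a + b * β, b; b, a] := fun n => by
    induction n with
    | zero => exact ⟨1, 0, by ext i j; fin_cases i <;> fin_cases j <;> simp⟩
    | succ n ih =>
      obtain ⟨a, b, h⟩ := ih
      refine ⟨b, a + b * β, ?_⟩
      rw [pow_succ, h]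
      ext i j; fin_cases i <;> fin_cases j <;> simp [hζ, Matrix.mul_apply, Fin.sum_univ_two] <;> ring
  have hu : IsOfFinOrder ζ := isOfFinOrder_iff_isUnit.2 ((Matrix.isUnit_iff_isUnit_det _).2
    (by simp [hζ, Matrix.det_fin_two]))
  rcases Nat.even_or_odd' (orderOf ζ) with ⟨j, hj | hj⟩
  · exfalso
    obtain ⟨a, b, h⟩ := h1 j
    have h3 : ζ ^ j * ζ ^ j = 1 := by rw [← pow_add, ← two_mul, ← hj, pow_orderOf_eq_one]
    rw [h] at h3
    have h4 := congrFun (congrFun h3 0) 1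
    have h5 := congrFun (congrFun h3 1) 1
    simp [Matrix.mul_apply, Fin.sum_univ_two] at h4 h5
    have hb : b = 0 := by
      have : b ^ 2 * β = 0 := by grind
      simpa [hβ] using this
    have ha : a = 1 := sq_inj (by grind)
    have h6 : ζ ^ j = 1 := by
      rw [h, ha, hb]; ext i j; fin_cases i <;> fin_cases j <;> simp
    have := hu.orderOf_pos
    have := Nat.le_of_dvd (by omega) (orderOf_dvd_of_pow_eq_one h6)
    omega
  · refine ⟨j + 1, ?_⟩
    rw [← h2, ← pow_mul, show 2 * (j + 1) = orderOf ζ + 1 by omega, pow_succ, pow_orderOf_eq_one, one_mul]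

theorem swap {K : Subgroup G} {N : Submodule F V} (hN : ∀ k ∈ K, ∀ n ∈ N, k • n ∈ N) {s t : G}
    (hs : s ∈ K) (ht : t ∈ K) {u v : V} {β : F} (hβ : β ≠ 0) (h1 : s • u - u ∈ N)
    (h2 : s • v - (v + β • u) ∈ N) (h3 : t • v - v ∈ N) (h4 : t • u - (u + β • v) ∈ N) :
    ∃ w ∈ K, w • u - v ∈ N ∧ w • v - u ∈ N := by
  let A : G → Matrix (Fin 2) (Fin 2) F → Prop := fun k M => k ∈ K ∧
    k • u - (M 0 0 • u + M 1 0 • v) ∈ N ∧ k • v - (M 0 1 • u + M 1 1 • v) ∈ N
  have mul : ∀ k M k' M', A k M → A k' M' → A (k * k') (M * M') := by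
    rintro k M k' M' ⟨a1, a2, a3⟩ ⟨b1, b2, b3⟩
    refine ⟨K.mul_mem a1 b1, ?_, ?_⟩
    · convert N.add_mem (hN k a1 _ b2) (N.add_mem (N.smul_mem (M' 0 0) a2) (N.smul_mem (M' 1 0) a3)) using 1
      simp only [mul_smul, smul_sub, smul_add, gsmul, Matrix.mul_apply, Fin.sum_univ_two]
      gact G
      module
    · convert N.add_mem (hN k a1 _ b3) (N.add_mem (N.smul_mem (M' 0 1) a2) (N.smul_mem (M' 1 1) a3)) using 1
      simp only [mul_smul, smul_sub, smul_add, gsmul, Matrix.mul_apply, Fin.sum_univ_two]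
      gact G
      module
  have As : A s !![1, β; 0, 1] := ⟨hs, by simpa using h1, by simpa [add_comm] using h2⟩
  have At : A t !![1, 0; β, 1] := ⟨ht, by simpa using h4, by simpa using h3⟩
  have Ast : A (s * t) !![1 + β ^ 2, β; β, 1] := by
    convert mul _ _ _ _ As At using 1
    ext i j; fin_cases i <;> fin_cases j <;> simp [Matrix.mul_apply, Fin.sum_univ_two, sq]
  have Ap : ∀ n : ℕ, A ((s * t) ^ n) (!![1 + β ^ 2, β; β, 1] ^ n) := fun n => by
    induction n with
    | zero => exact ⟨by simp, by simp, by simp⟩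
    | succ n ih => rw [pow_succ, pow_succ]; exact mul _ _ _ _ ih Ast
  obtain ⟨k, hk⟩ := zeta_pow hβ
  obtain ⟨a1, a2, a3⟩ := mul _ _ _ _ As (hk ▸ Ap k)
  refine ⟨_, a1, ?_, ?_⟩
  · simpa [Matrix.mul_apply, Fin.sum_univ_two, CharTwo.add_self_eq_zero] using a2
  · simpa [Matrix.mul_apply, Fin.sum_univ_two] using a3

theorem torus {K : Subgroup G} {N : Submodule F V} (hN : ∀ k ∈ K, ∀ n ∈ N, k • n ∈ N) {s s' t : G}
    (hs : s ∈ K) (hs' : s' ∈ K) (ht : t ∈ K) {u v : V} {β β' γ : F} (hβ : β ≠ 0) (hβ' : β' ≠ 0)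
    (hγ : γ ≠ 0) (h1 : s • u - u ∈ N) (h2 : s • v - (v + β • u) ∈ N) (h1' : s' • u - u ∈ N)
    (h2' : s' • v - (v + β' • u) ∈ N) (h3 : t • v - v ∈ N) (h4 : t • u - (u + γ • v) ∈ N) :
    ∃ h ∈ K, ∃ μ : F, μ ^ 2 * β = β' ∧ h • u - μ⁻¹ • u ∈ N ∧ h • v - μ • v ∈ N := by
  have key : ∀ {s : G} {β : F}, s ∈ K → β ≠ 0 → s • u - u ∈ N → s • v - (v + β • u) ∈ N →
      ∃ w ∈ K, ∃ l : F, l ≠ 0 ∧ l ^ 2 * γ = β ∧ w • l • u - v ∈ N ∧ w • v - l • u ∈ N := by
    intro s β hs hβ h1 h2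
    obtain ⟨l, hl⟩ := exists_sq (β / γ)
    have hl' : l ^ 2 * γ = β := by rw [hl, div_mul_cancel₀ _ hγ]
    have hl0 : l ≠ 0 := by rintro rfl; simp [← hl'] at hβ
    obtain ⟨w, hw, h⟩ := swap hN hs ht (u := l • u) (v := v) (β := l * γ) (mul_ne_zero hl0 hγ)
      (by convert N.smul_mem l h1 using 1; rw [gsmul]; gact G; module)
      (by convert h2 using 1; rw [← hl']; gact G; module) h3
      (by convert N.smul_mem l h4 using 1; rw [gsmul]; gact G; module)
    exact ⟨w, hw, l, hl0, hl', h⟩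
  obtain ⟨w, hw, l, hl0, hl, a1, a2⟩ := key hs hβ h1 h2
  obtain ⟨w', hw', l', hl0', hl', b1, b2⟩ := key hs' hβ' h1' h2'
  refine ⟨w * w', K.mul_mem hw hw', l' / l, by rw [← hl, ← hl']; field_simp, ?_, ?_⟩
  · convert N.smul_mem l'⁻¹ (N.add_mem (hN w hw _ b1) a2) using 1
    simp only [mul_smul, smul_sub, gsmul]
    gact G
    match_scalars <;> field_simp <;> ring
  · convert N.add_mem (hN w hw _ b2) (N.smul_mem (l' / l) a1) using 1
    simp only [mul_smul, smul_sub, gsmul]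
    gact G
    match_scalars <;> field_simp <;> ring

/-- the hypotheses on a residual subgroup -/
structure Hyp (G : Type*) [Group G] [DistribMulAction G V] (B : LinearMap.BilinForm F V) : Prop
    extends St G B where
  irr : ∀ W : Submodule F V, (∀ g : G, ∀ v ∈ W, g • v ∈ W) → W = ⊥ ∨ W = ⊤
  cen : ∀ φ : V →ₗ[F] V, (∀ (g : G) (v : V), φ (g • v) = g • φ v) → ∃ c : F, ∀ v, φ v = c • v
  real : ∀ (F₀ : Subfield F) (Λ : Set V), (∀ g : G, ∀ v ∈ Λ, g • v ∈ Λ) → (∃ v ∈ Λ, v ≠ 0) →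
    (∀ u ∈ Λ, ∀ v ∈ Λ, B u v ∈ F₀) → F₀ = ⊤
  quad : ∀ Q : V → F, (∀ (c : F) (v : V), Q (c • v) = c ^ 2 * Q v) →
    (∀ u v, Q (u + v) = Q u + Q v + B u v) → ¬ ∀ (g : G) (v : V), Q (g • v) = Q v
  big : ¬ ∀ p : V, ∃ g : G, Tv B g p
  four : ∃ t : F, t ≠ 0 ∧ t ≠ 1

theorem Tv_mul {s t : G} (hS : St G B) {e : V} {a b : F} (h : Tv B s (a • e)) (h' : Tv B t (b • e)) :
    Tv B (s * t) ((a + b) • e) := fun v => by
  rw [mul_smul, h', h]
  simp only [map_add, map_smul, LinearMap.add_apply, LinearMap.smul_apply, smul_eq_mul, hS.alt]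
  vec2 F

namespace Hyp

variable (H : Hyp G B)
include H

theorem exists_ne {X : Set V} (hX : ∀ g : G, ∀ v ∈ X, g • v ∈ X) {e : V} (he : e ∈ X) (he0 : e ≠ 0)
    {u : V} (hu : u ≠ 0) : ∃ w ∈ X, B u w ≠ 0 := by
  by_contra h
  push Not at h
  let W : Submodule F V :=
    { carrier := {x | ∀ w ∈ X, B x w = 0}
      add_mem' := fun ha hb w hw => by simp [ha w hw, hb w hw]
      zero_mem' := fun w hw => by simp
      smul_mem' := fun c x hx w hw => by simp [hx w hw] }
  rcases H.irr W (fun g v hv w hw => by rw [H.toSt.inv', hv _ (hX _ _ hw)]) with h1 | h1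
  · exact hu ((Submodule.eq_bot_iff _).1 h1 u h)
  · exact he0 (H.nd e fun w => by
      rw [H.toSt.symm]; exact (show w ∈ W from h1 ▸ Submodule.mem_top) e he)

theorem torus_L {e v : V} {l : F} {s s' t : G} (hs : Tv B s e) (hs' : Tv B s' (l • e)) (ht : Tv B t v)
    (hl : l ≠ 0) (hev : B e v ≠ 0) : ∃ h : G, h • e = l⁻¹ • e ∧ h • v = l • v ∧
      ∀ x, B x e = 0 → B x v = 0 → h • x = x := by
  let K : Subgroup G :=
    { carrier := {k | ∀ x, B x e = 0 → B x v = 0 → k • x = x}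
      one_mem' := fun x _ _ => one_smul _ _
      mul_mem' := fun ha hb x h1 h2 => by rw [mul_smul, hb x h1 h2, ha x h1 h2]
      inv_mem' := fun ha x h1 h2 => by rw [inv_smul_eq_iff, ha x h1 h2] }
  have sy := H.toSt.symm v e
  obtain ⟨h, hK, μ, h1, h2, h3⟩ := torus (K := K) (N := (⊥ : Submodule F V)) (by simp) (s := s) (s' := s')
    (t := t) (fun x h1 h2 => by rw [hs, h1]; simp) (fun x h1 h2 => by rw [hs']; simp [h1])
    (fun x h1 h2 => by rw [ht, h2]; simp) (u := e) (v := v) hev (mul_ne_zero (pow_ne_zero 2 hl) hev) hev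
    (by rw [hs]; simp [H.alt]) (by rw [hs, sy]; simp) (by rw [hs']; simp [H.alt])
    (by rw [hs']; simp [sy, smul_smul, sq]; module) (by rw [ht]; simp [H.alt]) (by rw [ht]; simp)
  obtain rfl : μ = l := sq_inj (mul_right_cancel₀ hev h1)
  exact ⟨h, sub_eq_zero.1 h2, sub_eq_zero.1 h3, hK⟩

theorem full {s s' : G} {e : V} {l : F} (hs : Tv B s e) (hs' : Tv B s' (l • e)) (he : e ≠ 0)
    (hl0 : l ≠ 0) (hl1 : l ≠ 1) (c : F) : ∃ g : G, Tv B g (c • e) := by
  have hS := H.toSt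
  obtain ⟨-, ⟨g0, rfl⟩, hg0⟩ := H.exists_ne (X := Set.range fun g : G => g • e)
    (by rintro g _ ⟨g', rfl⟩; exact ⟨g * g', mul_smul _ _ _⟩) ⟨1, one_smul _ _⟩ he he
  have hdiv : ∀ a b : F, (∃ g : G, Tv B g (a • e)) → (∃ g : G, Tv B g (b • e)) →
      ∃ g : G, Tv B g ((a * b⁻¹) • e) := by
    rintro a b ⟨x, hx⟩ ⟨y, hy⟩
    by_cases hb : b = 0
    · exact ⟨1, fun v => by simp [hb]⟩
    obtain ⟨h, h1, -⟩ := H.torus_L hs hy (hS.Tv_conj hs g0) hb hg0
    have := hS.Tv_conj hx h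
    rw [gsmul, h1, smul_smul] at this
    exact ⟨_, this⟩
  have h1 : ∃ g : G, Tv B g ((1 : F) • e) := ⟨s, by simpa using hs⟩
  let E : Subfield F :=
    { carrier := {c | ∃ g : G, Tv B g (c • e)}
      one_mem' := h1
      zero_mem' := ⟨1, fun v => by simp⟩
      add_mem' := fun ⟨x, hx⟩ ⟨y, hy⟩ => ⟨_, Tv_mul hS hx hy⟩
      neg_mem' := fun hx => by simpa [CharTwo.neg_eq] using hx
      mul_mem' := fun ha hb => by simpa using hdiv _ _ ha (hdiv _ _ h1 hb)
      inv_mem' := fun a ha => by simpa using hdiv _ _ h1 ha }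
  have hE : E = ⊤ := by
    refine H.real E (Set.range fun g : G => g • e)
      (by rintro g _ ⟨g', rfl⟩; exact ⟨g * g', mul_smul _ _ _⟩) ⟨e, ⟨1, one_smul _ _⟩, he⟩ ?_
    rintro _ ⟨g1, rfl⟩ _ ⟨g2, rfl⟩
    rw [hS.inv', ← mul_smul]
    have ht := hS.Tv_conj hs (g1⁻¹ * g2)
    generalize (g1⁻¹ * g2) • e = v at ht
    generalize g1⁻¹ * g2 * s * (g1⁻¹ * g2)⁻¹ = t at ht
    by_cases hv : B e v = 0
    · rw [hv]; exact E.zero_mem
    have ht' := hS.Tv_conj hs t
    rw [ht e] at ht'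
    obtain ⟨h, a1, a2, a3⟩ := H.torus_L hs hs' ht hl0 hv
    obtain ⟨h', b1, b2, b3⟩ := H.torus_L hs hs' ht' hl0 (by simp [H.alt, hv])
    have sy := hS.symm v e
    have a1' : h⁻¹ • e = l • e := by rw [inv_smul_eq_iff, gsmul, a1, smul_smul]; simp [hl0]
    have a2' : h⁻¹ • v = l⁻¹ • v := by rw [inv_smul_eq_iff, gsmul, a2, smul_smul]; simp [hl0]
    have b2' : h' • v = (B e v)⁻¹ • (l • (e + B e v • v) + l⁻¹ • e) := by
      rw [← b2, ← b1, ← smul_add, ← gsmul]
      congr 1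
      apply veq F; match_scalars <;> field_simp <;> grind
    have hT : Tv B (h' * h⁻¹) (((1 + l⁻¹) / B e v) • e) := fun x => by
      have hx : x = (x + (B x v / B e v) • e + (B x e / B e v) • v) + (B x v / B e v) • e +
        (B x e / B e v) • v := by vec2 F
      have c1 : B (x + (B x v / B e v) • e + (B x e / B e v) • v) e = 0 := by
        simp [H.alt, sy]; field_simp; grind
      have c2 : B (x + (B x v / B e v) • e + (B x e / B e v) • v) v = 0 := by
        simp [H.alt, sy]; field_simp; grind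
      have d1 := inv_smul_eq_iff.2 (a3 _ c1 c2).symm
      have d2 := b3 _ c1 (by rw [map_add, map_smul, c1, c2]; simp)
      conv_lhs => rw [hx, mul_smul, smul_add h⁻¹, smul_add h⁻¹, d1, smul_add, smul_add, d2]
      simp only [gsmul, a1', a2', b1, b2', map_smul, smul_eq_mul]
      apply veq F; match_scalars <;> field_simp <;> grind
    have hm : (1 + l⁻¹) / B e v ∈ E := ⟨_, hT⟩
    have hl : 1 + l⁻¹ ∈ E := E.add_mem E.one_mem (E.inv_mem ⟨_, hs'⟩)
    have h0 : 1 + l⁻¹ ≠ 0 := fun h => hl1 (by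
      have : l⁻¹ = 1 := by grind
      exact inv_eq_one.1 this)
    have := E.div_mem hl hm
    rwa [div_div_cancel₀ h0] at this
  exact (show c ∈ E from hE ▸ Subfield.mem_top c)

theorem no_big [IsSimpleGroup G] [Finite G] {s s' : G} {e : V} {l : F} (hs : Tv B s e)
    (hs' : Tv B s' (l • e)) (he : e ≠ 0) (hl0 : l ≠ 0) (hl1 : l ≠ 1) : False := by
  have hS := H.toSt
  have sy := hS.symm
  let X : Set V := {p | ∀ c : F, ∃ g : G, Tv B g (c • p)}
  have heX : e ∈ X := H.full hs hs' he hl0 hl1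
  have hG : ∀ g : G, ∀ v ∈ X, g • v ∈ X := fun g v hv c => by
    obtain ⟨x, hx⟩ := hv c
    exact ⟨_, gsmul g c v ▸ hS.Tv_conj hx g⟩
  have hsm : ∀ (c : F), ∀ v ∈ X, c • v ∈ X := fun c v hv d => by rw [smul_smul]; exact hv _
  have step : ∀ u ∈ X, ∀ v ∈ X, B v u ≠ 0 → ∀ μ : F, v + μ • u ∈ X := fun u hu v hv h μ => by
    obtain ⟨c, hc⟩ := exists_sq (μ / B v u)
    obtain ⟨x, hx⟩ := hu c
    have := hG x v hv
    rw [hx, map_smul, smul_eq_mul, smul_smul] at this
    convert this using 3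
    field_simp at hc
    grind
  have hgen : Subgroup.closure {g : G | ∃ p ∈ X, Tv B g p} = ⊤ := by
    have : (Subgroup.closure {g : G | ∃ p ∈ X, Tv B g p}).Normal := by
      refine ⟨fun n hn g => ?_⟩
      induction hn using Subgroup.closure_induction with
      | mem x hx =>
        obtain ⟨p, hp, hx⟩ := hx
        exact Subgroup.subset_closure ⟨_, hG g p hp, hS.Tv_conj hx g⟩
      | one => simp
      | mul x y _ _ hx hy => convert Subgroup.mul_mem _ hx hy using 1; group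
      | inv x _ hx => convert Subgroup.inv_mem _ hx using 1; group
    refine this.eq_bot_or_eq_top.resolve_left fun h => ?_
    have h1 : s = 1 := Subgroup.mem_bot.1 (h ▸ Subgroup.subset_closure ⟨e, heX, hs⟩)
    obtain ⟨w, hw⟩ := hS.exists_one he
    have := hs w
    rw [h1, one_smul, sy, hw, one_smul] at this
    exact he (by simpa using this)
  have common : ∀ u ∈ X, u ≠ 0 → ∀ v ∈ X, v ≠ 0 → ∃ w ∈ X, B u w ≠ 0 ∧ B v w ≠ 0 := by
    intro u hu hu0 v hv hv0
    let X1 : Set V := {v | v ∈ X ∧ ∃ w ∈ X, B u w ≠ 0 ∧ B v w ≠ 0}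
    have short : ∀ x ∈ X, ∀ y ∈ X1, B x y ≠ 0 → x ∈ X1 := by
      rintro x hx y ⟨hy, w, hw, h1, h2⟩ h3
      refine ⟨hx, ?_⟩
      by_cases h4 : B u y = 0
      · by_cases h5 : B x w = 0
        · exact ⟨_, step y hy w hw (sy _ _ ▸ h2) 1, by simpa [h4] using h1, by simpa [h5] using h3⟩
        · exact ⟨w, hw, h1, h5⟩
      · exact ⟨y, hy, h4, h3⟩
    have hinv : ∀ g : G, g ∈ stab G (Submodule.span F X1 : Set V) := by
      intro g
      refine (show Subgroup.closure {g : G | ∃ p ∈ X, Tv B g p} ≤ _ from ?_) (hgen ▸ Subgroup.mem_top g)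
      rw [Subgroup.closure_le]
      rintro x ⟨p, hp, hx⟩ y hy
      rw [hx]
      refine Submodule.add_mem _ hy ?_
      by_cases h : p ∈ X1
      · exact Submodule.smul_mem _ _ (Submodule.subset_span h)
      · have : Submodule.span F X1 ≤ LinearMap.ker (B p) := Submodule.span_le.2 fun y hy => by
          by_contra h'
          exact h (short p hp y hy h')
        rw [sy, show B p y = 0 from this hy, zero_smul]
        exact Submodule.zero_mem _
    obtain ⟨w, hw, hw'⟩ := H.exists_ne hG heX he hu0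
    have hT := (H.irr _ hinv).resolve_left fun h => hu0 ((Submodule.eq_bot_iff _).1 h u
      (Submodule.subset_span ⟨hu, w, hw, hw', hw'⟩))
    by_contra h
    have : Submodule.span F X1 ≤ LinearMap.ker (B v) := Submodule.span_le.2 fun y hy => by
      by_contra h'
      exact h (short v hv y hy h').2
    exact hv0 (H.nd v fun w => this (hT ▸ Submodule.mem_top))
  have h0 : (0 : V) ∈ X := fun c => ⟨1, fun v => by simp⟩
  have fin : ∀ u ∈ X, ∀ v ∈ X, B u v = 0 → ∀ w ∈ X, B u w ≠ 0 → B v w ≠ 0 → B u w ≠ B v w →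
      u + v ∈ X := fun u hu v hv huv w hw h1 h2 h3 => by
    have a1 := step u hu w hw (sy _ _ ▸ h1) 1
    have a2 := step v hv _ a1 (by simpa [huv, sy w v] using h2) 1
    have a3 := step w hw _ a2 (by simp [H.alt]; grind) 1
    convert a3 using 1
    vec2 F
  have fin2 : ∀ u ∈ X, ∀ v ∈ X, B u v = 0 → ∀ w ∈ X, B u w ≠ 0 → B v w ≠ 0 → ∀ w' ∈ X, B u w' ≠ 0 →
      B v w' = 0 → u + v ∈ X := fun u hu v hv huv w hw h1 h2 w' hw' h3 h4 => by
    by_cases h5 : B u w = B v w
    swap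
    · exact fin u hu v hv huv w hw h1 h2 h5
    obtain ⟨t, ht0, ht1⟩ := H.four
    have key : ∀ w' ∈ X, B u w' ≠ 0 → B v w' = 0 → B w w' ≠ 0 → u + v ∈ X := fun w' hw' h3 h4 h6 => by
      refine fin u hu v hv huv _ (step w' hw' w hw h6 (t * B u w / B u w')) ?_ ?_ ?_ <;>
      simp only [map_add, map_smul, smul_eq_mul, h4] <;> field_simp <;> grind
    by_cases h6 : B w w' = 0
    · refine key _ (step u hu w' hw' (sy _ _ ▸ h3) 1) ?_ ?_ ?_ <;>
      simp only [map_add, map_smul, smul_eq_mul, h4, h6, H.alt, sy v u, sy w u] <;> grind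
    · exact key w' hw' h3 h4 h6
  have hadd : ∀ u ∈ X, ∀ v ∈ X, u + v ∈ X := fun u hu v hv => by
    by_cases hu0 : u = 0
    · simpa [hu0] using hv
    by_cases hv0 : v = 0
    · simpa [hv0] using hu
    by_cases h : u + v = 0
    · rwa [h]
    by_cases huv : B u v = 0
    swap
    · simpa using step v hv u hu huv 1
    obtain ⟨w, hw, h1, h2⟩ := common u hu hu0 v hv hv0
    obtain ⟨w', hw', h3⟩ := H.exists_ne hG heX he h
    rw [map_add, LinearMap.add_apply] at h3
    by_cases h4 : B v w' = 0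
    · exact fin2 u hu v hv huv w hw h1 h2 w' hw' (by simpa [h4] using h3) h4
    by_cases h5 : B u w' = 0
    · rw [add_comm]
      exact fin2 v hv u hu (sy _ _ ▸ huv) w hw h2 h1 w' hw' h4 h5
    exact fin u hu v hv huv w' hw' h5 h4 (by grind)
  let W : Submodule F V :=
    { carrier := X
      add_mem' := fun ha hb => hadd _ ha _ hb
      zero_mem' := h0
      smul_mem' := fun c x hx => hsm c x hx }
  have hW := (H.irr W hG).resolve_left fun h => he ((Submodule.eq_bot_iff _).1 h e heX)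
  exact H.big fun p => by simpa using (show p ∈ W from hW ▸ Submodule.mem_top) 1

end Hyp

end CL.Sp4E
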