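import Cfsg.Agent.CLAS.Sp4E2
import Cfsg.Agent.FUS.SylIn

/-!
# The parabolic subgroups of a frame and fusion of involutions
-/

set_option autoImplicit false
set_option linter.unusedSectionVars false
set_option linter.unusedVariables false
set_option linter.unnecessarySeqFocus false

namespace CL.Sp4E

variable {F V G : Type*} [Field F] [CharP F 2] [Finite F] [AddCommGroup V] [Module F V] [Group G]
  [Finite G] [DistribMulAction G V] [SMulCommClass G F V] {B : LinearMap.BilinForm F V}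

namespace Frame

variable (R : Frame B)

/-- the line of the flag -/
def ln : Submodule F V where
  carrier := {v | B v R.e = 0 ∧ B v R.f = 0}
  add_mem' := fun h h' => by simp [h.1, h.2, h'.1, h'.2]
  zero_mem' := by simp
  smul_mem' := fun c x h => by simp [h.1, h.2]

theorem mem_ln {v : V} : v ∈ R.ln ↔ B v R.e = 0 ∧ B v R.f = 0 := Iff.rfl

/-- the stabiliser of the point -/
def Pe (G : Type*) [Group G] [Finite G] [MulAction G V] : Subgroup G := stab G ((F ∙ R.e : Submodule F V) : Set V)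

/-- the stabiliser of the line -/
def Pl (G : Type*) [Group G] [Finite G] [MulAction G V] : Subgroup G := stab G (R.ln : Set V)

theorem mem_Pe {x : G} : x ∈ R.Pe G ↔ ∃ μ : F, x • R.e = μ • R.e := by
  refine ⟨fun h => ?_, fun ⟨μ, h⟩ v hv => ?_⟩
  · obtain ⟨μ, h⟩ := Submodule.mem_span_singleton.1 (h _ (Submodule.mem_span_singleton_self R.e))
    exact ⟨μ, h.symm⟩
  · obtain ⟨c, rfl⟩ := Submodule.mem_span_singleton.1 hv
    exact Submodule.mem_span_singleton.2 ⟨c * μ, by rw [gsmul, h, mul_smul]⟩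

variable {R}

theorem Co.sqA {s : G} (hS : St G B) {X Y C D : F} (h : R.Co s X Y C D) (h0 : X * Y = 0) : s * s = 1 :=
  hS.co_ext (h.sq.congr rfl rfl h0 (by rw [pow_two, mul_assoc, h0, mul_zero])) co_one

variable (R)

/-- the radical of the point stabiliser -/
def RA (hS : St G B) : Subgroup G where
  carrier := {s | ∃ X C D : F, R.Co s X 0 C D}
  one_mem' := ⟨0, 0, 0, co_one⟩
  mul_mem' := fun ⟨_, _, _, h⟩ ⟨_, _, _, h'⟩ => ⟨_, _, _, (h.mul h').congr rfl (add_zero _) rfl rfl⟩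
  inv_mem' := fun ⟨_, _, _, h⟩ => ⟨_, _, _, by rwa [inv_eq_of_mul_eq_one_right (h.sqA hS (mul_zero _))]⟩

/-- the radical of the line stabiliser -/
def RB (hS : St G B) : Subgroup G where
  carrier := {s | ∃ Y C D : F, R.Co s 0 Y C D}
  one_mem' := ⟨0, 0, 0, co_one⟩
  mul_mem' := fun ⟨_, _, _, h⟩ ⟨_, _, _, h'⟩ => ⟨_, _, _, (h.mul h').congr (add_zero _) rfl rfl rfl⟩
  inv_mem' := fun ⟨_, _, _, h⟩ => ⟨_, _, _, by rwa [inv_eq_of_mul_eq_one_right (h.sqA hS (zero_mul _))]⟩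

end Frame

namespace St

variable (hS : St G B) {R : Frame B}
include hS

theorem ln_mem (a b : F) : a • R.e + b • R.f ∈ R.ln := by constructor <;> gsimp hS, R

theorem e_ln : R.e ∈ R.ln := by simpa using hS.ln_mem (R := R) 1 0

theorem f_ln : R.f ∈ R.ln := by simpa using hS.ln_mem (R := R) 0 1

theorem mem_Pl {y : G} : y ∈ R.Pl G ↔ y • R.e ∈ R.ln ∧ y • R.f ∈ R.ln := by
  refine ⟨fun h => ⟨h _ hS.e_ln, h _ hS.f_ln⟩, fun h v hv => ?_⟩
  rw [hS.exp_line R hv.1 hv.2, smul_add, gsmul, gsmul]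
  exact Submodule.add_mem _ (Submodule.smul_mem _ _ h.1) (Submodule.smul_mem _ _ h.2)

theorem RA_le : R.RA hS ≤ R.U G := fun _ ⟨_, _, _, h⟩ => h.mem

theorem RB_le : R.RB hS ≤ R.U G := fun _ ⟨_, _, _, h⟩ => h.mem

theorem RA_sq {s : G} (h : s ∈ R.RA hS) : s * s = 1 := let ⟨_, _, _, h⟩ := h; h.sqA hS (mul_zero _)

theorem RB_sq {s : G} (h : s ∈ R.RB hS) : s * s = 1 := let ⟨_, _, _, h⟩ := h; h.sqA hS (zero_mul _)

theorem RA_comm {s t : G} (h : s ∈ R.RA hS) (h' : t ∈ R.RA hS) : s * t = t * s := by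
  rw [← inv_eq_of_mul_eq_one_right (hS.RA_sq (mul_mem h h')), mul_inv_rev,
    inv_eq_of_mul_eq_one_right (hS.RA_sq h), inv_eq_of_mul_eq_one_right (hS.RA_sq h')]

theorem RB_comm {s t : G} (h : s ∈ R.RB hS) (h' : t ∈ R.RB hS) : s * t = t * s := by
  rw [← inv_eq_of_mul_eq_one_right (hS.RB_sq (mul_mem h h')), mul_inv_rev,
    inv_eq_of_mul_eq_one_right (hS.RB_sq h), inv_eq_of_mul_eq_one_right (hS.RB_sq h')]

theorem mem_RB {s : G} : s ∈ R.RB hS ↔ s • R.e = R.e ∧ s • R.f = R.f := by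
  refine ⟨fun ⟨_, _, _, h⟩ => ⟨h.e, by simpa using h.f⟩, fun h => ?_⟩
  obtain ⟨X, Y, C, D, h'⟩ := hS.exists_co R (s := s) ⟨h.1, 0, by simpa using h.2⟩
  have := congrArg (B · R.h) (h.2.symm.trans h'.f)
  gsimp hS, R at this
  exact ⟨Y, C, D, this ▸ h'⟩

theorem mem_Z {s : G} (h : s ∈ R.RA hS) (h' : s ∈ R.RB hS) : ∃ C D, R.Co s 0 0 C D := by
  obtain ⟨X, C, D, h⟩ := h
  obtain ⟨Y', C', D', h'⟩ := h'
  exact ⟨C, D, (hS.co_inj h h').1 ▸ h⟩

theorem invol {s : G} {X Y C D : F} (h : R.Co s X Y C D) (h2 : s * s = 1) : X = 0 ∨ Y = 0 :=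
  mul_eq_zero.1 (hS.co_inj h.sq (h2 ▸ Frame.co_one)).2.2.1

theorem invol' {s : G} (h : s ∈ R.U G) (h2 : s * s = 1) : s ∈ R.RA hS ∨ s ∈ R.RB hS := by
  obtain ⟨X, Y, C, D, h⟩ := hS.exists_co R h
  rcases hS.invol h h2 with rfl | rfl
  · exact Or.inr ⟨_, _, _, h⟩
  · exact Or.inl ⟨_, _, _, h⟩

theorem U_pgroup : IsPGroup 2 (R.U G) := fun ⟨s, hs⟩ => by
  obtain ⟨X, Y, C, D, h⟩ := hS.exists_co R hs
  exact ⟨2, Subtype.ext (by simpa [pow_succ, mul_assoc] using h.sq.sqA hS (zero_mul _))⟩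

theorem exists_frame_sylow (S : Sylow 2 G) : ∃ R : Frame B, (S : Subgroup G) = R.U G := by
  obtain ⟨R, h⟩ := hS.exists_flag S.isPGroup'
  exact ⟨R, (S.is_maximal' hS.U_pgroup h).symm⟩

theorem conj_co {s x : G} {X C D μ : F} (h : R.Co s X 0 C D) (hx : x • R.e = μ • R.e) :
    R.Co (x * s * x⁻¹) (μ * B (x • (X • R.g + C • R.f)) R.f) 0 (μ * B (x • (X • R.g + C • R.f)) R.g)
      (μ ^ 2 * D) := by
  have h1 := hS.Ei_conj (hS.co_Ei h) x
  rw [hx] at h1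
  have h2 := hS.inv x (X • R.g + C • R.f) R.e
  rw [hx] at h2
  generalize x • (X • R.g + C • R.f) = w at h1 h2 ⊢
  simpa using hS.Ei_co (Ei_scale μ h1) (by gsimp hS, R at h2 ⊢; exact h2)

theorem conjA {s x : G} (h : s ∈ R.RA hS) (hx : x ∈ R.Pe G) : x * s * x⁻¹ ∈ R.RA hS := by
  obtain ⟨μ, hx⟩ := R.mem_Pe.1 hx
  obtain ⟨X, C, D, h⟩ := h
  exact ⟨_, _, _, hS.conj_co h hx⟩

theorem RB_fix {s : G} (h : s ∈ R.RB hS) {v : V} (hv : v ∈ R.ln) : s • v = v := by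
  rw [hS.exp_line R hv.1 hv.2, smul_add, gsmul, gsmul, (hS.mem_RB.1 h).1, (hS.mem_RB.1 h).2]

theorem RB_im {s : G} (h : s ∈ R.RB hS) (v : V) : s • v + v ∈ R.ln := by
  obtain ⟨Y, C, D, h⟩ := h
  rw [hS.co_act h]
  constructor <;> gsimp hS, R <;> grind

theorem conjB {s y : G} (h : s ∈ R.RB hS) (hy : y ∈ R.Pl G) : y * s * y⁻¹ ∈ R.RB hS := by
  have := inv_mem hy
  rw [hS.mem_RB, mul_smul, mul_smul, mul_smul, mul_smul, hS.RB_fix h (this _ hS.e_ln),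
    hS.RB_fix h (this _ hS.f_ln), smul_inv_smul, smul_inv_smul]
  exact ⟨rfl, rfl⟩

theorem ln_iso {u v : V} (hu : u ∈ R.ln) (hv : v ∈ R.ln) : B u v = 0 := by
  rw [hS.pair R, hu.1, hu.2, hv.1, hv.2]; ring

theorem U_le_Pe : R.U G ≤ R.Pe G := fun s hs => R.mem_Pe.2 ⟨1, by simpa using hs.1⟩

theorem U_le_Pl : R.U G ≤ R.Pl G := fun s ⟨h1, x, h2⟩ => hS.mem_Pl.2 ⟨h1.symm ▸ hS.e_ln, by
  rw [h2]; exact Submodule.add_mem _ hS.f_ln (Submodule.smul_mem _ _ hS.e_ln)⟩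

theorem Pv_ln {s : G} (h : s ∈ R.U G) (h2 : s * s = 1) {p : V} (hp : Pv B s p) : p ∈ R.ln := by
  obtain ⟨X, Y, C, D, h⟩ := hS.exists_co R h
  obtain ⟨a, ha⟩ := exists_sq D
  obtain ⟨b, hb⟩ := exists_sq Y
  rw [hS.Pv_unique hp (hS.co_Pv h (mul_eq_zero.2 (hS.invol h h2)) ha hb)]
  exact hS.ln_mem a b

theorem Pv_z {z : G} (hz : R.Co z 0 0 1 1) : Pv B z R.e := by
  simpa using hS.co_Pv (a := 1) (b := 0) hz (by simp) (by simp) (by simp)

theorem K1 {b z g : G} {C D : F} (hb : R.Co b 0 1 C D) (hz : R.Co z 0 0 1 1)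
    (h1 : g * b * g⁻¹ ∈ R.U G) (h2 : g * z * g⁻¹ ∈ R.U G) : g ∈ R.Pl G := by
  obtain ⟨a, ha⟩ := exists_sq D
  have e1 := hS.Pv_ln h1 (by rw [conj_mul, hb.sqA hS (by simp)]; simp)
    (hS.Pv_conj (hS.co_Pv hb (by simp) ha (one_pow 2)) g)
  have e2 := hS.Pv_ln h2 (by rw [conj_mul, hz.sqA hS (by simp)]; simp) (hS.Pv_conj (hS.Pv_z hz) g)
  refine hS.mem_Pl.2 ⟨e2, ?_⟩
  rw [smul_add, gsmul, gsmul, one_smul] at e1
  exact (Submodule.add_mem_iff_right _ (Submodule.smul_mem _ _ e2)).1 e1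

theorem K2 {a z g : G} {C D : F} (ha : R.Co a 1 0 C D) (hz : R.Co z 0 0 1 1)
    (h1 : g * a * g⁻¹ ∈ R.U G) (h2 : g * z * g⁻¹ ∈ R.U G) : g ∈ R.Pe G := by
  obtain ⟨X, Y, C1, D1, h1'⟩ := hS.exists_co R h1
  obtain ⟨X', Y', C', D', h2'⟩ := hS.exists_co R h2
  have hz2 : g * z * g⁻¹ * (g * z * g⁻¹) = 1 := by rw [conj_mul, hz.sqA hS (by simp)]; simp
  by_cases hY : Y' = 0
  · obtain ⟨c, hc⟩ := exists_sq D'
    refine R.mem_Pe.2 ⟨c, ?_⟩
    simpa using hS.Pv_unique (hS.Pv_conj (hS.Pv_z hz) g)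
      (hS.co_Pv (b := 0) h2' (by simp [hY]) hc (by simp [hY]))
  exfalso
  obtain rfl : X' = 0 := (hS.invol h2' hz2).resolve_right hY
  have hc : g * a * g⁻¹ * (g * z * g⁻¹) = g * z * g⁻¹ * (g * a * g⁻¹) := by
    rw [conj_mul, conj_mul, hS.RA_comm ⟨_, _, _, ha⟩ ⟨_, _, _, hz⟩]
  have h3 := (hS.co_inj (h1'.mul h2') (hc ▸ h2'.mul h1')).2.2.1
  obtain rfl : X = 0 := by
    have : X * Y' = 0 := by grind
    simpa [hY] using this
  have := hS.ln_iso (hS.RB_im ⟨_, _, _, h1'⟩ (g • R.h)) (hS.RB_im ⟨_, _, _, h2'⟩ (g • R.h))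
  simp only [mul_smul, inv_smul_smul, ← smul_add, hS.inv, ha.h, hz.h] at this
  gsimp hS, R at this
  grind

theorem fus {S : Sylow 2 G} (hU : (S : Subgroup G) = R.U G) {a b z : G} {C D C' D' : F}
    (ha : R.Co a 1 0 C D) (hb : R.Co b 0 1 C' D') (hz : R.Co z 0 0 1 1) {s t g : G}
    (hs : s ∈ R.RA hS) (ht : t ∈ R.RB hS) (hg : g * t * g⁻¹ = s) :
    ∃ x ∈ R.Pe G, ∃ y ∈ R.Pl G, x * s * x⁻¹ ∈ R.RB hS ∧ y * t * y⁻¹ ∈ R.RA hS := by
  obtain ⟨T, hT, h1⟩ := Fus.exists_sylIn_ge (p := 2) (C := R.RA hS) (B := Subgroup.centralizer {s})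
    (fun x hx => Subgroup.mem_centralizer_singleton_iff.2 (hS.RA_comm hx hs))
    (hS.U_pgroup.to_le hS.RA_le)
  obtain ⟨c, hc, h2⟩ := hT.exists_conj_le (C := (R.RB hS).map (MulAut.conj g).toMonoidHom)
    (by
      rintro _ ⟨x, hx, rfl⟩
      refine Subgroup.mem_centralizer_singleton_iff.2 ?_
      change g * x * g⁻¹ * s = s * (g * x * g⁻¹)
      rw [← hg, conj_mul, conj_mul, hS.RB_comm hx ht])
    ((hS.U_pgroup.to_le hS.RB_le).map _)
  obtain ⟨x, -, h3⟩ := (Fus.sylIn_top S).exists_conj_le le_top hT.isPGroup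
  rw [hU] at h3
  have h4 : ∀ r ∈ R.RB hS, x * c * g * r * (x * c * g)⁻¹ ∈ R.U G := fun r hr => by
    convert h3 _ (h2 _ ⟨r, hr, rfl⟩) using 1
    simp [mul_assoc]
  have hx := hS.K2 ha hz (h3 _ (h1 ⟨_, _, _, ha⟩)) (h3 _ (h1 ⟨_, _, _, hz⟩))
  have hy := hS.K1 hb hz (h4 _ ⟨_, _, _, hb⟩) (h4 _ ⟨_, _, _, hz⟩)
  have h5 : x * s * x⁻¹ = x * c * g * t * (x * c * g)⁻¹ := by
    have := Subgroup.mem_centralizer_singleton_iff.1 hc
    calc x * s * x⁻¹ = x * (c * s * c⁻¹) * x⁻¹ := by rw [this, mul_inv_cancel_right]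
      _ = _ := by rw [← hg]; group
  exact ⟨x, hx, _, hy, h5 ▸ hS.conjB ht hy, h5 ▸ hS.conjA hs hx⟩

theorem perp_of_Pe {x : G} (hx : x ∈ R.Pe G) {v : V} (hv : B v R.e = 0) : B (x • v) R.e = 0 := by
  obtain ⟨μ, h⟩ := R.mem_Pe.1 (inv_mem hx)
  rw [hS.inv', h, map_smul, hv, smul_zero]

theorem not_Pl {x : G} (hx : x ∈ R.Pe G) (hx' : x ∉ R.Pl G) : B (x • R.f) R.f ≠ 0 := fun h => by
  obtain ⟨μ, h1⟩ := R.mem_Pe.1 hx
  exact hx' (hS.mem_Pl.2 ⟨h1 ▸ Submodule.smul_mem _ _ hS.e_ln,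
    hS.perp_of_Pe hx (by gsimp hS, R), h⟩)

theorem not_Pe {y : G} (hy : y ∈ R.Pl G) (hy' : y ∉ R.Pe G) : B (y • R.e) R.g ≠ 0 := fun h => by
  have h1 := hy _ hS.e_ln
  have := hS.exp_line R h1.1 h1.2
  rw [h, zero_smul, add_zero] at this
  exact hy' (R.mem_Pe.2 ⟨_, this⟩)

end St

namespace Hyp

variable [IsSimpleGroup G] (H : Hyp G B) {R : Frame B}
include H

theorem H1 {a b z x s : G} {C D C' D' : F} (ha : R.Co a 1 0 C D) (hb : R.Co b 0 1 C' D')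
    (hz : R.Co z 0 0 1 1) (hx : x ∈ R.Pe G) (hx' : x ∉ R.Pl G) {X Y C₁ D₁ : F}
    (hs : R.Co s X Y C₁ D₁) : Y = 0 ∨ Y = 1 := by
  have hS := H.toSt
  by_contra hY
  push Not at hY
  have hβ := hS.not_Pl hx hx'
  have hv := hS.perp_of_Pe hx (v := R.f) (by gsimp hS, R)
  have hv' := hS.perp_of_Pe (inv_mem hx) (v := R.f) (by gsimp hS, R)
  obtain ⟨μ, hμ⟩ := R.mem_Pe.1 hx
  obtain ⟨μ', hμ'⟩ := R.mem_Pe.1 (inv_mem hx)
  have m : ∀ {v : V} (c : F), v = c • R.e → v ∈ F ∙ R.e := fun c h =>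
    Submodule.mem_span_singleton.2 ⟨c, h.symm⟩
  obtain ⟨h, hK, l, hl, h1, -⟩ := torus (K := MulAction.stabilizer G R.e) (N := F ∙ R.e)
    (fun k hk n hn => by
      obtain ⟨c, rfl⟩ := Submodule.mem_span_singleton.1 hn
      exact m c (by rw [gsmul, hk])) (s := b) (s' := s) (t := x * b * x⁻¹) hb.e hs.e
    (by
      change (x * b * x⁻¹) • R.e = R.e
      rw [mul_smul, mul_smul, hμ', gsmul, hb.e, ← hμ', smul_inv_smul])
    (u := R.f) (v := x • R.f) hβ (mul_ne_zero hY.1 hβ) hβ (m 0 (by rw [hb.f]; simp))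
    (m (B (x • R.f) R.f * C') (by rw [hS.co_act hb, hv]; gact G; module))
    (m X (by rw [hs.f]; simp))
    (m (B (x • R.f) R.f * C₁ + B (x • R.f) R.g * X) (by rw [hS.co_act hs, hv]; gact G; module))
    (m 0 (by simp [mul_smul, hb.f]))
    (m (B (x • R.f) R.f * C' * μ) (by
      rw [mul_smul, mul_smul, hS.co_act hb, hv', hS.inv'', hS.symm R.f]
      simp only [smul_add, gsmul, smul_inv_smul, hμ]
      gact G; module))
  replace hl : l ^ 2 = Y := mul_right_cancel₀ hβ hl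
  have hl0 : l ≠ 0 := by rintro rfl; exact hY.1 (by simp [← hl])
  have hl1 : l ≠ 1 := by rintro rfl; exact hY.2 (by simp [← hl])
  obtain ⟨κ, hκ⟩ := Submodule.mem_span_singleton.1 h1
  have hf : h • R.f = l⁻¹ • R.f + κ • R.e := by rw [hκ, add_sub_cancel]
  have he : h • R.e = (1 : F) • R.e := by rw [one_smul]; exact hK
  have c1 : ∀ {z : G} {C D : F}, R.Co z 0 0 C D → R.Co (h * z * h⁻¹) 0 0 (l⁻¹ * C) D := fun hz => by
    refine (hS.conj_co hz he).congr ?_ rfl ?_ (by simp) <;>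
    simp only [zero_smul, zero_add, gsmul, hf] <;> gsimp hS, R <;> ring
  have c2 : ∀ {z : G} {C D : F}, R.Co z 0 0 C D → ∃ z' : G, R.Co z' 0 0 0 D := by
    intro z C D hz
    have h0 : 1 + l⁻¹ ≠ 0 := fun h => hl1 (inv_eq_one.1 (by grind))
    have : ∀ k : ℕ, ∃ z' : G, R.Co z' 0 0 ((1 + l⁻¹) ^ (k + 1) * C) 0 := fun k => by
      induction k with
      | zero => exact ⟨_, (hz.mul (c1 hz)).congr (by simp) (by simp) (by ring) (by grind)⟩
      | succ k ih =>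
        obtain ⟨z', ih⟩ := ih
        exact ⟨_, (ih.mul (c1 ih)).congr (by simp) (by simp) (by ring) (by simp)⟩
    obtain ⟨k, hk0, hk⟩ := isOfFinOrder_iff_pow_eq_one.1 (isOfFinOrder_iff_isUnit.2 h0.isUnit)
    obtain ⟨z', hz'⟩ := this (k - 1)
    rw [Nat.sub_add_cancel hk0, hk] at hz'
    exact ⟨_, (hz.mul hz').congr (by simp) (by simp) (by grind) (by simp)⟩
  obtain ⟨t, ht⟩ := c2 hz
  have h2 := hS.inv h ((1 : F) • R.g + C • R.f) R.f
  have h3 := hS.inv h ((1 : F) • R.g + C • R.f) R.e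
  rw [hf] at h2
  rw [hK] at h3
  have ha' := hS.conj_co ha he
  generalize h • ((1 : F) • R.g + C • R.f) = w at h2 h3 ha'
  gsimp hS, R at h2 h3
  obtain ⟨t', ht'⟩ := c2 (ha'.mul hb).sq
  have h4 : B w R.f = l := by rw [h3] at h2; field_simp at h2; simpa using h2
  refine H.no_big (s := t) (s' := t') (e := R.e) (l := l) ?_ ?_ R.e_ne hl0 hl1
  · simpa using hS.co_Tv (a := 1) (b := 0) (ht.congr rfl (by simp) (by simp) (by simp))
  · simpa using hS.co_Tv (a := l) (b := 0) (ht'.congr rfl (by simp) (by simp) (by simp [h4]))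

theorem H2 {a z y s : G} {C D : F} (ha : R.Co a 1 0 C D) (hz : R.Co z 0 0 1 1) (hy : y ∈ R.Pl G)
    (hy' : y ∉ R.Pe G) {X Y C₁ D₁ : F} (hs : R.Co s X Y C₁ D₁) : X = 0 ∨ X = 1 := by
  have hS := H.toSt
  by_contra hX
  push Not at hX
  have hβ := hS.not_Pe hy hy'
  have hγ := hS.not_Pe (inv_mem hy) (fun h => hy' (by simpa using h))
  have hv := hy _ hS.e_ln
  have hv' := inv_mem hy _ hS.e_ln
  obtain ⟨h, -, l, hl, h1, h2⟩ := torus (K := ⊤) (N := (⊥ : Submodule F V)) (by simp) (s := a) (s' := s)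
    (t := y * a * y⁻¹) trivial trivial trivial (u := R.e) (v := y • R.e) hβ (mul_ne_zero hX.1 hβ) hγ
    (by simp [ha.e]) (by rw [hS.co_act ha, hv.1, hv.2]; simp) (by simp [hs.e])
    (by rw [hS.co_act hs, hv.1, hv.2]; simp [mul_comm]) (by simp [mul_smul, ha.e])
    (by
      rw [mul_smul, mul_smul, hS.co_act ha, hv'.1, hv'.2]
      simp [smul_add, gsmul])
  replace hl : l ^ 2 = X := mul_right_cancel₀ hβ hl
  have hl0 : l ≠ 0 := by rintro rfl; exact hX.1 (by simp [← hl])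
  have hl1 : l ≠ 1 := by rintro rfl; exact hX.2 (by simp [← hl])
  replace h1 : h • R.e = l⁻¹ • R.e := sub_eq_zero.1 h1
  replace h2 := sub_eq_zero.1 h2
  rw [hS.exp_line R hv.1 hv.2, smul_add, gsmul, gsmul, h1] at h2
  have h3 := congrArg (B · R.f) h2
  have h4 := congrArg (B · R.g) h2
  gsimp hS, R at h3 h4
  have hz' := hS.conj_co hz h1
  simp only [zero_smul, zero_add, one_smul] at hz'
  have h5 : B (h • R.f) R.f = 0 := by simpa [hβ] using h3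
  have h6 : B (h • R.f) R.g = l := mul_left_cancel₀ hβ (h4.trans (mul_comm _ _))
  have ht : Tv B (z * (h * z * h⁻¹)) ((1 + l⁻¹) • R.e) := by
    simpa using hS.co_Tv (a := 1 + l⁻¹) (b := 0) ((hz.mul hz').congr (by simp [h5]) (by simp)
      (by rw [h6, inv_mul_cancel₀ hl0]; grind) (by rw [h5]; grind))
  have ht' := hS.Tv_conj ht h
  rw [gsmul, h1, smul_comm] at ht'
  exact H.no_big ht ht' (smul_ne_zero (fun h => hl1 (inv_eq_one.1 (by grind))) R.e_ne) (inv_ne_zero hl0)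
    (fun h => hl1 (inv_eq_one.1 h))

end Hyp

end CL.Sp4E
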