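import Cfsg.Agent.CLAS.Sp4E3
import Cfsg.Agent.CLAS.SLBasic

/-!
# `SL₂(2 ^ n)` is not a residual subgroup of `Sp₄`
-/

set_option autoImplicit false
set_option linter.unusedSectionVars false
set_option linter.unusedVariables false
set_option linter.unnecessarySeqFocus false

namespace CL.Sp4E

open Matrix
open scoped MatrixGroups

variable {F V G : Type*} [Field F] [CharP F 2] [Finite F] [AddCommGroup V] [Module F V] [Group G]
  [Finite G] [DistribMulAction G V] [SMulCommClass G F V] {B : LinearMap.BilinForm F V}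

/-- generators and relations of `SL₂(K)` -/
structure L2 {K : Type*} [Field K] (u l w : K → G) : Prop where
  hu : ∀ a b, u (a + b) = u a * u b
  h1 : u 1 ≠ 1
  hw : ∀ a, a ≠ 0 → w a = u a * l a⁻¹ * u a
  hwu : ∀ a, a ≠ 0 → ∀ b, w a * u b = l (b / a ^ 2) * w a
  hw2 : ∀ a, a ≠ 0 → w a * w a = 1
  hwt : ∀ a, a ≠ 0 → ∀ b, b ≠ 0 → w a * w 1 * w b = w b * w 1 * w a
  gen : ∀ P : G → Prop, (∀ a, P (u a)) → (∀ a, P (l a)) → (∀ x y, P x → P y → P (x * y)) → ∀ g, P g

namespace L2

variable {K : Type*} [Field K] {u l w : K → G} (L : L2 u l w)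
include L

theorem u0 : u 0 = 1 := by simpa using L.hu 0 0

theorem l_eq (b : K) : l b = w 1 * u b * w 1 := by
  rw [L.hwu 1 one_ne_zero, mul_assoc, L.hw2 1 one_ne_zero]; simp

theorem l0 : l 0 = 1 := by rw [L.l_eq, L.u0, mul_one, L.hw2 1 one_ne_zero]

theorem hwl {a : K} (ha : a ≠ 0) (b : K) : w a * l b = u (b * a ^ 2) * w a := by
  have h := L.hwu a ha (b * a ^ 2)
  rw [mul_div_cancel_right₀ _ (pow_ne_zero 2 ha)] at h
  calc w a * l b = w a * (l b * w a) * w a := by rw [mul_assoc, mul_assoc, L.hw2 a ha, mul_one]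
    _ = _ := by rw [← h, ← mul_assoc, L.hw2 a ha, one_mul]

end L2

namespace Hyp

variable (H : Hyp G B)
include H

theorem avg (S : Subgroup G) (hS : Odd S.index) (Q : V → F) (h1 : ∀ (c : F) (v : V), Q (c • v) = c ^ 2 * Q v)
    (h2 : ∀ u v, Q (u + v) = Q u + Q v + B u v) (h3 : ∀ s ∈ S, ∀ v, Q (s • v) = Q v) : False := by
  have := Fintype.ofFinite (G ⧸ S)
  let f : V → G ⧸ S → F := fun v c => Quotient.liftOn' c (fun x => Q (x⁻¹ • v)) fun x y h => by
    rw [QuotientGroup.leftRel_apply] at h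
    rw [← h3 _ h (y⁻¹ • v), ← mul_smul, mul_inv_cancel_right]
  have hf : ∀ v (x : G), f v x = Q (x⁻¹ • v) := fun _ _ => rfl
  refine H.quad (fun v => ∑ c, f v c) (fun c v => ?_) (fun u v => ?_) fun g v => ?_
  · rw [Finset.mul_sum]
    refine Finset.sum_congr rfl fun x _ => ?_
    induction x using QuotientGroup.induction_on with | H x => rw [hf, hf, gsmul, h1]
  · have : ∑ c : G ⧸ S, B u v = B u v := by
      obtain ⟨k, hk⟩ := hS
      rw [Finset.sum_const, Finset.card_univ, ← Nat.card_eq_fintype_card, ← Subgroup.index_eq_card, hk,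
        nsmul_eq_mul]
      push_cast
      grind
    rw [← this, ← Finset.sum_add_distrib, ← Finset.sum_add_distrib]
    refine Finset.sum_congr rfl fun x _ => ?_
    induction x using QuotientGroup.induction_on with | H x => rw [hf, hf, hf, smul_add, h2, H.inv]
  · refine (Fintype.sum_equiv (MulAction.toPerm g) _ _ fun x => ?_).symm
    induction x using QuotientGroup.induction_on with | H x =>
    rw [MulAction.toPerm_apply, MulAction.Quotient.smul_mk, hf, hf, smul_eq_mul, _root_.mul_inv_rev,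
      mul_smul, inv_smul_smul]

variable {K : Type*} [Field K] {u l w : K → G} (L : L2 u l w)
include L

theorem no_quadratic (hq : ∀ a b (v : V), u a • (u b • v + v) = u b • v + v) : False := by
  let fx : (K → G) → Submodule F V := fun u =>
    { carrier := {v | ∀ a, u a • v = v}
      add_mem' := fun h h' a => by rw [smul_add, h a, h' a]
      zero_mem' := fun a => smul_zero _
      smul_mem' := fun c x h a => by rw [gsmul, h a] }
  have w2 : ∀ {a : K}, a ≠ 0 → ∀ v : V, w a • w a • v = v := fun ha v => by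
    rw [← mul_smul, L.hw2 _ ha, one_smul]
  have wu : ∀ {a : K}, a ≠ 0 → ∀ v ∈ fx u, w a • v ∈ fx l := fun {a} ha v hv b => by
    have := L.hwu a ha (b * a ^ 2)
    rw [mul_div_cancel_right₀ _ (pow_ne_zero 2 ha)] at this
    rw [← mul_smul, ← this, mul_smul, hv]
  have wl : ∀ {a : K}, a ≠ 0 → ∀ v ∈ fx l, w a • v ∈ fx u := fun {a} ha v hv b => by
    have := L.hwl ha (b / a ^ 2)
    rw [div_mul_cancel₀ _ (pow_ne_zero 2 ha)] at this
    rw [← mul_smul, ← this, mul_smul, hv]
  have xu : ∀ a (v : V), u a • v + v ∈ fx u := fun a v b => hq b a v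
  have xl : ∀ a (v : V), l a • v + v ∈ fx l := fun a v => by
    have := wu one_ne_zero _ (xu a (w 1 • v))
    rwa [smul_add, w2 one_ne_zero, ← mul_smul, ← mul_smul, ← L.l_eq] at this
  have nt : fx u ≠ ⊤ := fun h => L.h1 (H.faith _ fun v => (show v ∈ fx u from h ▸ Submodule.mem_top) 1)
  have inf : ∀ v ∈ fx u, v ∈ fx l → v = 0 := fun v h h' => by
    refine (Submodule.eq_bot_iff _).1 ((H.irr (fx u ⊓ fx l) fun g x hx => ?_).resolve_right
      fun e => nt (eq_top_iff.2 (e ▸ inf_le_left))) v ⟨h, h'⟩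
    rwa [L.gen (fun g => g • x = x) hx.1 hx.2 (fun a b ha hb => by rw [mul_smul, hb, ha]) g]
  obtain ⟨v0, hv0, hv0'⟩ : ∃ v ∈ fx u, v ≠ 0 := by
    by_contra h
    push Not at h
    refine L.h1 (H.faith _ fun v => ?_)
    have := h _ (xu 1 v)
    calc u 1 • v = u 1 • v + v + v := by gact G; vec2 F
      _ = v := by rw [this, zero_add]
  have sup : fx u ⊔ fx l = ⊤ := by
    refine (H.irr _ (L.gen _ (fun a v hv => ?_) (fun a v hv => ?_)
      fun a b ha hb v hv => by rw [mul_smul]; exact ha _ (hb _ hv))).resolve_left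
      fun e => hv0' ((Submodule.eq_bot_iff _).1 e _ (Submodule.mem_sup_left hv0))
    · convert Submodule.add_mem _ (Submodule.mem_sup_left (xu a v)) hv using 1
      gact G; vec2 F
    · convert Submodule.add_mem _ (Submodule.mem_sup_right (xl a v)) hv using 1
      gact G; vec2 F
  have e1 : ∀ {a : K}, a ≠ 0 → ∀ v ∈ fx u, l a⁻¹ • v = v + w a • v := fun {a} ha v hv => by
    have h1 : w a • v = u a • l a⁻¹ • v := by rw [L.hw a ha, mul_smul, mul_smul, hv]
    have h2 := inf (u a • l a⁻¹ • v + l a⁻¹ • v + v) (Submodule.add_mem _ (xu _ _) hv) (by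
      convert Submodule.add_mem _ (wu ha v hv) (xl a⁻¹ v) using 1
      rw [h1, add_assoc])
    rw [h1, ← add_zero (v + u a • l a⁻¹ • v), ← h2]
    gact G; vec2 F
  have e2 : ∀ {a : K}, a ≠ 0 → ∀ v ∈ fx l, u a • v = v + w a • v := fun {a} ha v hv => by
    have h1 := e1 ha _ (wl ha v hv)
    have h2 : u a • l a⁻¹ • w a • v = v + (u a • v + v + w a • v) := by
      rw [h1, smul_add, wl ha v hv, w2 ha]; gact G; vec2 F
    have h3 : u a • l a⁻¹ • u a • w a • v = v := by
      rw [← mul_smul, ← mul_smul, ← L.hw a ha, w2 ha]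
    rw [wl ha v hv, h2, add_eq_left] at h3
    rw [← add_zero (u a • v), ← h3]; gact G; vec2 F
  have key : ∀ {a : K}, a ≠ 0 → ∃ c : F, w a • w 1 • v0 = c • v0 := fun {a} ha => by
    let X := DistribSMul.toLinearMap F V (u a) + LinearMap.id
    let Y := DistribSMul.toLinearMap F V (l 1) + LinearMap.id
    have hX : ∀ v, X v = u a • v + v := fun _ => rfl
    have hY : ∀ v, Y v = l 1 • v + v := fun _ => rfl
    have X1 : ∀ v ∈ fx u, X v = 0 := fun v hv => by rw [hX, hv]; vec2 F
    have Y1 : ∀ v ∈ fx l, Y v = 0 := fun v hv => by rw [hY, hv]; vec2 F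
    have X2 : ∀ v ∈ fx l, X v = w a • v := fun v hv => by rw [hX, e2 ha v hv]; gact G; vec2 F
    have Y2 : ∀ v ∈ fx u, Y v = w 1 • v := fun v hv => by
      rw [hY, ← inv_one, e1 one_ne_zero v hv, inv_one]; gact G; vec2 F
    have p1 : ∀ v ∈ fx u, (X * Y + Y * X) v = w a • w 1 • v := fun v hv => by
      simp [X1 v hv, Y2 v hv, X2 _ (wu one_ne_zero v hv)]
    have p2 : ∀ v ∈ fx l, (X * Y + Y * X) v = w 1 • w a • v := fun v hv => by
      simp [Y1 v hv, X2 v hv, Y2 _ (wl ha v hv)]
    generalize X * Y + Y * X = ψ at p1 p2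
    have dec : ∀ g : G, (∀ v ∈ fx u, ψ (g • v) = g • ψ v) → (∀ v ∈ fx l, ψ (g • v) = g • ψ v) →
        ∀ v, ψ (g • v) = g • ψ v := fun g h1 h2 v => by
      obtain ⟨p, hp, p', hp', rfl⟩ := Submodule.mem_sup.1 (show v ∈ fx u ⊔ fx l from sup ▸ Submodule.mem_top)
      rw [smul_add, map_add, map_add, smul_add, h1 p hp, h2 p' hp']
    suffices h : ∀ (g : G) (v : V), ψ (g • v) = g • ψ v by
      obtain ⟨c, hc⟩ := H.cen ψ h
      exact ⟨c, by rw [← hc, p1 _ hv0]⟩
    refine L.gen _ (fun b => dec _ (fun v hv => ?_) fun v hv => ?_)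
      (fun b => dec _ (fun v hv => ?_) fun v hv => ?_)
      fun x y hx hy v => by rw [mul_smul, hx, hy, mul_smul]
    · rw [hv, p1 v hv, wl ha _ (wu one_ne_zero v hv)]
    · by_cases hb : b = 0
      · simp [hb, L.u0]
      rw [e2 hb v hv, map_add, p2 v hv, p1 _ (wl hb v hv), e2 hb _ (wu one_ne_zero _ (wl ha v hv))]
      simp only [← mul_smul, ← mul_assoc, L.hwt a ha b hb]
    · by_cases hb : b = 0
      · simp [hb, L.l0]
      rw [← inv_inv b, e1 (inv_ne_zero hb) v hv, map_add, p1 v hv, p2 _ (wu (inv_ne_zero hb) v hv),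
        e1 (inv_ne_zero hb) _ (wl ha _ (wu one_ne_zero v hv))]
      congr 1
      have := L.hwt a ha _ (inv_ne_zero hb)
      simp only [← mul_smul]
      congr 1
      calc w 1 * (w a * w b⁻¹) = w b⁻¹ * (w b⁻¹ * w 1 * w a) * w b⁻¹ := by
            simp only [← mul_assoc, L.hw2 _ (inv_ne_zero hb), one_mul]
        _ = _ := by rw [← this]; simp only [mul_assoc, L.hw2 _ (inv_ne_zero hb), mul_one]
    · rw [hv, p2 v hv, wu one_ne_zero _ (wl ha v hv)]
  have m1 : v0 ∈ Submodule.span F {v0, w 1 • v0} := Submodule.subset_span (by simp)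
  have m2 : w 1 • v0 ∈ Submodule.span F {v0, w 1 • v0} := Submodule.subset_span (by simp)
  have red : ∀ g : G, g • v0 ∈ Submodule.span F {v0, w 1 • v0} →
      g • w 1 • v0 ∈ Submodule.span F {v0, w 1 • v0} →
      ∀ v ∈ Submodule.span F {v0, w 1 • v0}, g • v ∈ Submodule.span F {v0, w 1 • v0} := by
    intro g h1 h2 v hv
    obtain ⟨a, b, rfl⟩ := Submodule.mem_span_pair.1 hv
    rw [smul_add, gsmul, gsmul]
    exact Submodule.add_mem _ (Submodule.smul_mem _ _ h1) (Submodule.smul_mem _ _ h2)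
  have hT := (H.irr (Submodule.span F {v0, w 1 • v0}) (L.gen _ (fun a => red _ ?_ ?_)
    (fun a => red _ ?_ ?_) fun a b ha hb v hv => by rw [mul_smul]; exact ha _ (hb _ hv))).resolve_left
    fun e => hv0' ((Submodule.eq_bot_iff _).1 e _ m1)
  · classical
    have h1 := finrank_span_le_card (R := F) ({v0, w 1 • v0} : Set V)
    have h2 : ({v0, w 1 • v0} : Set V).toFinset.card ≤ 2 := by
      rw [Set.toFinset_insert, Set.toFinset_singleton]; exact Finset.card_le_two
    rw [hT, finrank_top, H.dim] at h1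
    omega
  · rwa [hv0]
  · by_cases ha : a = 0
    · simpa [ha, L.u0] using m2
    obtain ⟨c, hc⟩ := key ha
    rw [e2 ha _ (wu one_ne_zero _ hv0), hc]
    exact Submodule.add_mem _ m2 (Submodule.smul_mem _ _ m1)
  · by_cases ha : a = 0
    · simpa [ha, L.l0] using m1
    obtain ⟨c, hc⟩ := key (inv_ne_zero ha)
    have h1 := congrArg (w a⁻¹ • ·) hc
    simp only [w2 (inv_ne_zero ha), gsmul] at h1
    have hc0 : c ≠ 0 := by
      rintro rfl
      rw [zero_smul, smul_eq_zero_iff_eq] at h1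
      exact hv0' h1
    rw [← inv_inv a, e1 (inv_ne_zero ha) _ hv0]
    exact Submodule.add_mem _ m1 ((Submodule.smul_mem_iff _ hc0).1 (h1 ▸ m2))
  · rwa [wu one_ne_zero _ hv0]

theorem no_L2 [CharP K 2] [Finite K] (S : Subgroup G) (hS' : ∀ s, s ∈ S ↔ ∃ a, u a = s)
    (hodd : Odd S.index) : False := by
  have hS := H.toSt
  have u2 : ∀ a, u a * u a = 1 := fun a => by rw [← L.hu, CharTwo.add_self_eq_zero, L.u0]
  obtain ⟨R, hR⟩ := hS.exists_flag (S := S) fun ⟨s, hs⟩ => ⟨1, Subtype.ext (by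
    obtain ⟨a, rfl⟩ := (hS' s).1 hs
    simpa [sq] using u2 a)⟩
  have hU : ∀ a, u a ∈ R.U G := fun a => hR ((hS' _).2 ⟨a, rfl⟩)
  by_cases hB : ∀ a, u a ∈ R.RB hS
  · exact H.no_quadratic L fun a b v => hS.RB_fix (hB a) (hS.RB_im (hB b) v)
  push Not at hB
  obtain ⟨a0, ha0⟩ := hB
  have hA : ∀ a, ∃ X C D, R.Co (u a) X 0 C D := fun a => by
    obtain ⟨X0, C0, D0, h0⟩ := (hS.invol' (hU a0) (u2 a0)).resolve_right ha0
    obtain ⟨X, Y, C, D, h⟩ := hS.exists_co R (hU a)
    have h1 := (hS.co_inj (h0.mul h) (by rw [← L.hu, add_comm, L.hu]; exact h.mul h0)).2.2.1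
    have h2 : X0 ≠ 0 := by rintro rfl; exact ha0 ⟨_, _, _, h0⟩
    have h3 : X0 * Y = 0 := by grind
    obtain rfl := (mul_eq_zero.1 h3).resolve_left h2
    exact ⟨_, _, _, h⟩
  choose X C D h using hA
  have hadd : ∀ x y, X (x + y) = X x + X y ∧ C (x + y) = C x + C y ∧
      D (x + y) = D x + D y + (X x * C y + C x * X y) := fun x y => by
    obtain ⟨h1, -, h2, h3⟩ := hS.co_inj (h (x + y)) (L.hu x y ▸ (h x).mul (h y))
    exact ⟨h1, by rw [h2]; ring, by rw [h3]; ring⟩
  have hmul : ∀ x y, D 1 * D (x * y) = D x * D y := fun x y => by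
    by_cases hx : x = 0
    · have : D 0 = 0 := (hS.co_inj (h 0) (L.u0 ▸ Frame.co_one)).2.2.2
      simp [hx, this]
    obtain ⟨c, rfl⟩ := exists_sq x
    have hc : c ≠ 0 := by rintro rfl; simp at hx
    choose d hd using fun k => exists_sq (D k)
    have p : ∀ k, Pv B (u k) (d k • R.e) := fun k => by
      simpa using hS.co_Pv (b := 0) (h k) (by simp) (hd k) (by simp)
    have t : ∀ k, d k • (w c * w 1) • R.e = d (c ^ 2 * k) • R.e := fun k => by
      have := hS.Pv_conj (p k) (w c * w 1)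
      rw [mul_assoc (w c), L.hwu 1 one_ne_zero, ← mul_assoc, L.hwl hc, mul_assoc (u _),
        mul_inv_cancel_right, gsmul, one_pow, div_one, mul_comm] at this
      exact hS.Pv_unique this (p _)
    have e1 : (d 1 * d (c ^ 2 * y)) • R.e = (d (c ^ 2) * d y) • R.e := by
      rw [mul_smul, ← t, smul_comm, t, mul_one, mul_comm (d _), mul_smul]
    have e2 := smul_left_injective F R.e_ne e1
    rw [← hd, ← hd, ← hd, ← hd (k := y), ← mul_pow, e2, mul_pow]
  set b : K → K → F := fun x y => X x * C y + C x * X y with hb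
  have b1 : ∀ x y, b x y = D (x + y) + D x + D y := fun x y => by
    have := (hadd x y).2.2; grind
  have b2 : ∀ x y z, D 1 * b (x * y) (x * z) = D x * b y z := fun x y z => by
    rw [b1, b1, ← mul_add, mul_add, mul_add, hmul, hmul, hmul]; ring
  have b3 : ∀ x y z t, b x y * b z t = D 1 * (b (x * z) (y * t) + b (x * t) (y * z)) := fun x y z t => by
    have e1 := hmul (x + y) (z + t)
    rw [show (x + y) * (z + t) = (x * z + x * t) + (y * z + y * t) by ring] at e1
    simp only [hadd] at e1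
    have := b2 x z t
    have := b2 y z t
    have := b2 z x y
    have := b2 t x y
    have := hmul x z
    have := hmul x t
    have := hmul y z
    have := hmul y t
    rw [mul_comm z, mul_comm z] at *
    rw [mul_comm t, mul_comm t] at *
    grind
  have b4 : ∀ x y z, b y z ^ 2 * D x + b z x ^ 2 * D y + b x y ^ 2 * D z = b x y * b y z * b z x := by
    intro x y z
    have e1 := b3 x y y z
    have e2 := b3 (x * z) (y * y) z x
    have e3 := b3 z y z y
    have e4 := b3 x y x y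
    have e5 := b2 y x z
    have e6 := b2 x (z * z) (y * y)
    have e7 := b2 z (x * x) (y * y)
    rw [mul_comm y x] at e4 e5
    rw [mul_comm y z] at e3
    rw [show x * z * z = x * (z * z) by ring, show y * y * x = x * (y * y) by ring,
      show x * z * x = z * (x * x) by ring, show y * y * z = z * (y * y) by ring] at e2
    grind
  by_cases h0 : ∀ x y, b x y = 0
  · refine H.no_quadratic L fun x y v => ?_
    have := h0 x y
    rw [hS.co_act (h y), hS.co_act (h x)]
    gsimp hS, R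
    vec2 F
  push Not at h0
  obtain ⟨x, y, h0⟩ := h0
  obtain ⟨α, γ, k1, k2⟩ : ∃ α γ : F, D x = α * X x ^ 2 + γ * C x ^ 2 + X x * C x ∧
      D y = α * X y ^ 2 + γ * C y ^ 2 + X y * C y :=
    ⟨((D x + X x * C x) * C y ^ 2 + (D y + X y * C y) * C x ^ 2) / b x y ^ 2,
      ((D x + X x * C x) * X y ^ 2 + (D y + X y * C y) * X x ^ 2) / b x y ^ 2,
      by field_simp; grind, by field_simp; grind⟩
  have k3 : ∀ z, D z = α * X z ^ 2 + γ * C z ^ 2 + X z * C z := fun z => by
    have := b4 x y z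
    refine mul_left_cancel₀ (pow_ne_zero 2 h0) ?_
    grind
  refine H.avg S hodd (fun v => α * B v R.f ^ 2 + γ * B v R.g ^ 2 + B v R.f * B v R.g + B v R.e * B v R.h)
    (fun c v => ?_) (fun u v => ?_) fun s hs v => ?_
  · gsimp hS, R; ring
  · rw [hS.pair R u v]; gsimp hS, R; grind
  · obtain ⟨z, rfl⟩ := (hS' s).1 hs
    have := k3 z
    rw [hS.co_act (h z)]
    gsimp hS, R
    grind

omit L in
theorem no_SL2 [CharP K 2] [Finite K] (e : SL(2, K) ≃* G) : False := by
  obtain ⟨u, cu⟩ : ∃ u : K → SL(2, K), ∀ a, (u a : Matrix (Fin 2) (Fin 2) K) = !![1, a; 0, 1] :=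
    ⟨fun a => ⟨!![1, a; 0, 1], by simp [det_fin_two]⟩, fun _ => rfl⟩
  obtain ⟨l, cl⟩ : ∃ l : K → SL(2, K), ∀ a, (l a : Matrix (Fin 2) (Fin 2) K) = !![1, 0; a, 1] :=
    ⟨fun a => ⟨!![1, 0; a, 1], by simp [det_fin_two]⟩, fun _ => rfl⟩
  obtain ⟨w, cw⟩ : ∃ w : K → SL(2, K), ∀ a, w a = u a * l a⁻¹ * u a := ⟨_, fun _ => rfl⟩
  have hw : ∀ a, a ≠ 0 → (w a : Matrix (Fin 2) (Fin 2) K) = !![0, a; a⁻¹, 0] := fun a ha => by
    have : (w a : Matrix (Fin 2) (Fin 2) K) = !![1, a; 0, 1] * !![1, 0; a⁻¹, 1] * !![1, a; 0, 1] := by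
      rw [← cu, ← cl, cw]; rfl
    rw [this]
    ext i j; fin_cases i <;> fin_cases j <;> simp [ha, CharTwo.add_self_eq_zero]
  have hu : ∀ a b, u (a + b) = u a * u b := fun a b => Subtype.ext (by simp [cu, add_comm])
  have hi : Function.Injective u := fun a b h => by
    simpa [cu] using congrArg (fun x : SL(2, K) => (x : Matrix (Fin 2) (Fin 2) K) 0 1) h
  have L : L2 (fun a => e (u a)) (fun a => e (l a)) fun a => e (w a) := by
    refine ⟨fun a b => by rw [hu, map_mul], fun h => ?_, fun a ha => by simp [cw], fun a ha b => ?_,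
      fun a ha => ?_, fun a ha b hb => ?_, fun P h1 h2 h3 g => ?_⟩
    · rw [map_eq_one_iff _ e.injective] at h
      simpa [cu] using congrArg (fun x : SL(2, K) => (x : Matrix (Fin 2) (Fin 2) K) 0 1) h
    · rw [← map_mul, ← map_mul]
      refine congrArg e (Subtype.ext ?_)
      simp [hw a ha, cu, cl]
      field_simp
    · rw [← map_mul, ← map_one e]
      refine congrArg e (Subtype.ext ?_)
      simp [hw a ha, ha, Matrix.one_fin_two]
    · simp only [← map_mul]
      refine congrArg e (Subtype.ext ?_)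
      simp [hw a ha, hw b hb, hw 1 one_ne_zero, mul_comm]
    · obtain ⟨g, rfl⟩ := e.surjective g
      refine SL2.transvection_induction (fun g => P (e g)) (fun i j h c => ?_)
        (fun x y hx hy => by rw [map_mul]; exact h3 _ _ hx hy) g
      fin_cases i <;> fin_cases j
      · simp at h
      · convert h1 c using 2
        ext i j; fin_cases i <;> fin_cases j <;> simp [cu, SpecialLinearGroup.transvection_coe]
      · convert h2 c using 2
        ext i j; fin_cases i <;> fin_cases j <;> simp [cl, SpecialLinearGroup.transvection_coe]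
      · simp at h
  let φ : Multiplicative K →* G := MonoidHom.mk' (fun a => e (u a.toAdd)) fun a b => L.hu _ _
  refine H.no_L2 L φ.range (fun s => ⟨fun ⟨a, h⟩ => ⟨_, h⟩, fun ⟨a, h⟩ => ⟨Multiplicative.ofAdd a, h⟩⟩) ?_
  have h1 : Nat.card φ.range = Nat.card K :=
    (Nat.card_congr (MonoidHom.ofInjective (f := φ) fun a b h => hi (e.injective h)).toEquiv).symm
  have h2 := φ.range.card_mul_index
  rw [h1, ← Nat.card_congr e.toEquiv, SL.card_SL_two] at h2
  rw [Nat.eq_of_mul_eq_mul_left Nat.card_pos h2]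
  have := Fintype.ofFinite K
  obtain ⟨n, -, hn⟩ := FiniteField.card K 2
  rw [Nat.card_eq_fintype_card, hn]
  exact Nat.Even.sub_odd (Nat.one_le_pow _ _ (by positivity))
    ((Nat.even_pow' two_ne_zero).2 ((Nat.even_pow' n.ne_zero).2 even_two)) odd_one

end Hyp

end CL.Sp4E
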