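import Mathlib
import Cfsg.Agent.CLAS.Sp4O3

/-!
# Existence of a frame of five orthogonal roots
-/

set_option linter.unusedSectionVars false

namespace CL.Sp4O

open Module

variable {F W G : Type*} [Field F] [AddCommGroup W] [Module F W] [Group G] [DistribMulAction G W]
  [SMulCommClass G F W] {B : W →ₗ[F] W →ₗ[F] F}

theorem Pd.uniq (c : Ctx G B) {g : G} {a b : W} (na : B a a ≠ 0) (nb : B b b ≠ 0) (ab : B a b = 0)
    (p : Pd B g a b 1) (q : Pd B g a b (-1)) : False := by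
  obtain ⟨x, y, e, p1, p2⟩ := p
  obtain ⟨x', y', -, q1, q2⟩ := q
  have h1 := congrArg (B a) (p1.symm.trans q1)
  have h2 := congrArg (B b) (p1.symm.trans q1)
  have h3 := congrArg (B a) (p2.symm.trans q2)
  have h4 := congrArg (B b) (p2.symm.trans q2)
  simp only [map_add, map_smul, smul_eq_mul, ab, c.symm b a, mul_zero, add_zero, zero_add,
    mul_eq_mul_right_iff, na, nb, or_false] at h1 h2 h3 h4
  subst h1 h2
  have hx : x = 0 := (mul_eq_zero.1 (by linear_combination h4 : 2 * x = 0)).resolve_left c.two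
  have hy : y = 0 := by
    field_simp at h3
    exact (mul_eq_zero.1 (by linear_combination -h3 : 2 * y = 0)).resolve_left c.two
  simp [hx, hy] at e
  exact na e.symm

theorem Pl.root' (c : Ctx G B) {j σ : G} {a b s : W} (p : Pl B j a b) (hs : T B σ s)
    (h : j • s = -s) : ∃ e, T B (σ * j) e ∧ Pl B j s e := by
  obtain ⟨v, q⟩ := p.rebase c h (hs.n c)
  obtain ⟨k, -, hk⟩ := q.root c hs
  exact ⟨_, hk, q.of c h (by rw [smul_sm, q.gb, smul_neg]) (hs.n c) (hk.n c) (by simp [q.ab])⟩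

theorem exists_pow {S : Sylow 2 G} {g : G} (hg : g ∈ S) : ∃ n : ℕ, g ^ 2 ^ n = 1 :=
  (S.isPGroup' ⟨g, hg⟩).imp fun _ hn => congrArg Subtype.val hn

/-- no four orthogonal roots -/
def No4 (G : Type*) [Group G] [DistribMulAction G W] (B : W →ₗ[F] W →ₗ[F] F) : Prop :=
  ∀ a b d e, R G B a → R G B b → R G B d → R G B e → B a b = 0 → B a d = 0 → B a e = 0 →
    B b d = 0 → B b e = 0 → B d e = 0 → False

section

variable [Finite G] [IsSimpleGroup G] (c : Ctx G B) (hG : ¬ IsMulCommutative G) {S : Sylow 2 G}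
  {τ i j σ : G} {t s e : W} (u : Su B S τ t i j) (hs : T B σ s) (he : T B (σ * j) e)
  (p : Pl B j s e) (H : No4 G B)
include c hG u hs he p H

theorem noU {r : W} (hr : R G B r) (h : i • r = -r) : False :=
  H t s e r ⟨_, u.ht⟩ ⟨_, hs⟩ ⟨_, he⟩ hr ((u.symm c).perp c p.ga) ((u.symm c).perp c p.gb)
    (u.perp c h) p.ab (c.orth ((u.symm c).fix_j c p.ga) h) (c.orth ((u.symm c).fix_j c p.gb) h)

theorem noU' {r : W} (g : G) (hr : R G B r) (h : (g * i * g⁻¹) • r = -r) : False :=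
  noU c hG u hs he p H (hr.smul c g⁻¹) (by
    rw [← smul_neg, ← h, mul_smul, mul_smul, inv_smul_smul])

theorem cen_i {x : G} (hx : x ∈ S) : x * i = i * x :=
  (u.cj x hx).resolve_right fun h => noU c hG u hs he p H (R.smul c ⟨_, hs⟩ x⁻¹) (by
    rw [← smul_neg, eq_inv_smul_iff, ← mul_smul, h, mul_smul, smul_inv_smul, p.ga])

theorem cen_trans {r : W} (hr : R G B r) (h : i • r = r) :
    ∃ g : G, g * i = i * g ∧ (g • r = t ∨ g • r = -t) := by
  obtain ⟨ρ, hρ⟩ := hr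
  obtain ⟨g, hg, h1⟩ := exists_conj_into S (fun x hx => cen_i c hG u hs he p H hx)
    (CL.SylowAux.isPGroup_zpowers_two (hρ.sq c)) (by
      rintro _ ⟨k, rfl⟩
      exact (Commute.zpow_right ((hρ.comm_iff c).2 (.inl h)) k).symm)
  replace h1 := h1 _ (Subgroup.mem_zpowers _)
  replace hρ := hρ.conj c g
  replace h := fix_comm hg h
  suffices ∃ g' : G, g' * i = i * g' ∧ (g' • g • r = t ∨ g' • g • r = -t) by
    obtain ⟨g', h2, h3⟩ := this
    exact ⟨g' * g, by rw [mul_assoc, hg, ← mul_assoc, h2, mul_assoc], by rwa [mul_smul]⟩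
  generalize g * ρ * g⁻¹ = ρ, g • r = r at h1 hρ h
  rcases u.root c hG hρ h1 with h2 | h2 | h2
  · exact ⟨1, by simp, by simpa using h2⟩
  · exact (noU c hG u hs he p H ⟨_, hρ⟩ h2).elim
  obtain ⟨e', he', p'⟩ := p.root' c hρ h2
  have hrt := (u.symm c).perp c h2
  obtain ⟨g, h3, h4⟩ := extr c hG u.ht u.hS ⟨_, hρ⟩
    (Q := (S : Subgroup G) ⊓ Subgroup.centralizer {ρ}) (S.isPGroup'.to_inf_left)
    fun x hx => (hρ.comm_iff c).1 (Subgroup.mem_centralizer_singleton_iff.1 hx.2)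
  have key : ∀ {y : G} {w : W}, T B y w → y ∈ S → B w r = 0 → j • g • w = -(g • w) ∧
      g * y * g⁻¹ ∈ S := fun {y w} hy hyS hw => by
    have h5 := h4 y ⟨hyS, Subgroup.mem_centralizer_singleton_iff.2
      ((hρ.comm_iff c).2 (.inr (hy.perp hw)))⟩
    have h6 : B (g • w) t = 0 := by
      have := c.inv g w r
      rcases h3 with h3 | h3 <;> simpa [h3, hw] using this
    rcases u.root c hG (hy.conj c g) h5 with h7 | h7 | h7
    · rcases h7 with h7 | h7 <;> simp [h7, u.ht.n c] at h6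
    · exact (noU c hG u hs he p H ⟨_, hy.conj c g⟩ h7).elim
    · exact ⟨h7, h5⟩
  obtain ⟨k1, k1'⟩ := key u.ht (u.τS c) hrt
  obtain ⟨k2, -⟩ := key he' (mul_mem h1 u.jS) (p'.swap c).ab
  have hte : B (g • t) (g • e') = 0 := by rw [c.inv]; exact (u.symm c).perp c p'.gb
  have e1 := ((u.ht.conj c g).mul c (he'.conj c g) hte).eq c
    (p.of c k1 k2 ((u.ht.conj c g).n c) ((he'.conj c g).n c) hte)
  have e2 : g * ρ * g⁻¹ = τ := by
    rcases h3 with h3 | h3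
    · exact (hρ.conj c g).eq c (h3 ▸ u.ht)
    · exact (hρ.conj c g).eq c (h3 ▸ u.ht.neg)
  refine ⟨g, mul_inv_eq_iff_eq_mul.1 ?_, h3⟩
  have e3 : i = ρ * τ * (ρ * j) := by
    rw [u.cτ c h1, mul_assoc, ← mul_assoc ρ, hρ.sq c, one_mul, ← u.cτ c u.jS, (u.symm c).iτ c]
  calc g * i * g⁻¹ = (g * ρ * g⁻¹) * ((g * τ * g⁻¹) * (g * (ρ * j) * g⁻¹)) := by
        conv_lhs => rw [e3]
        group
    _ = i := by rw [e1, e2, ← u.cτ c u.jS, (u.symm c).iτ c]

theorem exists_h : ∃ h : G, h * τ = τ * h ∧ h * i * h⁻¹ ∈ S ∧ h * i * h⁻¹ ≠ i := by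
  obtain ⟨a, b, q⟩ := u.pi
  obtain ⟨g, h1, h2⟩ := zstar hG S (u.ii c) (q.ne_one c) fun x hx => cen_i c hG u hs he p H hx
  have h3 := (u.hS _ h1).resolve_right (noU' c hG u hs he p H g ⟨_, u.ht⟩)
  obtain ⟨k, h4, h5⟩ := cen_trans c hG u hs he p H (R.smul c ⟨_, u.ht⟩ g⁻¹) (by
    rw [eq_inv_smul_iff, ← mul_smul, ← mul_smul, h3])
  have e : g * k⁻¹ * i * (g * k⁻¹)⁻¹ = g * i * g⁻¹ := by
    calc _ = g * k⁻¹ * (i * k) * g⁻¹ := by group
      _ = _ := by rw [← h4]; group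
  refine ⟨g * k⁻¹, (u.ht.comm_iff c).2 ?_, e ▸ h1, e ▸ h2⟩
  have := Pm.inv (g := k * g⁻¹) (v := t) (by rwa [Pm, mul_smul])
  simpa [Pm] using this

theorem cross_pl {x : G} {w₁ w : W} (q : Pl B x w₁ w) (h1 : i * x = x * i) (h2 : x • t = t)
    (h3 : j • w₁ = -w₁) (h4 : x • s ≠ -s) : i • w = -w := by
  have h5 := (u.symm c).fix_j c h3
  refine (q.pm c (neg_comm h1 q.gb) (by rw [← h5, c.inv, q.ab]) (c.inv _ _ _)).resolve_left
    fun h => h4 ?_
  rw [q.eq c (p.of c h3 (u.neg_j c h (c.orth h2 q.gb)) q.na q.nb q.ab), p.ga]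

variable {h x : G} (hτ : h * τ = τ * h) (hx : h * i * h⁻¹ = x) (hxS : x ∈ S) (hxi : x ≠ i)
include hτ hx hxS hxi

theorem x_t : x • t = t :=
  (u.hS _ hxS).resolve_right (hx ▸ noU' c hG u hs he p H h ⟨_, u.ht⟩)

theorem x_s : ¬ Pm x s := by
  rintro (h1 | h1)
  swap
  · exact noU' c hG u hs he p H h ⟨_, hs⟩ (hx ▸ h1)
  have h2 := u.comm_j c (cen_i c hG u hs he p H hxS) (u.cτ c hxS)
  have h3 := (p.pm c (neg_comm h2 p.gb) (by rw [← h1, c.inv, p.ab]) (c.inv _ _ _)).resolve_right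
    (hx ▸ noU' c hG u hs he p H h ⟨_, he⟩)
  obtain ⟨a, b, q⟩ := u.pi
  have hi := (u.symm c).fix_j c p.ga
  have hi' := (u.symm c).fix_j c p.gb
  have o := c.mk5 q.na q.nb (u.ht.n c) p.na p.nb q.ab (c.symm _ _ ▸ u.perp c q.ga)
    (c.symm _ _ ▸ c.orth hi q.ga) (c.symm _ _ ▸ c.orth hi' q.ga) (c.symm _ _ ▸ u.perp c q.gb)
    (c.symm _ _ ▸ c.orth hi q.gb) (c.symm _ _ ▸ c.orth hi' q.gb) ((u.symm c).perp c p.ga)
    ((u.symm c).perp c p.gb) p.ab
  refine hxi (q.uniq c (hx ▸ (q.conj c h).sq c) (hx ▸ (q.conj c h).ne_one c) fun w hw => ?_)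
  simpa using c.lin3 o (k := 1) (by simpa using x_t c hG u hs he p H hτ hx hxS hxi) (by simpa)
    (by simpa) (c.symm _ _ ▸ c.orth hw q.ga) (c.symm _ _ ▸ c.orth hw q.gb)

theorem split_s : ∃ s₁ s₂, s = s₁ + s₂ ∧ x • s₁ = -s₁ ∧ x • s₂ = s₂ ∧ j • s₁ = -s₁ ∧
    j • s₂ = -s₂ ∧ B s₁ s₁ ≠ 0 ∧ B s₂ s₂ ≠ 0 ∧ (B s (x • s) = 0 → B s₂ s₂ = 1) := by
  have h1 := x_s c hG u hs he p H hτ hx hxS hxi
  have h2 := u.comm_j c (cen_i c hG u hs he p H hxS) (u.cτ c hxS)
  have h3 := neg_comm h2 p.ga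
  have hxx : x • x • s = s := by
    obtain ⟨a, b, q⟩ := u.pi
    rw [← mul_smul, ← hx, (q.conj c h).sq c, one_smul]
  have two := c.two
  obtain ⟨α, γ, e1, e2⟩ : ∃ α γ : F, α ^ 2 + γ ^ 2 = 1 ∧ x • s = α • s + γ • e := by
    rcases Pd.ex c p h2 with ⟨α, γ, e1, e2, -⟩ | ⟨α, γ, e1, e2, -⟩ <;>
      exact ⟨α, γ, by rw [hs.1, he.1] at e1; exact mul_right_cancel₀ two (by linear_combination e1),
        e2⟩
  have e3 : B s (x • s) = 2 * α := by simp [e2, hs.1, p.ab, mul_comm]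
  have e4 : B (x • s) s = 2 * α := by rw [c.symm, e3]
  have e5 : B (x • s) (x • s) = 2 := by rw [c.inv, hs.1]
  have key : α ^ 2 ≠ 1 := fun h4 => h1 (c.pm (k := α) (by
    simp [e2, pow_eq_zero_iff two_ne_zero |>.1 (by linear_combination e1 - h4 : γ ^ 2 = 0)])
    (hs.n c) (c.inv _ _ _))
  refine ⟨(2 : F)⁻¹ • (s - x • s), (2 : F)⁻¹ • (s + x • s), ?_, ?_, ?_, ?_, ?_, ?_, ?_, ?_⟩
  · generalize x • s = w; match_scalars <;> field_simp <;> ring
  · rw [smul_sm, smul_sub, hxx, ← smul_neg, neg_sub]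
  · rw [smul_sm, smul_add, hxx, add_comm]
  · rw [smul_sm, smul_sub j, h3, p.ga]; generalize x • s = w; module
  · rw [smul_sm, smul_add j, h3, p.ga]; generalize x • s = w; module
  · simp only [map_smul, map_sub, LinearMap.smul_apply, LinearMap.sub_apply, e3, e4, e5, hs.1,
      smul_eq_mul]
    intro h4; field_simp at h4
    exact key (by rw [show α = 1 from mul_left_cancel₀ two (by linear_combination -h4)]; ring)
  · simp only [map_smul, map_add, LinearMap.smul_apply, LinearMap.add_apply, e3, e4, e5, hs.1,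
      smul_eq_mul]
    intro h4; field_simp at h4
    exact key (by rw [show α = -1 from mul_left_cancel₀ two (by linear_combination h4)]; ring)
  · intro h4
    simp only [map_smul, map_add, LinearMap.smul_apply, LinearMap.add_apply, h4, c.symm (x • s) s,
      e5, hs.1, smul_eq_mul]
    field_simp; ring

variable (hσ : σ ∈ S)
include hσ

theorem no_qt {y : G} (hy : y * y = i) (hy' : ∀ w : W, i • w = w → y • w = w) : False := by
  obtain ⟨s₁, s₂, e0, x1, x2, j1, j2, n1, n2, n3⟩ := split_s c hG u hs he p H hτ hx hxS hxi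
  have hxt := x_t c hG u hs he p H hτ hx hxS hxi
  have hxs := x_s c hG u hs he p H hτ hx hxS hxi
  have hix := (cen_i c hG u hs he p H hxS).symm
  have key : ∀ {y i' x' : G} {a b w : W}, Pl B i' a b → y * y = i' → h * i' * h⁻¹ = x' →
      x' • w = -w → j • w = -w → B w w ≠ 0 → i * x' = x' * i → x' • t = t → x' • s ≠ -s →
      i • (h * y * h⁻¹) • w = -((h * y * h⁻¹) • w) ∧ x' • (h * y * h⁻¹) • w = -((h * y * h⁻¹) • w) := by
    intro y i' x' a b w q hy hx' h1 h2 h3 h4 h5 h6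
    have e1 : h * y * h⁻¹ * (h * y * h⁻¹) = x' := by rw [conj_mul, hy, hx']
    have e2 := neg_comm (g := h * y * h⁻¹) (by rw [← e1, mul_assoc (h * y * h⁻¹)]) h1
    exact ⟨cross_pl c hG u hs he p H ((hx' ▸ q.conj c h).of c h1 e2 h3 (by rwa [c.inv])
      (c.sq_perp (by rw [← mul_smul, e1, h1]))) h4 h5 h2 h6, e2⟩
  have fx : ∀ {y i' x' : G}, (∀ w : W, i' • w = w → y • w = w) → h * i' * h⁻¹ = x' →
      ∀ w : W, x' • w = w → (h * y * h⁻¹) • w = w := fun {y i' x'} hy hx' w hw => by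
    rw [mul_smul, mul_smul, hy _ (by rw [eq_inv_smul_iff, ← mul_smul, ← mul_smul, hx', hw]),
      smul_inv_smul]
  obtain ⟨a, b, q⟩ := u.pi
  obtain ⟨k1, k2⟩ := key q hy hx x1 j1 n1 hix hxt fun e => hxs (.inr e)
  have k3 : (h * y * h⁻¹) • s = (h * y * h⁻¹) • s₁ + s₂ := by rw [e0, smul_add, fx hy' hx _ x2]
  have k4 := R.smul c ⟨_, hs⟩ (h * y * h⁻¹)
  rw [k3] at k4
  generalize (h * y * h⁻¹) • s₁ = w₁ at k1 k2 k4
  have hxx : x⁻¹ = x := hx ▸ (q.conj c h).inv c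
  have hxj := u.comm_j c hix.symm (u.cτ c hxS)
  have t2 := hs.conj c x
  by_cases h0 : σ * (x * σ * x⁻¹) = j
  · have h1 := (he.line c (w := x • s) (by
      rw [← h0, ← mul_assoc, hs.sq c, one_mul, t2.self]) t2.1)
    replace n3 := n3 (by rcases h1 with h1 | h1 <;> simp [h1, p.ab])
    have i2 := (u.symm c).fix_j c j2
    have k5 := neg_comm (g := y) (by rw [← hy, mul_assoc]) k1
    have k6 : B (w₁ + s₂) (y • (w₁ + s₂)) = 1 := by
      simp [hy' _ i2, n3, c.sq_perp (show y • y • w₁ = -w₁ by rw [← mul_smul, hy, k1]),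
        c.orth i2 k5, c.symm w₁ s₂, c.orth i2 k1]
    refine noU c hG u hs he p H (k4.refl c (k4.smul c y)) ?_
    rw [k6, one_smul, smul_add y, hy' _ i2, add_sub_add_right_eq_sub, smul_sub, k1, k5]
    generalize y • w₁ = w; module
  obtain ⟨n, hn⟩ := exists_pow (mul_mem hσ (mul_mem (mul_mem hxS hσ) (inv_mem hxS)))
  have f0 : ∀ w : W, j • w = w → (σ * (x * σ * x⁻¹)) • w = w := fun w hw => by
    rw [mul_smul, t2.perp (c.symm _ _ ▸ c.orth hw (neg_comm hxj p.ga)), smul_neg,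
      hs.perp (c.symm _ _ ▸ c.orth hw p.ga), neg_neg]
  obtain ⟨k, hk⟩ := p.qt c n hn (fun e => hxs ((hs.comm_iff c).1 (by
    rw [← mul_inv_eq_iff_eq_mul, ← mul_right_inj σ, e, hs.sq c]))) h0 f0
  have f1 : ∀ w : W, j • w = w → ((σ * (x * σ * x⁻¹)) ^ k) • w = w := fun w hw =>
    (MulAction.stabilizer G w).pow_mem (f0 w hw) k
  have hj : h * j * h⁻¹ = x * τ := by
    rw [← u.iτ c, ← hx, mul_assoc _ h⁻¹, (Commute.inv_left hτ).eq]; group
  have t1 := (u.symm c).perp c j2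
  obtain ⟨k5, -⟩ := key p hk hj (by rw [mul_smul, u.ht.perp t1, smul_neg, x2]) j2 n2
    (by rw [← mul_assoc, hix, mul_assoc, u.cτ c u.iS, mul_assoc])
    (by rw [mul_smul, u.ht.self, hxt]) fun e => hxs (.inl (by
      rwa [mul_smul, u.ht.perp ((u.symm c).perp c p.ga), smul_neg, neg_inj] at e))
  refine noU c hG u hs he p H (k4.smul c (h * (σ * (x * σ * x⁻¹)) ^ k * h⁻¹)) ?_
  rw [smul_add, fx f1 hj w₁ (by rw [mul_smul, u.ht.perp (u.perp c k1), smul_neg, k2, neg_neg]),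
    smul_add, k1, k5, neg_add]

theorem no4_false : False := by
  obtain ⟨s₁, s₂, e0, x1, x2, j1, j2, n1, n2, n3⟩ := split_s c hG u hs he p H hτ hx hxS hxi
  have hxt := x_t c hG u hs he p H hτ hx hxS hxi
  have hxs := x_s c hG u hs he p H hτ hx hxS hxi
  have ci : ∀ g ∈ S, g * i = i * g := fun g hg => cen_i c hG u hs he p H hg
  have cj : ∀ g ∈ S, g * j = j * g := fun g hg => u.comm_j c (ci g hg) (u.cτ c hg)
  obtain ⟨a, b, q⟩ := u.pi
  obtain ⟨w, qx⟩ := (hx ▸ q.conj c h).rebase c x1 n1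
  have iw := cross_pl c hG u hs he p H qx (ci x hxS).symm hxt j1 fun e => hxs (.inr e)
  obtain ⟨b, q⟩ := q.rebase c iw qx.nb
  have is := (u.symm c).fix_j c p.ga
  have ie := (u.symm c).fix_j c p.gb
  have st := (u.symm c).perp c p.ga
  have o := c.mk5 (u.ht.n c) p.na p.nb q.na q.nb st
    ((u.symm c).perp c p.gb) (u.perp c q.ga) (u.perp c q.gb) p.ab (c.orth is q.ga)
    (c.orth is q.gb) (c.orth ie q.ga) (c.orth ie q.gb) q.ab
  have dt : ∀ {g : G} {k δ δ' : F}, g • t = k • t → Pd B g s e δ → Pd B g w b δ' →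
      k * δ * δ' = 1 := fun h1 h2 h3 => Pd.det c o (det_one hG _) h1 h2 h3
  have two := c.two
  have xw : Pd B x w b (-1) := .of' qx.gb (by
    simpa using qx.fix b (c.orth ((u.symm c).fix_j c j1) q.gb) q.ab)
  have xs : Pd B x s e (-1) := (Pd.ex c p (cj x hxS)).resolve_left fun h1 =>
    two (by linear_combination -dt (k := 1) (by simpa) h1 xw)
  obtain ⟨σ', hσ', s1, s2, s3, s4, s5⟩ : ∃ σ' ∈ S, σ' • t = -t ∧ σ' • s = s ∧ Pd B σ' s e (-1) ∧
      σ' * σ' = 1 ∧ ∀ v : W, i • v = -v → σ' • v = v :=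
    ⟨σ * i, mul_mem hσ u.iS, by rw [mul_smul, u.it, hs.perp o.ba], by rw [mul_smul, is, hs.self],
      .of (by rw [mul_smul, is, hs.self]) (by rw [mul_smul, ie, hs.perp p.ab, neg_one_smul]), by
        rw [mul_assoc, ← mul_assoc i, ← ci σ hσ, mul_assoc, u.ii c, mul_one, hs.sq c],
      fun v hv => by rw [mul_smul, hv, smul_neg, hs.perp (c.orth is hv), neg_neg]⟩
  obtain ⟨a, ha, a1, a2, a3⟩ : ∃ a ∈ S, ¬ Pm a w ∧ Pd B a w b 1 ∧ Pd B a s e 1 := by
    obtain ⟨a, ha, a1, a2⟩ : ∃ a ∈ S, ¬ Pm a w ∧ Pd B a w b 1 := by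
      obtain ⟨a, ha, a1⟩ : ∃ a ∈ S, ¬ Pm a w := by
        by_contra! h1
        obtain ⟨k, hk⟩ := root_of_fixed c hG S q.na h1 ⟨_, hs⟩
        exact noU c hG u hs he p H hk (by rw [smul_sm, iw, smul_neg])
      rcases Pd.ex c q (ci a ha) with h1 | h1
      · exact ⟨a, ha, a1, h1⟩
      · exact ⟨a * x, mul_mem ha hxS, fun h2 => a1 (by
          simpa using h2.mul (Pm.inv (.inr qx.gb))), by simpa using h1.mul q.na (by simp) xw⟩
    rcases Pd.ex c p (cj a ha) with h1 | h1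
    · exact ⟨a, ha, a1, a2, h1⟩
    · exact ⟨a * σ', mul_mem ha hσ', fun h2 => a1 (by
        simpa using h2.mul (Pm.inv (.inl (s5 w iw)))), by
          simpa using a2.mul q.na (by simp) (.of (s5 w iw) (δ := 1) (by simpa using s5 b q.gb)),
        by simpa using h1.mul p.na (by simp) s3⟩
  have pinv : ∀ {g : G} {δ : F}, g ∈ S → Pd B g s e 1 → Pd B g⁻¹ s e 1 := fun {g δ} hg h1 =>
    (Pd.ex c p (cj _ (inv_mem hg))).resolve_right fun h2 => Pd.uniq c p.na p.nb p.ab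
      (g := 1) (.of (by simp) (by simp)) (by simpa using h1.mul p.na (by simp) h2)
  let R₁ : Subgroup G :=
    { carrier := {g | g ∈ S ∧ Pd B g s e 1}
      one_mem' := ⟨one_mem _, .of (by simp) (by simp)⟩
      mul_mem' := fun h1 h2 => ⟨mul_mem h1.1 h2.1, by simpa using h1.2.mul p.na (by simp) h2.2⟩
      inv_mem' := fun h1 => ⟨inv_mem h1.1, pinv (δ := 1) h1.1 h1.2⟩ }
  let K : Subgroup R₁ := (MulAction.stabilizer G s).subgroupOf R₁
  have hK : ∀ g : R₁, g ∈ K ↔ (g : G) • s = s := fun g => Iff.rfl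
  have : K.Normal := ⟨fun n hn g => (hK _).2 (by
    have := g.2.2.comm p.na (n * g⁻¹).2.2
    simpa [mul_assoc, (hK n).1 hn] using this)⟩
  have key : ∀ g : R₁, (∃ d, g⁻¹ * (d * d) ∈ K) → ∃ g' ∈ S, g' • s = s ∧ g' • e = e ∧
      g' • t = (g : G) • t ∧ ∀ v : W, i • v = -v → g' • v = (g : G) • v := by
    rintro g ⟨d, hd⟩
    have h1 : (d : G) • (d : G) • s = (g : G) • s := by
      simpa [mul_smul, inv_smul_eq_iff] using (hK _).1 hd
    have h2 := (Pd.sq p.na (by simpa using d.2.2.mul p.na (by simp) s3 :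
      Pd B (d * σ') s e (-1))).1
    have h3 : σ' • (d : G)⁻¹ • s = (d : G) • s := by
      simp only [mul_smul, s2] at h2
      conv_lhs => rw [← h2, inv_smul_smul, ← mul_smul, s4, one_smul]
    let k : R₁ := d * ⟨σ' * (d : G)⁻¹ * σ', mul_mem (mul_mem hσ' (inv_mem d.2.1)) hσ', by
      simpa using (s3.mul p.na (by simp) (d⁻¹).2.2).mul p.na (by simp) s3⟩
    have k1 : (k : G) • s = (g : G) • s := by simp [k, mul_smul, s2, h3, h1]
    have k2 : (k : G) • t = t := by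
      rcases u.hS _ (inv_mem d.2.1) with h5 | h5
      · simp [k, mul_smul, s1, h5, (inv_smul_eq_iff.1 h5).symm]
      · simp [k, mul_smul, s1, h5]
        rw [← smul_neg, ← h5, smul_inv_smul]
    have k3 : ∀ v : W, i • v = -v → (k : G) • v = v := fun v hv => by
      simp [k, mul_smul, s5 v hv, s5 _ (neg_comm (ci _ (inv_mem d.2.1)) hv)]
    have k4 : ((k⁻¹ * g : R₁) : G) • s = s := by simp [mul_smul, ← k1]
    refine ⟨(k⁻¹ * g : R₁), (k⁻¹ * g).2.1, k4, (k⁻¹ * g).2.2.fix c p.na p.nb p.ab k4, ?_,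
      fun v hv => ?_⟩
    · rcases u.hS g g.2.1 with h4 | h4 <;> simp [mul_smul, h4, inv_smul_eq_iff, k2]
    · simp [mul_smul, inv_smul_eq_iff, k3 _ (neg_comm (ci _ g.2.1) hv)]
  have at' : a • t = t := (u.hS a ha).resolve_right fun h1 =>
    two (by linear_combination -dt (k := -1) (by simpa) a3 a2)
  have fin : ∀ g : R₁, (∃ d, g⁻¹ * (d * d) ∈ K) → (g : G) • t ≠ -t := fun g hg h1 => by
    obtain ⟨g', hg', g1, g2, g3, -⟩ := key g hg
    rw [h1] at g3
    have g4 := (Pd.ex c q (ci g' hg')).resolve_left fun h2 =>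
      two (by linear_combination -dt (k := -1) (δ := 1) (by simpa) (.of g1 (by simpa)) h2)
    have g5 : g' * g' = 1 := c.ext5 o (by simp [mul_smul, g3]) (by simp [mul_smul, g1])
      (by simp [mul_smul, g2]) (by simpa using (g4.sq q.na).1) (by simpa using (g4.sq q.na).2)
    rcases c.invol g5 (fun e => ne_zero_of (u.ht.n c) (eq_zero_of_neg two (by
      rw [← g3, e, one_smul]))) with ⟨v, h2⟩ | ⟨a', b', h2⟩
    · exact h2.not_fix c p.na p.nb p.ab g1 g2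
    obtain ⟨r, h3, h4⟩ := h2.root' c u.ht g3
    exact H t s e r ⟨_, u.ht⟩ ⟨_, hs⟩ ⟨_, he⟩ ⟨_, h3⟩ o.ab o.ac h4.ab p.ab (c.orth g1 h4.gb)
      (c.orth g2 h4.gb)
  have hb : σ' * x ∈ R₁ := ⟨mul_mem hσ' hxS, by simpa using s3.mul p.na (by simp) xs⟩
  have bt : (σ' * x) • t = -t := by rw [mul_smul, hxt, s1]
  rcases idx K (fun a b => (hK _).2 (by
      simpa [mul_smul, inv_smul_eq_iff] using b.2.2.comm p.na a.2.2))
    ⟨j, u.jS, .of' p.ga (by simpa using p.gb)⟩ (fun a ha => (a.2.2.pm c p.na p.nb p.ab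
      ((hK _).1 ha)).imp (hK _).2 fun h1 => (hK _).2 (by
        simp [mul_smul, p.ga, inv_smul_eq_iff, neg_eq_iff_eq_neg, h1]))
    ⟨a, ha, a3⟩ ⟨_, hb⟩ with h1 | h1 | h1
  · obtain ⟨g', hg', g1, g2, g3, g4⟩ := key _ h1
    obtain ⟨n, hn⟩ := exists_pow hg'
    have o' : O5 B w b t s e := by cases o; constructor <;> assumption
    have f0 : ∀ v : W, i • v = v → g' • v = v := fun v hv => by
      simpa using c.lin3 o' (k := 1) (by simpa [at'] using g3) (by simpa) (by simpa)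
        (c.symm _ _ ▸ c.orth hv q.ga) (c.symm _ _ ▸ c.orth hv q.gb)
    obtain ⟨k, hk⟩ := q.qt c n hn
      (fun e => a1 (.inl (by simpa [e] using (g4 w iw).symm)))
      (fun e => a1 (.inr (by simpa [e, iw] using (g4 w iw).symm))) f0
    exact no_qt c hG u hs he p H hτ hx hxS hxi hσ hk fun v hv =>
      (MulAction.stabilizer G v).pow_mem (f0 v hv) k
  · exact fin _ h1 bt
  · refine fin _ h1 ?_
    have : (σ' * x)⁻¹ • t = -t := by rw [inv_smul_eq_iff, smul_neg, bt, neg_neg]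
    change (a * (σ' * x)⁻¹) • t = -t
    rw [mul_smul, this, smul_neg, at']

end

/-- five orthogonal roots -/
def Fr (G : Type*) [Group G] [DistribMulAction G W] (B : W →ₗ[F] W →ₗ[F] F) (e : Fin 5 → W) :
    Prop := (∀ i, R G B (e i)) ∧ ∀ i j, i ≠ j → B (e i) (e j) = 0

theorem fr_of {a b d e f : W} (o : O5 B a b d e f) (ha : R G B a) (hb : R G B b)
    (hd : R G B d) (he : R G B e) (hf : R G B f) : Fr G B ![a, b, d, e, f] :=
  ⟨fun i => by fin_cases i <;> simpa, o.ob.2⟩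

theorem exists_fr [Finite G] [IsSimpleGroup G] (c : Ctx G B) (hG : ¬ IsMulCommutative G) {r : W}
    (hr : R G B r) : ∃ e, Fr G B e := by
  by_cases H : No4 G B
  · obtain ⟨S⟩ : Nonempty (Sylow 2 G) := inferInstance
    obtain ⟨τ, t, i, j, u⟩ := exists_su c hG S hr
    obtain ⟨σ, s, hs, hσ, hst⟩ := exists_s c hG u.ht u.hS
    have key : ∀ {i j : G}, Su B S τ t i j → j • s ≠ -s := fun u h => by
      obtain ⟨a, b, p⟩ := u.pj
      obtain ⟨e, he, p⟩ := p.root' c hs h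
      obtain ⟨h, h1, h2, h3⟩ := exists_h c hG u hs he p H
      exact no4_false c hG u hs he p H h1 rfl h2 h3 hσ
    rcases u.root c hG hs hσ with h | h | h
    · rcases h with h | h <;> simp [h, u.ht.n c] at hst
    · exact (key (u.symm c) h).elim
    · exact (key u h).elim
  simp only [No4, not_forall] at H
  obtain ⟨a, b, d, e, ⟨τa, ha⟩, ⟨τb, hb⟩, ⟨τd, hd⟩, ⟨τe, he⟩, h1, h2, h3, h4, h5, h6, -⟩ := H
  obtain ⟨f, nf, f1, f2, f3, f4⟩ := c.ex4' (.inr (ha.n c)) (.inr (hb.n c)) (.inr (hd.n c))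
    (.inr (he.n c)) h1 h2 h3 h4 h5 h6
  have o := c.mk5 (ha.n c) (hb.n c) (hd.n c) (he.n c) nf h1 h2 h3 f1 h4 h5 f2 h6 f3 f4
  have o' : O5 B f a b d e := by cases o; constructor <;> assumption
  obtain ⟨k, hk, hf⟩ := c.T5 o' (g := τa * τb * τd * τe)
    (by simp [mul_smul, ha.perp f1, hb.perp f2, hd.perp f3, he.perp f4])
    (by simp [mul_smul, ha.self, hb.perp o.ba, hd.perp o.ca, he.perp o.da])
    (by simp [mul_smul, hb.self, ha.perp o.ab, hd.perp o.cb, he.perp o.db])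
    (by simp [mul_smul, hd.self, ha.perp o.ac, hb.perp o.bc, he.perp o.dc])
    (by simp [mul_smul, he.self, ha.perp o.ad, hb.perp o.bd, hd.perp o.cd])
  exact ⟨_, fr_of (c.mk5 (ha.n c) (hb.n c) (hd.n c) (he.n c) (hf.n c) h1 h2 h3 (by simp [f1]) h4
    h5 (by simp [f2]) h6 (by simp [f3]) (by simp [f4])) ⟨_, ha⟩ ⟨_, hb⟩ ⟨_, hd⟩ ⟨_, he⟩ ⟨_, hf⟩⟩

end CL.Sp4O
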