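import Mathlib
import Cfsg.Agent.CLAS.Sp4O4

/-!
# Edges of frames
-/

set_option linter.unusedSectionVars false

namespace CL.Sp4O

open Module

variable {F W G : Type*} [Field F] [AddCommGroup W] [Module F W] [Group G] [DistribMulAction G W]
  [SMulCommClass G F W] {B : W →ₗ[F] W →ₗ[F] F}

/-- the quarter turn taking `u` to `v` lies in the group -/
def Ed (G : Type*) [Group G] [DistribMulAction G W] (B : W →ₗ[F] W →ₗ[F] F) (u v : W) : Prop :=
  ∃ y : G, y • u = v ∧ y • v = -u ∧ ∀ w, B u w = 0 → B v w = 0 → y • w = w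

namespace Ed

variable (c : Ctx G B) {u v w t : W} {i y : G}

theorem symm (h : Ed G B u v) : Ed G B v u :=
  h.elim fun y ⟨h1, h2, h3⟩ => ⟨y⁻¹, by rw [inv_smul_eq_iff, h1],
    by rw [inv_smul_eq_iff, smul_neg, h2, neg_neg], fun w a b => by rw [inv_smul_eq_iff, h3 w b a]⟩

theorem neg (h : Ed G B u v) : Ed G B u (-v) :=
  h.elim fun y ⟨h1, h2, h3⟩ => ⟨y⁻¹, by rw [inv_smul_eq_iff, smul_neg, h2, neg_neg],
    by simp [inv_smul_eq_iff, h1], fun w a b => by rw [inv_smul_eq_iff, h3 w a (by simpa using b)]⟩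

theorem pm (h : Ed G B u v) (e : w = v ∨ w = -v) : Ed G B u w := by
  rcases e with rfl | rfl
  exacts [h, h.neg]

include c

theorem smul (h : Ed G B u v) (g : G) : Ed G B (g • u) (g • v) :=
  h.elim fun y ⟨h1, h2, h3⟩ => ⟨g * y * g⁻¹, by rw [conj_smul, h1],
    by rw [conj_smul, h2, smul_neg], fun w a b => by
      rw [c.inv'] at a b; rw [mul_smul, mul_smul, h3 _ a b, smul_inv_smul]⟩

theorem of_smul {g : G} (h : Ed G B (g • u) (g • v)) : Ed G B u v := by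
  simpa using h.smul c g⁻¹

theorem trans (h : Ed G B u v) (h' : Ed G B v w) (h1 : B v u = 0) (h2 : B w u = 0) :
    Ed G B u w := by
  obtain ⟨y, a, -, b⟩ := h'
  simpa [a, b u h1 h2] using h.smul c y

theorem of_qt (p : Pl B i u v) (h : B u u = B v v) (hy : y * y = i)
    (hy' : ∀ w : W, i • w = w → y • w = w) : Ed G B u v := by
  have key : Ed G B u (y • u) := ⟨y, rfl, by rw [← mul_smul, hy, p.ga], fun w a b => by
    rcases p.qt_apply c hy h with e | e <;> exact hy' w (p.fix w a (by simpa [e] using b))⟩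
  rcases p.qt_apply c hy h with e | e
  · exact e ▸ key
  · simpa [e] using key.neg

theorem qt (h : Ed G B u v) (p : Pl B i u v) :
    ∃ y : G, y • u = v ∧ y * y = i ∧ ∀ w : W, i • w = w → y • w = w := by
  obtain ⟨y, h1, h2, h3⟩ := h
  have key : ∀ w : W, i • w = w → y • w = w := fun w hw =>
    h3 w (c.symm _ _ ▸ c.orth hw p.ga) (c.symm _ _ ▸ c.orth hw p.gb)
  exact ⟨y, h1, Pl.eq c ⟨p.na, p.nb, p.ab, by rw [mul_smul, h1, h2],
    by rw [mul_smul, h2, smul_neg, h1], fun w a b => by rw [mul_smul, h3 w a b, h3 w a b]⟩ p, key⟩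

theorem of_root {k : F} (hu : R G B u) (hv : B v v = 2) (h : B u v = 0)
    (hr : R G B (k • (u + v))) : Ed G B u v := by
  obtain ⟨σ, hu⟩ := hu
  obtain ⟨ρ, hr⟩ := hr
  have h1 := hr.1
  simp only [map_smul, map_add, LinearMap.smul_apply, LinearMap.add_apply, hu.1, hv, h,
    c.symm v u, smul_eq_mul] at h1
  have h2 : k * 2 * k = 1 := mul_left_cancel₀ c.two (by linear_combination h1)
  refine ⟨ρ * σ, ?_, ?_, fun w a b => ?_⟩
  · simp [mul_smul, hu.self, hr.2, hu.1, h, c.symm v u, smul_smul, h2]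
  · simp [mul_smul, hu.perp h, hr.2, hv, h, smul_smul, h2]
  · simp [mul_smul, hu.perp a, hr.2, a, b]

theorem root (h : Ed G B u v) (hu : R G B u) (ht : R G B t) (uv : B u v = 0) (tu : B t u = 0)
    (tv : B t v = 0) : ∃ k : F, 2 * k ^ 2 = 1 ∧ R G B (k • (u + v)) := by
  obtain ⟨y, h1, h2, h3⟩ := h
  obtain ⟨σ, hu⟩ := hu
  obtain ⟨τ, ht⟩ := ht
  have hv : B v v = 2 := by rw [← h1, c.inv, hu.1]
  have p := ht.mul c hu tu
  have pv := p.fix v tv uv
  have four : (4 : F) ≠ 0 := by rw [show (4 : F) = 2 * 2 by norm_num]; exact mul_ne_zero c.two c.two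
  have n1 : B (u + v) (u + v) = 4 := by simp [hu.1, hv, uv, c.symm v u]; norm_num
  have n2 : B (u - v) (u - v) = 4 := by simp [hu.1, hv, uv, c.symm v u]; norm_num
  have n3 : B (u + v) (u - v) = 0 := by simp [hu.1, hv, uv, c.symm v u]
  obtain ⟨d, nd, d1, d2, d3, -⟩ := c.ex4' (.inr (ht.n c)) (.inr (hu.n c)) (.inr (hv ▸ c.two))
    (.inl rfl) tu tv (by simp) uv (by simp) (by simp)
  obtain ⟨e, ne, e1, e2, e3, e4⟩ := c.ex4' (.inr (ht.n c)) (.inr (hu.n c)) (.inr (hv ▸ c.two))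
    (.inr nd) tu tv d1 uv d2 d3
  have o := c.mk5 (ht.n c) (n1 ▸ four) (n2 ▸ four) nd ne (by simp [tu, tv]) (by simp [tu, tv]) d1 e1
    n3 (by simp [d2, d3]) (by simp [e2, e3]) (by simp [d2, d3]) (by simp [e2, e3]) e4
  obtain ⟨k, -, hk⟩ := (c.Pl5 o (g := y * (τ * σ))
    (by rw [mul_smul, p.ga, smul_neg, h3 t (c.symm _ _ ▸ tu) (c.symm _ _ ▸ tv)])
    (by rw [mul_smul, smul_add, p.gb, pv, smul_add, smul_neg, h1, h2]; abel)
    (by rw [mul_smul, smul_sub, p.gb, pv, smul_sub, smul_neg, h1, h2]; abel)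
    (by rw [mul_smul, p.fix d d1 d2, h3 d d2 d3]) (by rw [mul_smul, p.fix e e1 e2, h3 e e2 e3])).root
    c ht
  refine ⟨k, mul_left_cancel₀ c.two ?_, _, hk⟩
  have := hk.1
  simp only [map_smul, LinearMap.smul_apply, n1, smul_eq_mul] at this
  linear_combination this

end Ed

theorem Pl.not3 (c : Ctx G B) {i : G} {a b u v w : W} (p : Pl B i a b) (hu : i • u = -u)
    (hv : i • v = -v) (hw : i • w = -w) (nu : B u u ≠ 0) (nv : B v v ≠ 0) (nw : B w w ≠ 0)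
    (uv : B u v = 0) (uw : B u w = 0) (vw : B v w = 0) : False :=
  ne_zero_of nw (eq_zero_of_neg c.two (((p.of c hu hv nu nv uv).fix w uw vw).symm.trans hw))

/-- the stabiliser of `± v` -/
def PmS (G : Type*) [Group G] [DistribMulAction G W] (v : W) : Subgroup G where
  carrier := {g | Pm g v}
  one_mem' := .one v
  mul_mem' := .mul
  inv_mem' := .inv

/-- the diagonal group of a frame -/
def Eg (G : Type*) [Group G] [DistribMulAction G W] (e : Fin 5 → W) : Subgroup G :=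
  ⨅ k, PmS G (e k)

theorem mem_Eg {e : Fin 5 → W} {g : G} : g ∈ Eg G e ↔ ∀ k, Pm g (e k) := Subgroup.mem_iInf

namespace Fr

variable (c : Ctx G B) {e : Fin 5 → W} (f : Fr G B e) {g : G}
include c f

theorem n (k : Fin 5) : B (e k) (e k) = 2 := (f.1 k).elim fun _ h => h.1

theorem ob : Ob B e := ⟨fun k => f.n c k ▸ c.two, f.2⟩

theorem smul (g : G) : Fr G B fun k => g • e k :=
  ⟨fun k => (f.1 k).smul c g, fun i j h => by rw [c.inv, f.2 i j h]⟩

theorem sq (hg : g ∈ Eg G e) : g * g = 1 := c.ext (f.ob c) fun k => by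
  rcases mem_Eg.1 hg k with h | h <;> simp [mul_smul, h]

theorem isP : IsPGroup 2 (Eg G e) := fun g =>
  ⟨1, Subtype.ext (by rw [pow_one, pow_two]; exact f.sq c g.2)⟩

theorem mem {k : Fin 5} (h : T B g (e k)) : g ∈ Eg G e := mem_Eg.2 fun l => by
  by_cases hl : k = l
  · exact hl ▸ .inl h.self
  · exact .inr (h.perp (f.2 k l hl))

omit c f in
theorem conj (h : G) (hg : g ∈ Eg G e) : h * g * h⁻¹ ∈ Eg G fun k => h • e k :=
  mem_Eg.2 fun k => by rcases mem_Eg.1 hg k with h1 | h1 <;> simp [Pm, mul_smul, h1]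

theorem signs (m : Fin 5) (s : Finset (Fin 5)) : ∃ g ∈ Eg G e, ∀ l, l ≠ m →
    g • e l = if l ∈ s then -e l else e l := by
  induction s using Finset.induction_on with
  | empty => exact ⟨1, one_mem _, by simp⟩
  | insert a s ha ih =>
    obtain ⟨g, hg, h⟩ := ih
    by_cases ham : a = m
    · exact ⟨g, hg, fun l hl => by simp [h l hl, ham, hl]⟩
    obtain ⟨σ, hσ⟩ := f.1 a
    obtain ⟨τ, hτ⟩ := f.1 m
    have p := hσ.mul c hτ (f.2 a m ham)
    refine ⟨g * (σ * τ), mul_mem hg (mul_mem (f.mem c hσ) (f.mem c hτ)), fun l hl => ?_⟩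
    by_cases hla : l = a
    · subst hla; simp [mul_smul g, p.ga, h l hl, ha]
    · simp [mul_smul g, p.fix _ (f.2 a l (Ne.symm hla)) (f.2 m l (Ne.symm hl)), h l hl, hla]

end Fr

section

variable [Finite G] [IsSimpleGroup G] (c : Ctx G B) (hG : ¬ IsMulCommutative G) {S : Sylow 2 G}
  {τ i j : G} {t : W} (u : Su B S τ t i j)
include c hG u

theorem Su.plane {g : G} {r : W} (hr : T B g r) (hg : g ∈ S) (h : B r t = 0) :
    i • r = -r ∨ j • r = -r :=
  (u.root c hG hr hg).resolve_left (by rintro (rfl | rfl) <;> simp [u.ht.n c] at h)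

theorem Su.into {e : Fin 5 → W} (f : Fr G B e) (m : Fin 5) {Q : Subgroup G} (hQ : IsPGroup 2 Q)
    (h1 : Eg G e ≤ Q) (h2 : Q ≤ PmS G (e m)) : ∃ g : G, (g • e m = t ∨ g • e m = -t) ∧
      (∀ x ∈ Q, g * x * g⁻¹ ∈ S) ∧ ∀ k, k ≠ m → (∃ ρ ∈ S, T B ρ (g • e k)) ∧
        (i • g • e k = -(g • e k) ∨ j • g • e k = -(g • e k)) := by
  obtain ⟨g, h3, h4⟩ := extr c hG u.ht u.hS (f.1 m) hQ h2
  refine ⟨g, h3, h4, fun k hk => ?_⟩
  obtain ⟨ρ, hρ⟩ := f.1 k
  have h5 := h4 ρ (h1 (f.mem c hρ))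
  refine ⟨⟨_, h5, hρ.conj c g⟩, u.plane c hG (hρ.conj c g) h5 ?_⟩
  have := c.inv g (e k) (e m)
  rcases h3 with h3 | h3 <;> simpa [h3, f.2 k m hk] using this

omit c hG u in
theorem pairs_aux {P Q : Fin 5 → Prop} {r r' : Fin 5 → Fin 5 → Prop} {m a b d k : Fin 5}
    (h : [m, a, b, d, k].Nodup) (h1 : ∀ x, x ≠ m → P x ∨ Q x)
    (p3 : ∀ x y z, x ≠ y → x ≠ z → y ≠ z → P x → P y → ¬ P z)
    (q3 : ∀ x y z, x ≠ y → x ≠ z → y ≠ z → Q x → Q y → ¬ Q z)
    (hr : ∀ x y, x ≠ y → P x → P y → r x y) (hr' : ∀ x y, x ≠ y → Q x → Q y → r' x y) :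
    (r a b ∧ r' d k ∨ r' a b ∧ r d k) ∨ (r a d ∧ r' b k ∨ r' a d ∧ r b k) ∨
      (r a k ∧ r' b d ∨ r' a k ∧ r b d) := by
  simp only [List.nodup_cons, List.mem_cons, not_or, List.not_mem_nil, ← ne_eq] at h
  obtain ⟨⟨m1, m2, m3, m4, -⟩, ⟨a1, a2, a3, -⟩, ⟨b1, b2, -⟩, ⟨d1, -⟩, -⟩ := h
  have := p3 a b d a1 a2 b1
  have := p3 a b k a1 a3 b2
  have := p3 a d k a2 a3 d1
  have := p3 b d k b1 b2 d1
  have := q3 a b d a1 a2 b1
  have := q3 a b k a1 a3 b2
  have := q3 a d k a2 a3 d1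
  have := q3 b d k b1 b2 d1
  rcases h1 a m1.symm with ha | ha <;> rcases h1 b m2.symm with hb | hb <;>
    rcases h1 d m3.symm with hd | hd <;> rcases h1 k m4.symm with hk | hk <;> simp_all

theorem Su.pairs {e : Fin 5 → W} (f : Fr G B e) {m a b d k : Fin 5} (h : [m, a, b, d, k].Nodup)
    {r : Fin 5 → Fin 5 → Prop} {r' : Fin 5 → Fin 5 → Prop}
    (hr : ∀ g : G, ∀ x y, x ≠ y → i • g • e x = -(g • e x) → i • g • e y = -(g • e y) → r x y)
    (hr' : ∀ g : G, ∀ x y, x ≠ y → j • g • e x = -(g • e x) → j • g • e y = -(g • e y) → r' x y) :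
    (r a b ∧ r' d k ∨ r' a b ∧ r d k) ∨ (r a d ∧ r' b k ∨ r' a d ∧ r b k) ∨
      (r a k ∧ r' b d ∨ r' a k ∧ r b d) := by
  obtain ⟨g, -, -, h1⟩ := u.into c hG f m (f.isP c) le_rfl (iInf_le _ m)
  have f' := f.smul c g
  obtain ⟨_, _, p⟩ := u.pi
  obtain ⟨_, _, q⟩ := u.pj
  have n3 : ∀ {i : G} {a' b' : W}, Pl B i a' b' → ∀ x y z, x ≠ y → x ≠ z → y ≠ z →
      i • g • e x = -(g • e x) → i • g • e y = -(g • e y) → i • g • e z ≠ -(g • e z) :=
    fun p x y z h1 h2 h3 a b d => p.not3 c a b d ((f'.ob c).1 x) ((f'.ob c).1 y) ((f'.ob c).1 z)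
      (f'.2 x y h1) (f'.2 x z h2) (f'.2 y z h3)
  exact pairs_aux h (fun x hx => (h1 x hx).2) (n3 p) (n3 q) (hr g) (hr' g)

theorem all_edges {y y' : G} (hy : y * y = i) (hy1 : ∀ w : W, i • w = w → y • w = w)
    (hy' : y' * y' = j) (hy1' : ∀ w : W, j • w = w → y' • w = w) {e : Fin 5 → W} (f : Fr G B e) :
    ∀ a b, a ≠ b → Ed G B (e a) (e b) := by
  have key : ∀ {i y : G}, (∃ a b, Pl B i a b) → y * y = i → (∀ w : W, i • w = w → y • w = w) →
      ∀ g : G, ∀ x z, x ≠ z → i • g • e x = -(g • e x) → i • g • e z = -(g • e z) →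
      Ed G B (e x) (e z) := fun ⟨a, b, p⟩ h1 h2 g x z h3 h4 h5 =>
    have f' := f.smul c g
    (Ed.of_qt c (p.of c h4 h5 ((f'.ob c).1 x) ((f'.ob c).1 z) (f'.2 x z h3))
      ((f'.n c x).trans (f'.n c z).symm) h1 h2).of_smul c
  have h := fun m a b d k (h : [m, a, b, d, k].Nodup) =>
    u.pairs c hG f h (key u.pi hy hy1) (key u.pj hy' hy1')
  have h0 := h 0 1 2 3 4 (by decide)
  have h1 := h 1 0 2 3 4 (by decide)
  have h2 := h 2 0 1 3 4 (by decide)
  have h3 := h 3 0 1 2 4 (by decide)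
  have h4 := h 4 0 1 2 3 (by decide)
  have sy : ∀ a b, Ed G B (e a) (e b) → Ed G B (e b) (e a) := fun a b h => h.symm
  have tr : ∀ a b d, a ≠ b → a ≠ d → Ed G B (e a) (e b) → Ed G B (e b) (e d) →
      Ed G B (e a) (e d) := fun a b d h1 h2 h3 h4 =>
    h3.trans c h4 (f.2 b a h1.symm) (f.2 d a h2.symm)
  clear h key
  generalize hr : (fun a b => Ed G B (e a) (e b)) = r
  have hr' : ∀ a b, Ed G B (e a) (e b) = r a b := fun a b => by rw [← hr]
  simp only [hr', or_self] at h0 h1 h2 h3 h4 sy tr ⊢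
  have : r 0 1 ∧ r 0 2 ∧ r 0 3 ∧ r 0 4 := by grind
  intro a b hab
  fin_cases a <;> fin_cases b <;> grind

theorem Su.in_plane {σ ρ g : G} {s e r : W} (hs : T B σ s) (hσ : σ ∈ S) (p : Pl B j s e)
    (he : T B ρ e) (hr : T B g r) (hg : g ∈ S) (h : j • r = -r)
    (nq : ∀ y : G, y * y = j → ¬ ∀ w : W, j • w = w → y • w = w) :
    (r = s ∨ r = -s) ∨ r = e ∨ r = -e := by
  obtain ⟨n, hn⟩ := exists_pow (mul_mem hσ hg)
  have f0 : ∀ w : W, j • w = w → (σ * g) • w = w := fun w hw => by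
    rw [mul_smul, hr.perp (c.symm _ _ ▸ c.orth hw h), smul_neg,
      hs.perp (c.symm _ _ ▸ c.orth hw p.ga), neg_neg]
  by_cases h1 : σ * g = 1
  · exact .inl (hs.line c (by rw [eq_inv_of_mul_eq_one_left h1, hr.inv c, hr.self]) hr.1)
  by_cases h2 : σ * g = j
  · refine .inr (he.line c ?_ hr.1)
    rw [← (hs.mul c he p.ab).eq c p, mul_right_inj] at h2
    rw [← h2, hr.self]
  obtain ⟨k, hk⟩ := p.qt c n hn h1 h2 f0
  exact (nq _ hk fun w hw => (MulAction.stabilizer G w).pow_mem (f0 w hw) k).elim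

theorem one_side {y σ ρ ν : G} {s e a : W} (hs : T B σ s) (hσ : σ ∈ S) (he : T B ρ e) (hρ : ρ ∈ S)
    (p : Pl B j s e) (ha : T B ν a) (hν : ν ∈ S) (ia : i • a = -a) (hyS : y ∈ S) (hy : y * y = i)
    (hy1 : ∀ w : W, i • w = w → y • w = w)
    (nq : ∀ y : G, y * y = j → ¬ ∀ w : W, j • w = w → y • w = w) : False := by
  have u' := u.symm c
  have yi : y * i = i * y := by rw [← hy, mul_assoc]
  obtain ⟨a', b', q⟩ := u.pi
  have nE : ∀ {v w : W}, j • v = -v → j • w = -w → B v v = 2 → B w w = 2 → B v w = 0 →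
      ¬ Ed G B v w := fun h1 h2 h3 h4 h5 h =>
    (h.qt c (p.of c h1 h2 (h3 ▸ c.two) (h4 ▸ c.two) h5)).elim fun y h => nq y h.2.1 h.2.2
  have perp : ∀ {a : W}, i • a = -a → B a (y • a) = 0 := fun h =>
    c.sq_perp (by rw [← mul_smul, hy, h])
  have pl : ∀ {a : W}, i • a = -a → B a a = 2 → Pl B i a (y • a) := fun h h' =>
    q.of c h (neg_comm yi h) (h' ▸ c.two) (by rw [c.inv, h']; exact c.two) (perp h)
  have o5 : ∀ {s e a : W}, Pl B j s e → i • a = -a → B a a = 2 → O5 B t s e a (y • a) :=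
    fun p h h' => c.mk5 (u.ht.n c) p.na p.nb (pl h h').na (pl h h').nb (u'.perp c p.ga)
      (u'.perp c p.gb) (u.perp c h) (u.perp c (neg_comm yi h)) p.ab
      (c.orth (u'.fix_j c p.ga) h) (c.orth (u'.fix_j c p.ga) (neg_comm yi h))
      (c.orth (u'.fix_j c p.gb) h) (c.orth (u'.fix_j c p.gb) (neg_comm yi h)) (perp h)
  -- the roots of `S` in the plane with the quarter turn
  let X : W → Prop := fun a => (∃ ν ∈ S, T B ν a) ∧ i • a = -a
  have tr : ∀ {σ ρ : G} {s e : W}, T B σ s → σ ∈ S → T B ρ e → ρ ∈ S → Pl B j s e →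
      ¬ Ed G B t e ∧ (∀ a, X a → Ed G B a s → ∃ a', X a' ∧ Ed G B a' t) ∧
        ∀ a, X a → Ed G B a t → ∃ a', X a' ∧ Ed G B a' s := by
    intro σ ρ s e hs hσ he hρ p
    obtain ⟨g, h3, h4⟩ := extr c hG u.ht u.hS ⟨_, hs⟩ (Q := (S : Subgroup G) ⊓ PmS G s)
      S.isPGroup'.to_inf_left fun x hx => hx.2
    have key : ∀ {y : G} {w : W}, T B y w → y ∈ S → B w s = 0 → g * y * g⁻¹ ∈ S ∧
        (i • g • w = -(g • w) ∨ j • g • w = -(g • w)) := fun {y w} hy hyS hw => by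
      have h5 := h4 y ⟨hyS, .inr (hy.perp hw)⟩
      refine ⟨h5, u.plane c hG (hy.conj c g) h5 ?_⟩
      have := c.inv g w s
      rcases h3 with h3 | h3 <;> simpa [h3, hw] using this
    have y1 := h4 y ⟨hyS, .inl (hy1 s (u'.fix_j c p.ga))⟩
    have kt := (key u.ht (u.τS c) (u'.perp c p.ga)).2
    have y2 : (g * y * g⁻¹) • g • t = g • t := by rw [conj_smul, hy1 t u.it]
    have y3 : g * y * g⁻¹ * i = i * (g * y * g⁻¹) := by
      rcases kt with h | h
      · exact u.comm_of c y1 ((u.ht.conj c g).n c) h (by rwa [y2])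
      · exact u'.comm_j c (u'.comm_of c y1 ((u.ht.conj c g).n c) h (by rwa [y2])) (u.cτ c y1)
    have k1 : ∀ a, X a → X (g • a) := by
      rintro a ⟨⟨ν, hν, ha⟩, ia⟩
      obtain ⟨h5, h6⟩ := key ha hν (c.symm _ _ ▸ c.orth (u'.fix_j c p.ga) ia)
      refine ⟨⟨_, h5, ha.conj c g⟩, h6.resolve_right fun h7 => ?_⟩
      refine nE h7 (by rw [← conj_smul g y]; exact neg_comm (u.comm_j c y3 (u.cτ c y1)) h7)
        (by rw [c.inv, ha.1]) (by rw [c.inv, c.inv, ha.1]) (by rw [c.inv, perp ia])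
        (((Ed.of_qt c (pl ia ha.1) (c.inv _ _ _).symm hy hy1)).smul c g)
    have k2 : ∀ {w : W}, B w w = 2 → i • w = w → i • g • w ≠ -(g • w) := fun {w} h1 h2 h =>
      q.not3 c (k1 a ⟨⟨ν, hν, ha⟩, ia⟩).2 (k1 _ ⟨⟨_, mul_mem (mul_mem hyS hν) (inv_mem hyS),
        ha.conj c y⟩, neg_comm yi ia⟩).2 h (by rw [c.inv]; exact ha.n c)
        (by rw [c.inv, c.inv]; exact ha.n c) (by rw [c.inv, h1]; exact c.two)
        (by rw [c.inv, perp ia]) (by rw [c.inv, c.symm, c.orth h2 ia])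
        (by rw [c.inv, c.symm, c.orth h2 (neg_comm yi ia)])
    refine ⟨fun h => nE (kt.resolve_left (k2 u.ht.1 u.it))
      ((key he hρ (p.swap c).ab).2.resolve_left (k2 he.1 (u'.fix_j c p.gb))) (by rw [c.inv, u.ht.1])
      (by rw [c.inv, he.1]) (by rw [c.inv, u'.perp c p.gb]) (h.smul c g),
      fun a h1 h2 => ⟨_, k1 a h1, (h2.smul c g).pm (by rcases h3 with h3 | h3 <;> simp [h3])⟩,
      fun a h1 h2 => ?_⟩
    have k3 : ∀ n : ℕ, X ((g ^ n) • a) := fun n => by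
      induction n with
      | zero => simpa using h1
      | succ n ih => rw [pow_succ', mul_smul]; exact k1 _ ih
    refine ⟨g⁻¹ • a, ?_, Ed.of_smul c (g := g) (by rw [smul_inv_smul]; exact h2.pm h3)⟩
    rw [inv_eq_of_mul_eq_one_right (a := g) (b := g ^ (orderOf g - 1)) (by
      rw [← pow_succ', Nat.sub_add_cancel (orderOf_pos g), pow_orderOf_eq_one])]
    exact k3 _
  obtain ⟨nte, st, ts⟩ := tr hs hσ he hρ p
  obtain ⟨nts, et, te⟩ := tr he hρ hs hσ (p.swap c)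
  have nse := nE p.ga p.gb hs.1 he.1 p.ab
  have f := fr_of (o5 p ia ha.1) ⟨_, u.ht⟩ ⟨_, hs⟩ ⟨_, he⟩ ⟨_, ha⟩ ⟨_, ha.conj c y⟩
  have xa : X a := ⟨⟨ν, hν, ha⟩, ia⟩
  obtain ⟨a₁, x1, e1⟩ : ∃ a', X a' ∧ Ed G B a' t := by
    have := u.pairs c hG f (m := 4) (a := 0) (b := 1) (d := 2) (k := 3) (by decide)
      (r := fun x z => Ed G B (![t, s, e, a, y • a] x) (![t, s, e, a, y • a] z))
      (r' := fun _ _ => True) (fun g x z h3 h4 h5 =>
        have f' := f.smul c g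
        (Ed.of_qt c (q.of c h4 h5 ((f'.ob c).1 x) ((f'.ob c).1 z) (f'.2 x z h3))
          ((f'.n c x).trans (f'.n c z).symm) hy hy1).of_smul c) fun _ _ _ _ _ _ => trivial
    simp only [and_true, true_and] at this
    rcases this with (h | h) | (h | h) | h | h
    exacts [(nts h).elim, et a xa h.symm, (nte h).elim, st a xa h.symm, ⟨a, xa, h.symm⟩,
      (nse h).elim]
  obtain ⟨a₂, x2, e2⟩ := ts a₁ x1 e1
  obtain ⟨a₃, x3, e3⟩ := te a₁ x1 e1
  let C : Subgroup G := MulAction.stabilizer G t ⊓ MulAction.stabilizer G s ⊓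
    MulAction.stabilizer G e
  have hC : ∀ d : G, d ∈ C ↔ (d • t = t ∧ d • s = s) ∧ d • e = e := fun d => Iff.rfl
  have fx : ∀ d ∈ C, ∀ w : W, i • w = w → d • w = w := fun d hd w hw => by
    have o := o5 p ia ha.1
    have o' : O5 B a (y • a) t s e := by cases o; constructor <;> assumption
    simpa using c.lin3 o' (k := 1) (g := d) (by simpa using hd.1.1) (by simpa using hd.1.2)
      (by simpa using hd.2) (c.symm _ _ ▸ c.orth hw ia) (c.symm _ _ ▸ c.orth hw (neg_comm yi ia))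
  have ci : ∀ d ∈ C, d * i = i * d := fun d hd => mul_inv_eq_iff_eq_mul.1 (q.uniq c
    ((q.conj c d).sq c) ((q.conj c d).ne_one c) fun w hw => by
      rw [mul_smul, mul_smul, fx _ (inv_mem hd) w hw, hw, fx d hd w hw])
  have inv : ∀ {ν : G} {a : W}, T B ν a → i • a = -a → ∀ d ∈ C, ν * d * ν = d⁻¹ := by
    intro ν a ha ia d hd
    have o := o5 p ia ha.1
    have h1 := (Pd.ex c (pl ia ha.1) (ci d hd)).resolve_right fun h => c.two (by
      linear_combination -Pd.det c o (det_one hG d) (k := 1) (δ := 1) (by simpa using hd.1.1)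
        (.of hd.1.2 (by simpa using hd.2)) h)
    have h2 := Pd.sq (ha.n c) (g := ν * d) (b := y • a) (by
      simpa using (Pd.of (δ := -1) ha.self (by simpa using ha.perp (perp ia))).mul (ha.n c)
        (by simp) h1)
    refine eq_inv_of_mul_eq_one_left (mul_assoc (ν * d) ν d ▸ c.ext5 o ?_ ?_ ?_ (by simpa using h2.1)
      (by simpa using h2.2))
    · simp [mul_smul, ((hC d).1 hd).1.1, ha.perp o.da]
    · simp [mul_smul, ((hC d).1 hd).1.2, ha.perp o.db]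
    · simp [mul_smul, ((hC d).1 hd).2, ha.perp o.dc]
  have mem : ∀ {ν ν' : G} {a a' : W}, T B ν a → i • a = -a → T B ν' a' → i • a' = -a' →
      ν * ν' ∈ C := fun {ν ν' a a'} h1 h2 h3 h4 => by
    have o := o5 p h2 h1.1
    have o' := o5 p h4 h3.1
    simp [hC, mul_smul, h1.perp o.da, h1.perp o.db, h1.perp o.dc, h3.perp o'.da, h3.perp o'.db,
      h3.perp o'.dc]
  have fin : ∀ {ν ν' : G} {a a' v v' : W}, T B ν a → i • a = -a → T B ν' a' → i • a' = -a' →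
      i • v = v → i • v' = v' → B v' v = 0 → Ed G B a v → Ed G B a' v' → ∀ d ∈ C,
      ν * ν' = d * d → Ed G B v v' := by
    intro ν ν' a a' v v' h1 h2 h3 h4 h5 h6 h7 k1 k2 d hd h
    have e1 : ν = d * ν' * d⁻¹ := by
      rw [← inv h3 h4 d hd, ← mul_assoc, ← mul_assoc, mul_assoc d, h3.sq c, mul_one, ← h,
        mul_assoc, h3.sq c, mul_one]
    have e2 := (h3.conj c d).line c (e1 ▸ h1.self) h1.1
    have k3 := k2.smul c d
    rw [fx d hd _ h6] at k3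
    exact k1.symm.trans c (k3.symm.pm e2).symm (c.symm _ _ ▸ c.orth h5 h2) h7
  obtain ⟨⟨ν₁, -, t1⟩, i1⟩ := x1
  obtain ⟨⟨ν₂, -, t2⟩, i2⟩ := x2
  obtain ⟨⟨ν₃, -, t3⟩, i3⟩ := x3
  have is := u'.fix_j c p.ga
  have ie := u'.fix_j c p.gb
  have o := o5 p ia ha.1
  rcases idx (R := C) ⊥ (fun x z => Subgroup.mem_bot.2 (Subtype.ext (by
      have : ((x : G) * z)⁻¹ = (x : G)⁻¹ * (z : G)⁻¹ := by
        rw [← inv ha ia _ (mul_mem x.2 z.2), ← inv ha ia _ x.2, ← inv ha ia _ z.2]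
        simp only [mul_assoc, ← mul_assoc ν ν, ha.sq c, one_mul]
      simp only [Subgroup.coe_mul, Subgroup.coe_inv, OneMemClass.coe_one, this]
      group)))
    ⟨i, ⟨u.it, is⟩, ie⟩ (fun x hx => by
      simp only [Subgroup.mem_bot, Subtype.ext_iff, Subgroup.coe_mul,
        OneMemClass.coe_one, inv_mul_eq_one] at hx ⊢
      exact or_iff_not_imp_left.2 fun h => q.uniq c hx h (fx x x.2))
    ⟨_, mem t2 i2 t1 i1⟩ ⟨_, mem t3 i3 t1 i1⟩ with ⟨d, h⟩ | ⟨d, h⟩ | ⟨d, h⟩ <;>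
    simp only [Subgroup.mem_bot, Subtype.ext_iff, Subgroup.coe_mul, Subgroup.coe_inv,
      inv_mul_eq_one] at h
  · exact nts (fin t2 i2 t1 i1 is u.it o.ab e2 e1 d d.2 h).symm
  · exact nte (fin t3 i3 t1 i1 ie u.it o.ac e3 e1 d d.2 h).symm
  · refine nse (fin t2 i2 t3 i3 is ie o.cb e2 e3 d d.2 ?_)
    rw [← h, mul_inv_rev, mul_assoc, mul_inv_cancel_left, t3.inv c]

end

/-- if some frame has an edge, then all frames have all edges -/
theorem edges_of_edge [Finite G] [IsSimpleGroup G] (c : Ctx G B) (hG : ¬ IsMulCommutative G)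
    {e : Fin 5 → W} (f : Fr G B e) {a b : Fin 5} (hab : a ≠ b) (h : Ed G B (e a) (e b))
    {e' : Fin 5 → W} (f' : Fr G B e') : ∀ a b, a ≠ b → Ed G B (e' a) (e' b) := by
  obtain ⟨S⟩ : Nonempty (Sylow 2 G) := inferInstance
  obtain ⟨τ, t, i, j, u⟩ := exists_su c hG S (f.1 a)
  obtain ⟨m, d, k, hn⟩ := (by decide : ∀ a b : Fin 5, a ≠ b → ∃ m d k, [m, a, b, d, k].Nodup)
    a b hab
  simp only [List.nodup_cons, List.mem_cons, not_or, List.not_mem_nil, ← ne_eq] at hn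
  obtain ⟨⟨m1, m2, m3, m4, -⟩, ⟨a1, a2, a3, -⟩, ⟨b1, b2, -⟩, ⟨d1, -⟩, -⟩ := hn
  obtain ⟨σ, hσ⟩ := f.1 a
  obtain ⟨ρ, hρ⟩ := f.1 b
  have p := hσ.mul c hρ (f.2 a b hab)
  obtain ⟨y, y1, y2, y3⟩ := h.qt c p
  have y4 : y • e b = -e a := by rw [← y1, ← mul_smul, y2, p.ga]
  have y5 : ∀ l, a ≠ l → b ≠ l → y • e l = e l := fun l h1 h2 =>
    y3 _ (p.fix _ (f.2 a l h1) (f.2 b l h2))
  have hQ := CL.SylowAux.isPGroup_sup_zpowers (n := 2) (f.isP c) (x := y)
    (by rw [show 2 ^ 2 = 2 * 2 by norm_num, pow_mul, pow_two y, y2, pow_two, p.sq c])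
    (Subgroup.mem_normalizer_fintype fun x hx => mem_Eg.2 fun l => by
      by_cases h1 : a = l
      · subst h1
        rcases mem_Eg.1 hx b with h | h <;>
          simp [Pm, mul_smul, show y⁻¹ • e a = -e b by rw [inv_smul_eq_iff, smul_neg, y4, neg_neg],
            h, y4]
      by_cases h2 : b = l
      · subst h2
        rcases mem_Eg.1 hx a with h | h <;>
          simp [Pm, mul_smul, show y⁻¹ • e b = e a by rw [inv_smul_eq_iff, y1], h, y1]
      · rcases mem_Eg.1 hx l with h | h <;>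
          simp [Pm, mul_smul, inv_smul_eq_iff.2 (y5 l h1 h2).symm, h, y5 l h1 h2])
  obtain ⟨g, -, g1, g2⟩ := u.into c hG f m hQ le_sup_left (sup_le (iInf_le _ m)
    ((Subgroup.zpowers_le).2 (.inl (y5 m m1.symm m2.symm))))
  have g3 := g1 y (Subgroup.mem_sup_right (Subgroup.mem_zpowers y))
  have fg := f.smul c g
  have key : ∀ {i j : G}, Su B S τ t i j → (∀ k, k ≠ m → (∃ ρ ∈ S, T B ρ (g • e k)) ∧
      (i • g • e k = -(g • e k) ∨ j • g • e k = -(g • e k))) → i • g • e a = -(g • e a) →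
      ∀ a b, a ≠ b → Ed G B (e' a) (e' b) := by
    intro i j u g2 ia
    have u' := u.symm c
    have hd : (g * y * g⁻¹) • g • e d = g • e d := by rw [conj_smul, y5 d a2 b1]
    have yi : g * y * g⁻¹ * i = i * (g * y * g⁻¹) := by
      rcases (g2 d m3.symm).2 with h | h
      · exact u.comm_of c g3 ((fg.ob c).1 d) h (by rwa [hd])
      · exact u'.comm_j c (u'.comm_of c g3 ((fg.ob c).1 d) h (by rwa [hd])) (u.cτ c g3)
    have ib : i • g • e b = -(g • e b) := by rw [← y1, ← conj_smul g y]; exact neg_comm yi ia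
    obtain ⟨_, _, q⟩ := u.pi
    obtain ⟨_, _, q'⟩ := u.pj
    have e1 := (p.conj c g).eq c (q.of c ia ib ((fg.ob c).1 a) ((fg.ob c).1 b) (fg.2 a b hab))
    have z1 : g * y * g⁻¹ * (g * y * g⁻¹) = i := by rw [conj_mul, y2, e1]
    have z2 : ∀ w : W, i • w = w → (g * y * g⁻¹) • w = w := fun w hw => by
      rw [mul_smul, mul_smul, y3 _ (by rw [eq_inv_smul_iff, ← mul_smul, ← mul_smul, e1, hw]),
        smul_inv_smul]
    by_cases h : ∃ y' : G, y' * y' = j ∧ ∀ w : W, j • w = w → y' • w = w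
    · obtain ⟨y', h1, h2⟩ := h
      exact all_edges c hG u z1 z2 h1 h2 f'
    have n3 : ∀ l, l ≠ m → a ≠ l → b ≠ l → j • g • e l = -(g • e l) := fun l h0 h1 h2 =>
      (g2 l h0).2.resolve_left fun h3 => q.not3 c ia ib h3 ((fg.ob c).1 a) ((fg.ob c).1 b)
        ((fg.ob c).1 l) (fg.2 a b hab) (fg.2 a l h1) (fg.2 b l h2)
    obtain ⟨σ, hσ, ts⟩ := (g2 d m3.symm).1
    obtain ⟨ρ, hρ, te⟩ := (g2 k m4.symm).1
    obtain ⟨ν, hν, ta⟩ := (g2 a m1.symm).1
    exact (one_side c hG u ts hσ te hρ (q'.of c (n3 d m3.symm a2 b1) (n3 k m4.symm a3 b2) (ts.n c)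
      (te.n c) (fg.2 d k d1)) ta hν ia g3 z1 z2 fun y' h1 h2 => h ⟨y', h1, h2⟩).elim
  rcases (g2 a m1.symm).2 with h | h
  · exact key u g2 h
  · exact key (u.symm c) (fun k hk => ⟨(g2 k hk).1, (g2 k hk).2.symm⟩) h

end CL.Sp4O
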