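import Mathlib

/-!
# Three computations in `S₄` and `S₅`
-/

set_option autoImplicit false

namespace CL.Sp4O

open Equiv

set_option synthInstance.maxSize 4000 in
theorem a5_fact : ∀ a : Perm (Fin 5), a * a = 1 → a ≠ 1 → a.sign = 1 → ∀ b, b * b = 1 → b ≠ 1 →
    a * b = b * a → a ≠ b → b.sign = 1 → ∃ s, s * s = 1 ∧ (s * a) ^ 3 = 1 ∧ s * a ≠ 1 ∧
      (s * (a * b)) ^ 5 = 1 ∧ s * (a * b) ≠ 1 ∧ s.sign = 1 ∧ ∀ s', s' * s' = 1 →
        (s' * b) ^ 3 = 1 → s' * b ≠ 1 → ∃ g, g * (s * b) = s' * (a * b) * g ∧ g.sign = 1 := by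
  decide +kernel

set_option synthInstance.maxSize 4000 in
theorem s4_fact : (∀ a b : Perm (Fin 4), a * a = 1 → b * b = 1 → a * b = b * a →
    (∃ x, a = x * x) ∨ (∃ x, b = x * x) ∨ ∃ x, a * b = x * x) ∧
    ∀ x y : Perm (Fin 4), x * x * (x * x) = 1 → y * y * (y * y) = 1 →
      x * x * (y * y) = y * y * (x * x) := by
  decide +kernel

set_option synthInstance.maxSize 4000 in
theorem a4_fact : ∀ a : Perm (Fin 4), a * a = 1 → a.sign = 1 → ∀ b, b * b = 1 → b.sign = 1 →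
    a * b = b * a := by
  decide +kernel

end CL.Sp4O
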