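import Mathlib
import Cfsg.Agent.CLAS.PGL2A5
import Cfsg.Agent.CLAS.PGL2Subfield
import Cfsg.Agent.CLAS.Sp4O8A

/-!
# Subgroups of `PGL₂(F)` containing a four-group whose involutions are fused in the normaliser
-/

set_option autoImplicit false

namespace CL.Sp4O

open Matrix CL.Dk CL.PGL2 Equiv
open scoped MatrixGroups Quaternion

variable {F : Type*} [Field F] (h2 : (2 : F) ≠ 0) (B : QB F) {H : Subgroup PGL(2, F)}

theorem a5_fact' {G : Type*} [Group G] (e : G ≃* alternatingGroup (Fin 5)) {a b : G}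
    (h1 : a * a = 1) (h2 : a ≠ 1) (h3 : b * b = 1) (h4 : b ≠ 1) (h5 : a * b = b * a) (h6 : a ≠ b) :
    ∃ s, s * s = 1 ∧ (s * a) ^ 3 = 1 ∧ s * a ≠ 1 ∧ (s * (a * b)) ^ 5 = 1 ∧ s * (a * b) ≠ 1 ∧
      ∀ s', s' * s' = 1 → (s' * b) ^ 3 = 1 → s' * b ≠ 1 →
        ∃ g, g * (s * b) = s' * (a * b) * g := by
  let ρ : G →* Perm (Fin 5) := (alternatingGroup _).subtype.comp e.toMonoidHom
  have hρ : Function.Injective ρ := Subtype.val_injective.comp e.injective
  have hs : ∀ σ : Perm (Fin 5), σ.sign = 1 → ∃ g, ρ g = σ := fun σ h =>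
    ⟨e.symm ⟨σ, h⟩, by simp [ρ]⟩
  have h0 : ∀ {x}, ρ x = 1 ↔ x = 1 := map_eq_one_iff ρ hρ
  obtain ⟨s, a1, a2, a3, a4, a5, a6, a7⟩ := a5_fact (ρ a) (by rw [← map_mul, h1, map_one])
    (h0.ne.2 h2) (e a).2 (ρ b) (by rw [← map_mul, h3, map_one]) (h0.ne.2 h4)
    (by rw [← map_mul, h5, map_mul]) (hρ.ne h6) (e b).2
  obtain ⟨s, rfl⟩ := hs s a6
  simp only [← map_mul, ← map_pow, ne_eq, h0] at a1 a2 a3 a4 a5
  refine ⟨s, a1, a2, a3, a4, a5, fun s' b1 b2 b3 => ?_⟩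
  obtain ⟨g, b4, b5⟩ := a7 (ρ s') (by rw [← map_mul, b1, map_one])
    (by rw [← map_mul, ← map_pow, b2, map_one]) (by rw [← map_mul]; exact h0.ne.2 b3)
  obtain ⟨g, rfl⟩ := hs g b5
  exact ⟨g, hρ (by simpa only [map_mul] using b4)⟩

include h2

theorem nS : Quaternion.normSq (qq (0 : F) 1 (-1) 0) ≠ 0 := by
  rw [normSq_qq]; intro h; exact h2 (by linear_combination h)

theorem swap_conj {x y z : F} (h : Quaternion.normSq (qq 0 x y z) ≠ 0) :
    qp B (qq 0 1 (-1) 0) * qp B (qq 0 x y z) * (qp B (qq 0 1 (-1) 0))⁻¹ = qp B (qq 0 y x z) := by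
  have h' : Quaternion.normSq (qq 0 y x z) ≠ 0 := by
    rw [normSq_qq] at h ⊢; intro e; exact h (by linear_combination e)
  rw [mul_inv_eq_iff_eq_mul, qp_mul h2 B h' (nS h2)]
  exact qp_mul_eq h2 B (nS h2) h (-1) (by ext <;> simp; ring)

theorem five_of_swap (e : H ≃* alternatingGroup (Fin 5)) (hI : vI B ∈ H) (hJ : vJ B ∈ H)
    (hw : ∀ x y z, Quaternion.normSq (qq 0 x y z) ≠ 0 → qp B (qq 0 x y z) ∈ H →
      qp B (qq 0 y x z) ∈ Subgroup.normalizer (H : Set PGL(2, F))) : (5 : F) = 0 := by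
  have hL := le_pslIn_of_equiv_alternating ⟨e⟩
  let ρ : H →* PGL(2, F) := (MulAut.conj (qp B (qq 0 1 (-1) 0))).toMonoidHom.comp H.subtype
  have hρ : ∀ x : H, ρ x = qp B (qq 0 1 (-1) 0) * x * (qp B (qq 0 1 (-1) 0))⁻¹ := fun _ => rfl
  have ρi : Function.Injective ρ := (MulAut.conj _).injective.comp Subtype.val_injective
  have eI : ρ ⟨_, hI⟩ = vJ B := swap_conj h2 B nI
  have eJ : ρ ⟨_, hJ⟩ = vI B := swap_conj h2 B nJ
  have ii : (⟨_, hI⟩ : H) * ⟨_, hI⟩ = 1 := Subtype.ext (vI_mul_vI h2 B)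
  have jj : (⟨_, hJ⟩ : H) * ⟨_, hJ⟩ = 1 := Subtype.ext (vJ_mul_vJ h2 B)
  have ij : (⟨_, hI⟩ : H) * ⟨_, hJ⟩ = ⟨_, hJ⟩ * ⟨_, hI⟩ :=
    Subtype.ext ((vI_mul_vJ h2 B).trans (vJ_mul_vI h2 B).symm)
  have i1 : (⟨_, hI⟩ : H) ≠ 1 := fun h => vI_ne_one h2 B (congrArg Subtype.val h)
  obtain ⟨s, a1, a2, a3, a4, a5, a6⟩ := a5_fact' e ii i1 jj
    (fun h => vJ_ne_one h2 B (congrArg Subtype.val h)) ij
    (fun h => vI_ne_vJ h2 B (congrArg Subtype.val h))
  have s1 : s ≠ 1 := by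
    rintro rfl
    exact i1 (by simpa [pow_succ, ii] using a2)
  have inv : ∀ x : H, x * x = 1 → ρ x ∈ Subgroup.normalizer (H : Set PGL(2, F)) := fun x hx => by
    by_cases h1 : x = 1
    · rw [h1, map_one]; exact one_mem _
    obtain ⟨a, b, c, n, e, -⟩ := exists_qq_of_involution h2 B (hL x.2)
      (fun h => h1 (Subtype.ext h)) (by rw [sq]; exact congrArg Subtype.val hx)
    have n' : Quaternion.normSq (qq 0 a b c) ≠ 0 := by
      rw [normSq_qq, show (0 : F) ^ 2 + a ^ 2 + b ^ 2 + c ^ 2 = 1 by linear_combination n]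
      exact one_ne_zero
    rw [hρ, e, swap_conj h2 B n']
    exact hw _ _ _ n' (e ▸ x.2)
  have all : ∀ x : H, ρ x ∈ Subgroup.normalizer (H : Set PGL(2, F)) := fun x => by
    have : ((Subgroup.normalizer (H : Set PGL(2, F))).comap ρ).comap e.symm.toMonoidHom = ⊤ := by
      refine alt_five_eq_top (a := e s) (b := e (s * ⟨_, hI⟩)) (c := e (s * (⟨_, hI⟩ * ⟨_, hJ⟩)))
        ?_ ?_ ?_ (e.map_ne_one_iff.2 s1) (e.map_ne_one_iff.2 a3) (e.map_ne_one_iff.2 a5)
        (by rw [← map_pow, sq, a1, map_one]) (by rw [← map_pow, a2, map_one])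
        (by rw [← map_pow, a4, map_one]) <;>
      simp only [Subgroup.mem_comap, MulEquiv.coe_toMonoidHom, MulEquiv.symm_apply_apply]
      · exact inv s a1
      · rw [map_mul]; exact mul_mem (inv s a1) (inv _ ii)
      · rw [map_mul, map_mul]; exact mul_mem (inv s a1) (mul_mem (inv _ ii) (inv _ jj))
    simpa using (this.ge (Subgroup.mem_top (e x)) :)
  have : IsSimpleGroup H := e.isSimpleGroup
  have hn : (H.comap ρ).Normal := ⟨fun x hx g => by
    rw [Subgroup.mem_comap, map_mul, map_mul, map_inv]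
    exact (Subgroup.mem_normalizer_iff.1 (all g) _).1 hx⟩
  have top : ∀ x, ρ x ∈ H := fun x => by
    rcases hn.eq_bot_or_eq_top with h | h
    · exact absurd (h.le (Subgroup.mem_comap.2 (eI ▸ hJ))) i1
    · exact h.ge (Subgroup.mem_top x)
  obtain ⟨g, hg⟩ := a6 ⟨ρ s, top s⟩ (Subtype.ext (by simp [← map_mul, a1]))
    (Subtype.ext (by simp [← eI, ← map_mul, ← map_pow, a2]))
    (fun h => a3 (ρi (by simpa [eI] using congrArg Subtype.val h)))
  obtain ⟨a, b, c, n, -, t1, t2, t3⟩ := exists_qq_of_involution h2 B (hL s.2)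
    (fun h => s1 (Subtype.ext h)) (by rw [sq]; exact congrArg Subtype.val a1)
  have u1 := (cube_eq_one_iff_tau fun h => a3 (Subtype.ext h)).1 (congrArg Subtype.val a2)
  have u2 := (pow_five_eq_one_iff_tau fun h => a5 (Subtype.ext h)).1 (congrArg Subtype.val a4)
  have u3 : tau (s.1 * vJ B) = tau (s.1 * vK B) := by
    have := congrArg Subtype.val hg
    simp only [Subgroup.coe_mul] at this
    have e1 : ρ s * (vI B * vJ B) = ρ (s * (⟨_, hJ⟩ * ⟨_, hI⟩)) := by rw [map_mul, map_mul, eI, eJ]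
    rw [← tau_conj g, this, mul_inv_cancel_right, e1, hρ, tau_conj, Subgroup.coe_mul,
      Subgroup.coe_mul, vJ_mul_vI h2 B]
  simp only [Subgroup.coe_mul, vI_mul_vJ h2 B] at u1 u2
  rw [t1] at u1
  rw [t3] at u2
  rw [t2, t3] at u3
  linear_combination (-4) * u2 + (2 * (2 * c) ^ 2 - 3) * (4 * n - u1 - u3)

omit h2 in
theorem tri_aux {a b c d : F} (h : a ^ 2 + b ^ 2 + c ^ 2 + d ^ 2 ≠ 0) (h1 : b * c = -(a * d))
    (h3 : b * d = a * c) : (c = 0 ∧ d = 0) ∨ (a = 0 ∧ b = 0) := by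
  by_cases e : a ^ 2 + b ^ 2 = 0
  · have e' : c ^ 2 + d ^ 2 ≠ 0 := fun e' => h (by linear_combination e + e')
    exact .inr ⟨mul_right_cancel₀ e' (by linear_combination d * h1 - c * h3),
      mul_right_cancel₀ e' (by linear_combination c * h1 + d * h3)⟩
  · exact .inl ⟨mul_right_cancel₀ e (by linear_combination b * h1 - a * h3),
      mul_right_cancel₀ e (by linear_combination a * h1 + b * h3)⟩

theorem octa_conj {x y : ℍ[F]} (hx : Quaternion.normSq x ≠ 0) (hy : Quaternion.normSq y ≠ 0)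
    (h : qp B x ∈ octa B) (h' : qp B y ∈ fourQ B) (h1 : qp B y ≠ 1) :
    ∃ c : F, c • qq 0 1 0 0 = x * y * star x ∨ c • qq 0 0 1 0 = x * y * star x ∨
      c • qq 0 0 0 1 = x * y * star x := by
  have hs : Quaternion.normSq (star x) ≠ 0 := by rwa [Quaternion.normSq_star]
  have hxy : Quaternion.normSq (x * y) ≠ 0 := by rw [map_mul]; exact mul_ne_zero hx hy
  have hn : Quaternion.normSq (x * y * star x) ≠ 0 := by rw [map_mul]; exact mul_ne_zero hxy hs
  have e : (qp B x)⁻¹ = qp B (star x) := inv_eq_of_mul_eq_one_right <| by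
    rw [qp_mul_eq h2 B hx hs (Quaternion.normSq x) (z := 1) (by
      rw [Quaternion.self_mul_star]; ext <;> simp), qp_one h2]
  have := (Subgroup.mem_normalizer_iff.1 h _).1 h'
  have h0 : qp B x * qp B y * (qp B x)⁻¹ ≠ 1 := by simpa using h1
  rw [e, qp_mul h2 B hx hy, qp_mul h2 B hxy hs] at this h0
  rcases (mem_fourQ h2 B).1 this with h | h | h | h
  · exact absurd h h0
  · exact ((qp_eq_iff h2 B nI hn).1 h.symm).imp fun _ => .inl
  · exact ((qp_eq_iff h2 B nJ hn).1 h.symm).imp fun _ h => .inr (.inl h)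
  · exact ((qp_eq_iff h2 B nK hn).1 h.symm).imp fun _ h => .inr (.inr h)

theorem octa_tri {a b c d : F} (hn : Quaternion.normSq (qq a b c d) ≠ 0)
    (h : qp B (qq a b c d) ∈ octa B) :
    (a ^ 2 + b ^ 2 = c ^ 2 + d ^ 2 ∨ (c = 0 ∧ d = 0) ∨ (a = 0 ∧ b = 0)) ∧
    (a ^ 2 + c ^ 2 = b ^ 2 + d ^ 2 ∨ (b = 0 ∧ d = 0) ∨ (a = 0 ∧ c = 0)) ∧
    (a ^ 2 + d ^ 2 = b ^ 2 + c ^ 2 ∨ (b = 0 ∧ c = 0) ∨ (a = 0 ∧ d = 0)) := by
  have hn' := hn
  rw [normSq_qq] at hn'
  refine ⟨?_, ?_, ?_⟩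
  · obtain ⟨k, e | e | e⟩ := octa_conj h2 B hn nI h (vI_mem_fourQ B) (vI_ne_one h2 B) <;>
      simp only [Quaternion.ext_iff] at e <;> simp at e
    · refine .inr (tri_aux hn' (mul_left_cancel₀ h2 ?_) (mul_left_cancel₀ h2 ?_))
      · linear_combination -e.2.2.1
      · linear_combination -e.2.2.2
    · exact .inl (by linear_combination -e.2.1)
    · exact .inl (by linear_combination -e.2.1)
  · obtain ⟨k, e | e | e⟩ := octa_conj h2 B hn nJ h (vJ_mem_fourQ B) (vJ_ne_one h2 B) <;>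
      simp only [Quaternion.ext_iff] at e <;> simp at e
    · exact .inl (by linear_combination -e.2.2.1)
    · refine .inr ((tri_aux (c := d) (d := b) (fun h => hn' (by linear_combination h))
        (mul_left_cancel₀ h2 ?_) (mul_left_cancel₀ h2 ?_)).imp_left And.symm)
      · linear_combination -e.2.2.2
      · linear_combination -e.2.1
    · exact .inl (by linear_combination -e.2.2.1)
  · obtain ⟨k, e | e | e⟩ := octa_conj h2 B hn nK h (vK_mem_fourQ h2 B) (vK_ne_one h2 B) <;>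
      simp only [Quaternion.ext_iff] at e <;> simp at e
    · exact .inl (by linear_combination -e.2.2.2)
    · exact .inl (by linear_combination -e.2.2.2)
    · refine .inr (tri_aux (fun h => hn' (by linear_combination h))
        (mul_left_cancel₀ h2 ?_) (mul_left_cancel₀ h2 ?_))
      · linear_combination -e.2.1
      · linear_combination -e.2.2.1

theorem le_octa_of {n : PGL(2, F)} (h : ∀ v ∈ fourQ B, ∀ v' ∈ fourQ B,
    v' * (n * v * n⁻¹) = n * v * n⁻¹ * v') : n ∈ octa B :=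
  mem_octa_of h2 B (mem_fourQ_of_commute h2 B (h _ (vI_mem_fourQ B) _ (vI_mem_fourQ B))
    (h _ (vI_mem_fourQ B) _ (vJ_mem_fourQ B))) (mem_fourQ_of_commute h2 B
      (h _ (vJ_mem_fourQ B) _ (vI_mem_fourQ B)) (h _ (vJ_mem_fourQ B) _ (vJ_mem_fourQ B)))

theorem four_sq {v : PGL(2, F)} (hv : v ∈ fourQ B) : v * v = 1 := by
  rcases (mem_fourQ h2 B).1 hv with rfl | rfl | rfl | rfl
  exacts [mul_one _, vI_mul_vI h2 B, vJ_mul_vJ h2 B, vK_mul_vK h2 B]

theorem cyc3 {Q : PGL(2, F) → Prop} (hQ : ∀ v, Q v → Q (vW B * v * (vW B)⁻¹))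
    (h : Q (vI B) ∨ Q (vJ B) ∨ Q (vK B)) : Q (vI B) ∧ Q (vJ B) ∧ Q (vK B) := by
  have a1 := hQ (vI B)
  have a2 := hQ (vJ B)
  have a3 := hQ (vK B)
  rw [vW_mul_vI h2 B, mul_inv_cancel_right] at a1
  rw [vW_mul_vJ h2 B, mul_inv_cancel_right] at a2
  rw [vW_mul_vK h2 B, mul_inv_cancel_right] at a3
  tauto

theorem pgl_cases [Finite F] (p : ℕ) [Fact p.Prime] [CharP F p] (hJ : vJ B ∈ H)
    (hW : vW B ∈ Subgroup.normalizer (H : Set PGL(2, F))) : vI B ∈ H ∧
    ((Nat.card H ≠ 60 ∧ Subgroup.normalizer (H : Set PGL(2, F)) ≤ octa B) ∨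
      Nonempty (H ≃* alternatingGroup (Fin 5)) ∨ (p ∣ Nat.card H ∧ (Nat.card H = 60 → p = 5))) := by
  have hc : ∀ {n}, n ∈ Subgroup.normalizer (H : Set PGL(2, F)) → ∀ {v}, v ∈ H → n * v * n⁻¹ ∈ H :=
    fun hn _ hv => (Subgroup.mem_normalizer_iff.1 hn _).1 hv
  obtain ⟨hI, -, hK⟩ := cyc3 h2 B (Q := (· ∈ H)) (fun _ => hc hW) (.inr (.inl hJ))
  have hV : fourQ B ≤ H := (fourQ_le_iff B).2 ⟨hI, hJ⟩
  refine ⟨hI, ?_⟩
  have inv : (∀ x y : H, x * x = 1 → y * y = 1 → x * y = y * x) →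
      Subgroup.normalizer (H : Set PGL(2, F)) ≤ octa B := fun h n hn =>
    le_octa_of h2 B fun v hv v' hv' => congrArg Subtype.val
      (h ⟨v', hV hv'⟩ ⟨_, hc hn (hV hv)⟩ (Subtype.ext (four_sq h2 B hv'))
        (Subtype.ext (by simp [conj_mul, four_sq h2 B hv])))
  let f := algebraMap F (AlgebraicClosure F)
  rcases dickson_sub f p H with ⟨x, h⟩ | ⟨x, y, hxy, -, h⟩ | ⟨⟨⟨e⟩⟩ | ⟨⟨e⟩⟩ | e, -⟩ | ⟨e, -⟩ |
    ⟨k, g, -, h⟩
  · exact absurd (hV.trans h) (not_kleinFour_le_stabilizer h2 (isKleinFour_fourQ h2 B) x)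
  · have hf := mapG_injective f
    have hT := isCyclic_pairT hf hxy
    have sq : ∀ g ∈ H, g * g = 1 := fun g hg => by
      by_contra hg2
      have hcom : ∀ {a b}, a ∈ pairT (mapG f) x y → b ∈ pairT (mapG f) x y → a * b = b * a :=
        fun ha hb => congrArg Subtype.val (mul_comm' (⟨_, ha⟩ : pairT (mapG f) x y) ⟨_, hb⟩)
      have key : ∀ v ∈ H, v ∈ pairT (mapG f) x y ↔ ∀ g ∈ H, g * g ≠ 1 → v * g = g * v :=
        fun v hv => ⟨fun h1 g hg h3 => hcom h1 (mem_pairT_of_mul_self_ne_one hf hxy (h hg) h3),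
          fun h1 => by
            by_contra h3
            have := conj_eq_inv_of_mem_pairN hf hxy (h hv) h3
              (mem_pairT_of_mul_self_ne_one hf hxy (h hg) hg2)
            rw [h1 g hg hg2, mul_inv_cancel_right] at this
            exact hg2 (mul_eq_one_iff_eq_inv.2 this)⟩
      obtain ⟨a1, a2, -⟩ := cyc3 h2 B (Q := fun v => v ∈ H ∧ v ∈ pairT (mapG f) x y)
        (fun v hv => ⟨hc hW hv.1, (key _ (hc hW hv.1)).2 fun g hg h3 => by
          have := (key v hv.1).1 hv.2 _ (hc (inv_mem hW) hg) (by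
            rwa [conj_mul, ne_eq, conj_eq_one_iff])
          rw [inv_inv] at this
          calc _ = vW B * (v * ((vW B)⁻¹ * g * vW B)) * (vW B)⁻¹ := by group
            _ = _ := by rw [this]; group⟩) (by
          by_contra! h3
          exact h3.2.2 hK (vI_mul_vJ h2 B ▸ mul_mem_pairT_of_not_mem (h hI) (h3.1 hI) (h hJ)
            (h3.2.1 hJ)))
      have := isKleinFour_fourQ h2 B
      exact IsKleinFour.not_isCyclic (Subgroup.isCyclic_of_le ((fourQ_le_iff B).2 ⟨a1.2, a2.2⟩))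
    have com : ∀ a ∈ H, ∀ b ∈ H, a * b = b * a := fun a ha b hb => by
      rw [← _root_.inv_inj, _root_.mul_inv_rev, inv_eq_of_mul_eq_one_right (sq a ha),
        inv_eq_of_mul_eq_one_right (sq b hb), inv_eq_of_mul_eq_one_right (sq _ (mul_mem hb ha))]
    have : H = fourQ B := le_antisymm (fun g hg => mem_fourQ_of_commute h2 B (com _ hI _ hg)
      (com _ hJ _ hg)) hV
    exact .inl ⟨by rw [this, (isKleinFour_fourQ h2 B).card_four]; decide, this ▸ le_rfl⟩
  · refine .inl ⟨by rw [card_of_alt_four ⟨e⟩]; decide, inv fun x y hx hy => e.injective ?_⟩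
    rw [map_mul, map_mul]
    exact Subtype.ext (a4_fact _ (by rw [← Subgroup.coe_mul, ← map_mul, hx, map_one]; rfl) (e x).2
      _ (by rw [← Subgroup.coe_mul, ← map_mul, hy, map_one]; rfl) (e y).2)
  · refine .inl ⟨by rw [card_of_sym_four ⟨e⟩]; decide, fun n hn => le_octa_of h2 B ?_⟩
    have hQ : ∀ n ∈ Subgroup.normalizer (H : Set PGL(2, F)), ∀ v, (∃ x ∈ H, v = x * x) →
        ∃ x ∈ H, n * v * n⁻¹ = x * x := fun n hn v ⟨x, hx, e⟩ =>
      ⟨_, hc hn hx, by rw [e, conj_mul]⟩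
    have hs : ∀ v : H, (∃ x, e v = x * x) → ∃ x ∈ H, v.1 = x * x := fun v ⟨x, hx⟩ =>
      ⟨_, (e.symm x).2, congrArg Subtype.val (e.injective (by simpa using hx) :
        v = e.symm x * e.symm x)⟩
    obtain ⟨a1, a2, a3⟩ := cyc3 h2 B (hQ _ hW) <| by
      refine (s4_fact.1 (e ⟨_, hI⟩) (e ⟨_, hJ⟩) ?_ ?_ ?_).imp (hs _) (Or.imp (hs _) fun h => ?_)
      · rw [← map_mul, e.map_eq_one_iff]; exact Subtype.ext (vI_mul_vI h2 B)
      · rw [← map_mul, e.map_eq_one_iff]; exact Subtype.ext (vJ_mul_vJ h2 B)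
      · rw [← map_mul, ← map_mul]
        exact congrArg e (Subtype.ext ((vI_mul_vJ h2 B).trans (vJ_mul_vI h2 B).symm))
      · rw [← map_mul] at h
        exact vI_mul_vJ h2 B ▸ hs _ h
    have a4 : ∀ v ∈ fourQ B, ∃ x ∈ H, v = x * x := fun v hv => by
      rcases (mem_fourQ h2 B).1 hv with rfl | rfl | rfl | rfl
      exacts [⟨1, one_mem _, by simp⟩, a1, a2, a3]
    intro v hv v' hv'
    obtain ⟨x, hx, b1⟩ := a4 v' hv'
    obtain ⟨y, hy, b2⟩ := hQ n hn v (a4 v hv)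
    have := s4_fact.2 (e ⟨x, hx⟩) (e ⟨y, hy⟩) ?_ ?_
    · simp only [← map_mul, e.apply_eq_iff_eq] at this
      rw [b2, b1]
      exact congrArg Subtype.val this
    · simp only [← map_mul, e.map_eq_one_iff]
      exact Subtype.ext (b1 ▸ four_sq h2 B hv' :)
    · simp only [← map_mul, e.map_eq_one_iff]
      exact Subtype.ext (show y * y * (y * y) = 1 by rw [← b2, conj_mul, four_sq h2 B hv]; simp)
  · exact .inr (.inl e)
  · exact .inr (.inl e)
  · have hk : Odd (Nat.card k) := odd_card_of_two_ne_zero (two_ne_zero_of_ringHom k.subtype h2)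
    have hp := char_dvd_card (F := k) p
    have c1 := card_pglOf k.subtype
    have c2 := gcd_mul_card_pslOf k.subtype
    rw [gcd_two_of_odd hk] at c2
    have aux : ∀ m, Nat.card k * (Nat.card k ^ 2 - 1) = m → m ≤ 120 → Nat.card k ≤ 5 := by
      intro m h1 h3
      by_contra! h4
      have : 36 ≤ Nat.card k ^ 2 := by nlinarith
      have : 6 * 35 ≤ Nat.card k * (Nat.card k ^ 2 - 1) := Nat.mul_le_mul h4 (by omega)
      omega
    rcases h with rfl | ⟨-, rfl⟩ <;> rw [card_cjs]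
    · refine .inr (.inr ⟨c1 ▸ hp.mul_right _, fun h => ?_⟩)
      have := aux _ (c1.symm.trans h) (by norm_num)
      rw [h] at c1
      generalize Nat.card k = m at *
      interval_cases m <;> simp_all (config := {decide := true})
    · refine .inr (.inr ⟨char_dvd_card_pslOf _ p, fun h => ?_⟩)
      rw [h] at c2
      have := aux _ c2.symm (by norm_num)
      generalize Nat.card k = m at *
      interval_cases m <;> try simp at c2
      exact (Nat.prime_dvd_prime_iff_eq Fact.out (by norm_num)).1 hp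

end CL.Sp4O
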