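import Cfsg.Agent.CLAS.Sp4OI3B
import Cfsg.Agent.CLAS.Sp4OBr

/-!
# Lifting permutations of a frame to `Sp₄(F)`
-/

set_option autoImplicit false

namespace CL.Sp4O

open Matrix Cfsg Cfsg.Geo Equiv

variable {F : Type*} [Field F]

open Pointwise in
theorem max_stab [Finite F] {H : Subgroup (GL4 F)} (hH : IsMaximalIn (spGL 2 F) H) {S : Set (Wsp F)}
    (h1 : ∀ g : spGL 2 F, (g : GL4 F) ∈ H → ∀ w ∈ S, rho F g w ∈ S) {g₀ : spGL 2 F} {w₀ : Wsp F}
    (h2 : w₀ ∈ S) (h2' : rho F g₀ w₀ ∉ S) {g : spGL 2 F} (h3 : ∀ w ∈ S, rho F g w ∈ S) :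
    (g : GL4 F) ∈ H := by
  let M := ((MulAction.stabilizer (Wsp F ≃ₗ[F] Wsp F) S).comap (rho F)).map (spGL 2 F).subtype
  have hM : ∀ g : spGL 2 F, (g : GL4 F) ∈ M ↔ ∀ w ∈ S, rho F g w ∈ S := fun g => by
    rw [show (g : GL4 F) ∈ M ↔ _ from Subgroup.mem_map_iff_mem (spGL 2 F).subtype_injective,
      Subgroup.mem_comap, MulAction.mem_stabilizer_set_iff_smul_set_subset S.toFinite,
      Set.smul_set_subset_iff]
    rfl
  rcases hH.2 M (fun x hx => (hM ⟨x, hH.1.le hx⟩).2 (h1 _ hx)) (Subgroup.map_subtype_le _) with e | e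
  · exact e ▸ (hM g).2 h3
  · exact (h2' ((hM g₀).1 (e.ge g₀.2) _ h2)).elim

/-- products of `n - 1` vectors of `D` -/
def wick (K : Subfield F) (D : Set (Wsp F)) (n : ℕ) : Submodule K (M4 F) :=
  Submodule.span K {X | ∃ l : List (Wsp F), l.length + 1 = n ∧ (∀ u ∈ l, u ∈ D) ∧
    X = (l.map Subtype.val).prod}

section Wick

variable {K : Subfield F} {D : Set (Wsp F)} {β : F} (h2 : (2 : F) ≠ 0)
  (hD : ∀ u ∈ D, ∀ w ∈ D, ∃ c ∈ K, Bf F u w = c * β)

theorem wick_mul {u : Wsp F} (hu : u ∈ D) {n : ℕ} {X : M4 F} (hX : X ∈ wick K D n) :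
    (u : M4 F) * X ∈ wick K D (n + 1) := by
  induction hX using Submodule.span_induction with
  | mem x hx =>
    obtain ⟨l, h1, h3, rfl⟩ := hx
    exact Submodule.subset_span ⟨u :: l, by simp [h1], by simpa [hu] using h3, by simp⟩
  | zero => simp
  | add x y _ _ hx hy => rw [mul_add]; exact add_mem hx hy
  | smul k x _ hx => rw [mul_smul_comm]; exact Submodule.smul_mem _ _ hx

include h2 hD

theorem wick_move {u : Wsp F} (hu : u ∈ D) (l : List (Wsp F)) (hl : ∀ u ∈ l, u ∈ D) :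
    ∃ X ∈ wick K D l.length, (u : M4 F) * (l.map Subtype.val).prod =
      β • X + (-1 : F) ^ l.length • ((l.map Subtype.val).prod * u) := by
  induction l with
  | nil => exact ⟨0, zero_mem _, by simp⟩
  | cons a l ih =>
    obtain ⟨X, hX, e⟩ := ih fun u hu => hl u (List.mem_cons_of_mem _ hu)
    obtain ⟨c, hc, e'⟩ := hD u hu a (hl a List.mem_cons_self)
    refine ⟨(⟨c, hc⟩ : K) • (l.map Subtype.val).prod - a * X, sub_mem (Submodule.smul_mem _ _
      (Submodule.subset_span ⟨l, rfl, fun u hu => hl u (List.mem_cons_of_mem _ hu), rfl⟩))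
      (wick_mul (hl a List.mem_cons_self) hX), ?_⟩
    rw [List.map_cons, List.prod_cons, ← mul_assoc, eq_sub_of_add_eq (anti h2 u a), sub_mul, mul_assoc, e,
      e', List.length_cons, pow_succ, mul_add, mul_smul_comm, mul_smul_comm, smul_mul_assoc, one_mul,
      mul_assoc (a : M4 F), Subfield.smul_def]
    module

theorem wick_trace (m : ℕ) {X : M4 F} (hX : X ∈ wick K D (2 * m + 1)) :
    ∃ c ∈ K, X.trace = c * β ^ m := by
  induction m generalizing X with
  | zero => ?_
  | succ m ih => ?_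
  all_goals
    induction hX using Submodule.span_induction with
    | mem x hx => ?_
    | zero => exact ⟨0, zero_mem _, by simp⟩
    | add x y _ _ hx hy =>
      obtain ⟨c, hc, e⟩ := hx
      obtain ⟨d, hd, e'⟩ := hy
      exact ⟨c + d, add_mem hc hd, by rw [trace_add, e, e', add_mul]⟩
    | smul k x _ hx =>
      obtain ⟨c, hc, e⟩ := hx
      exact ⟨k * c, mul_mem k.2 hc, by rw [Subfield.smul_def, trace_smul, e, smul_eq_mul, mul_assoc]⟩
  · obtain ⟨l, h1, -, rfl⟩ := hx
    obtain rfl := List.length_eq_zero_iff.1 (show l.length = 0 by omega)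
    exact ⟨(4 : ℕ), natCast_mem _ _, by simp⟩
  · obtain ⟨l, h1, h3, rfl⟩ := hx
    obtain ⟨u, l, rfl⟩ := List.exists_cons_of_length_pos (show 0 < l.length by omega)
    have h4 : l.length = 2 * m + 1 := by simp at h1; omega
    obtain ⟨X, hX, e⟩ := wick_move h2 hD (h3 u List.mem_cons_self) l fun u hu =>
      h3 u (List.mem_cons_of_mem _ hu)
    rw [h4] at hX e
    obtain ⟨c, hc, e'⟩ := ih hX
    have h5 := congrArg trace e
    rw [trace_add, trace_smul, trace_smul, e', trace_mul_comm _ (u : M4 F), Odd.neg_one_pow ⟨m, rfl⟩] at h5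
    refine ⟨c / (2 : ℕ), div_mem hc (natCast_mem _ _), ?_⟩
    rw [List.map_cons, List.prod_cons]
    simp only [smul_eq_mul, Nat.cast_ofNat] at h5 ⊢
    field_simp
    linear_combination h5

end Wick

namespace Fr6

variable {v : Fin 6 → Wsp F} {β : F} (f : Fr6 (Bf F) v β)
include f

theorem two : (2 : F) ≠ 0 := fun e => f.six (by linear_combination 3 * β * e)

theorem three : (3 : F) ≠ 0 := fun e => f.six (by linear_combination 2 * β * e)

theorem norm_sub {i j : Fin 6} (h : i ≠ j) : Bf F (v i - v j) (v i - v j) = -(2 * (6 * β)) := by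
  simp only [map_sub, LinearMap.sub_apply, f.diag, f.off _ _ h, f.off _ _ h.symm]; ring

theorem refl_sub {i j : Fin 6} (h : i ≠ j) (m : Fin 6) :
    v m - (2 * Bf F (v i - v j) (v m) / Bf F (v i - v j) (v i - v j)) • (v i - v j) = v (swap i j m) := by
  have h0 := neg_ne_zero.2 (mul_ne_zero f.two f.six)
  rw [f.norm_sub h, map_sub, LinearMap.sub_apply]
  by_cases h1 : m = i
  · rw [h1, f.diag, f.off _ _ h.symm, swap_apply_left,
      show 2 * (-5 * β - β) / -(2 * (6 * β)) = 1 by rw [div_eq_iff h0]; ring]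
    simp
  by_cases h2 : m = j
  · rw [h2, f.diag, f.off _ _ h, swap_apply_right,
      show 2 * (β - -5 * β) / -(2 * (6 * β)) = -1 by rw [div_eq_iff h0]; ring]
    module
  rw [f.off _ _ (Ne.symm h1), f.off _ _ (Ne.symm h2), swap_apply_of_ne_of_ne h1 h2]
  simp

theorem exists_list (σ : Perm (Fin 6)) : ∃ l : List (Wsp F), (∀ u ∈ l, ∃ i j, u = v i - v j) ∧
    Perm.sign σ = (-1) ^ l.length ∧
    (∀ m, (l.map Subtype.val).prod * v m = (-1 : F) ^ l.length • (v (σ m) * (l.map Subtype.val).prod)) ∧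
    ((l.map Subtype.val).prod)ᵀ * J (Fin 2) F * (l.map Subtype.val).prod =
      (-(6 * β)) ^ l.length • J (Fin 2) F := by
  induction σ using Perm.swap_induction_on with
  | one => exact ⟨[], by simp, by simp, by simp, by simp⟩
  | swap_mul σ i j h ih =>
    obtain ⟨l, h1, h2, h3, h4⟩ := ih
    refine ⟨(v i - v j) :: l, ?_, by simp [h, h2, pow_succ], fun m => ?_, ?_⟩
    · rintro u hu
      rcases List.mem_cons.1 hu with rfl | hu
      exacts [⟨i, j, rfl⟩, h1 u hu]
    · rw [List.map_cons, List.prod_cons, mul_assoc, h3, mul_smul_comm, ← mul_assoc,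
        refl_mul f.two (by rw [f.norm_sub h]; exact neg_ne_zero.2 (mul_ne_zero f.two f.six)),
        f.refl_sub h, List.length_cons, pow_succ, Perm.mul_apply, neg_mul, mul_assoc]
      simp
    · rw [List.map_cons, List.prod_cons, transpose_mul, mul_assoc, mul_assoc, ← mul_assoc (J _ _),
        ← mul_assoc _ᵀ (J _ _ * _), ← mul_assoc _ᵀ (J _ _), form_self f.two, smul_mul_assoc,
        mul_smul_comm, ← mul_assoc, h4, f.norm_sub h, smul_smul, List.length_cons, pow_succ']
      congr 2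
      field_simp [f.two]

/-- Even permutations of the frame lift, with traces in the prime field. -/
theorem exists_lift_perm (K : Subfield F) {σ : Perm (Fin 6)} (hσ : σ ∈ alternatingGroup (Fin 6)) :
    ∃ g : spGL 2 F, (∀ m, rho F g (v m) = v (σ m)) ∧ ((g : GL4 F) : M4 F).trace ∈ K := by
  obtain ⟨l, h1, h2, h3, h4⟩ := f.exists_list σ
  obtain ⟨m, hm⟩ : Even l.length := by
    rwa [Perm.mem_alternatingGroup.1 hσ, eq_comm, neg_one_pow_eq_one_iff_even (by decide)] at h2
  have h0 := pow_ne_zero m f.six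
  obtain ⟨g, hg⟩ := exists_sp (M := ((6 * β) ^ m)⁻¹ • (l.map Subtype.val).prod) (by
    rw [transpose_smul, smul_mul_assoc, smul_mul_assoc, mul_smul_comm, h4, smul_smul, smul_smul,
      Even.neg_pow ⟨m, hm⟩, hm, pow_add]
    rw [show _ * _ * (_ * _) = (1 : F) by field_simp, one_smul])
  refine ⟨g, fun i => rho_eq_of (by
    rw [hg, smul_mul_assoc, h3, Even.neg_one_pow ⟨m, hm⟩, one_smul, mul_smul_comm]), ?_⟩
  obtain ⟨c, hc, e⟩ := wick_trace (K := K) (D := {u | ∃ i j, u = v i - v j}) (β := 6 * β) f.two (by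
    rintro _ ⟨i, j, rfl⟩ _ ⟨k, n, rfl⟩
    refine ⟨((if i = n then 1 else 0) + (if j = k then 1 else 0) - (if i = k then 1 else 0) -
      (if j = n then 1 else 0) : ℤ), intCast_mem _ _, ?_⟩
    simp only [map_sub, LinearMap.sub_apply, f.val]
    split_ifs <;> push_cast <;> ring) m (Submodule.subset_span ⟨l, by omega, h1, rfl⟩)
  rwa [hg, trace_smul, e, smul_eq_mul, mul_comm, mul_inv_cancel_right₀ h0]

theorem exists_half : ∃ g : spGL 2 F, Bf F (v 0 - v 4) (rho F g (v 0)) = -(3 * β) := by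
  have h2 := f.two
  have h0 := f.ne
  have h8 : (8 : F) ≠ 0 := fun e => pow_ne_zero 3 h2 (by linear_combination e)
  have n1 : Bf F (v 0 + v 1) (v 0 + v 1) = -(8 * β) := by simp [f.val]; ring
  have n2 : Bf F (v 2 + v 3) (v 2 + v 3) = -(8 * β) := by simp [f.val]; ring
  obtain ⟨g, -, hg⟩ := exists_lift h2 (v 0 + v 1) (v 2 + v 3) (k := 4 * β)
    (mul_ne_zero (four_ne h2) h0) (by rw [n1, n2]; ring)
  refine ⟨g, ?_⟩
  rw [hg, n1, n2]
  simp [f.val]
  field_simp
  ring

end Fr6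

end CL.Sp4O
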