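import Mathlib
import Cfsg.Agent.CLAS.Sp4OBr
import Cfsg.Agent.CLAS.Sp4OI3C

/-!
# `2.A₅` and `2.A₆` in `Sp₄(F)`: frames in the five-dimensional module
-/

set_option autoImplicit false

namespace CL.Sp4O

open Matrix Cfsg Cfsg.Geo Equiv

variable {F : Type*} [Field F] [Fintype F] {H P : Subgroup (GL4 F)}

theorem two_ne_of_odd (hodd : Odd (Fintype.card F)) : (2 : F) ≠ 0 :=
  Ring.two_ne_zero fun e => by
    have := FiniteField.even_card_iff_char_two.1 e
    have := Nat.odd_iff.1 hodd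
    omega

omit [Fintype F] in
theorem Core.irr (h2 : (2 : F) ≠ 0) (hP : Core P) : Irr F (Wsp F) (Gb P) :=
  fun U hU => hP.irr_W h2 U fun x hx => hU ⟨x, hx⟩

omit [Fintype F] in
theorem exists_conj_Gb (hP : IsResidualCore H P) {g : spGL 2 F} (hg : (g : GL4 F) ∈ H) (x : Gb P) :
    ∃ x' : Gb P, ∀ w, x' • rho F g w = rho F g (x • w) := by
  obtain ⟨_, y, hy, rfl⟩ := x
  refine ⟨⟨_, g * y * g⁻¹, hP.normal _ hg _ hy, rfl⟩, fun w => ?_⟩
  change (rho F (g * y * g⁻¹) * rho F g) w = (rho F g * rho F y) w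
  rw [← map_mul, ← map_mul, inv_mul_cancel_right]

omit [Fintype F] in
theorem Core.mem_alt (h2 : (2 : F) ≠ 0) (hP : Core P) (φ : Gb P →* Perm (Fin 6)) (x : Gb P) :
    φ x ∈ alternatingGroup (Fin 6) := by
  have := hP.simple_Gb h2
  rcases (Perm.sign.comp φ).normal_ker.eq_bot_or_eq_top with e | e
  · exact (hP.not_comm_Gb h2 ⟨⟨fun a b => (MonoidHom.ker_eq_bot_iff _).1 e (by
      rw [map_mul, map_mul, mul_comm])⟩⟩).elim
  · exact (e.ge (Subgroup.mem_top x) : x ∈ (Perm.sign.comp φ).ker)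

/-- `A₅` permutes a frame whose stabiliser is a larger proper subgroup. -/
theorem not_max_five (hodd : Odd (Fintype.card F)) (hH : IsMaximalIn (spGL 2 F) H)
    (hP : IsResidualCore H P) (hN : NoInv P) (e : Bar P ≃* alternatingGroup (Fin 5)) : False := by
  have h2 := two_ne_of_odd hodd
  have C := core_of hH.1.le hP
  have c := ctx h2 P
  obtain ⟨e', -⟩ := barEquiv h2 C.sp
  obtain ⟨v, β, φ, f, p⟩ := c.frame_five (C.irr h2) (fun z => hN.pl h2 C.sp) (e.symm.trans e')
  obtain ⟨g₀, h₀⟩ := f.exists_half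
  have key : ∀ σ ∈ alternatingGroup (Fin 6), ∀ x, ∃ y, φ y = σ * φ x * σ⁻¹ := fun σ hσ x => by
    obtain ⟨g, hg, -⟩ := f.exists_lift_perm ⊤ hσ
    have hg' : (g : GL4 F) ∈ H := max_stab hH (S := {w | ∃ i, w = v i ∨ w = -v i}) (g₀ := g₀) (w₀ := v 0)
      (fun h hh => by
        obtain ⟨ε, π, hε, -, h1⟩ := f.mon c p (rho F h) (Bf_rho h) (exists_conj_Gb hP hh)
        rintro _ ⟨i, rfl | rfl⟩ <;> rcases hε with rfl | rfl <;> exact ⟨π i, by simp [h1]⟩)
      ⟨0, .inl rfl⟩ (by
        have h3 := mul_ne_zero f.three f.ne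
        rintro ⟨i, h | h⟩ <;> rw [h] at h₀ <;> simp only [map_neg, map_sub, LinearMap.sub_apply, f.val] at h₀ <;>
          split_ifs at h₀ <;> first
            | exact h3 (by linear_combination h₀) | exact h3 (by linear_combination -h₀)
            | exact mul_ne_zero f.three h3 (by linear_combination h₀))
      (by rintro _ ⟨i, rfl | rfl⟩ <;> exact ⟨σ i, by simp [hg]⟩)
    obtain ⟨y, hy⟩ := exists_conj_Gb hP hg' x
    refine ⟨y, eq_mul_inv_of_mul_eq (Perm.ext fun m => f.eq_of_smul (k := 1) ?_)⟩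
    rw [one_smul, Perm.mul_apply, Perm.mul_apply, ← p.act, ← hg, hy, p.act, hg]
  have := alternatingGroup.isSimpleGroup (α := Fin 6) (by simp)
  have hn : (φ.range.subgroupOf (alternatingGroup (Fin 6))).Normal :=
    ⟨fun ⟨_, _⟩ ⟨x, hx⟩ σ => (key σ σ.2 x).imp fun _ h => by rw [h, hx]; rfl⟩
  rcases hn.eq_bot_or_eq_top with h | h
  · obtain ⟨g, -, g1, -⟩ := p.five 0
    exact g1 ((map_eq_one_iff _ p.inj).1 (congrArg Subtype.val
      (Subgroup.mem_bot.1 (h.le (x := ⟨φ g, C.mem_alt h2 φ g⟩) ⟨g, rfl⟩))))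
  · have h1 := Subgroup.card_dvd_of_le (Subgroup.subgroupOf_eq_top.1 h)
    rw [← Nat.card_congr (MonoidHom.ofInjective p.inj).toEquiv, ← Nat.card_congr (e.symm.trans e').toEquiv,
      nat_card_alternatingGroup, nat_card_alternatingGroup] at h1
    simp [Nat.factorial] at h1

/-- `A₆` permutes a frame; the traces lie in the prime field, and for `p = 7` the frame is part of a
root system of type `A₆` whose stabiliser is a larger proper subgroup. -/
theorem alt6 (hodd : Odd (Fintype.card F)) (hH : IsMaximalIn (spGL 2 F) H)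
    (hP : IsResidualCore H P) (_hN : NoInv P) (e : Bar P ≃* alternatingGroup (Fin 6)) (p : ℕ)
    [CharP F p] (h3 : p ≠ 3) : Fintype.card F = p ∧ p ≠ 7 := by
  have h2 := two_ne_of_odd hodd
  have C := core_of hH.1.le hP
  have c := ctx h2 P
  have := Fact.mk (CharP.char_is_prime F p)
  obtain ⟨e', -⟩ := barEquiv h2 C.sp
  obtain ⟨v, β, φ, f, q⟩ := c.frame_six (fun h => h3 ((Nat.prime_dvd_prime_iff_eq this.1 Nat.prime_three).1
    ((CharP.cast_eq_zero_iff F p 3).1 (by exact_mod_cast h)))) (C.irr h2) (e.symm.trans e')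
  refine ⟨le_antisymm ?_ ?_, fun h7 => ?_⟩
  · refine (C.card_le_of_trace p one_ne_zero fun g hg => ?_).trans (pow_one p).le
    obtain ⟨k, hk, ht⟩ := f.exists_lift_perm ((frobenius F p).eqLocusField (RingHom.id F))
      (C.mem_alt h2 φ ⟨_, ⟨g, C.sp hg⟩, hg, rfl⟩)
    have h1 : rho F ⟨g, C.sp hg⟩ = rho F k := LinearEquiv.toLinearMap_injective
      (ext_of_span f.span fun i => (q.act ⟨_, ⟨g, C.sp hg⟩, hg, rfl⟩ i).trans (hk i).symm)
    rw [pow_one]
    rcases (rho_eq_iff h2 _ _).1 h1 with h | h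
    · exact (show g = k from h) ▸ ht
    · rw [show g = -k from h, Units.val_neg, trace_neg]
      exact neg_mem ht
  · obtain ⟨n, -, hn⟩ := FiniteField.card F p
    exact hn ▸ Nat.le_self_pow n.ne_zero p
  have h7 : (7 : F) = 0 := by exact_mod_cast h7 ▸ CharP.cast_eq_zero F p
  have h0 := f.ne
  have hd : ∀ i, Bf F (v i) (v i) = 2 * β := fun i => by rw [f.diag]; linear_combination -β * h7
  let u : Option (Fin 6) → Wsp F := fun a => a.elim 0 v
  have hr : ∀ i a, u a - (2 * Bf F (v i) (u a) / Bf F (v i) (v i)) • v i = u (swap none (some i) a) - v i := by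
    rintro i (_ | j)
    · simp [u]
    by_cases h : j = i
    · simp [u, h, hd, mul_ne_zero h2 h0, two_smul]
    · simp [u, h, hd, swap_apply_of_ne_of_ne, f.off _ _ (Ne.symm h), mul_ne_zero h2 h0]
  have hr' : ∀ i a b, u a - u b - (2 * Bf F (v i) (u a - u b) / Bf F (v i) (v i)) • v i =
      u (swap none (some i) a) - u (swap none (some i) b) := fun i a b => by
    rw [← sub_sub_sub_cancel_right (u (swap _ _ a)) _ (v i), ← hr, ← hr, map_sub, mul_sub, sub_div]
    module
  obtain ⟨g₀, h₀⟩ := f.exists_half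
  obtain ⟨g, -, hg⟩ := exists_lift h2 (v 0) (v 1) h0 (by rw [hd, hd]; ring)
  have hg' : (g : GL4 F) ∈ H := max_stab hH (S := {w | ∃ a b, a ≠ b ∧ w = u a - u b}) (g₀ := g₀) (w₀ := v 0)
    (fun h hh => by
      obtain ⟨ε, π, hε, hπ, h1⟩ := f.mon c q (rho F h) (Bf_rho h) (exists_conj_Gb hP hh)
      have h4 : ∀ a, rho F h (u a) = ε • u (a.map π) := by rintro (_ | i) <;> simp [u, h1]
      rintro _ ⟨a, b, hab, rfl⟩
      rcases hε with rfl | rfl
      · exact ⟨_, _, (Option.map_injective hπ).ne hab, by simp [h4]⟩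
      · exact ⟨_, _, (Option.map_injective hπ).ne hab.symm, by rw [map_sub, h4, h4]; module⟩)
    ⟨some 0, none, by simp, by simp [u]⟩ (by
      have h4 : ∀ a, ∃ n : ℤ, |n| ≤ 1 ∧ Bf F (v 0 - v 4) (u a) = n * β := by
        rintro (_ | i)
        · exact ⟨0, by simp, by simp [u]⟩
        simp only [u, Option.elim, map_sub, LinearMap.sub_apply, f.val]
        split_ifs
        exacts [⟨0, by simp, by simp⟩, ⟨1, by simp, by push_cast; linear_combination -β * h7⟩,
          ⟨-1, by simp, by push_cast; linear_combination β * h7⟩, ⟨0, by simp, by simp⟩]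
      rintro ⟨a, b, -, h⟩
      obtain ⟨n, hn, e1⟩ := h4 a
      obtain ⟨m, hm, e2⟩ := h4 b
      rw [h, map_sub, e1, e2] at h₀
      have h5 : ((n - m + 3 : ℤ) : F) = 0 := mul_right_cancel₀ h0 (by push_cast; linear_combination h₀)
      rw [CharP.intCast_eq_zero_iff F p, ‹p = 7›] at h5
      rw [abs_le] at hn hm
      omega)
    (by
      rintro _ ⟨a, b, hab, rfl⟩
      exact ⟨_, _, (Equiv.swap _ _).injective.ne ((Equiv.swap _ _).injective.ne hab), by rw [hg, hr', hr']⟩)
  obtain ⟨ε, π, hε, -, h1⟩ := f.mon c q (rho F g) (Bf_rho g) (exists_conj_Gb hP hg')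
  have h4 : rho F g (v 2) = v 2 - v 1 := by
    simpa [u, swap_apply_of_ne_of_ne] using (hg (u (some 2) - u none)).trans (by rw [hr', hr']; rfl)
  have h5 := congrArg (Bf F (v 2 - v 1)) ((h1 2).symm.trans h4)
  have h6 := f.six
  rw [f.norm_sub (by decide)] at h5
  simp only [map_smul, map_sub, LinearMap.sub_apply, f.val, smul_eq_mul] at h5
  rcases hε with rfl | rfl <;> split_ifs at h5 <;> first
    | exact h6 (by linear_combination h5) | exact mul_ne_zero h2 h6 (by linear_combination h5)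
    | exact mul_ne_zero f.three h6 (by linear_combination h5)

end CL.Sp4O
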