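import Mathlib
import Cfsg.Agent.CLAS.Sp4O1
import Cfsg.Agent.S0212

/-!
# Frames of six vectors in a five-dimensional orthogonal space
-/

set_option autoImplicit false
set_option linter.unusedSectionVars false

namespace CL.Sp4O

open Module Equiv MulAction

theorem ex_third : ∀ i j : Fin 6, ∃ l, l ≠ i ∧ l ≠ j := by decide

theorem perm_five {σ : Perm (Fin 6)} (h5 : σ ^ 5 = 1) (h1 : σ ≠ 1) :
    ∃ i, σ i = i ∧ ∀ j k, j ≠ i → k ≠ i → ∃ n : ℕ, (σ ^ n) j = k := by
  have := Fact.mk Nat.prime_five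
  have ho : orderOf σ = 5 := orderOf_eq_prime h5 h1
  have hc : σ.IsCycle := Perm.isCycle_of_prime_order' (ho ▸ Nat.prime_five) (by rw [ho]; simp)
  have hs : (σ.supportᶜ).card = 1 := by rw [Finset.card_compl, ← hc.orderOf, ho]; simp
  obtain ⟨i, hi⟩ := Finset.card_eq_one.1 hs
  have h : ∀ j, σ j = j ↔ j = i := fun j => by
    rw [← Finset.mem_singleton (a := i), ← hi, Finset.mem_compl, Perm.notMem_support]
  exact ⟨i, (h i).2 rfl, fun j k hj hk => hc.exists_pow_eq (mt (h j).1 hj) (mt (h k).1 hk)⟩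

theorem perm_five' {σ : Perm (Fin 6)} (h5 : σ ^ 5 = 1) (h1 : σ ≠ 1) {i j k : Fin 6} (hi : σ i = i)
    (hj : j ≠ i) (hk : k ≠ i) : ∃ n : ℕ, (σ ^ n) j = k := by
  obtain ⟨l, hl, h⟩ := perm_five h5 h1
  obtain rfl : i = l := by_contra fun e => by
    obtain ⟨m, hm, hm'⟩ := ex_third l i
    obtain ⟨n, hn⟩ := h i m e hm
    exact hm' (hn ▸ Perm.pow_apply_eq_self_of_apply_eq_self hi n)
  exact h j k hj hk

theorem index_six {G : Type*} [Group G] [Finite G] [IsSimpleGroup G] {D : Subgroup G} (hD : D ≠ ⊤)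
    {n : ℕ} (h1 : n ∣ Nat.card D) (h2 : Nat.card G = 6 * n) (h5 : 5 ∣ n) : D.index = 6 := by
  obtain ⟨k, hk⟩ := h1
  have h3 := D.card_mul_index
  have h0 : 0 < n := Nat.pos_of_mul_pos_left (h2 ▸ Nat.card_pos)
  rw [hk, h2, mul_assoc, mul_comm 6] at h3
  have h4 := Nat.eq_of_mul_eq_mul_left h0 h3
  have h6 := (Nat.prime_five.dvd_factorial).1
    ((h5.mul_left 6).trans (h2 ▸ Cfsg.Agent.S0212.card_dvd_factorial_index D hD))
  have h7 := Nat.le_of_dvd (by norm_num) (Dvd.intro_left k h4)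
  generalize D.index = m at *
  interval_cases m <;> omega

theorem four_dvd_sub {G : Type*} [Group G] {D : Subgroup G} {a b : G} (ha : a ∈ D) (hb : b ∈ D)
    (a2 : a * a = 1) (b2 : b * b = 1) (hc : a * b = b * a) (h1 : a ≠ 1) (h2 : b ≠ 1) (h3 : a ≠ b) :
    4 ∣ Nat.card D := by
  classical
  have ia : a⁻¹ = a := inv_eq_of_mul_eq_one_right a2
  have ib : b⁻¹ = b := inv_eq_of_mul_eq_one_right b2
  have e1 : ∀ x, a * (a * x) = x := fun x => by rw [← mul_assoc, a2, one_mul]
  have e2 : b * (a * b) = a := by rw [hc, ← mul_assoc, b2, one_mul]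
  let K : Subgroup G :=
    { carrier := {1, a, b, a * b}
      one_mem' := by simp
      mul_mem' := by
        rintro _ _ (rfl | rfl | rfl | rfl) (rfl | rfl | rfl | rfl) <;>
          simp [a2, b2, ← hc, e1, e2, mul_assoc]
      inv_mem' := by rintro _ (rfl | rfl | rfl | rfl) <;> simp [ia, ib, ← hc] }
  have hK : Nat.card K = 4 := by
    change Set.ncard ({1, a, b, a * b} : Set G) = 4
    rw [Set.ncard_insert_of_notMem, Set.ncard_insert_of_notMem, Set.ncard_pair] <;>
      simp [h1, h2, h3, h1.symm, h2.symm, eq_comm (a := (1 : G)), mul_eq_one_iff_eq_inv, ib]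
  refine hK ▸ Subgroup.card_dvd_of_le ?_
  rintro _ (rfl | rfl | rfl | rfl)
  exacts [one_mem _, ha, hb, mul_mem ha hb]

theorem dvd_sub {G : Type*} [Group G] {D : Subgroup G} {a : G} (ha : a ∈ D) {p : ℕ} (hp : p.Prime)
    (h : a ^ p = 1) (h1 : a ≠ 1) : p ∣ Nat.card D :=
  have := Fact.mk hp
  orderOf_eq_prime h h1 ▸ D.orderOf_dvd_natCard ha

variable {F W G : Type*} [Field F] [AddCommGroup W] [Module F W] [Group G] [DistribMulAction G W]
  [SMulCommClass G F W] {B : W →ₗ[F] W →ₗ[F] F}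

/-- six vectors with the inner products of the images of the basis in the deleted permutation module -/
structure Fr6 (B : W →ₗ[F] W →ₗ[F] F) (v : Fin 6 → W) (β : F) : Prop where
  six : 6 * β ≠ 0
  off : ∀ i j, i ≠ j → B (v i) (v j) = β
  diag : ∀ i, B (v i) (v i) = -5 * β
  span : Submodule.span F (Set.range v) = ⊤

/-- `G` permutes the frame -/
structure Pf (G : Type*) [Group G] [DistribMulAction G W] (v : Fin 6 → W) (φ : G →* Perm (Fin 6)) :
    Prop where
  inj : Function.Injective φ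
  act : ∀ g i, g • v i = v (φ g i)
  five : ∀ i, ∃ g : G, g ^ 5 = 1 ∧ g ≠ 1 ∧ g • v i = v i

/-- irreducibility -/
def Irr (F W G : Type*) [Field F] [AddCommGroup W] [Module F W] [Group G] [DistribMulAction G W] : Prop :=
  ∀ U : Submodule F W, (∀ g : G, ∀ w ∈ U, g • w ∈ U) → U = ⊥ ∨ U = ⊤

theorem ext_of_span {v : Fin 6 → W} (h : Submodule.span F (Set.range v) = ⊤) {V : Type*}
    [AddCommGroup V] [Module F V] {f g : W →ₗ[F] V} (e : ∀ i, f (v i) = g (v i)) : f = g :=
  LinearMap.ext_on_range h e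

theorem Irr.eq_zero (c : Ctx G B) (hI : Irr F W G) {w : W} (h : ∀ g : G, g • w = w) : w = 0 := by
  rcases hI (F ∙ w) (fun g x hx => by
    obtain ⟨k, rfl⟩ := Submodule.mem_span_singleton.1 hx
    rwa [smul_sm, h]) with e | e
  · exact Submodule.span_singleton_eq_bot.1 e
  · have := finrank_span_le_card (R := F) ({w} : Set W)
    rw [e, finrank_top, c.dim] at this
    simp at this

theorem exists_frame [Finite G] (c : Ctx G B) (hI : Irr F W G) {w : W} (hw : w ≠ 0)
    (h6 : (stabilizer G w).index = 6) {g₀ : G} (h5 : g₀ ^ 5 = 1) (h1 : g₀ ≠ 1) (hg : g₀ • w = w) :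
    ∃ v β φ, Fr6 B v β ∧ Pf G v φ := by
  have : Finite (orbit G w) := Set.finite_range _
  have e : orbit G w ≃ Fin 6 := Finite.equivFinOfCardEq (by rw [← h6, index_stabilizer]; rfl)
  let v : Fin 6 → W := fun i => e.symm i
  let φ : G →* Perm (Fin 6) := e.permCongrHom.toMonoidHom.comp (toPermHom G (orbit G w))
  have act : ∀ g i, g • v i = v (φ g i) := fun g i => by simp [v, φ]
  have inj : Function.Injective v := Subtype.val_injective.comp e.symm.injective
  have hv : ∀ i, ∃ g : G, g • w = v i := fun i => (e.symm i).2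
  have h0 : ∀ i, v i ≠ 0 := fun i => by obtain ⟨g, hg⟩ := hv i; rw [← hg]; exact (smul_ne_zero_iff_ne g).2 hw
  have hs : Submodule.span F (Set.range v) = ⊤ := (hI _ fun g x hx => by
    induction hx using Submodule.span_induction with
    | mem x hx => obtain ⟨i, rfl⟩ := hx; exact Submodule.subset_span ⟨_, (act g i).symm⟩
    | zero => simp
    | add x y _ _ hx hy => rw [smul_add]; exact add_mem hx hy
    | smul k x _ hx => rw [smul_sm]; exact Submodule.smul_mem _ _ hx).resolve_left fun h =>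
      h0 0 (Submodule.span_eq_bot.1 h _ ⟨0, rfl⟩)
  have hφ : Function.Injective φ := (injective_iff_map_eq_one _).2 fun g h => c.faith g fun x =>
    LinearMap.congr_fun (ext_of_span hs (f := DistribSMul.toLinearMap F W g) (g := LinearMap.id)
      fun i => by simp [act, h]) x
  have five : ∀ i, ∃ g : G, g ^ 5 = 1 ∧ g ≠ 1 ∧ g • v i = v i := fun i => by
    obtain ⟨g, hg'⟩ := hv i
    exact ⟨g * g₀ * g⁻¹, by simp [conj_pow, h5], by simpa using h1, by rw [← hg']; simp [mul_smul, hg]⟩
  have k1 : ∀ i j k, j ≠ i → k ≠ i → B (v i) (v j) = B (v i) (v k) := fun i j k hj hk => by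
    obtain ⟨g, g5, g1, hg⟩ := five i
    have hi := inj ((act g i).symm.trans hg)
    obtain ⟨n, rfl⟩ := perm_five' (σ := φ g) (by rw [← map_pow, g5, map_one])
      (mt (map_eq_one_iff _ hφ).1 g1) hi hj hk
    rw [← c.inv (g ^ n), act, act, map_pow, Perm.pow_apply_eq_self_of_apply_eq_self hi]
  have off : ∀ i j, i ≠ j → B (v i) (v j) = B (v 0) (v 1) := fun i j h => by
    by_cases hi : i = 0
    · rw [hi] at h ⊢; exact k1 _ _ _ h.symm (by decide)
    · rw [k1 i j 0 h.symm (Ne.symm hi), c.symm, k1 0 i 1 hi (by decide)]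
  have hsum : ∑ i, v i = 0 := hI.eq_zero c fun g => by
    rw [Finset.smul_sum]; simp_rw [act]; exact Equiv.sum_comp (φ g) v
  have diag : ∀ i, B (v i) (v i) = -5 * B (v 0) (v 1) := fun i => by
    have := congrArg (B (v i)) hsum
    rw [map_sum, map_zero, ← Finset.add_sum_erase _ _ (Finset.mem_univ i),
      Finset.sum_congr rfl fun j hj => off i j (Finset.ne_of_mem_erase hj).symm] at this
    simp at this
    linear_combination this
  refine ⟨v, _, φ, ⟨fun h => ?_, off, diag, hs⟩, hφ, act, five⟩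
  refine absurd (inj (sub_eq_zero.1 (c.nd (v 0 - v 1) fun x =>
    LinearMap.congr_fun (ext_of_span hs (g := 0) fun i => ?_) x))) (by decide)
  have : ∀ j, B (v j) (v i) = B (v 0) (v 1) := fun j => by
    by_cases e : j = i
    · rw [e, diag]; linear_combination -h
    · exact off _ _ e
  simp [this]

namespace Fr6

variable {v : Fin 6 → W} {β : F} (f : Fr6 B v β)
include f

theorem ne : β ≠ 0 := right_ne_zero_of_mul f.six

theorem val (i j : Fin 6) : B (v i) (v j) = if i = j then -5 * β else β := by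
  split_ifs with h
  exacts [h ▸ f.diag i, f.off _ _ h]

theorem eq_zero (c : Ctx G B) {w : W} (h : ∀ i, B (v i) w = 0) : w = 0 :=
  c.nd w fun x => LinearMap.congr_fun (ext_of_span f.span (g := 0) fun i => by simp [c.symm w, h]) x

theorem sum (c : Ctx G B) : ∑ i, v i = 0 := f.eq_zero c fun i => by
  rw [map_sum, ← Finset.add_sum_erase _ _ (Finset.mem_univ i),
    Finset.sum_congr rfl fun j hj => f.off i j (Finset.ne_of_mem_erase hj).symm, f.diag]
  simp

theorem eq_of_smul {i j : Fin 6} {k : F} (h : v i = k • v j) : i = j := by_contra fun e => by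
  obtain ⟨l, hl, hl'⟩ := ex_third i j
  have h1 := congrArg (B (v l)) h
  have h2 := congrArg (B (v i)) h
  rw [map_smul, f.off _ _ hl, f.off _ _ hl', smul_eq_mul] at h1
  rw [map_smul, f.off _ _ e, f.diag, smul_eq_mul] at h2
  exact f.six (by linear_combination h1 - h2)

/-- The vectors fixed by an element of order five. -/
theorem fixed (c : Ctx G B) {φ : G →* Perm (Fin 6)} (p : Pf G v φ) {g : G} (h5 : g ^ 5 = 1) (h1 : g ≠ 1)
    {w : W} (hw : g • w = w) : ∃ (i : Fin 6) (k : F), w = k • v i := by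
  obtain ⟨i, -, h⟩ := perm_five (σ := φ g) (by rw [← map_pow, h5, map_one])
    (mt (map_eq_one_iff _ p.inj).1 h1)
  obtain ⟨j, hj⟩ := exists_ne i
  have h2 : ∀ k, k ≠ i → B (v k) w = B (v j) w := fun k hk => by
    obtain ⟨n, rfl⟩ := h j k hj hk
    rw [← map_pow, ← p.act, ← c.inv (g ^ n) (v j), (pow_mem (mem_stabilizer_iff.2 hw) n : _ = _)]
  have h3 := congrArg (B · w) (f.sum c)
  simp only [map_sum, LinearMap.sum_apply, map_zero, LinearMap.zero_apply] at h3
  rw [← Finset.add_sum_erase _ _ (Finset.mem_univ i),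
    Finset.sum_congr rfl fun k hk => h2 k (Finset.ne_of_mem_erase hk)] at h3
  simp at h3
  refine ⟨i, B (v j) w / β, sub_eq_zero.1 (f.eq_zero c fun k => ?_)⟩
  have := f.ne
  rw [map_sub, map_smul, f.val, smul_eq_mul]
  split_ifs with e
  · rw [e]; field_simp; linear_combination h3
  · rw [h2 k e]; field_simp; ring

/-- An isometry normalising `G` permutes the frame up to a sign. -/
theorem mon (c : Ctx G B) {φ : G →* Perm (Fin 6)} (p : Pf G v φ) (x : W ≃ₗ[F] W)
    (hx : ∀ u w, B (x u) (x w) = B u w) (hn : ∀ g : G, ∃ g' : G, ∀ w, g' • x w = x (g • w)) :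
    ∃ (ε : F) (π : Fin 6 → Fin 6), (ε = 1 ∨ ε = -1) ∧ Function.Injective π ∧ ∀ i, x (v i) = ε • v (π i) := by
  have h : ∀ i, ∃ (j : Fin 6) (k : F), x (v i) = k • v j := fun i => by
    obtain ⟨g, g5, g1, hg⟩ := p.five i
    obtain ⟨g', h⟩ := hn g
    have h' : ∀ (n : ℕ) w, g' ^ n • x w = x (g ^ n • w) := fun n => by
      induction n with
      | zero => simp
      | succ n ih => intro w; rw [pow_succ, pow_succ, mul_smul, mul_smul, h, ih]
    refine f.fixed c p (g := g') (c.faith _ fun w => ?_) (fun e => g1 (c.faith _ fun w => ?_)) (by rw [h, hg])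
    · obtain ⟨w, rfl⟩ := x.surjective w
      rw [h', g5, one_smul]
    · exact x.injective (by rw [← h, e, one_smul])
  choose π k h using h
  have h0 : ∀ i, k i ≠ 0 := fun i e => by
    obtain ⟨j, hj⟩ := exists_ne i
    exact f.ne (by rw [← f.off _ _ hj, ← hx, h i, e]; simp)
  have hπ : Function.Injective π := fun i j e => f.eq_of_smul (k := k i / k j) (x.injective (by
    rw [map_smul, h, h, e, smul_smul, div_mul_cancel₀ _ (h0 j)]))
  have h1 : ∀ i j, i ≠ j → k i * k j = 1 := fun i j e => mul_right_cancel₀ f.ne (by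
    have := hx (v i) (v j)
    rw [h, h, f.off _ _ e] at this
    simp only [map_smul, LinearMap.smul_apply, f.off _ _ (hπ.ne e), smul_eq_mul] at this
    linear_combination this)
  have h2 : ∀ i, k i = k 0 := fun i => by
    obtain ⟨l, hl, hl'⟩ := ex_third i 0
    exact mul_right_cancel₀ (h0 l) ((h1 _ _ hl.symm).trans (h1 _ _ hl'.symm).symm)
  exact ⟨k 0, π, mul_self_eq_one_iff.1 (by simpa [h2 1] using h1 0 1 (by decide)), hπ,
    fun i => by rw [h, h2]⟩

end Fr6

end CL.Sp4O
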