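import Cfsg.Agent.CLAS.Sp4OI3A

/-!
# Fixed vectors of `A₅` and `A₆` in a five-dimensional orthogonal space
-/

set_option autoImplicit false
set_option linter.unusedSectionVars false

namespace CL.Sp4O

open Module Equiv MulAction

variable {F W G : Type*} [Field F] [AddCommGroup W] [Module F W] [Group G] [DistribMulAction G W]
  [SMulCommClass G F W] {B : W →ₗ[F] W →ₗ[F] F}

variable (F W) in
/-- the fixed space -/
def fixS (g : G) : Submodule F W where
  carrier := {w | g • w = w}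
  add_mem' {a b} ha hb := by rw [Set.mem_ofPred_eq, smul_add, ha, hb]
  zero_mem' := smul_zero g
  smul_mem' k w hw := by rw [Set.mem_ofPred_eq, smul_sm, hw]

theorem mem_fixS {g : G} {w : W} : w ∈ fixS F W g ↔ g • w = w := Iff.rfl

theorem finrank_fixS_conj (g h : G) : finrank F (fixS F W (h * g * h⁻¹)) = finrank F (fixS F W g) := by
  rw [← LinearEquiv.finrank_map_eq (DistribMulAction.toLinearEquiv F W h) (fixS F W g),
    show fixS F W (h * g * h⁻¹) = _ from Submodule.ext fun w => ?_]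
  simp [mem_fixS, mul_smul, Submodule.mem_map_equiv, smul_eq_iff_eq_inv_smul h]

theorem alt_three {V : Type*} [AddCommGroup V] [Module F V] (h2 : (2 : F) ≠ 0) (h : finrank F V = 3)
    (ω : LinearMap.BilinForm F V) (hω : ∀ u w, ω u w = -ω w u) : ∃ u, u ≠ 0 ∧ ∀ w, ω w u = 0 := by
  have : FiniteDimensional F V := .of_finrank_pos (by omega)
  let b := finBasisOfFinrankEq F V h
  by_contra! H
  have h1 : ω.Nondegenerate := ⟨fun u hu => by_contra fun e => by
    obtain ⟨w, hw⟩ := H u e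
    exact hw (by rw [hω, hu, neg_zero]), fun u hu => by_contra fun e => (H u e).elim fun w hw => hw (hu w)⟩
  have h3 := (LinearMap.BilinForm.nondegenerate_iff_det_ne_zero b).1 h1
  have h4 : (LinearMap.BilinForm.toMatrix b ω).transpose = -LinearMap.BilinForm.toMatrix b ω := by
    ext i j
    simp [hω (b j)]
  have h5 := congrArg Matrix.det h4
  rw [Matrix.det_transpose, Matrix.det_neg] at h5
  exact h3 (mul_left_cancel₀ h2 (by
    simp only [Fintype.card_fin] at h5
    linear_combination h5))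

namespace Ctx

variable (c : Ctx G B)
include c

theorem exists_common {x y : G} (hx : 3 ≤ finrank F (fixS F W x)) (hy : 3 ≤ finrank F (fixS F W y)) :
    ∃ w : W, w ≠ 0 ∧ x • w = w ∧ y • w = w := by
  have := c.fd
  by_contra! H
  have := Submodule.finrank_add_finrank_le_of_disjoint (s := fixS F W x) (t := fixS F W y)
    (Submodule.disjoint_def.2 fun w h1 h2 => by_contra fun e => H w e h1 h2)
  rw [c.dim] at this
  omega

theorem three_le_of_pl {z : G} {a b : W} (p : Pl B z a b) : 3 ≤ finrank F (fixS F W z) := by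
  have := c.fd
  have h1 := ((B a).prod (B b)).finrank_range_add_finrank_ker
  have h2 : finrank F (LinearMap.range ((B a).prod (B b))) ≤ 2 := (Submodule.finrank_le _).trans (by simp)
  have h3 : finrank F (LinearMap.ker ((B a).prod (B b))) ≤ finrank F (fixS F W z) :=
    Submodule.finrank_mono fun w hw => p.fix w (congrArg Prod.fst hw) (congrArg Prod.snd hw)
  rw [c.dim] at h1
  omega

theorem three_le_of_cube {x : G} (h3 : x * x * x = 1) (h : 2 ≤ finrank F (fixS F W x)) :
    3 ≤ finrank F (fixS F W x) := by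
  have := c.fd
  by_contra h'
  obtain ⟨C, hC⟩ := (fixS F W x).exists_isCompl
  have h1 := Submodule.finrank_add_eq_of_isCompl hC
  rw [c.dim] at h1
  let J : W →ₗ[F] W := DistribSMul.toLinearMap F W x - DistribSMul.toLinearMap F W x⁻¹
  have hJ : ∀ u w, B u (J w) = -B w (J u) := fun u w => by
    simp only [J, LinearMap.sub_apply, DistribSMul.toLinearMap_apply, map_sub]
    rw [← c.inv' x, ← c.inv' x, c.symm u, c.symm w, neg_sub]
  obtain ⟨u, h0, hu⟩ := alt_three c.two (V := C) (by omega) ((B.compl₂ J).compl₁₂ C.subtype C.subtype)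
    fun u w => hJ u w
  have h2 : J u = 0 := c.nd _ fun w => by
    obtain ⟨a, ha, b, hb, rfl⟩ := Submodule.mem_sup.1 (hC.sup_eq_top ▸ Submodule.mem_top : w ∈ _ ⊔ C)
    have h4 : J a = 0 := sub_eq_zero.2 ((mem_fixS.1 ha).trans (eq_inv_smul_iff.2 ha))
    have h5 : B b (J u) = 0 := hu ⟨b, hb⟩
    rw [c.symm, map_add, LinearMap.add_apply, hJ, h4, h5]
    simp
  refine h0 (Subtype.ext (Submodule.disjoint_def.1 hC.disjoint _ ?_ u.2))
  have h4 : x • (u : W) = x⁻¹ • (u : W) := sub_eq_zero.1 h2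
  rw [eq_inv_smul_iff] at h4
  rw [mem_fixS, ← h4, ← mul_smul, ← mul_smul, h3, one_smul, h4]

theorem exists_two_le (h3 : (3 : F) ≠ 0) {a b : G} (ha : a * a * a = 1) (hb : b * b * b = 1)
    (hc : b * a = a * b) : ∃ x ∈ [a, b, a * b, a * b * b], 2 ≤ finrank F (fixS F W x) := by
  have := c.fd
  have a3 : ∀ w : W, a • a • a • w = w := fun w => by rw [← mul_smul, ← mul_smul, ha, one_smul]
  have b3 : ∀ w : W, b • b • b • w = w := fun w => by rw [← mul_smul, ← mul_smul, hb, one_smul]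
  have ab : ∀ w : W, b • a • w = a • b • w := fun w => by rw [← mul_smul, ← mul_smul, hc]
  have h : fixS F W a ⊔ fixS F W b ⊔ (fixS F W (a * b) ⊔ fixS F W (a * b * b)) = ⊤ :=
    eq_top_iff.2 fun w _ => (Submodule.smul_mem_iff _ h3).1 (by
      rw [show (3 : F) • w = -(a • b • w + a • a • b • w + b • w + a • b • b • w + a • a • b • b • w +
        b • b • w) + (w + b • w + b • b • w) + ((w + a • b • w + a • a • b • b • w) +
        (w + a • b • b • w + a • a • b • w)) by
          rw [show (3 : F) = 1 + 1 + 1 by norm_num, add_smul, add_smul, one_smul]; abel]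
      refine Submodule.add_mem_sup (Submodule.add_mem_sup (neg_mem ?_) ?_) (Submodule.add_mem_sup ?_ ?_) <;>
        simp only [mem_fixS, mul_smul, smul_add, ab, a3, b3] <;> abel)
  have h1 := Submodule.finrank_add_le_finrank_add_finrank (fixS F W a ⊔ fixS F W b)
    (fixS F W (a * b) ⊔ fixS F W (a * b * b))
  have h2 := Submodule.finrank_add_le_finrank_add_finrank (fixS F W a) (fixS F W b)
  have h4 := Submodule.finrank_add_le_finrank_add_finrank (fixS F W (a * b)) (fixS F W (a * b * b))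
  rw [h, finrank_top, c.dim] at h1
  simp only [List.mem_cons, List.not_mem_nil, or_false, exists_eq_or_imp, exists_eq_left]
  omega

theorem frame_of [Finite G] [IsSimpleGroup G] (hI : Irr F W G) {w : W} (hw : w ≠ 0) {n : ℕ}
    (h1 : n ∣ Nat.card (stabilizer G w)) (h2 : Nat.card G = 6 * n) (h5 : 5 ∣ n) {g : G} (g5 : g ^ 5 = 1)
    (g1 : g ≠ 1) (hg : g • w = w) : ∃ v β φ, Fr6 B v β ∧ Pf G v φ :=
  exists_frame c hI hw (index_six (fun e => hw (hI.eq_zero c fun g =>
    mem_stabilizer_iff.1 (e ▸ Subgroup.mem_top g))) h1 h2 h5) g5 g1 hg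

theorem frame_five (hI : Irr F W G) (hp : ∀ z : G, z * z = 1 → z ≠ 1 → ∃ a b, Pl B z a b)
    (e : alternatingGroup (Fin 5) ≃* G) : ∃ v β φ, Fr6 B v β ∧ Pf G v φ := by
  have := Finite.of_equiv _ e.toEquiv
  have := alternatingGroup.isSimpleGroup (α := Fin 5) (by simp)
  have := e.symm.isSimpleGroup
  obtain ⟨s, t, s2, s1, t2, t1, h5, h1⟩ : ∃ s t : alternatingGroup (Fin 5), s * s = 1 ∧ s ≠ 1 ∧
      t * t = 1 ∧ t ≠ 1 ∧ (s * t) ^ 5 = 1 ∧ s * t ≠ 1 :=
    ⟨⟨swap 1 4 * swap 2 3, Perm.mem_alternatingGroup.2 (by decide)⟩,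
      ⟨swap 0 4 * swap 1 3, Perm.mem_alternatingGroup.2 (by decide)⟩, by decide⟩
  have s2' : e s * e s = 1 := by rw [← map_mul, s2, map_one]
  have s1' : e s ≠ 1 := by simpa using s1
  have h5' : e (s * t) ^ 5 = 1 := by rw [← map_pow, h5, map_one]
  have h1' : e (s * t) ≠ 1 := (map_ne_one_iff _ e.injective).2 h1
  obtain ⟨a, b, p⟩ := hp _ s2' s1'
  obtain ⟨a', b', p'⟩ := hp (e t) (by rw [← map_mul, t2, map_one]) (by simpa using t1)
  obtain ⟨w, hw, h2, h3⟩ := c.exists_common (c.three_le_of_pl p) (c.three_le_of_pl p')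
  have h4 : e (s * t) • w = w := by rw [map_mul, mul_smul, h3, h2]
  refine c.frame_of hI hw (n := 2 * 5) (Nat.Coprime.mul_dvd_of_dvd_of_dvd (by norm_num)
    (dvd_sub (D := stabilizer G w) h2 Nat.prime_two (by rwa [sq]) s1')
    (dvd_sub (D := stabilizer G w) h4 Nat.prime_five h5' h1')) ?_ (by norm_num) h5' h1' h4
  rw [← Nat.card_congr e.toEquiv, nat_card_alternatingGroup]
  simp [Nat.factorial]

theorem frame_six' (hI : Irr F W G) (e : alternatingGroup (Fin 6) ≃* G) {x h : alternatingGroup (Fin 6)}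
    (hx : 3 ≤ finrank F (fixS F W (e x))) (H : ∀ y, y = h * x * h⁻¹ → x ^ 3 = 1 ∧ x ≠ 1 ∧ (x * y) ^ 5 = 1 ∧
      x * y ≠ 1 ∧ ∀ s t, s = x * x * y * x * y → t = y * x * x * y * x → s * s = 1 ∧ t * t = 1 ∧
        s * t = t * s ∧ s ≠ 1 ∧ t ≠ 1 ∧ s ≠ t) : ∃ v β φ, Fr6 B v β ∧ Pf G v φ := by
  have := Finite.of_equiv _ e.toEquiv
  have := alternatingGroup.isSimpleGroup (α := Fin 6) (by simp)
  have := e.symm.isSimpleGroup
  obtain ⟨w, hw, h2, h3⟩ := c.exists_common hx (finrank_fixS_conj (F := F) (W := W) (e x) (e h) ▸ hx)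
  rw [← map_inv, ← map_mul, ← map_mul] at h3
  obtain ⟨x3, x1, h5, h1, H⟩ := H _ rfl
  obtain ⟨s2, t2, st, s1, t1, st'⟩ := H _ _ rfl rfl
  generalize h * x * h⁻¹ = y at *
  let D := (stabilizer G w).comap e.toMonoidHom
  have hx : x ∈ D := h2
  have hy : y ∈ D := h3
  refine c.frame_of hI hw (n := 3 * 5 * 4) ?_ ?_ (by norm_num) (g := e (x * y))
    (by rw [← map_pow, h5, map_one]) ((map_ne_one_iff _ e.injective).2 h1) (mul_mem hx hy : x * y ∈ D)
  · refine Dvd.dvd.trans ?_ (Subgroup.card_comap_dvd_of_injective _ e.toMonoidHom e.injective)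
    exact Nat.Coprime.mul_dvd_of_dvd_of_dvd (by norm_num) (Nat.Coprime.mul_dvd_of_dvd_of_dvd (by norm_num)
      (dvd_sub hx Nat.prime_three x3 x1) (dvd_sub (mul_mem hx hy) Nat.prime_five h5 h1))
      (four_dvd_sub (D := D) (by apply_rules [mul_mem]) (by apply_rules [mul_mem]) s2 t2 st s1 t1 st')
  · rw [← Nat.card_congr e.toEquiv, nat_card_alternatingGroup]
    simp [Nat.factorial]

theorem frame_six (h3 : (3 : F) ≠ 0) (hI : Irr F W G) (e : alternatingGroup (Fin 6) ≃* G) :
    ∃ v β φ, Fr6 B v β ∧ Pf G v φ := by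
  let a : alternatingGroup (Fin 6) := ⟨c[0, 1, 2], Perm.mem_alternatingGroup.2 (by decide)⟩
  let b : alternatingGroup (Fin 6) := ⟨c[3, 4, 5], Perm.mem_alternatingGroup.2 (by decide)⟩
  have k1 : 2 ≤ finrank F (fixS F W (e a)) → _ := fun h =>
    c.frame_six' hI e (h := ⟨c[1, 3] * c[2, 4], Perm.mem_alternatingGroup.2 (by decide)⟩)
      (c.three_le_of_cube (by rw [← map_mul, ← map_mul, map_eq_one_iff _ e.injective]; decide) h)
      (by rintro _ rfl; refine ⟨by decide, by decide, by decide +kernel, by decide, ?_⟩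
          rintro _ _ rfl rfl; decide +kernel)
  have k2 : 2 ≤ finrank F (fixS F W (e (a * b))) → _ := fun h =>
    c.frame_six' hI e (h := ⟨c[2, 3] * c[4, 5], Perm.mem_alternatingGroup.2 (by decide)⟩)
      (c.three_le_of_cube (by rw [← map_mul, ← map_mul, map_eq_one_iff _ e.injective]; decide) h)
      (by rintro _ rfl; refine ⟨by decide, by decide, by decide +kernel, by decide, ?_⟩
          rintro _ _ rfl rfl; decide +kernel)
  obtain ⟨x, hx, h⟩ := c.exists_two_le h3 (a := e a) (b := e b)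
    (by rw [← map_mul, ← map_mul, map_eq_one_iff _ e.injective]; decide)
    (by rw [← map_mul, ← map_mul, map_eq_one_iff _ e.injective]; decide)
    (by rw [← map_mul, ← map_mul, e.injective.eq_iff]; decide)
  simp only [List.mem_cons, List.not_mem_nil, or_false, ← map_mul] at hx
  rcases hx with rfl | rfl | rfl | rfl
  · exact k1 h
  · obtain ⟨g, hg⟩ : ∃ g, b = g * a * g⁻¹ :=
      ⟨⟨c[0, 3] * c[1, 4, 2, 5], Perm.mem_alternatingGroup.2 (by decide)⟩, by decide⟩
    rw [hg, map_mul, map_mul, map_inv, finrank_fixS_conj] at h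
    exact k1 h
  · exact k2 h
  · obtain ⟨g, hg⟩ : ∃ g, a * b * b = g * (a * b) * g⁻¹ :=
      ⟨⟨c[0, 3] * c[1, 5, 2, 4], Perm.mem_alternatingGroup.2 (by decide)⟩, by decide⟩
    rw [hg, map_mul, map_mul, map_inv, finrank_fixS_conj] at h
    exact k2 h

end Ctx

end CL.Sp4O
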