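import Mathlib
import Cfsg.Agent.CLAS.Sp4ODef

/-!
# An explicit chain `SL₂(7) < 2.A₇ < Sp₄(7)`
-/

set_option autoImplicit false

namespace CL.Sp4O.M7

open Matrix

/-- a matrix from its digits -/
def dec (n : ℕ) : M4 (ZMod 7) := fun i j =>
  (n / 7 ^ (4 * Sum.elim Fin.val (·.val + 2) i + Sum.elim Fin.val (·.val + 2) j) : ℕ)

def x0 : M4 (ZMod 7) := fromBlocks !![1, 0; 1, 1] !![0, 0; 0, 0] !![0, 1; 0, 0] !![1, 0; 1, 1]

def w0 : M4 (ZMod 7) := fromBlocks !![0, 1; 0, 6] !![6, 6; 5, 0] !![0, 1; 1, 5] !![1, 0; 4, 0]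

def J0 : M4 (ZMod 7) := fromBlocks !![0, 6; 1, 0] !![1, 1; 6, 0] !![6, 1; 6, 0] !![0, 0; 0, 0]

theorem J0_inv : dec 801064513522 * J0 = 1 := by decide +kernel

/-- the roots -/
def rts : List ℕ := [15502256090475, 23156506138668, 2765800617209, 7098147499562,
  19760701213127, 28923629431459, 4936674784188, 29087516034661, 5100561387390, 18332828042816,
  31673604829230, 2094757715526, 4513711305987, 33176761210805, 10020302148887, 2433077487416,
  28337304854616, 30662624861668, 13427201511853, 31335603898189, 12926706329407, 11346567575633,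
  8601539517378, 17750626429301, 27010484129296, 24917986215811, 6509048310229, 25330427037640,
  32262704018570, 13853766096181, 11759290872760, 21019108219148, 30168235484678, 27328295625110,
  25166822909736, 7436148430610, 1010986573063, 8107150140388, 10432470029791, 3008855261375,
  24003888669969, 5594950764387]

/-- the `i`-th root -/
def rt (i : Fin 42) : M4 (ZMod 7) := dec (rts.getD i 0)

/-- the isometries which permute the roots -/
def A0 : Subgroup (GL I4 (ZMod 7)) where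
  carrier := {s | s.1ᵀ * J0 * s.1 = J0 ∧ (∀ i, ∃ j, s.1 * rt i = rt j * s.1) ∧
    ∀ j, ∃ i, s.1 * rt i = rt j * s.1}
  mul_mem' {a b} ha hb := ⟨by
    rw [Units.val_mul, transpose_mul, mul_assoc b.1ᵀ, ← mul_assoc, mul_assoc b.1ᵀ, ha.1, hb.1],
    fun i => by
      obtain ⟨j, hj⟩ := hb.2.1 i
      obtain ⟨k, hk⟩ := ha.2.1 j
      exact ⟨k, by rw [Units.val_mul, mul_assoc, hj, ← mul_assoc, hk, mul_assoc]⟩,
    fun k => by
      obtain ⟨j, hk⟩ := ha.2.2 k
      obtain ⟨i, hj⟩ := hb.2.2 j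
      exact ⟨i, by rw [Units.val_mul, mul_assoc, hj, ← mul_assoc, hk, mul_assoc]⟩⟩
  one_mem' := ⟨by simp, fun i => ⟨i, by simp⟩, fun i => ⟨i, by simp⟩⟩
  inv_mem' {a} ha := ⟨by
    conv_lhs => rw [← ha.1]
    rw [mul_assoc, Units.mul_inv_cancel_right, ← mul_assoc, ← transpose_mul, Units.mul_inv,
      transpose_one, one_mul],
    fun j => (ha.2.2 j).imp fun i h => by
      rw [Units.inv_mul_eq_iff_eq_mul, ← mul_assoc, h, Units.mul_inv_cancel_right],
    fun i => (ha.2.1 i).imp fun j h => by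
      rw [Units.inv_mul_eq_iff_eq_mul, ← mul_assoc, h, Units.mul_inv_cancel_right]⟩

theorem mem_A0 {s : GL I4 (ZMod 7)} (l : List (Fin 42)) (h1 : s.1ᵀ * J0 * s.1 = J0)
    (h2 : ∀ i : Fin 42, s.1 * rt i = rt (l.getD i 0) * s.1) (h3 : ∀ j, ∃ i : Fin 42, l.getD i 0 = j) :
    s ∈ A0 :=
  ⟨h1, fun i => ⟨_, h2 i⟩, fun j => let ⟨i, h⟩ := h3 j; ⟨i, h ▸ h2 i⟩⟩

def xu : GL I4 (ZMod 7) := ⟨x0, dec 8997367073556, by decide +kernel, by decide +kernel⟩
def wu : GL I4 (ZMod 7) := ⟨w0, dec 2313432188242, by decide +kernel, by decide +kernel⟩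
def gu : GL I4 (ZMod 7) :=
  ⟨dec 24794236710631, dec 27550004607181, by decide +kernel, by decide +kernel⟩
def tu : GL I4 (ZMod 7) :=
  ⟨dec 4761685289201, dec 4830891725206, by decide +kernel, by decide +kernel⟩

theorem xu_mem : xu ∈ A0 := mem_A0
    [23, 31, 24, 32, 37, 0, 16, 38, 1, 17, 22, 30, 2, 33, 3, 25, 12, 26, 14, 34, 6, 39, 4, 13, 35,
    5, 18, 40, 27, 8, 19, 41, 9, 15, 7, 20, 11, 28, 36, 29, 10, 21]
  (by decide +kernel) (by decide +kernel) (by decide +kernel)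

theorem wu_mem : wu ∈ A0 := mem_A0
    [4, 9, 8, 10, 0, 11, 7, 6, 2, 1, 3, 5, 17, 16, 14, 15, 13, 12, 22, 25, 21, 20, 18, 26, 24, 19,
    23, 32, 31, 35, 30, 28, 27, 34, 33, 29, 37, 36, 41, 39, 40, 38]
  (by decide +kernel) (by decide +kernel) (by decide +kernel)

theorem gu_mem : gu ∈ A0 := mem_A0
    [40, 14, 2, 33, 41, 18, 0, 1, 27, 13, 21, 11, 3, 35, 17, 8, 34, 23, 22, 16, 9, 26, 24, 7, 39,
    36, 25, 32, 29, 12, 15, 6, 30, 28, 4, 38, 10, 31, 20, 5, 37, 19]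
  (by decide +kernel) (by decide +kernel) (by decide +kernel)

theorem gu_pow : gu ^ 5 = 1 := Units.ext (by rw [Units.val_pow_eq_pow_val]; decide +kernel)
theorem gu_ne : gu ≠ 1 := fun h => absurd (congrArg Units.val h) (by decide +kernel)
theorem tu_sp : tu.1ᵀ * J0 * tu.1 = J0 := by decide +kernel
theorem tu_not : tu ∉ A0 := fun h => by
  obtain ⟨j, hj⟩ := h.2.1 0
  rw [show tu.1 * rt 0 = dec 17592290467430 * tu.1 by decide +kernel, Units.mul_left_inj] at hj
  revert j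
  decide +kernel

theorem ord7 : ∀ a b c d : ZMod 7, a * d - b * c = 1 → !![a, b; c, d] ^ 7 = 1 →
    (a = 1 ∧ c = 0 ∧ d = 1) ∨ (c ≠ 0 ∧ ∃ s, a = 1 + s * c ∧ b = -(s * c * s) ∧ d = 1 - c * s) := by
  decide +kernel

end CL.Sp4O.M7
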