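import Mathlib
import Cfsg.Agent.CLAS.SL2Lift
import Cfsg.Agent.CLAS.Tv

/-!
# Subgroups of `SL₂(F)`, `|F|` odd, with two opposite transvections
-/

set_option autoImplicit false

namespace CL.Sp4O

open Matrix CL.Dk CL.PGL2 CL.Tv Module
open scoped MatrixGroups

variable {F : Type*} [Field F]

/-- upper unitriangular matrices -/
def uU (a : F) : SL(2, F) := ⟨!![1, a; 0, 1], by simp [det_fin_two]⟩

/-- lower unitriangular matrices -/
def uL (a : F) : SL(2, F) := ⟨!![1, 0; a, 1], by simp [det_fin_two]⟩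

theorem sl2pgl_uU (a : F) : sl2pgl F (uU a) = aff 1 a := sl2pgl_apply _

theorem sl2pgl_uL (a : F) : sl2pgl F (uL a) = low a := sl2pgl_apply _

/-- Dickson's theorem for a group with two opposite transvections. -/
theorem two_tv [Finite F] (h2 : (2 : F) ≠ 0) (H : Subgroup SL(2, F)) {b c : F} (hb : b ≠ 0)
    (hc : c ≠ 0) (hU : uU b ∈ H) (hL : uL c ∈ H) :
    ((5 : F) ≠ 0 ∧ -1 ∈ H ∧ Nat.card H = 120) ∨
      ∃ k : Subfield F, b * c ∈ k ∧ ∀ a, uU a ∈ H ↔ a / b ∈ k := by
  obtain ⟨p, hp⟩ := CharP.exists F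
  have : Fact p.Prime := ⟨CharP.char_is_prime F p⟩
  have hp2 : p ≠ 2 := by
    rintro rfl
    exact h2 (by exact_mod_cast CharP.cast_eq_zero F 2)
  set H' := H.map (sl2pgl F) with hH'
  have hx : low c ∈ H' := ⟨_, hL, sl2pgl_uL c⟩
  have hya : ∀ a, uU a ∈ H → aff 1 a ∈ H' := fun a ha => ⟨_, ha, sl2pgl_uU a⟩
  have hy := hya b hU
  have hy1 : aff 1 b ≠ 1 := fun e => hb (aff_eq_one_iff.1 e).2
  have hyu : aff 1 b ∈ unipAt (inf : P1 F) := mem_unipAt_inf.2 ⟨b, rfl⟩
  have hyp : orderOf (aff 1 b) = p := orderOf_eq_prime (pow_char_eq_one_of_mem_unipAt p hyu) hy1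
  have hneg : 2 ∣ Nat.card H' → (-1 : SL(2, F)) ∈ H := fun h =>
    neg_one_mem_of_even h2 (h.trans (Subgroup.card_map_dvd _ _))
  rcases dickson_sub (algebraMap F (AlgebraicClosure F)) p H' with ⟨x, hx'⟩ | ⟨x, y, h1, -, h3⟩ |
    ⟨-, h⟩ | ⟨⟨e⟩, rfl⟩ | ⟨k, h, -, h3⟩
  · exfalso
    rcases (mem_unipAt.1 hyu).2 x (hx' hy) with rfl | e
    · exact hc ((low_smul_inf_iff c).1 (hx' hx))
    · exact hy1 e
  · exfalso
    have h4 := mem_pairT_of_mul_self_ne_one (mapG_injective _) h1 (h3 hy) (by
      intro e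
      have := orderOf_dvd_of_pow_eq_one ((sq _).trans e)
      rw [hyp] at this
      exact hp2 ((Nat.prime_dvd_prime_iff_eq Fact.out Nat.prime_two).1 this))
    have h5 := (mapG_mem_unipAt_iff (algebraMap F (AlgebraicClosure F)) _ _).2 hyu
    have h6 : mapG (algebraMap F (AlgebraicClosure F)) (aff 1 b) ≠ 1 := fun e =>
      hy1 (mapG_injective _ (e.trans (map_one _).symm))
    exact h1 ((((mem_unipAt.1 h5).2 x (mem_pairT.1 h4).1).resolve_right h6).trans
      (((mem_unipAt.1 h5).2 y (mem_pairT.1 h4).2).resolve_right h6).symm)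
  · exact absurd (hyp ▸ Subgroup.orderOf_dvd_natCard H' hy) h
  · have h3 : (3 : F) = 0 := by exact_mod_cast CharP.cast_eq_zero F 3
    have hc : Nat.card H' = 60 := by rw [Nat.card_congr e.toEquiv, card_alt_five]
    have hn := hneg (by rw [hc]; decide)
    exact .inl ⟨fun h5 => h2 (by linear_combination h5 - h3), hn,
      by rw [card_eq_two_mul_card_map h2 hn, ← hH', hc]⟩
  · right
    have hk : H' ≤ cjs h (pglOf k.subtype) := by
      rcases h3 with h3 | ⟨-, h3⟩ <;> rw [h3]
      exact cjs_mono _ (pslOf_le_pglOf _)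
    have hk' : cjs h (pslOf k.subtype) ≤ H' := by
      rcases h3 with h3 | ⟨-, h3⟩ <;> rw [h3]
      exact cjs_mono _ (pslOf_le_pglOf _)
    have key : ∀ a, uU a ∈ H → a * c ∈ k := fun a ha => by
      have t1 := tau_mem_of_mem_cjs_pglOf (hk (mul_mem hx (hya a ha)))
      have t2 := tau_mem_of_mem_cjs_pglOf (hk (mul_mem hx (inv_mem (hya a ha))))
      rw [aff_inv, inv_one, tau_low_mul_aff] at t2
      rw [tau_low_mul_aff, Subfield.fieldRange_subtype] at t1
      rw [Subfield.fieldRange_subtype] at t2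
      have e : a * c = (2 * 2 * 2)⁻¹ * ((2 + c * a) ^ 2 - (2 + c * -((1 : Fˣ) * a)) ^ 2) := by
        simp only [Units.val_one]
        field_simp
        ring
      rw [e]
      exact mul_mem (inv_mem (mul_mem (mul_mem (ofNat_mem k 2) (ofNat_mem k 2)) (ofNat_mem k 2)))
        (sub_mem t1 t2)
    refine ⟨k, key b hU, fun a => ⟨fun ha => ?_, fun ha => ?_⟩⟩
    · rw [← mul_div_mul_right a b hc]
      exact div_mem (key a ha) (key b hU)
    · obtain ⟨g, hg⟩ := mem_cjs.1 (hk hy)
      have hgp : g ^ p ^ 1 = 1 := mapG_injective k.subtype (by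
        have := conj_pow (i := orderOf (aff 1 b)) (a := h⁻¹) (b := aff 1 b)
        rw [inv_inv, pow_orderOf_eq_one, hyp] at this
        rw [map_pow, hg, map_one, pow_one, this]
        simp)
      obtain ⟨x, hgx⟩ := exists_fixed_of_pow_char_pow p hgp
      obtain ⟨g₀, rfl⟩ := exists_smul_inf x
      have h4 : (h * mapG k.subtype g₀) • (inf : P1 F) = inf := by
        refine ((mem_unipAt.1 hyu).2 _ ?_).resolve_right hy1
        have := (mapG_smul_eq_iff k.subtype g _ _).2 hgx
        rw [hg, ← mapG_smul_mapP, mapP_inf, mul_smul, mul_smul, inv_smul_eq_iff] at this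
        rw [mul_smul, this]
      obtain ⟨α, β, h5⟩ := exists_aff_of_smul_inf h4
      have h6 : ∀ s : k, h * mapG k.subtype (g₀ * aff 1 s * g₀⁻¹) * h⁻¹ = aff 1 (α * (s : F)) :=
          fun s => by
        have := aff_conj α 1 β s
        rw [← h5] at this
        simp only [map_mul, map_inv, mapG_aff, map_one]
        convert this using 1
        · simp [mul_assoc]
        · simp
      obtain ⟨s, hs⟩ := mem_unipAt_inf.1 (mem_unipAt_smul.1 (mem_unipAt_of_pow_char_pow p hgx hgp))
      have h7 : b = α * (s : F) := by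
        have := h6 s
        rw [← hs, show g₀ * (g₀⁻¹ * g * g₀) * g₀⁻¹ = g by group, hg] at this
        exact (aff_inj.1 ((by group : aff 1 b = _).trans this)).2
      have h8 : aff 1 (a / 2) ∈ H' := by
        have := h6 (⟨_, div_mem ha (ofNat_mem k 2)⟩ * s)
        rw [show (α : F) * ((⟨_, div_mem ha (ofNat_mem k 2)⟩ * s : k) : F) = a / 2 by
          change α * (a / b / 2 * s) = a / 2
          rw [mul_left_comm, ← h7]
          field_simp] at this
        rw [← this]
        refine hk' (conj_mem_cjs.2 ⟨_, (pslIn_normal).conj_mem _ ?_ _, rfl⟩)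
        exact unipAt_le_pslIn inf (mem_unipAt_inf.2 ⟨_, rfl⟩)
      obtain ⟨u, hu, e⟩ := h8
      have h9 : uU (a / 2) * uU (a / 2) = uU a := Subtype.ext (by
        have : a / 2 + a / 2 = a := by field_simp; ring
        change !![1, a / 2; 0, 1] * !![1, a / 2; 0, 1] = !![1, a; 0, 1]
        simp [this])
      rcases sl2pgl_eq_iff.1 (e.trans (sl2pgl_uU _).symm) with rfl | rfl
      · exact h9 ▸ mul_mem hu hu
      · have := mul_mem hu hu
        rwa [neg_mul_neg, h9] at this

/-- `SL₂(F)` acting on a plane and trivially on a complement -/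
theorem exists_emb {ι : Type} [Fintype ι] [DecidableEq ι] {y z : ι → F} {α γ : Dual F (ι → F)}
    (h1 : α y = 1) (h2 : α z = 0) (h3 : γ y = 0) (h4 : γ z = 1) :
    ∃ e : SL(2, F) →* GL ι F, Function.Injective e ∧ ∀ m v, act (e m) v =
      v + ((m 0 0 - 1) * α v + m 0 1 * γ v) • y + (m 1 0 * α v + (m 1 1 - 1) * γ v) • z := by
  let L : SL(2, F) → End F (ι → F) := fun m => 1 + ((m 0 0 - 1) • α + m 0 1 • γ).smulRight y +
    (m 1 0 • α + (m 1 1 - 1) • γ).smulRight z
  have hL : ∀ m v, L m v =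
      v + ((m 0 0 - 1) * α v + m 0 1 * γ v) • y + (m 1 0 * α v + (m 1 1 - 1) * γ v) • z :=
    fun m v => by simp [L]
  let e : SL(2, F) →* Matrix ι ι F :=
    { toFun := fun m => LinearMap.toMatrix' (L m)
      map_one' := by simp [L]
      map_mul' := fun m n => by
        rw [← LinearMap.toMatrix'_mul]
        congr 1
        refine LinearMap.ext fun v => ?_
        have hm : ∀ i j, (m * n) i j = m i 0 * n 0 j + m i 1 * n 1 j := fun i j => by
          change (m.1 * n.1) i j = _
          rw [Matrix.mul_apply, Fin.sum_univ_two]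
        simp only [End.mul_apply, hL, hm, map_add, map_smul, h1, h2, h3, h4, smul_eq_mul]
        module }
  have he : ∀ m v, act (e.toHomUnits m) v = L m v := fun m v => by
    rw [act_apply]; exact LinearMap.toMatrix'_mulVec _ _
  refine ⟨e.toHomUnits, (injective_iff_map_eq_one _).2 fun m hm => ?_, fun m v => by rw [he, hL]⟩
  have a1 := he m y
  have a2 := he m z
  rw [hm, act_one, hL] at a1 a2
  have b1 := congrArg α a1
  have b2 := congrArg γ a1
  have b3 := congrArg α a2
  have b4 := congrArg γ a2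
  simp only [map_add, map_smul, h1, h2, h3, h4, smul_eq_mul] at b1 b2 b3 b4
  ext i j
  fin_cases i <;> fin_cases j <;> simp
  · linear_combination -b1
  · linear_combination -b3
  · linear_combination -b2
  · linear_combination -b4

end CL.Sp4O
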