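/-
Symplectic ⊗ symplectic tensor products in `Ω⁺`: the algebra of short root levels.
-/
import Mathlib
import Cfsg.Agent.CLAS.TFormD

namespace CL.Tens

open Module CL.ExtF CL.Witt CL.Witt.Form CL.Root

attribute [-simp] LinearEquiv.coe_inv
attribute [local simp] FormType.alt_σ FormType.alt_ε alt_B_self FormType.quad_σ FormType.quad_ε
  FormType.alt_π FormType.quad_π

variable {F : Type*} [Field F] {V₁ V₂ V : Type*} [AddCommGroup V₁] [Module F V₁] [AddCommGroup V₂]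
  [Module F V₂] [AddCommGroup V] [Module F V] {X : Subgroup (V ≃ₗ[F] V)}

theorem nmem_of {x y : V} (H : ∀ a : F, a • x ≠ y) : y ∉ F ∙ x := fun e =>
  (Submodule.mem_span_singleton.1 e).elim H

theorem li_of_nmem {x y : V} (hx : x ≠ 0) (hy : y ∉ F ∙ x) : LinearIndependent F ![x, y] :=
  (LinearIndependent.pair_iff' hx).2 fun a e => hy (Submodule.mem_span_singleton.2 ⟨a, e⟩)

/-- The unipotent radical of a parabolic subgroup lies in `E`. -/
theorem mem_E_of_rad {f : Form (FormType.quad F) V} [FiniteDimensional F V] (hf : f.Nondeg)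
    (W : Submodule F V) (hs : ∀ w ∈ W, f.q w = 0) {u : V ≃ₗ[F] V} (hu : u ∈ f.O)
    (h1 : ∀ w ∈ W, u w = w) (h2 : ∀ v ∈ f.perp W, u v - v ∈ W) : u ∈ f.E := by
  induction hn : finrank F W using Nat.strong_induction_on generalizing W u with | _ n ih => ?_
  rcases eq_or_ne W ⊥ with rfl | hW
  · convert f.E.one_mem
    ext v
    simpa [sub_eq_zero, perp_bot] using h2 v
  obtain ⟨w, hw, w0⟩ := Submodule.exists_mem_ne_zero_of_ne_bot hW
  obtain ⟨w', hw'⟩ := hf.exists_B_eq w0 1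
  have hb := ((f.quad_totSing_iff W).2 hs).2
  have e : ∀ x ∈ W, ∀ v, f.B x (u v) = f.B x v := fun x hx v => by rw [← mem_O_B hu x v, h1 x hx]
  obtain ⟨z, a, ok, e1, hz⟩ := exists_ei_apply_eq (hs w hw) (mem_O_q hu w').symm (e w hw w').symm
    (by simp [hw'])
  have k1 : ∀ x ∈ W, f.ei w z a x = x := fun x hx => ok.ei_apply_fix (hb w hw x hx) (by
    rw [f.quad_symm, hz]; simp [e x hx])
  have hm := f.O.mul_mem (f.O.inv_mem (ei_mem_O w z a)) hu
  have e2 : ((f.ei w z a)⁻¹ * u) w' = w' := inv_app_eq e1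
  have := ih _ (hn ▸ Submodule.finrank_lt_finrank_of_lt (s := W ⊓ f.perp (F ∙ w'))
    (lt_of_le_of_ne inf_le_left fun e => by
      have := f.mem_perp_span_singleton.1 (e.ge hw).2
      simp [f.quad_symm w w', hw'] at this)) (W ⊓ f.perp (F ∙ w')) (fun x hx => hs x hx.1) hm
    (fun x hx => by rw [mul_app, h1 x hx.1]; exact inv_app_eq (k1 x hx.1)) (fun v hv => ?_) rfl
  · simpa using f.E.mul_mem (ei_mem_E w z a) this
  obtain ⟨v₀, p, t, rfl⟩ : ∃ v₀ ∈ f.perp W, ∃ t : F, v = v₀ + t • w' :=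
    ⟨v - f.B w v • w', fun x hx => by
      have := hv (x - f.B x w' • w) ⟨W.sub_mem hx (W.smul_mem _ hw),
        f.mem_perp_span_singleton.2 (by simp [f.quad_symm w w', hw', f.quad_symm x w'])⟩
      simp at this ⊢
      linear_combination this, f.B w v, by simp⟩
  have e3 : (f.ei w z a)⁻¹ v₀ = v₀ + f.B z v₀ • w := inv_app_eq (by
    rw [map_add, map_smul, k1 w hw, ok.ei_apply_of_perp (p w hw)]; simp)
  have e4 : ((f.ei w z a)⁻¹ * u) v₀ = v₀ + f.B z v₀ • w + (u v₀ - v₀) := by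
    rw [← e3, ← inv_app_eq (k1 _ (h2 v₀ p)), ← map_add, mul_app]; simp
  rw [map_add, map_smul, e2, add_sub_add_right_eq_sub]
  refine ⟨by rw [e4]; simpa [add_assoc] using W.add_mem (W.smul_mem _ hw) (h2 v₀ p),
    f.mem_perp_span_singleton.2 ?_⟩
  rw [map_sub, ← mem_O_B hm w' v₀, e2, sub_self]

section Alt

variable {f : Form (FormType.alt F) V} [FiniteDimensional F V] (hf : f.Nondeg)
include hf

theorem alt_witt2 {x y x' y' : V} (hx : x ≠ 0) (hy : y ∉ F ∙ x) (hx' : x' ≠ 0) (hy' : y' ∉ F ∙ x')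
    (e : f.B x' y' = f.B x y) : ∃ g ∈ f.O, g x = x' ∧ g y = y' :=
  hf.witt_pair (li_of_nmem hx hy) (li_of_nmem hx' hy') (by simp [alt_q]) (by simp [alt_q]) e

theorem exists_hyp5 (h5 : 5 ≤ finrank F V) (c w : V) : ∃ y y', f.B c y = 0 ∧ f.B w y = 0 ∧
    f.B c y' = 0 ∧ f.B w y' = 0 ∧ f.B y y' = 1 := by
  obtain ⟨y, hy, hy'⟩ : ∃ y ∈ f.perp (Submodule.span F {c, w}), y ∉ Submodule.span F {c, w} := by
    by_contra! H
    have h1 := Submodule.finrank_mono (show f.perp _ ≤ _ from H)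
    have h2 := hf.finrank_add_finrank_perp (Submodule.span F {c, w})
    have h3 := CL.Tv.finrank_span_pair_le (F := F) c w
    omega
  obtain ⟨y', p1, p2⟩ := hf.exists_perp_eq' hy' 1
  rw [mem_perp_span_pair] at hy
  exact ⟨y, y', hy.1, hy.2, p1 c (Submodule.subset_span (by simp)),
    p1 w (Submodule.subset_span (by simp)), p2⟩

/-- An `Sp`-invariant algebra of operators containing a non-scalar contains the transvection
directions. -/
theorem tv_mem_of_nonscalar (hex : finrank F V ≠ 2 ∨ ∃ s : F, s ≠ 0 ∧ s ≠ 1)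
    {R : Submodule F (V →ₗ[F] V)}
    (hc : ∀ A ∈ f.O, ∀ β ∈ R, (A : V →ₗ[F] V) ∘ₗ β ∘ₗ (A⁻¹ : V ≃ₗ[F] V) ∈ R)
    (hm : ∀ β ∈ R, ∀ γ ∈ R, β ∘ₗ γ ∈ R) {N : V →ₗ[F] V} (hN : N ∈ R)
    (hn : ¬ ∃ s : F, ∀ x, N x = s • x) (p : V) : (f.B p).smulRight p ∈ R := by
  obtain ⟨x, hx⟩ : ∃ x, N x ∉ F ∙ x := by
    by_contra! H
    exact hn (exists_smul_of_mem_span H)
  have x0 : x ≠ 0 := by rintro rfl; simp at hx
  suffices H : (f.B x).smulRight x ∈ R by
    rcases eq_or_ne p 0 with rfl | p0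
    · convert R.zero_mem; ext; simp
    obtain ⟨A, hA, rfl⟩ := hf.witt_vector x0 p0 (by simp [alt_q])
    convert hc A hA _ H using 1
    ext v; simp [B_apply_left hA]
  have D : ∀ μ : F, ∃ D ∈ R, ∀ v, D v =
      μ • (f.B x (N v) • x - f.B x v • (N x + (μ * f.B x (N x)) • x)) := fun μ =>
    ⟨_, R.sub_mem (hc _ (ei_mem_O x 0 μ) N hN) hN, fun v => by
      have : (f.ei x 0 μ)⁻¹ v = v - (μ * f.B x v) • x := inv_app_eq (by simp [alt_tv_apply])
      simp only [LinearMap.sub_apply, LinearMap.comp_apply, LinearEquiv.coe_coe, this, alt_tv_apply,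
        map_sub, map_smul]
      module⟩
  obtain ⟨D₁, h1, e1⟩ := D 1
  by_cases hk : f.B x (N x) ≠ 0 ∧ ∃ s : F, s ≠ 0 ∧ s ≠ 1
  · obtain ⟨k0, s, s0, s1⟩ := hk
    obtain ⟨D₂, h2, e2⟩ := D s
    have := sub_ne_zero.2 s1.symm
    convert R.smul_mem (s * (1 - s) * f.B x (N x))⁻¹ (R.sub_mem h2 (R.smul_mem s h1)) using 1
    ext v
    simp only [LinearMap.smulRight_apply, LinearMap.smul_apply, LinearMap.sub_apply, e1, e2]
    match_scalars <;> field_simp <;> ring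
  have h4 : 4 ≤ finrank F V := by
    have p1 := hf.finrank_add_finrank_perp (F ∙ x)
    rw [finrank_span_singleton x0] at p1
    obtain ⟨k, p2⟩ := hf.even_finrank_alt
    refine by_contra fun p3 => hk ⟨fun e => hx ?_, hex.resolve_left (by omega)⟩
    have := Submodule.eq_of_le_of_finrank_eq (S₁ := F ∙ x) (S₂ := f.perp (F ∙ x))
      ((Submodule.span_singleton_le_iff_mem _ _).2 (f.mem_perp_span_singleton.2 (by simp)))
      (by rw [finrank_span_singleton x0]; omega)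
    exact this ▸ f.mem_perp_span_singleton.2 e
  simp only [one_smul, one_mul] at e1
  set w := N x + f.B x (N x) • x with hw
  have mx := Submodule.mem_span_singleton_self (R := F) x
  have w1 : w ∉ F ∙ x := fun e => hx (by
    simpa [hw] using sub_mem e (Submodule.smul_mem _ (f.B x (N x)) mx))
  obtain ⟨x', k1, k2⟩ : ∃ x' ∈ LinearMap.ker D₁, x' ∉ F ∙ x := by
    by_contra! H
    have p1 := Submodule.finrank_mono (show LinearMap.ker D₁ ≤ _ from H)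
    have p2 := D₁.finrank_range_add_finrank_ker
    have p3 := Submodule.finrank_mono (show LinearMap.range D₁ ≤ Submodule.span F {x, w} by
      rintro _ ⟨v, rfl⟩
      exact Submodule.mem_span_pair.2 ⟨f.B x (N v), -f.B x v, by rw [e1]; module⟩)
    have p4 := CL.Tv.finrank_span_pair_le (F := F) x w
    rw [finrank_span_singleton x0] at p1
    omega
  have k0 : ∀ v, D₁ v = 0 → f.B x v = 0 := fun v e => by_contra fun n =>
    w1 ((Submodule.smul_mem_iff _ n).1 (by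
      rw [e1, sub_eq_zero] at e; exact e ▸ Submodule.smul_mem _ _ mx))
  have x1 : x' ≠ 0 := by rintro rfl; simp at k2
  obtain ⟨w', q1, q2⟩ := (hf.exists_B_eq_family' (li_of_nmem x0 k2) ![1, f.B x w]).imp
    fun _ e => And.intro (e 0) (e 1)
  simp only [Matrix.cons_val_zero, Matrix.cons_val_one] at q1 q2
  obtain ⟨A, hA, a1, a2⟩ := alt_witt2 hf x1 (y := w') (nmem_of fun a e => by
    simp [← e, k0 x' k1] at q1) x0 w1 q2.symm
  have hM := hm _ (hc A hA _ h1) _ h1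
  set u := -A (D₁ w') with hu
  have eM : ((A : V →ₗ[F] V) ∘ₗ D₁ ∘ₗ (A⁻¹ : V ≃ₗ[F] V)) ∘ₗ D₁ = (f.B x).smulRight u := by
    ext v
    simp [e1 v, inv_app_eq a1, inv_app_eq a2, LinearMap.mem_ker.1 k1, hu]
  rw [eM] at hM
  have u0 : u ≠ 0 := fun e => by simpa [q1] using k0 w' (by simpa [hu] using e)
  by_cases hux : u ∈ F ∙ x
  · obtain ⟨a, e⟩ := Submodule.mem_span_singleton.1 hux
    have a0 : a ≠ 0 := by rintro rfl; exact u0 (by simpa using e.symm)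
    convert R.smul_mem a⁻¹ hM using 1
    ext v; simp [← e, smul_smul, mul_comm, a0]
  obtain ⟨g, hg, g1, g2⟩ := hf.witt_step hux (y := u + x)
    (fun e => hux (by simpa using sub_mem e mx))
    (fun v hv => by obtain ⟨a, rfl⟩ := Submodule.mem_span_singleton.1 hv; simp) (by simp [alt_q])
  convert R.sub_mem (hc g hg _ hM) hM using 1
  ext v
  simp [g1, ← B_apply_left hg, g2 x mx]

end Alt

variable {τ : V₁ →ₗ[F] V₂ →ₗ[F] V} {h : IsTensorProduct τ} {f₂ : Form (FormType.alt F) V₂}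
  {f : Form (FormType.quad F) V} {f₁ : Form (FormType.alt F) V₁}

theorem El.mul {c y y' w : V₂} {N N' β M M' : V₁ →ₗ[F] V₁} (H : El X h f₂ c y N N' β)
    (H' : El X h f₂ y' w M M' 0) (p0 : f₂.B c w = 0) (p1 : f₂.B c y = 0) (p2 : f₂.B w y = 0)
    (p3 : f₂.B c y' = 0) (p4 : f₂.B w y' = 0) (p5 : f₂.B y y' = 1) :
    El X h f₂ c w (N ∘ₗ M) (M' ∘ₗ N') 0 := by
  obtain ⟨k, hk, e⟩ := H
  obtain ⟨k', hk', e'⟩ := H'
  refine ⟨k * k' * (k' * k)⁻¹, X.mul_mem (X.mul_mem hk hk') (X.inv_mem (X.mul_mem hk' hk)),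
    fun v => ?_⟩
  obtain ⟨v, rfl⟩ := (k' * k).surjective v
  rw [mul_app, inv_app]
  simp [e, e', p0, p1, p2, p3, p4, p5, f₂.B_eq_zero_symm p0, f₂.B_eq_zero_symm p2,
    f₂.B_eq_zero_symm p3, f₂.alt_symm y y']
  module

variable (X h f₁ f₂) in
/-- The short root level. -/
def lvS : Submodule F (V₁ →ₗ[F] V₁) where
  carrier := {N | ∃ N' : V₁ →ₗ[F] V₁, (∀ x x', f₁.B (N x) x' = f₁.B x (N' x')) ∧
    ∀ c y, c ≠ 0 → y ∉ F ∙ c → f₂.B c y = 0 → El X h f₂ c y N N' 0}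
  zero_mem' := ⟨0, by simp, fun _ _ _ _ _ => Has.zero.congr fun v => by simp⟩
  add_mem' := by
    rintro N M ⟨N', a1, a2⟩ ⟨M', b1, b2⟩
    refine ⟨N' + M', by simp [a1, b1], fun c y c0 y0 e => ?_⟩
    exact (Has.add (a2 c y c0 y0 e) (b2 c y c0 y0 e) fun v => by
      simp [e, f₂.alt_symm c y]).congr fun v => by simp; abel
  smul_mem' := by
    rintro s N ⟨N', a1, a2⟩
    refine ⟨s • N', by simp [a1], fun c y c0 y0 e => ?_⟩
    rcases eq_or_ne s 0 with rfl | s0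
    · exact Has.zero.congr fun v => by simp
    exact Has.congr (a2 (s • c) y (smul_ne_zero s0 c0) (by
      rwa [Submodule.span_singleton_smul_eq (IsUnit.mk0 s s0)]) (by simp [e])) fun v => by simp

theorem lvS_conj {A : V₁ ≃ₗ[F] V₁} (hA : A ∈ f₁.O) (hk : kr h A 1 ∈ X) {N : V₁ →ₗ[F] V₁}
    (hN : N ∈ lvS X h f₂ f₁) :
    (A : V₁ →ₗ[F] V₁) ∘ₗ N ∘ₗ (A⁻¹ : V₁ ≃ₗ[F] V₁) ∈ lvS X h f₂ f₁ := by
  obtain ⟨N', a1, a2⟩ := hN
  refine ⟨(A : V₁ →ₗ[F] V₁) ∘ₗ N' ∘ₗ (A⁻¹ : V₁ ≃ₗ[F] V₁), fun x x' => ?_, fun c y c0 y0 e => ?_⟩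
  · simp [B_apply_left hA, a1, B_apply_left (f₁.O.inv_mem hA)]
  · simpa using (a2 c y c0 y0 e).conj f₂.O.one_mem hk

variable [FiniteDimensional F V₂] (hf : f₂.Nondeg) (h5 : 5 ≤ finrank F V₂)
include hf h5

theorem lvS_mul {N M : V₁ →ₗ[F] V₁} (hN : N ∈ lvS X h f₂ f₁) (hM : M ∈ lvS X h f₂ f₁) :
    N ∘ₗ M ∈ lvS X h f₂ f₁ := by
  obtain ⟨N', a1, a2⟩ := hN
  obtain ⟨M', b1, b2⟩ := hM
  refine ⟨M' ∘ₗ N', by simp [a1, b1], fun c w c0 w0 e => ?_⟩
  obtain ⟨y, y', p1, p2, p3, p4, p5⟩ := exists_hyp5 hf h5 c w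
  refine (a2 c y c0 (nmem_of fun a e => by simp [← e, p3] at p5) p1).mul
    (b2 y' w (by rintro rfl; simp at p5) (nmem_of fun a e => ?_) (f₂.B_eq_zero_symm p4))
    e p1 p2 p3 p4 p5
  simp [← e, f₂.alt_symm y y', p5] at p2
  simp [← e, p2] at w0

theorem mem_lvS (h2 : ∀ e ∈ f₂.O, kr h 1 e ∈ X) {c y : V₂} (hc : c ≠ 0) (hy : y ∉ F ∙ c)
    (e : f₂.B c y = 0) {N N' β : V₁ →ₗ[F] V₁} (a : ∀ x x', f₁.B (N x) x' = f₁.B x (N' x'))
    (H : El X h f₂ c y N N' β) : N ∈ lvS X h f₂ f₁ := by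
  refine ⟨N', a, fun d w d0 _ e' => ?_⟩
  obtain ⟨z, z', p1, p2, p3, p4, p5⟩ := exists_hyp5 hf h5 d w
  obtain ⟨g, hg, rfl, rfl⟩ := alt_witt2 hf hc hy d0 (y' := z)
    (nmem_of fun a e => by simp [← e, p3] at p5) (p1.trans e.symm)
  simpa using (H.conj hg (h2 g hg)).mul (el_id h2 (f₂.B_eq_zero_symm p4)) e' p1 p2 p3 p4 p5

end CL.Tens
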