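/-
Maximality of `Sp ⊗ Sp` in `Ω⁺`.
-/
import Mathlib
import Cfsg.Agent.CLAS.TFormS

namespace CL.Tens

open Module CL.ExtF CL.Witt CL.Witt.Form CL.Root

attribute [-simp] LinearEquiv.coe_inv
attribute [local simp] FormType.alt_σ FormType.alt_ε alt_B_self FormType.quad_σ FormType.quad_ε
  FormType.alt_π FormType.quad_π

variable {F : Type*} [Field F] {V₁ V₂ V : Type*} [AddCommGroup V₁] [Module F V₁] [AddCommGroup V₂]
  [Module F V₂] [AddCommGroup V] [Module F V] {X : Subgroup (V ≃ₗ[F] V)}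
  {τ : V₁ →ₗ[F] V₂ →ₗ[F] V} {h : IsTensorProduct τ} {f₂ : Form (FormType.alt F) V₂}
  {f : Form (FormType.quad F) V} {f₁ : Form (FormType.alt F) V₁} {c : V₂} {g : V ≃ₗ[F] V}

theorem Rad.step {u w p p' : V} (H : Rad f X u w) (H' : Rad f X p p') (hq : f.q p' = 0)
    (h1 : f.B p u = 0) (h2 : f.B p' u = 0) : Rad f X u (f.B p w • p' - f.B p' w • p) := by
  obtain ⟨a, ok, ha⟩ := H'
  obtain rfl : a = 0 := ok.ha.trans hq
  convert H.sub_fix ha (ei_mem_O _ _ _) (ok.ei_apply_fix h1 h2) using 1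
  simp [ok.ei_apply]
  abel

variable (h f f₁ f₂) in
/-- A quadratic form that is the tensor product of two alternating forms. -/
structure TS : Prop extends TF h f f₁ f₂ where
  q0 : ∀ x y, f.q (τ x y) = 0

namespace TS

variable (S : TS h f₂ f f₁)
include S

theorem flip' : TS (flip h) f₁ f f₂ :=
  ⟨⟨S.σ, S.σ₁, S.nd₂, S.nd₁, fun x y x' y' => (S.mul y x y' x').trans (mul_comm _ _)⟩,
    fun x y => S.q0 y x⟩

theorem mem_O {k : V ≃ₗ[F] V} (hk : k ∈ Kron τ) (e : ∀ v w, f.B (k v) (k w) = f.B v w) :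
    k ∈ f.O := by
  obtain ⟨A, B, H⟩ := hk
  refine ⟨e, fun v => h.inductionOn v (by simp) (fun x y => by rw [H, S.q0, S.q0])
    fun a b ha hb => by rw [map_add, quad_q_add, quad_q_add, ha, hb, e]⟩

variable [FiniteDimensional F V₁] [FiniteDimensional F V₂]

theorem mem_E_of_QW {u : V ≃ₗ[F] V} (hu : u ∈ f.O) (H : QW h f₂ c u) : u ∈ f.E :=
  have := finiteDimensional h
  mem_E_of_rad S.nd (mem τ c) (by rintro _ ⟨x, rfl⟩; exact S.q0 x c) hu
    (by rintro _ ⟨x, rfl⟩; exact H.1 x) fun v hv => H.2 v (S.eta_eq_zero fun x => hv _ (pure_mem x c))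

theorem right_mem_E {e : V₂ ≃ₗ[F] V₂} (he : e ∈ f₂.O) : kr h 1 e ∈ f.E := by
  rw [← S.nd₂.alt_E_eq_O] at he
  refine (E_le_iff'.2 fun c y μ ok => ?_ : f₂.E ≤ rightGrp h f.E) he
  refine S.mem_E_of_QW (c := c) (u := kr h 1 _) (S.mem_O (kr_mem h _ _) (S.kr_iso (mul_one 1) (by simp)
    (by simp [mem_O_B (ei_mem_O c y μ)]))) ⟨fun x => by simp [ok.ei_apply_u], fun v hv => ?_⟩
  change ec h f₂ c y μ v - v ∈ _
  rw [ec_apply ok.huv, hv]
  simpa using pure_mem _ _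

theorem left_mem_E {A : V₁ ≃ₗ[F] V₁} (hA : A ∈ f₁.O) : kr h A 1 ∈ f.E := by
  convert S.flip'.right_mem_E hA using 1
  exact equiv_ext h fun x y => (kr_apply h _ _ _ _).trans (kr_apply (flip h) 1 A y x).symm

theorem E_le_of_rad [Nontrivial V₁] (h5 : 5 ≤ finrank F V₂)
    (G : ∀ x c y, c ≠ 0 → f₂.B c y = 0 → Rad f X (τ x c) (τ x y)) : f.E ≤ X := by
  have := finiteDimensional h
  have key : ∀ a c, a ≠ 0 → c ≠ 0 → f.U (τ a c) ≤ X := fun a c a0 c0 => by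
    obtain ⟨c', h1⟩ := S.exists_partner c0
    have k1 : ∀ b y, f₁.B b a ≠ 0 → f₂.B c y = 0 → Rad f X (τ a c) (τ b y) := fun b y hb hy => by
      obtain ⟨z, z', p1, p2, p3, p4, p5⟩ := exists_hyp5 S.nd₂ h5 c y
      simpa [S.mul, p4, p5, hb] using Rad.step (G a c ((f₁.B b a)⁻¹ • z') c0 (by simp [p3]))
        (G b z y (by rintro rfl; simp at p5) (f₂.B_eq_zero_symm p2)) (S.q0 _ _)
        (by simp [S.mul, f₂.B_eq_zero_symm p1]) (by simp [S.mul, f₂.B_eq_zero_symm hy])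
    have k2 : ∀ b y, f₂.B c y = 0 → Rad f X (τ a c) (τ b y) := fun b y hy => by
      by_cases hb : f₁.B b a = 0
      · obtain ⟨b₀, e⟩ := S.nd₁.exists_B_eq a0 1
        have e' : f₁.B b₀ a ≠ 0 := fun e' => by simp [f₁.B_eq_zero_symm e'] at e
        simpa using (k1 (b + b₀) y (by simpa [hb] using e') hy).sub (k1 b₀ y e' hy)
      · exact k1 b y hb hy
    have k3 : ∀ b, f₁.B b a = 0 → Rad f X (τ a c) (τ b c') := fun b hb => by
      rcases eq_or_ne b 0 with rfl | b0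
      · simpa using Rad.zero (S.q0 a c)
      obtain ⟨b', e⟩ := S.nd₁.exists_B_eq b0 1
      obtain ⟨z, z', p1, p2, p3, p4, p5⟩ := exists_hyp5 S.nd₂ h5 c c'
      simpa [S.mul, p4, p5, e] using (Rad.step (k2 b' z' p3)
        (G b c' z (by rintro rfl; simp at h1) p2) (S.q0 _ _) (by simp [S.mul, hb])
        (by simp [S.mul, hb])).neg
    have k4 : ∀ v, Rad f X (τ a c) (v - τ (eta h f₂ c v) c') := fun v =>
      h.inductionOn v (by simpa using Rad.zero (S.q0 a c))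
        (fun x y => by simpa using k2 x (y - f₂.B c y • c') (by simp [h1]))
        fun v w hv hw => by convert hv.add hw using 1; simp; abel
    refine U_le_of_rad (cen_quad _) fun w hw => ?_
    rw [S.B_pure] at hw
    simpa using (k4 w).add (k3 _ (f₁.B_eq_zero_symm hw))
  have : Nontrivial V₂ := Module.nontrivial_of_finrank_pos (R := F) (by omega)
  obtain ⟨a, a0⟩ := exists_ne (0 : V₁)
  obtain ⟨c, c0⟩ := exists_ne (0 : V₂)
  obtain ⟨a', e1⟩ := S.nd₁.exists_B_eq a0 1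
  obtain ⟨c', e2⟩ := S.exists_partner c0
  exact S.nd.E_le_of_B_ne (S.q0 a c) (S.q0 a' c') (by simp [S.mul, e1, e2]) (key a c a0 c0)
    (key a' c' (by rintro rfl; simp at e1) (by rintro rfl; simp at e2))

theorem not_E_le [Nontrivial V₁] (h5 : 5 ≤ finrank F V₂) : ¬ f.E ≤ Kron τ := fun H => by
  have := finiteDimensional h
  obtain ⟨a, a0⟩ := exists_ne (0 : V₁)
  obtain ⟨a', e1⟩ := S.nd₁.exists_B_eq a0 1
  obtain ⟨y, y', -, -, -, -, p⟩ := exists_hyp5 S.nd₂ h5 0 0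
  obtain ⟨z, z', p1, p2, -, -, p5⟩ := exists_hyp5 S.nd₂ h5 y y'
  have ok : f.EichOK (τ a y) (τ a z) 0 := ⟨S.q0 _ _, by simp [S.mul], by simp [S.q0]⟩
  obtain ⟨N, hN⟩ := exists_right_of_small h (H (ei_mem_E (τ a y) (τ a z) 0))
    (U := Submodule.span F {τ a y, τ a z}) (fun v => Submodule.mem_span_pair.2
      ⟨-f.B (τ a z) v, f.B (τ a y) v, by simp [ok.ei_apply]; abel⟩)
    (by have := CL.Tv.finrank_span_pair_le (F := F) (τ a y) (τ a z); omega)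
  have n1 : N y' = 0 := pure_inj (flip h) a0 (by simpa [ok.ei_apply, S.mul] using (hN a y').symm)
  refine pure_ne_zero h a0 (show z ≠ 0 by rintro rfl; simp at p5) ?_
  simpa [ok.ei_apply, S.mul, n1, e1, p, f₂.B_eq_zero_symm p2] using hN a' y'

end TS

variable (X h f f₁ f₂) in
/-- A proper overgroup of `Sp ⊗ Sp` in `Ω`. -/
structure SG : Prop extends TS h f₂ f f₁ where
  le : X ≤ f.E
  ge : Kron τ ⊓ f.E ≤ X
  ne : ¬ f.E ≤ X
  nt : Nontrivial V₁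
  five : 5 ≤ finrank F V₂
  lt : finrank F V₁ < finrank F V₂
  ex : finrank F V₁ ≠ 2 ∨ ∃ s : F, s ≠ 0 ∧ s ≠ 1

namespace SG

variable (S : SG X h f₂ f f₁) [FiniteDimensional F V₁] [FiniteDimensional F V₂]
include S

theorem R (e : V₂ ≃ₗ[F] V₂) (he : e ∈ f₂.O) : kr h 1 e ∈ X := S.ge ⟨kr_mem h _ _, S.right_mem_E he⟩

omit [FiniteDimensional F V₁] [FiniteDimensional F V₂] in
theorem leO : X ≤ f.O := S.le.trans E_le_O

theorem scalar {z : V ≃ₗ[F] V} (hz : z ∈ X) (hc : c ≠ 0) {y : V₂} (hy : y ∉ F ∙ c)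
    (e : f₂.B c y = 0) {N : V₁ →ₗ[F] V₁} (hN : ∀ x, z (τ x y) = τ x y + τ (N x) c) :
    ∃ s : F, ∀ x, N x = s • x := by
  obtain ⟨N', a⟩ := exists_adjL S.nd₁ N
  have := S.nt
  by_contra hn
  have H := tv_mem_of_nonscalar S.nd₁ S.ex (R := lvS X h f₂ f₁)
    (fun A hA _ => lvS_conj hA (S.ge ⟨kr_mem h _ _, S.left_mem_E hA⟩))
    (fun _ a _ b => lvS_mul S.nd₂ S.five a b)
    (mem_lvS S.nd₂ S.five S.R hc hy e a (by simpa using S.el_of_QW S.leO S.R e hz hN a 1)) hn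
  refine S.ne (S.E_le_of_rad S.five fun x c y c0 e => ?_)
  by_cases hy : y ∈ F ∙ c
  · obtain ⟨a, rfl⟩ := Submodule.mem_span_singleton.1 hy
    simpa using Rad.smul_self (S.q0 x c) a
  obtain ⟨M, b1, k, hk, ek⟩ := (H x).imp fun _ e' => And.intro e'.1 (e'.2 c y c0 hy e)
  have eM : ∀ v, M v = -f₁.B x v • x := fun v => S.nd₁.ext_right fun w => by
    simp [← b1, f₁.alt_symm x w, mul_comm]
  have ok : f.EichOK (τ x c) (-τ x y) 0 := ⟨S.q0 _ _, by simp [S.mul], by simp [q_neg, S.q0]⟩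
  refine neg_neg (τ x y) ▸ Rad.neg ⟨0, ok, ?_⟩
  convert hk using 1
  ext v
  simp [ok.ei_apply, ek, eM, S.B_pure]
  abel

theorem A (hc : c ≠ 0) (β : V₁ →ₗ[F] V₁) (H : Has X fun v => τ (β (eta h f₂ c v)) c) :
    ∃ s : F, ∀ x, β x = s • x := by
  obtain ⟨y', y, p1, -, p3, -, p5⟩ := exists_hyp5 S.nd₂ S.five c c
  obtain ⟨k, hk, e⟩ := Has.sub (S.level_move S.R hc H (c + y')) (S.level_move S.R hc H y')
    (fun v w => by simp [p1]) (fun v w => by simp)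
  exact S.scalar hk hc (y := y) (nmem_of fun a e => by simp [← e, f₂.B_eq_zero_symm p1] at p5) p3
    fun x => by simp [e, p3, p5]

theorem P (hc : c ≠ 0) {z : V ≃ₗ[F] V} (hz : z ∈ X) (hW : ∀ w ∈ mem τ c, z w ∈ mem τ c) :
    z ∈ Kron τ := by
  have := S.nt
  refine S.stab_kron S.leO S.R hc (fun u hu hq => S.QT_of_scalar S.leO S.R hc (S.A hc) hu hq
    fun y N hy hN => ?_) hz hW fun k hk e hq => S.ge ⟨hk, ?_⟩
  · by_cases hyc : y ∈ F ∙ c
    · obtain ⟨a, rfl⟩ := Submodule.mem_span_singleton.1 hyc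
      exact ⟨0, fun x => pure_inj h hc (by simpa [hq.1] using hN x)⟩
    · exact S.scalar hu hc hyc hy hN
  · have := S.mem_E_of_QW (f.O.mul_mem (f.O.inv_mem (S.mem_O hk e)) (S.leO hz)) hq
    simpa using f.E.mul_mem (S.le hz) (f.E.inv_mem this)

theorem zc_mem (hg : g ∈ X) : g * ec h f₂ c 0 1 * g⁻¹ ∈ X :=
  X.mul_mem (X.mul_mem hg (S.R _ (ei_mem_O _ _ _))) (X.inv_mem hg)

theorem mb (hc : c ≠ 0) (hg : g ∈ X) {d : V₂} (hd : d ≠ 0)
    (H : ∀ w ∈ mem τ d, (g * ec h f₂ c 0 1 * g⁻¹) w ∈ mem τ d) : Mb τ c g := by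
  have := finiteDimensional h
  have := S.nt
  obtain ⟨c', h1⟩ := S.exists_partner hc
  obtain ⟨N, hN⟩ := exists_right_of_small h (S.P hd (S.zc_mem hg) H)
    (U := (mem τ c).map (g : V →ₗ[F] V))
    (fun v => ⟨_, inv_qc_mem (h := h) (f₂ := f₂) (g := g) v, by rw [zc_apply]; simp [app_inv]⟩)
    (by rw [LinearEquiv.finrank_map_eq, finrank_mem h hc]; exact S.lt)
  exact mb_of_right (h := h) hc h1 fun x y => by simpa [-LinearEquiv.mul_apply, zc_apply] using hN x y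

/-- Perfectness of pairs with an intersection of the largest dimension. -/
theorem perf (hc : c ≠ 0) (O : Opt X (mem τ c) g) (hb : kp (mem τ c) g ≠ ⊥) {k : V ≃ₗ[F] V}
    (hk : k ∈ X) (e : ∀ w ∈ mem τ c, g w ∈ mem τ c → k⁻¹ w ∈ mem τ c) {w : V} (hw : w ∈ mem τ c)
    (h1 : qc h f₂ c k w ∈ mem τ c) (h2 : g w ∉ mem τ c) : k⁻¹ w ∈ mem τ c := by
  have := finiteDimensional h
  have H := S.mb hc hk hc (Opt.eq_of_lt O (S.zc_mem hk)
    (fun w a b => by rw [zc_apply, qc_of_mem (e w a b)]; simpa using a) hw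
    (by rw [zc_apply, one_smul]; exact add_mem hw h1) h2)
  obtain ⟨n, hn, n0⟩ := Submodule.exists_mem_ne_zero_of_ne_bot hb
  exact mem_of_kp_eq (kp_inv_eq (H.kp_eq h (kp_ne_bot (e n hn.1 hn.2) (by simpa using n0)
    (by rw [app_inv]; exact hn.1)))) hw

theorem dich (hc : c ≠ 0) {k : V ≃ₗ[F] V} (hk : k ∈ X) (k1 : kp (mem τ c) k ≠ ⊥) :
    kp (mem τ c) k = mem τ c := by
  have := finiteDimensional h
  by_contra k2
  obtain ⟨g, O⟩ := exists_opt ⟨k, hk, k2⟩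
  have hb := O.ne_bot hk k2 k1
  have hb' := O.inv.ne_bot hk k2 k1
  have gX := O.mem
  have gO := S.leO gX
  obtain ⟨c', h1⟩ := S.exists_partner hc
  have i2 : ∀ u, g⁻¹ u ∈ mem τ c → g⁻¹ (pc h f₂ c u) ∈ mem τ c → u ∈ mem τ c := fun u a b =>
    by_contra fun n => n (by
      simpa [app_inv] using S.perf hc O hb (X.inv_mem gX) (fun w _ b => by simpa using b) a
        (by simpa [qc_apply, app_inv] using b) (by simpa [app_inv] using n))
  obtain ⟨w₀, hw₀, w1⟩ := exists_moved O.inv.ne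
  set u₀ := qc h f₂ c g w₀
  have u1 : g⁻¹ u₀ ∈ mem τ c := inv_qc_mem _
  have u2 : u₀ ∉ mem τ c := fun a => w1 (S.perf hc O.inv hb' gX (fun _ _ b => b) hw₀ a w1)
  obtain ⟨n, hn, n0⟩ := Submodule.exists_mem_ne_zero_of_ne_bot hb
  obtain ⟨x₀, rfl⟩ := mem_mem.1 hn.1
  have x0 : x₀ ≠ 0 := by rintro rfl; simp at n0
  let ξ : V₂ →ₗ[F] V := τ (eta h f₂ c u₀) ∘ₗ (LinearMap.id - (f₂.B c).smulRight c') +
    τ.flip c ∘ₗ ((eta h f₂).flip u₀ ∘ₗ (LinearMap.id - (f₂.B c).smulRight c') +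
      (f₂.B c).smulRight (eta h f₂ c u₀))
  have eξ : ∀ y, ec h f₂ c (y - f₂.B c y • c') (f₂.B c y) u₀ = u₀ + ξ y := fun y => by
    rw [ec_apply (by simp [h1]), add_assoc]; rfl
  have fx : ∀ y, ∀ w ∈ mem τ c, ec h f₂ c (y - f₂.B c y • c') (f₂.B c y) w = w := by
    rintro y _ ⟨x, rfl⟩
    simp [ec_apply, h1, f₂.alt_symm c y, f₂.alt_symm c c']
  have kX : ∀ y, ec h f₂ c (y - f₂.B c y • c') (f₂.B c y) ∈ X := fun y => S.R _ (ei_mem_O _ _ _)
  let φ := (eta h f₂ c ∘ₗ ((g⁻¹ : V ≃ₗ[F] V) : V →ₗ[F] V) ∘ₗ ξ ∘ₗ (f₂.perp (F ∙ c')).subtype).codRestrict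
    (f₁.perp (F ∙ x₀)) fun y => f₁.mem_perp_span_singleton.2 (by
      have := mem_O_B (S.leO (kX y)) (g (τ x₀ c)) u₀
      rw [fx _ _ (mem_kp.1 hn).2, eξ, map_add, add_eq_left, B_apply_left gO, S.B_pure] at this
      exact this)
  obtain ⟨y, hy, y0⟩ := Submodule.exists_mem_ne_zero_of_ne_bot
    (LinearMap.ker_ne_bot_of_finrank_lt (f := φ) (by
      have p1 := S.nd₁.finrank_add_finrank_perp (F ∙ x₀)
      have p2 := S.nd₂.finrank_add_finrank_perp (F ∙ c')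
      rw [finrank_span_singleton x0] at p1
      rw [finrank_span_singleton (by rintro rfl; simp at h1)] at p2
      have := S.lt
      omega))
  obtain ⟨y, yc⟩ := y
  have p1 : eta h f₂ c (g⁻¹ (ξ y)) = 0 := congrArg Subtype.val (LinearMap.mem_ker.1 hy)
  have p2 := S.perf hc O hb (X.inv_mem (X.mul_mem (X.mul_mem (X.inv_mem gX) (kX y)) gX))
    (fun w a b => by rwa [inv_inv, mul_app, mul_app, fx y _ b, inv_app]) u1 (by
      rw [qc_apply, inv_inv, mul_app, mul_app, app_inv, eξ, map_add, map_add, pc_of_mem u1,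
        pc_apply, p1]
      simp) (by rwa [app_inv])
  rw [inv_inv, mul_app, mul_app, app_inv, eξ, map_add] at p2
  have p3 : g⁻¹ (ξ y) ∈ mem τ c := by simpa using sub_mem p2 u1
  have p4 := i2 _ p3 (by simp [pc_apply, ξ, h1])
  have x1 : eta h f₂ c u₀ ≠ 0 := fun e => u2 (i2 _ u1 (by simp [pc_apply, e]))
  obtain ⟨a, ha⟩ := Submodule.mem_span_singleton.1 (mem_span_of_pure_mem h x1
    (d := y - f₂.B c y • c') ((Submodule.add_mem_iff_left _ (pure_mem _ c)).1 p4))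
  have a0 := congrArg (f₂.B c') ha
  simp [f₂.alt_symm c c', h1, f₂.mem_perp_span_singleton.1 yc] at a0
  rw [a0, zero_smul, eq_comm] at ha
  have m0 : f₂.B c y ≠ 0 := fun e => y0 (Subtype.ext (by simpa [e] using ha))
  refine u2 (i2 _ u1 ((Submodule.smul_mem_iff _ m0).1 ?_))
  convert p3 using 1
  change _ = g⁻¹ (τ _ (y - f₂.B c y • c') + τ (eta h f₂ (y - f₂.B c y • c') u₀ + _) c)
  simp [ha, pc_apply]

theorem le_kron : X ≤ Kron τ := fun g hg => by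
  have := S.nt
  have := finiteDimensional h
  have : Nontrivial V₂ := Module.nontrivial_of_finrank_pos (R := F) (by have := S.five; omega)
  obtain ⟨c, hc⟩ := exists_ne (0 : V₂)
  obtain ⟨x, hx⟩ := exists_ne (0 : V₁)
  obtain ⟨y, hy, y0⟩ := Submodule.exists_mem_ne_zero_of_ne_bot
    (LinearMap.ker_ne_bot_of_finrank_lt
      (f := eta h f₂ c ∘ₗ ((g⁻¹ : V ≃ₗ[F] V) : V →ₗ[F] V) ∘ₗ τ x) S.lt)
  have hy' : eta h f₂ c (g⁻¹ (τ x y)) = 0 := hy
  obtain ⟨d, hd, H⟩ := S.mb hc hg y0 fun w => mem_of_kp_eq (S.dich y0 (S.zc_mem hg)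
    (kp_ne_bot (pure_mem x y) (pure_ne_zero h hx y0) (by
      rw [zc_apply]; simpa [qc_apply, pc_apply, hy'] using pure_mem x y)))
  obtain ⟨e, he, rfl⟩ := S.nd₂.witt_vector hc hd (by simp [alt_q])
  have := S.P hc (X.mul_mem (X.inv_mem (S.R e he)) hg) fun w hw => by
    obtain ⟨x, hx⟩ := mem_mem.1 (H w hw)
    rw [mul_app, ← hx, kr_inv_apply, inv_app]; exact pure_mem _ _
  simpa using (Kron τ).mul_mem (kr_mem h 1 e) this

end SG

open Matrix Cfsg Cfsg.Geo CL.Tv in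
/-- The stabilizer of a decomposition `Sp_{n₁} ⊗ Sp_{n₂}` is maximal in `Ω⁺`. -/
theorem spsp_tensor_maximal [Fintype F] {ι : Type} [Fintype ι] [DecidableEq ι] {Q : (ι → F) → F}
    (hQ : IsNondegenerateQuadraticForm Q) {n₁ n₂ : ℕ} (h1 : n₁ ≠ 0) (h5 : 5 ≤ n₂) (h12 : n₁ < n₂)
    (hex : ¬ (Fintype.card F = 2 ∧ n₁ = 2)) (e : ι ≃ Fin n₁ × Fin n₂) (P : GL ι F)
    {f₁ : (Fin n₁ → F) → (Fin n₁ → F) → F} {f₂ : (Fin n₂ → F) → (Fin n₂ → F) → F}
    (hf₁ : IsSymplecticForm f₁) (hf₂ : IsSymplecticForm f₂)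
    (hT : IsTensorFormStructure id (QuadraticMap.polar Q) f₁ f₂ e P)
    (hp : ∀ (x₁ : Fin n₁ → F) (x₂ : Fin n₂ → F), Q ((P : Matrix ι ι F) *ᵥ
      ((fun a : Fin n₁ × Fin n₂ => x₁ a.1 * x₂ a.2) ∘ e)) = 0) :
    IsMaximalIn (omegaGL Q) (tensorProductSubgroup n₁ n₂ e P ⊓ omegaGL Q) := by
  obtain ⟨c, hc, H⟩ := tensor_form_pure hf₁.bilinear hf₂.bilinear hT
  let g₁ := Form.ofAlt (c • bilin hf₁.bilinear) fun x => by simp [bilin_apply, hf₁.alternating x]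
  let g₂ := Form.ofAlt (bilin hf₂.bilinear) hf₂.alternating
  have S : TS (isTensorProduct_pt e P) g₂ (quadOfGeo hQ) g₁ :=
    ⟨⟨fun _ => rfl, fun _ => rfl, fun x hx => by_contra fun x0 => by
      obtain ⟨y, hy⟩ := (hf₁.nondegenerate x x0).2
      exact mul_ne_zero hc hy (hx y), fun x hx => by_contra fun x0 => by
      obtain ⟨y, hy⟩ := (hf₂.nondegenerate x x0).2
      exact hy (hx y), fun x y x' y' => by
      rw [quadOfGeo_B, H]
      change _ = c * f₁ x x' * f₂ y y'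
      ring⟩, hp⟩
  have : Nonempty (Fin n₁) := ⟨⟨0, by omega⟩⟩
  have h5' : 5 ≤ finrank F (Fin n₂ → F) := by simpa using h5
  refine isMaximalIn_of_act (mem_omegaGL_iff_E (quadOfGeo_nondeg hQ) (by
    rw [Fintype.card_congr e]; simp; nlinarith [Nat.pos_of_ne_zero h1])) (mem_tensor_iff e P)
    (S.not_E_le h5') fun K h3 h4 ⟨g, hg, hg'⟩ => by_contra fun hn => hg' ?_
  refine SG.le_kron ⟨S, h4, h3, hn, inferInstance, h5', by simpa using h12, ?_⟩ hg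
  by_cases h2 : n₁ = 2
  · refine Or.inr (by_contra fun H => hex ⟨?_, h2⟩)
    push Not at H
    rw [← Nat.card_eq_fintype_card, Nat.card_eq_two_iff' (0 : F)]
    exact ⟨1, one_ne_zero, H⟩
  · exact Or.inl (by simpa using h2)

end CL.Tens
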