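/-
Tensor factors as representations of a full endomorphism algebra: basic tools.
-/
import Mathlib
import Cfsg.Agent.CLAS.Tens3
import Cfsg.Agent.CHAR.FrobKernel

set_option autoImplicit false
set_option linter.unusedSectionVars false

namespace CL.Wr

open Module CL.ExtF CL.Tens

attribute [-simp] LinearEquiv.coe_inv

/-- A tensor factor of `V` isomorphic to `V₁`. -/
abbrev Rep (F V₁ V : Type*) [Field F] [AddCommGroup V₁] [Module F V₁] [AddCommGroup V]
    [Module F V] := End F V₁ →ₐ[F] End F V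

variable {F : Type*} [Field F] {V₁ V U : Type*} [AddCommGroup V₁] [Module F V₁] [AddCommGroup V]
  [Module F V] [AddCommGroup U] [Module F U] {ρ ρ' ρ'' : Rep F V₁ V}
  {τ : U →ₗ[F] V₁ →ₗ[F] V} {g k : V ≃ₗ[F] V} {L L' : Submodule F V₁} {c x : V₁} {ψ : Dual F V₁}

theorem rho_mul (ρ : Rep F V₁ V) (A B : End F V₁) (v : V) : ρ A (ρ B v) = ρ (A * B) v := by
  rw [map_mul]; rfl

theorem rk_mul (φ ψ : Dual F V₁) (c x : V₁) :
    (φ.smulRight c : End F V₁) * ψ.smulRight x = φ x • ψ.smulRight c := by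
  ext v; simp [smul_smul, mul_comm]

theorem sum_rk [FiniteDimensional F V₁] :
    ∑ i, (((finBasis F V₁).coord i).smulRight (finBasis F V₁ i) : End F V₁) = 1 := by
  ext v; simp [LinearMap.sum_apply]

theorem finrank_pair_le (x y : V₁) : finrank F (Submodule.span F {x, y}) ≤ 2 := by
  classical
  have := (finrank_span_finset_le_card (R := F) {x, y}).trans Finset.card_le_two
  rwa [Set.finrank, Finset.coe_insert, Finset.coe_singleton] at this

/-- `τ` is a tensor decomposition belonging to `ρ`. -/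
structure Tn (ρ : Rep F V₁ V) (τ : U →ₗ[F] V₁ →ₗ[F] V) : Prop where
  tp : IsTensorProduct τ
  app : ∀ A u x, ρ A (τ u x) = τ u (A x)

theorem exists_tn [FiniteDimensional F V₁] [Nontrivial V₁] (ρ : Rep F V₁ V) :
    ∃ (U : Submodule F V) (τ : U →ₗ[F] V₁ →ₗ[F] V), Tn ρ τ := by
  obtain ⟨c, hc⟩ := exists_ne (0 : V₁)
  obtain ⟨ψ, hψ⟩ := Module.Projective.exists_dual_eq_one F hc
  let U := LinearMap.range (ρ (ψ.smulRight c))
  have hU : ∀ u : U, ρ (ψ.smulRight c) u = u := by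
    rintro ⟨_, v, rfl⟩
    simp [rho_mul, rk_mul, hψ]
  let τ : U →ₗ[F] V₁ →ₗ[F] V := LinearMap.mk₂ F (fun u x => ρ (ψ.smulRight x) u)
    (fun _ _ _ => by simp) (fun _ _ _ => by simp)
    (fun _ x y => by
      rw [show ψ.smulRight (x + y) = ψ.smulRight x + ψ.smulRight y by ext; simp]; simp)
    (fun s _ x => by rw [show ψ.smulRight (s • x) = s • ψ.smulRight x by
      ext; simp [smul_comm s]]; simp)
  have hτ : ∀ u x, τ u x = ρ (ψ.smulRight x) u := fun _ _ => rfl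
  let b := finBasis F V₁
  let κ : ∀ _, V →ₗ[F] U := fun i => (ρ ((b.coord i).smulRight c)).codRestrict U fun v =>
    ⟨ρ ((b.coord i).smulRight c) v, by simp [rho_mul, rk_mul, hψ]⟩
  have hκ : ∀ i v, (κ i v : V) = ρ ((b.coord i).smulRight c) v := fun _ _ => rfl
  let inv : V →ₗ[F] TensorProduct F U V₁ := ∑ i, (TensorProduct.mk F U V₁).flip (b i) ∘ₗ κ i
  refine ⟨U, τ, ⟨Function.LeftInverse.injective (g := inv) fun z => ?_, fun v => ⟨inv v, ?_⟩⟩,
    fun A u x => ?_⟩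
  · have : inv ∘ₗ TensorProduct.lift τ = LinearMap.id := TensorProduct.ext' fun u x => by
      have e : ∀ i, κ i (τ u x) = b.coord i x • u := fun i => Subtype.ext (by
        simp [hκ, hτ, rho_mul, rk_mul, hU])
      simp only [inv, LinearMap.comp_apply, TensorProduct.lift.tmul, LinearMap.sum_apply, e,
        LinearMap.flip_apply, TensorProduct.mk_apply, LinearMap.id_apply]
      conv_rhs => rw [← b.sum_repr x, TensorProduct.tmul_sum]
      simp [TensorProduct.smul_tmul]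
    exact LinearMap.congr_fun this z
  · simp only [inv, LinearMap.sum_apply, map_sum, LinearMap.comp_apply, LinearMap.flip_apply,
      TensorProduct.mk_apply, TensorProduct.lift.tmul, hτ, hκ, rho_mul, rk_mul, hψ, one_smul]
    rw [← LinearMap.sum_apply, ← map_sum, sum_rk, map_one]; rfl
  · rw [hτ, hτ, rho_mul]; congr 2; ext; simp

/-- The subspace `U ⊗ L`. -/
def T (ρ : Rep F V₁ V) (L : Submodule F V₁) : Submodule F V where
  carrier := {v | ∀ A : End F V₁, (∀ x ∈ L, A x = 0) → ρ A v = 0}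
  zero_mem' := fun _ _ => by simp
  add_mem' := fun ha hb A hA => by simp [ha A hA, hb A hA]
  smul_mem' := fun _ _ ha A hA => by simp [ha A hA]

theorem mem_T {v : V} : v ∈ T ρ L ↔ ∀ A : End F V₁, (∀ x ∈ L, A x = 0) → ρ A v = 0 := Iff.rfl

theorem T_mono (h : L ≤ L') : T ρ L ≤ T ρ L' := fun _ hv A hA => hv A fun x hx => hA x (h hx)

theorem T_comm {ξ : End F V} (h : ∀ A, Commute ξ (ρ A)) {v : V} (hv : v ∈ T ρ L) : ξ v ∈ T ρ L :=
  fun A hA => by rw [← End.mul_apply, ← (h A).eq, End.mul_apply, hv A hA, map_zero]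

theorem rk_mem_T (hc : c ∈ L) (ψ : Dual F V₁) (v : V) : ρ (ψ.smulRight c) v ∈ T ρ L :=
  fun A hA => by
    rw [rho_mul, show A * ψ.smulRight c = 0 by ext; simp [hA c hc]]; simp

theorem rk_T (h : ∀ x ∈ L, ψ x = 0) (c : V₁) {v : V} (hv : v ∈ T ρ L) :
    ρ (ψ.smulRight c) v = 0 := hv _ fun x hx => by simp [h x hx]

theorem rk_rk (h : ψ c = 0) (v : V) : ρ (ψ.smulRight c) (ρ (ψ.smulRight c) v) = 0 := by
  simp [rho_mul, rk_mul, h]

namespace Tn

variable (h : Tn ρ τ)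
include h

theorem ct_rho (ψ : Dual F V₁) (A : End F V₁) (v : V) :
    ct h.tp ψ (ρ A v) = ct h.tp (ψ ∘ₗ A) v := by
  have : ct h.tp ψ ∘ₗ ρ A = ct h.tp (ψ ∘ₗ A) := ext_of h.tp fun u x => by simp [h.app]
  exact LinearMap.congr_fun this v

theorem rk (ψ : Dual F V₁) (c : V₁) (v : V) : ρ (ψ.smulRight c) v = τ (ct h.tp ψ v) c := by
  have : ρ (ψ.smulRight c) = τ.flip c ∘ₗ ct h.tp ψ := ext_of h.tp fun u x => by simp [h.app]
  exact LinearMap.congr_fun this v

theorem pure_T (u : U) (hx : x ∈ L) : τ u x ∈ T ρ L := fun A hA => by simp [h.app, hA x hx]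

theorem nt [Nontrivial V] : Nontrivial U := by
  by_contra hn
  have := not_nontrivial_iff_subsingleton.1 hn
  obtain ⟨v, hv⟩ := exists_ne (0 : V)
  exact hv (h.tp.inductionOn v rfl (fun u x => by simp [Subsingleton.elim u 0])
    fun a b ha hb => by simp [ha, hb])

theorem fd [FiniteDimensional F V] [Nontrivial V₁] : FiniteDimensional F U := by
  obtain ⟨c, hc⟩ := exists_ne (0 : V₁)
  exact Module.Finite.of_injective _ (pure_inj h.tp hc)

theorem ct_T (hψ : ∀ x ∈ L, ψ x = 0) {v : V} (hv : v ∈ T ρ L) : ct h.tp ψ v = 0 := by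
  rcases subsingleton_or_nontrivial V₁ with h0 | h0
  · rw [show ψ = 0 by ext x; simp [Subsingleton.elim x 0]]; simp
  obtain ⟨c, hc⟩ := exists_ne (0 : V₁)
  exact pure_inj h.tp hc (by simpa [h.rk] using rk_T hψ c hv)

variable [FiniteDimensional F V₁]

theorem mem_T_ct {v : V} (H : ∀ ψ : Dual F V₁, (∀ x ∈ L, ψ x = 0) → ct h.tp ψ v = 0) :
    v ∈ T ρ L := fun A hA => eq_zero_of_ct h.tp fun ψ => by
  rw [h.ct_rho]; exact H _ fun x hx => by simp [hA x hx]

theorem T_span (c : V₁) : T ρ (F ∙ c) = mem τ c := by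
  refine le_antisymm (fun v hv => mem_of_ct h.tp fun ψ h0 => h.ct_T (fun x hx => ?_) hv) ?_
  · obtain ⟨s, rfl⟩ := Submodule.mem_span_singleton.1 hx
    simp [h0]
  · rintro _ ⟨u, rfl⟩
    exact h.pure_T u (Submodule.mem_span_singleton_self c)

theorem mem_T_cl {v : V} : v ∈ T ρ L ↔ ∀ α, cl h.tp α v ∈ L := by
  refine ⟨fun hv α => (Subspace.forall_mem_dualAnnihilator_apply_eq_zero_iff L _).1 fun ψ hψ => ?_,
    fun hv => h.mem_T_ct fun ψ hψ => (Module.forall_dual_apply_eq_zero_iff F _).1 fun α => ?_⟩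
  · rw [ct_comm, h.ct_T ((Submodule.mem_dualAnnihilator ψ).1 hψ) hv, map_zero]
  · rw [← ct_comm, hψ _ (hv α)]

theorem mem_of_pure_T {u : U} (hu : u ≠ 0) (hx : τ u x ∈ T ρ L) : x ∈ L := by
  obtain ⟨α, hα⟩ := Module.Projective.exists_dual_eq_one F hu
  simpa [hα] using h.mem_T_cl.1 hx α

omit [FiniteDimensional F V₁] in
theorem map_T {A : End F V₁} {B : End F U} {z : End F V} (hz : ∀ u x, z (τ u x) = τ (B u) (A x))
    [FiniteDimensional F V₁] (hA : ∀ x ∈ L, A x ∈ L') {v : V} (hv : v ∈ T ρ L) : z v ∈ T ρ L' :=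
  h.mem_T_ct fun ψ hψ => by
    have : ct h.tp ψ ∘ₗ z = B ∘ₗ ct h.tp (ψ ∘ₗ A) := ext_of h.tp fun u x => by simp [hz]
    rw [show ct h.tp ψ (z v) = _ from LinearMap.congr_fun this v, LinearMap.comp_apply,
      h.ct_T (ψ := ψ ∘ₗ A) (fun x hx => hψ _ (hA x hx)) hv, map_zero]

omit [FiniteDimensional F V₁] in
/-- Maps commuting with the factor act on the other factor. -/
theorem exists_left [Nontrivial V₁] {ξ : End F V} (H : ∀ A, Commute ξ (ρ A)) :
    ∃ B : End F U, ∀ u x, ξ (τ u x) = τ (B u) x := by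
  obtain ⟨c, hc⟩ := exists_ne (0 : V₁)
  obtain ⟨ψ, hψ⟩ := Module.Projective.exists_dual_eq_one F hc
  refine ⟨ct h.tp ψ ∘ₗ ξ ∘ₗ τ.flip c, fun u x => ?_⟩
  have := LinearMap.congr_fun (H (ψ.smulRight x)).eq (τ u c)
  simpa [h.rk, hψ] using this

omit [FiniteDimensional F V₁] in
theorem comm_of_left {ξ : End F V} {B : End F U} (H : ∀ u x, ξ (τ u x) = τ (B u) x)
    (A : End F V₁) : Commute ξ (ρ A) := ext_of h.tp fun u x => by simp [H, h.app]

omit [FiniteDimensional F V₁] in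
theorem eq_rho {ξ : End F V} {A : End F V₁} (H : ∀ u x, ξ (τ u x) = τ u (A x)) : ξ = ρ A :=
  ext_of h.tp fun u x => by simp [H, h.app]

/-- The second factor of a Kronecker map is scalar. -/
theorem scal {B : End F U} {y : V₁} (H : ∀ u, τ (B u) y - τ u x ∈ T ρ L) (hx : x ∉ L) :
    ∃ s : F, ∀ u, B u = s • u := by
  obtain ⟨ψ, h1, h2⟩ := L.exists_dual_map_eq_bot_of_notMem hx inferInstance
  have h3 : ∀ u, ψ y • B u = ψ x • u := fun u => by
    simpa [sub_eq_zero] using h.ct_T (fun x hx => by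
      have : ψ x ∈ L.map ψ := ⟨x, hx, rfl⟩
      simpa [h2] using this) (H u)
  by_cases h4 : ψ y = 0
  · exact ⟨0, fun u => by
      have := h3 u
      rw [h4, zero_smul, eq_comm, smul_eq_zero] at this
      simp [this.resolve_left h1]⟩
  · exact ⟨(ψ y)⁻¹ * ψ x, fun u => by rw [mul_smul, ← h3, inv_smul_smul₀ h4]⟩

end Tn

section Facts

variable [FiniteDimensional F V₁]

theorem T_inf [Nontrivial V₁] {v : V} (h1 : v ∈ T ρ L) (h2 : v ∈ T ρ L') : v ∈ T ρ (L ⊓ L') := by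
  obtain ⟨U, τ, h⟩ := exists_tn ρ
  exact h.mem_T_cl.2 fun α => ⟨h.mem_T_cl.1 h1 α, h.mem_T_cl.1 h2 α⟩

theorem T_bot {v : V} (h : v ∈ T ρ ⊥) : v = 0 := by simpa using h 1 (by simp)

theorem exists_rk (hψ : ψ ≠ 0) {w : V} (hw : w ∈ T ρ (F ∙ c)) : ∃ v, ρ (ψ.smulRight c) v = w := by
  obtain ⟨y, hy⟩ := DFunLike.ne_iff.1 hψ
  have : Nontrivial V₁ := ⟨y, 0, by rintro rfl; simp at hy⟩
  obtain ⟨U, τ, h⟩ := exists_tn ρ
  obtain ⟨u, rfl⟩ := mem_mem.1 (h.T_span c ▸ hw)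
  exact ⟨τ ((ψ y)⁻¹ • u) y, by simp [h.app, smul_smul, inv_mul_cancel₀ (show ψ y ≠ 0 from hy)]⟩

theorem finrank_T (ρ : Rep F V₁ V) (hc : c ≠ 0) :
    finrank F (T ρ (F ∙ c)) * finrank F V₁ = finrank F V := by
  have : Nontrivial V₁ := ⟨c, 0, hc⟩
  obtain ⟨U, τ, h⟩ := exists_tn ρ
  rw [h.T_span, finrank_mem h.tp hc, finrank_eq h.tp]

theorem finrank_T_eq (ρ ρ' : Rep F V₁ V) (hc : c ≠ 0) (hx : x ≠ 0) :
    finrank F (T ρ (F ∙ c)) = finrank F (T ρ' (F ∙ x)) := by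
  have : Nontrivial V₁ := ⟨c, 0, hc⟩
  exact Nat.eq_of_mul_eq_mul_right finrank_pos ((finrank_T ρ hc).trans (finrank_T ρ' hx).symm)

theorem eq_zero_of_mul {A : End F V₁} (hA : A ≠ 0) {ξ : End F V} (H : ∀ A, Commute ξ (ρ A))
    (h0 : ρ A * ξ = 0) : ξ = 0 := by
  obtain ⟨y, hy⟩ := DFunLike.ne_iff.1 hA
  have : Nontrivial V₁ := ⟨y, 0, by rintro rfl; simp at hy⟩
  obtain ⟨U, τ, h⟩ := exists_tn ρ
  obtain ⟨B, hB⟩ := h.exists_left H
  refine ext_of h.tp fun u x => ?_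
  have := LinearMap.congr_fun h0 (τ u y)
  simp only [End.mul_apply, hB, h.app, LinearMap.zero_apply] at this
  rw [hB, show B u = 0 from pure_inj h.tp hy (by simpa using this)]; simp

variable [Nontrivial V]

theorem rho_inj (ρ : Rep F V₁ V) : Function.Injective ρ :=
  (injective_iff_map_eq_zero ρ).2 fun A hA => by
    by_contra h0
    exact one_ne_zero (eq_zero_of_mul (ρ := ρ) h0 (fun _ => Commute.one_left _) (by simp [hA]))

theorem mem_of_T_le (h : T ρ (F ∙ x) ≤ T ρ L) : x ∈ L := by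
  rcases eq_or_ne x 0 with rfl | hx
  · exact L.zero_mem
  have : Nontrivial V₁ := ⟨x, 0, hx⟩
  obtain ⟨U, τ, hτ⟩ := exists_tn ρ
  have := hτ.nt
  obtain ⟨u, hu⟩ := exists_ne (0 : U)
  exact hτ.mem_of_pure_T hu (h (hτ.pure_T u (Submodule.mem_span_singleton_self x)))

theorem exists_mem_T (ρ : Rep F V₁ V) (hc : c ≠ 0) : ∃ w ∈ T ρ (F ∙ c), w ≠ 0 := by
  by_contra! H
  exact hc (by simpa using mem_of_T_le (ρ := ρ) (L := ⊥) (x := c) fun w hw => by simp [H w hw])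

end Facts

/-- The conjugate factor. -/
def cj (g : V ≃ₗ[F] V) (ρ : Rep F V₁ V) : Rep F V₁ V := (g.conjAlgEquiv F).toAlgHom.comp ρ

theorem cj_apply (A : End F V₁) (v : V) : cj g ρ A v = g (ρ A (g⁻¹ v)) := rfl

theorem mem_T_cj {v : V} : v ∈ T (cj g ρ) L ↔ g⁻¹ v ∈ T ρ L := by
  simp [mem_T, cj_apply]

theorem commute_cj {ξ : End F V} {A : End F V₁} (h : Commute ξ (ρ A)) :
    Commute (g.conjAlgEquiv F ξ) (cj g ρ A) := h.map (g.conjAlgEquiv F)

/-- `g` maps the factor `ρ` to the factor `ρ'`. -/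
def Nz (ρ ρ' : Rep F V₁ V) (g : V ≃ₗ[F] V) : Prop := ∀ A, ∃ A', ∀ v, g (ρ A v) = ρ' A' (g v)

theorem Nz.mul (h : Nz ρ' ρ'' g) (h' : Nz ρ ρ' k) : Nz ρ ρ'' (g * k) := fun A => by
  obtain ⟨A', e⟩ := h' A
  obtain ⟨A'', e'⟩ := h A'
  exact ⟨A'', fun v => by simp [e, e']⟩

theorem nz_one (ρ : Rep F V₁ V) : Nz ρ ρ 1 := fun A => ⟨A, fun _ => rfl⟩

theorem nz_cj : Nz ρ (cj g ρ) g := fun A => ⟨A, fun v => by simp [cj_apply, inv_app]⟩

theorem nz_cj' : Nz (cj g ρ) ρ g⁻¹ := fun A => ⟨A, fun v => by simp [cj_apply, inv_app]⟩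

theorem Nz.cj_eq (h : Nz ρ ρ' g) (A : End F V₁) : ∃ A', cj g ρ A = ρ' A' :=
  (h A).imp fun _ e => LinearMap.ext fun v => by rw [cj_apply, e, app_inv]

theorem nz_of_comm (h : ∀ A, Commute (g : End F V) (ρ A)) : Nz ρ ρ g := fun A =>
  ⟨A, fun v => LinearMap.congr_fun (h A).eq v⟩

variable [FiniteDimensional F V₁] [Nontrivial V]

theorem Nz.exists_equiv (h : Nz ρ ρ' g) : ∃ D : V₁ ≃ₗ[F] V₁, ∀ A v,
    g (ρ A v) = ρ' ((D : End F V₁) * A * (D⁻¹ : V₁ ≃ₗ[F] V₁)) (g v) := by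
  let e := AlgEquiv.ofInjective ρ' (rho_inj ρ')
  let φ : End F V₁ →ₐ[F] End F V₁ := e.symm.toAlgHom.comp
    ((cj g ρ).codRestrict ρ'.range fun A => (h.cj_eq A).imp fun _ e => e.symm)
  have hφ : ∀ A, ρ' (φ A) = cj g ρ A := fun A =>
    congrArg Subtype.val (e.apply_symm_apply ⟨cj g ρ A, (h.cj_eq A).imp fun _ e => e.symm⟩)
  have hi : Function.Injective φ := fun A B hAB => rho_inj (cj g ρ) (by rw [← hφ, ← hφ, hAB])
  obtain ⟨D, hD⟩ := (AlgEquiv.ofBijective φ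
    ⟨hi, (LinearMap.injective_iff_surjective (f := φ.toLinearMap)).1 hi⟩).eq_linearEquivConjAlgEquiv
  refine ⟨D, fun A v => ?_⟩
  have : φ A = (D : End F V₁) * A * (D⁻¹ : V₁ ≃ₗ[F] V₁) := DFunLike.congr_fun hD A
  rw [← this, hφ, cj_apply, inv_app]

theorem Nz.inv (h : Nz ρ ρ' g) : Nz ρ' ρ g⁻¹ := fun A => by
  obtain ⟨D, hD⟩ := h.exists_equiv
  refine ⟨((D⁻¹ : V₁ ≃ₗ[F] V₁) : End F V₁) * A * D, fun v => inv_app_eq ?_⟩
  rw [hD, app_inv]
  congr 2
  ext; simp [app_inv]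

theorem Tn.kron [Nontrivial V₁] (h : Tn ρ τ) (H : Nz ρ ρ g) :
    ∃ (A : V₁ ≃ₗ[F] V₁) (B : End F U), ∀ u x, g (τ u x) = τ (B u) (A x) := by
  obtain ⟨D, hD⟩ := H.exists_equiv
  obtain ⟨B, hB⟩ := h.exists_left (ξ := ρ (D⁻¹ : V₁ ≃ₗ[F] V₁) * g) fun A => by
    ext v
    simp only [End.mul_apply, LinearEquiv.coe_coe, hD, rho_mul]
    congr 2
    ext; simp [inv_app]
  refine ⟨D, B, fun u x => ?_⟩
  have := congrArg (ρ D) (hB u x)
  rw [End.mul_apply, rho_mul, h.app,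
    show (D : End F V₁) * (D⁻¹ : V₁ ≃ₗ[F] V₁) = 1 by ext; simp [app_inv]] at this
  simpa using this

/-- An element normalizing the factor and of small rank belongs to the factor or centralizes it. -/
theorem Nz.small [FiniteDimensional F V] (H : Nz ρ ρ g) {S : Submodule F V} (hS : ∀ v, g v - v ∈ S)
    (hd : finrank F S * finrank F V₁ = finrank F V) (h3 : 3 ≤ finrank F V₁ ∨ finrank F V₁ = 2 ∧
      (2 : F) ≠ 0 ∧ ∀ v, g (g v - v) = g v - v) :
    (∃ A, (g : End F V) = ρ A) ∨ ∀ A, Commute (g : End F V) (ρ A) := by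
  have : Nontrivial V₁ := Module.nontrivial_of_finrank_pos (R := F) (by omega)
  obtain ⟨U, τ, h⟩ := exists_tn ρ
  obtain ⟨A, B, e⟩ := h.kron H
  by_cases hA : ∀ x, A x ∈ F ∙ x
  · obtain ⟨s, hs⟩ := exists_smul_of_mem_span (f := (A : End F V₁)) hA
    exact Or.inr (h.comm_of_left (B := s • B) fun u x => by
      simp [e, show A x = s • x from hs x])
  push Not at hA
  obtain ⟨x, hx⟩ := hA
  have hx0 : x ≠ 0 := by rintro rfl; simp at hx
  obtain ⟨ψ, p1, p2⟩ := CL.Tv.exists_dual_one_zero (notMem_span_symm hx0 hx)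
  suffices ∃ s : F, ∀ u, B u = s • u by
    obtain ⟨s, hs⟩ := this
    exact Or.inl ⟨s • A, h.eq_rho fun u x => by simp [e, hs]⟩
  have hL := finrank_pair_le (F := F) x (A x)
  rcases h3 with h3 | ⟨h2, h2', hq⟩
  · let f : U →ₗ[F] S := (τ.flip (A x) ∘ₗ B - τ.flip x).codRestrict S fun u => by
      simpa [e] using hS (τ u x)
    have hf : Function.Injective f := (injective_iff_map_eq_zero f).2 fun u hu => by
      simpa [f, p1, p2] using congrArg (fun w : S => ct h.tp ψ w) hu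
    have hf' := (LinearMap.injective_iff_surjective_of_finrank_eq_finrank
      (Nat.eq_of_mul_eq_mul_right finrank_pos ((finrank_eq h.tp).symm.trans hd.symm))).1 hf
    obtain ⟨y, hy⟩ : ∃ y, y ∉ Submodule.span F {x, A x} := by
      by_contra! H
      rw [Submodule.eq_top_iff'.2 H, finrank_top] at hL
      omega
    refine h.scal (y := A y) (fun u => ?_) hy
    obtain ⟨u', hu'⟩ := hf' ⟨_, hS (τ u y)⟩
    rw [← e, ← show _ = g (τ u y) - τ u y from congrArg Subtype.val hu']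
    exact Submodule.sub_mem _ (h.pure_T _ (Submodule.subset_span (by simp)))
      (h.pure_T _ (Submodule.subset_span (by simp)))
  · obtain ⟨φ, q1, q2⟩ := CL.Tv.exists_dual_one_zero hx
    have h5 : ∀ u, φ (A (A x)) • B (B u) = (2 : F) • B u := fun u => by
      have := congrArg (ct h.tp φ) (hq (τ u x))
      simp only [map_sub, e, ct_apply, q1, q2, one_smul, zero_smul, sub_zero] at this
      linear_combination (norm := module) this
    have hB : Function.Injective B := (injective_iff_map_eq_zero B).2 fun u hu =>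
      pure_inj h.tp hx0 (g.injective (by simp [e, hu]))
    have h6 : ∀ u, φ (A (A x)) • B u = (2 : F) • u := fun u => hB (by simpa using h5 u)
    have := h.nt
    obtain ⟨u, hu⟩ := exists_ne (0 : U)
    have h7 : φ (A (A x)) ≠ 0 := fun h0 => by simpa [h0, h2', hu] using (h6 u).symm
    exact ⟨(φ (A (A x)))⁻¹ * 2, fun u => by rw [mul_smul, ← h6, inv_smul_smul₀ h7]⟩

end CL.Wr
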