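/-
Quadratic elements in a Frobenius complement; root data; groups in which the root elements of a
tensor factor lie in a unique conjugate of a subgroup.
-/
import Mathlib
import Cfsg.Agent.CLAS.Wr1

set_option autoImplicit false
set_option linter.unusedSectionVars false

namespace CL.Wr

open Module CL.ExtF CL.Tens

attribute [-simp] LinearEquiv.coe_inv

variable {F : Type*} [Field F] {V₁ V : Type*} [AddCommGroup V₁] [Module F V₁] [AddCommGroup V]
  [Module F V]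

theorem quad_pow {u : V ≃ₗ[F] V} {a : End F V} (h : ∀ v, u v = v + a v) (h0 : ∀ v, a (a v) = 0)
    (n : ℕ) (v : V) : (u ^ n) v = v + (n : F) • a v := by
  induction n generalizing v with
  | zero => simp
  | succ n ih => simp [pow_succ, ih, h, h0, add_smul]; abel

theorem quad_inv {u : V ≃ₗ[F] V} {a : End F V} (h : ∀ v, u v = v + a v) (h0 : ∀ v, a (a v) = 0)
    (v : V) : u⁻¹ v = v - a v := inv_app_eq (by simp [h, h0])

theorem finite_equiv (F V : Type*) [Field F] [AddCommGroup V] [Module F V] [Finite F]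
    [FiniteDimensional F V] : Finite (V ≃ₗ[F] V) := by
  have := Module.finite_of_finite F (M := V)
  exact Finite.of_injective (fun g : V ≃ₗ[F] V => (g : V → V)) DFunLike.coe_injective

/-- A Frobenius complement does not contain a quadratic group with more than two elements. -/
theorem frob [Finite F] [FiniteDimensional F V] {G B : Subgroup (V ≃ₗ[F] V)}
    (hTI : ∀ g ∈ G, g ∉ B → ∀ x ∈ G, x ∈ B → g * x * g⁻¹ ∈ B → x = 1) {a a' : End F V}
    {u u' : V ≃ₗ[F] V} (hu : u ∈ G ⊓ B) (hu' : u' ∈ G ⊓ B) (e : ∀ v, u v = v + a v)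
    (e' : ∀ v, u' v = v + a' v) (h0 : ∀ v, a (a v) = 0) (h1 : ∀ v, a (a' v) = 0) (n1 : a ≠ 0)
    (n2 : a' ≠ 0) (n3 : a + a' ≠ 0) : G ≤ B := by
  classical
  have := finite_equiv F V
  obtain ⟨M, hMn, -, hc⟩ := CL.Char.frobenius_kernel (B.subgroupOf G) fun g hg x hx hx' =>
    Subtype.ext (hTI g g.2 hg x x.2 hx hx')
  have := Fintype.ofFinite M
  let φ : G →* End F V :=
    { toFun := fun g => ((g : V ≃ₗ[F] V) : V →ₗ[F] V), map_one' := rfl, map_mul' := fun _ _ => rfl }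
  have fpf : ∀ w : G, w ∈ B.subgroupOf G → w ≠ 1 → ∀ k ∈ M, k * w * k⁻¹ = w → k = 1 := by
    intro w hw w1 k hk e
    by_cases hB : k ∈ B.subgroupOf G
    · exact Subgroup.disjoint_def.1 hc.disjoint hk hB
    · exact absurd (Subtype.ext (hTI k k.2 hB w w.2 hw (by
        have : k * w * k⁻¹ ∈ B.subgroupOf G := e.symm ▸ hw
        exact this))) w1
  have key : ∀ (w : G) (b : End F V), w ∈ B.subgroupOf G → b ≠ 0 → φ w = 1 + b →
      ∑ k : M, (1 + φ k * b * φ (k : G)⁻¹) = (∑ k : M, φ k) * (1 + b) := by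
    intro w b hw hb e
    have w1 : w ≠ 1 := by rintro rfl; exact hb (by simpa using e)
    let f : M → M := fun k => ⟨k * (w * (k : G)⁻¹ * w⁻¹), M.mul_mem k.2
      (hMn.conj_mem _ (M.inv_mem k.2) w)⟩
    have hf : Function.Injective f := fun k k' h => by
      have h2 : (k : G) * (w * (k : G)⁻¹ * w⁻¹) = k' * (w * (k' : G)⁻¹ * w⁻¹) :=
        congrArg Subtype.val h
      have := fpf w hw w1 ((k' : G)⁻¹ * k) (M.mul_mem (M.inv_mem k'.2) k.2) (by
        calc _ = (k' : G)⁻¹ * (k * (w * (k : G)⁻¹ * w⁻¹)) * w * k' := by group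
          _ = w := by rw [h2]; group)
      exact Subtype.ext (inv_mul_eq_one.1 this).symm
    rw [← (Equiv.ofBijective f (Finite.injective_iff_bijective.1 hf)).sum_comp (fun k => φ k),
      Finset.sum_mul]
    refine Finset.sum_congr rfl fun k _ => ?_
    change _ = φ (k * (w * (k : G)⁻¹ * w⁻¹)) * (1 + b)
    rw [← e, ← map_mul, show (k : G) * (w * (k : G)⁻¹ * w⁻¹) * w = k * w * (k : G)⁻¹ by group,
      map_mul, map_mul, e, mul_add, add_mul, mul_one, ← map_mul, mul_inv_cancel, map_one]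
  have k1 := key ⟨u, hu.1⟩ a hu.2 n1 (LinearMap.ext e)
  have k2 := key ⟨u', hu'.1⟩ a' hu'.2 n2 (LinearMap.ext e')
  have k3 := key (⟨u, hu.1⟩ * ⟨u', hu'.1⟩) (a + a') (B.mul_mem hu.2 hu'.2) n3
    (LinearMap.ext fun v => by
      change u (u' v) = _
      simp [e, e', h1]; abel)
  have k4 : ∑ k : M, φ k = (Fintype.card M : F) • 1 := by
    simp only [mul_add, add_mul, Finset.sum_add_distrib, mul_one, Finset.sum_const,
      Finset.card_univ, ← Nat.cast_smul_eq_nsmul F] at k1 k2 k3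
    linear_combination (norm := abel) k3 - k1 - k2
  have hp : Fact (ringChar F).Prime := ⟨CharP.char_is_prime F _⟩
  have hM : (Fintype.card M : F) ≠ 0 := by
    let w : G := ⟨u, hu.1⟩
    have hw : w ^ ringChar F = 1 := Subtype.ext (LinearEquiv.ext fun v => by
      simp [w, quad_pow e h0])
    let f : Function.End M := fun k => ⟨w * k * w⁻¹, hMn.conj_mem _ k.2 w⟩
    have hf : ∀ n (k : M), ((f ^ n) k : G) = w ^ n * k * (w ^ n)⁻¹ := fun n => by
      induction n with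
      | zero => intro k; simp; rfl
      | succ n ih => intro k; rw [pow_succ', pow_succ']; change w * (f ^ n) k * w⁻¹ = _; rw [ih]; group
    have h5 := Equiv.Perm.card_fixedPoints_modEq (f := f) (p := ringChar F) (n := 1)
      (funext fun k => Subtype.ext (by rw [pow_one, hf, hw]; simp; rfl))
    have h6 : Fintype.card f.fixedPoints = 1 := Fintype.card_eq_one_iff.2
      ⟨⟨1, Subtype.ext (by simp [f])⟩, fun k => Subtype.ext (Subtype.ext
        (fpf w hu.2 (fun h => n1 (LinearMap.ext fun v => by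
          simpa [show u = 1 from congrArg Subtype.val h] using e v)) _ k.1.2 (by
          have : w * k.1 * w⁻¹ = k.1 := congrArg Subtype.val k.2
          calc _ = (w * k.1 * w⁻¹) * w * (k.1 : G)⁻¹ := by rw [this]
            _ = w := by group)))⟩
    rw [h6] at h5
    rw [(CharP.natCast_eq_natCast F (ringChar F)).2 h5]; simp
  have hb : M = ⊥ := (Subgroup.eq_bot_iff_forall M).2 fun k hk => by
    have : φ k * ∑ k : M, φ k = ∑ k : M, φ k := by
      rw [Finset.mul_sum, ← Equiv.sum_comp (Equiv.mulLeft (⟨k, hk⟩ : M)) (fun k : M => φ k)]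
      simp
    rw [k4, mul_smul_comm, mul_one, smul_right_inj hM] at this
    exact Subtype.ext (LinearEquiv.ext fun v => LinearMap.congr_fun this v)
  rw [hb, Subgroup.isComplement'_bot_left, Subgroup.subgroupOf_eq_top] at hc
  exact hc

/-- Root data: the root elements, and two optional conditions. -/
structure RD (F V₁ : Type*) [Field F] [AddCommGroup V₁] [Module F V₁] where
  R : V₁ → Dual F V₁ → Prop
  nq : Prop
  hm : Prop

/-- Axioms for the root elements. -/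
structure RS (D : RD F V₁) : Prop where
  c0 : ∀ {c ψ}, D.R c ψ → c ≠ 0
  ψ0 : ∀ {c ψ}, D.R c ψ → ψ ≠ 0
  fl : ∀ {c ψ}, D.R c ψ → ψ c = 0
  gen : ∀ S : Subalgebra F (End F V₁), (∀ c ψ, D.R c ψ → ψ.smulRight c ∈ S) → S = ⊤
  dim : 3 ≤ finrank F V₁ ∨ finrank F V₁ = 2 ∧ (2 : F) ≠ 0
  sw : (2 : F) = 0 → finrank F V₁ = 3 → (∀ c ψ, c ≠ 0 → ψ ≠ 0 → ψ c = 0 → D.R c ψ) ∨
    ∃ c ψ, ∃ s : F, D.R c ψ ∧ D.R c (s • ψ) ∧ s ≠ 1

variable {D : RD F V₁} {X H : Subgroup (V ≃ₗ[F] V)} {ρ : Rep F V₁ V} {g : V ≃ₗ[F] V}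
  {L : Submodule F V₁} {c : V₁} {ψ : Dual F V₁}

theorem RS.nt (S : RS D) : Nontrivial V₁ :=
  Module.nontrivial_of_finrank_pos (R := F) (by have := S.dim; omega)

theorem RS.span (S : RS D) (hL : L ≠ ⊤) : ∃ c ψ, D.R c ψ ∧ c ∉ L := by
  have key : ∀ L : Submodule F V₁, L ≠ ⊤ → ∀ x ∈ L, x ≠ 0 → ∃ c ψ, D.R c ψ ∧ c ∉ L := by
    intro L hL x hx x0
    by_contra! H
    let A : Subalgebra F (End F V₁) :=
      { carrier := {A | ∀ x ∈ L, A x ∈ L}
        mul_mem' := fun ha hb x hx => ha _ (hb x hx)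
        add_mem' := fun ha hb x hx => L.add_mem (ha x hx) (hb x hx)
        algebraMap_mem' := fun s x hx => L.smul_mem s hx }
    have := S.gen A fun c ψ h x _ => L.smul_mem _ (H c ψ h)
    obtain ⟨α, hα⟩ := Module.Projective.exists_dual_eq_one F x0
    refine hL (Submodule.eq_top_iff'.2 fun y => ?_)
    simpa [hα] using (this.ge trivial : α.smulRight y ∈ A) x hx
  rcases eq_or_ne L ⊥ with rfl | h
  · have := S.nt
    obtain ⟨x, hx⟩ := exists_ne (0 : V₁)
    obtain ⟨c, ψ, h, -⟩ := key (F ∙ x) (fun e => by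
      have := finrank_span_singleton (K := F) hx
      rw [e, finrank_top] at this
      have := S.dim; omega) x (Submodule.mem_span_singleton_self x) hx
    exact ⟨c, ψ, h, S.c0 h⟩
  · obtain ⟨x, hx, x0⟩ := Submodule.exists_mem_ne_zero_of_ne_bot h
    exact key L hL x hx x0

theorem RS.comm (S : RS D) {ξ : End F V} (h : ∀ c ψ, D.R c ψ → Commute ξ (ρ (ψ.smulRight c)))
    (A : End F V₁) : Commute ξ (ρ A) := by
  have := S.gen ((Subalgebra.centralizer F {ξ}).comap ρ) fun c ψ H => by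
    simpa [Subalgebra.mem_centralizer_iff] using (h c ψ H).eq
  exact (Subalgebra.mem_centralizer_iff F).1
    (this.ge trivial : A ∈ (Subalgebra.centralizer F {ξ}).comap ρ) ξ rfl

/-- The factor `ρ` is rigid in `X`. -/
structure Good (D : RD F V₁) (X : Subgroup (V ≃ₗ[F] V)) (ρ : Rep F V₁ V) : Prop where
  mem : ∀ c ψ, D.R c ψ → Has X (ρ (ψ.smulRight c))
  stab : ∀ c ψ, D.R c ψ → ∀ y ∈ X, (∀ w ∈ T ρ (F ∙ c), y w ∈ T ρ (F ∙ c)) → Nz ρ ρ y
  sat : ∀ c ψ, c ≠ 0 → ψ ≠ 0 → (ψ c = 0 ∨ D.hm) → Has X (ρ (ψ.smulRight c)) → D.R c ψ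
  nq : D.nq → ∀ y ∈ X, ∀ (A : End F V₁) (b : End F V), (∀ C, Commute b (ρ C)) →
    (y : End F V) = ρ A * b → ∀ s n : F, (∀ l : F, l * l - s * l + n ≠ 0) →
      n • (b * b) - s • b + 1 ≠ 0

theorem Good.cj (G : Good D X ρ) (hg : g ∈ X) : Good D X (cj g ρ) where
  mem c ψ h := (G.mem c ψ h).conj hg
  stab c ψ h y hy hW := by
    have := G.stab c ψ h _ (X.mul_mem (X.mul_mem (X.inv_mem hg) hy) hg) fun w hw =>
      mem_T_cj.1 (hW (g w) (mem_T_cj.2 (by rwa [inv_app])))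
    simpa [mul_assoc] using ((nz_cj (g := g)).mul this).mul (nz_cj' (g := g))
  sat c ψ h1 h2 h3 h := G.sat c ψ h1 h2 h3
    ((h.conj (X.inv_mem hg)).congr fun v => by simp [cj_apply, inv_app])
  nq h y hy A b hb e s n hs e' := by
    refine G.nq h _ (X.mul_mem (X.mul_mem (X.inv_mem hg) hy) hg) A (g⁻¹.conjAlgEquiv F b)
      (fun C => ?_) (LinearMap.ext fun v => ?_) s n hs ?_
    · convert commute_cj (g := g⁻¹) (hb C) using 1
      ext v; simp [cj_apply, inv_app]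
    · have := congrArg (fun w => g⁻¹ w) (LinearMap.congr_fun e (g v))
      simp only [LinearEquiv.coe_coe, End.mul_apply, cj_apply, inv_app] at this
      exact this
    · simpa using congrArg (g⁻¹.conjAlgEquiv F) e'

theorem Good.mono (G : Good D X ρ) {Y : Subgroup (V ≃ₗ[F] V)} (hY : Y ≤ X)
    (h : ∀ c ψ, D.R c ψ → Has Y (ρ (ψ.smulRight c))) : Good D Y ρ where
  mem := h
  stab c ψ h y hy := G.stab c ψ h y (hY hy)
  sat c ψ h1 h2 h3 := fun ⟨t, ht, e⟩ => G.sat c ψ h1 h2 h3 ⟨t, hY ht, e⟩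
  nq h y hy := G.nq h y (hY hy)

/-- Root elements attached to `L`. -/
def RL (D : RD F V₁) (L : Submodule F V₁) (c : V₁) (ψ : Dual F V₁) : Prop :=
  D.R c ψ ∧ c ∈ L ∧ ∀ x ∈ L, ψ x = 0

/-- A subspace with enough root elements. -/
structure LD (D : RD F V₁) (L : Submodule F V₁) : Prop where
  pt : ∀ c ∈ L, c ≠ 0 → ∃ ψ, RL D L c ψ
  two : ∃ c ψ c' ψ', RL D L c ψ ∧ RL D L c' ψ' ∧
    (ψ.smulRight c + ψ'.smulRight c' : End F V₁) ≠ 0
  out : ∃ c ψ, RL D L c ψ ∧ ∃ x ∉ L, ψ x = 0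
  sc : ∀ A : V₁ ≃ₗ[F] V₁, (∀ x ∈ L, A x ∈ L) →
    (∀ c ψ, D.R c ψ → D.R (A c) (ψ ∘ₗ (A⁻¹ : V₁ ≃ₗ[F] V₁))) →
    (∃ x ∉ L, ∃ c ψ, RL D L c ψ ∧ ψ x = 0 ∧ ψ (A x) = 0) ∨
      (D.nq ∧ finrank F L + 2 = finrank F V₁ ∧ ∀ x, ∃ c ψ, RL D L c ψ ∧ ψ x = 0)

/-- The root elements of `ρ` lie in no conjugate of `H` other than `H`. -/
structure Un (D : RD F V₁) (X H : Subgroup (V ≃ₗ[F] V)) (ρ : Rep F V₁ V) : Prop
    extends Good D X ρ where
  conj : ∀ g ∈ X, ∀ c ψ, D.R c ψ → ∀ t : V ≃ₗ[F] V, (∀ v, t v = v + ρ (ψ.smulRight c) v) →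
    g * t * g⁻¹ ∈ H → g ∈ H
  dich : ∀ y ∈ X, y ∈ H → Nz ρ ρ y ∨ ∀ A B, Commute (cj y ρ A) (ρ B)
  map : ∀ y ∈ X, ∀ c ψ, D.R c ψ → ∀ c', (∀ w ∈ T ρ (F ∙ c), y w ∈ T ρ (F ∙ c')) → y ∈ H

variable (X) in
/-- The elements acting trivially modulo `M`. -/
def cm (M : Submodule F V) : Subgroup (V ≃ₗ[F] V) where
  carrier := {g | g ∈ X ∧ ∀ v, g v - v ∈ M}
  one_mem' := ⟨X.one_mem, by simp⟩
  mul_mem' {a b} ha hb := ⟨X.mul_mem ha.1 hb.1, fun v => by
    simpa using M.add_mem (ha.2 (b v)) (hb.2 v)⟩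
  inv_mem' {a} ha := ⟨X.inv_mem ha.1, fun v => by
    simpa [app_inv] using M.neg_mem (ha.2 (a⁻¹ v))⟩

theorem cm_map {M : Submodule F V} (h : g ∈ cm X M) {v : V} (hv : v ∈ M) : g v ∈ M := by
  simpa using M.add_mem (h.2 v) hv

variable [FiniteDimensional F V₁] [FiniteDimensional F V] [Nontrivial V]

theorem Good.root (S : RS D) (G : Good D X ρ) {U : Type*} [AddCommGroup U] [Module F U]
    {τ : U →ₗ[F] V₁ →ₗ[F] V} (h : Tn ρ τ) (hg : g ∈ X) {A : V₁ ≃ₗ[F] V₁} {B : End F U}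
    (e : ∀ u x, g (τ u x) = τ (B u) (A x)) (hR : D.R c ψ) :
    D.R (A c) (ψ ∘ₗ (A⁻¹ : V₁ ≃ₗ[F] V₁)) := by
  refine G.sat _ _ (by simpa using S.c0 hR) (fun h0 => S.ψ0 hR (LinearMap.ext fun x => ?_))
    (Or.inl (by simp [inv_app, S.fl hR])) (((G.mem c ψ hR).conj hg).congr fun v => ?_)
  · simpa [inv_app] using LinearMap.congr_fun h0 (A x)
  · obtain ⟨v, rfl⟩ := g.surjective v
    have : (g : End F V) ∘ₗ ρ (ψ.smulRight c) =
        ρ ((ψ ∘ₗ (A⁻¹ : V₁ ≃ₗ[F] V₁)).smulRight (A c)) ∘ₗ g :=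
      ext_of h.tp fun u x => by simp [h.app, e, inv_app]
    rw [inv_app]; exact LinearMap.congr_fun this v

namespace Un

variable (S : RS D) (N : Un D X H ρ)
include S N

theorem of_fix (hg : g ∈ X) (hR : D.R c ψ)
    (h : ∀ w ∈ T ρ (F ∙ c), ρ (ψ.smulRight c) (g⁻¹ w) = 0) : g ∈ H := by
  obtain ⟨t, ht, e⟩ := N.mem c ψ hR
  exact N.conj g hg c ψ hR t e (N.map _ (X.mul_mem (X.mul_mem hg ht) (X.inv_mem hg)) c ψ hR c
    fun w hw => by simpa [e, h w hw, app_inv] using hw)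

theorem core [Finite F] (hL : LD D L) {W : Submodule F V} {s : V ≃ₗ[F] V} (hs : s ∈ X)
    (hs' : s ∉ H) (hW : ∀ v, s v - v ∈ W)
    (hO : ∀ c ψ, RL D L c ψ → ∀ v ∈ W, ρ (ψ.smulRight c) v = 0 → v ∈ T ρ L) :
    ∃ x ∉ L, T ρ (F ∙ x) ≤ T ρ L ⊔ W := by
  by_contra! NW
  have := S.nt
  obtain ⟨U, τ, h⟩ := exists_tn ρ
  have := h.nt
  set M := T ρ L ⊔ W
  have NW' : ∀ x, (∀ u, τ u x ∈ M) → x ∈ L := fun x hx => by_contra fun hn => NW x hn (by
    rw [h.T_span]; rintro _ ⟨u, rfl⟩; exact hx u)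
  have hM : ∀ c ψ, RL D L c ψ → ∀ v ∈ M, ρ (ψ.smulRight c) v = 0 → v ∈ T ρ L := by
    intro c ψ hR v hv h0
    obtain ⟨a, ha, b, hb, rfl⟩ := Submodule.mem_sup.1 hv
    exact Submodule.add_mem _ ha (hO c ψ hR b hb (by simpa [rk_T hR.2.2 c ha] using h0))
  have kr : ∀ y ∈ cm X M, y ∈ H → ∃ A : End F V₁, (y : End F V) = ρ (1 + A) ∧ ∀ x, A x ∈ L := by
    intro y hy hH
    obtain ⟨c, ψ, hR, x, hx, hx0⟩ := hL.out
    have hz : Nz ρ ρ y := (N.dich y hy.1 hH).resolve_right fun hc => by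
      obtain ⟨w, hw, w0⟩ := exists_mem_T ρ (S.c0 hR.1)
      obtain ⟨φ, hφ⟩ : ∃ φ, ct h.tp φ (y w) ≠ 0 := by
        by_contra! h0
        exact w0 (y.injective (by simpa using eq_zero_of_ct h.tp h0))
      obtain ⟨v, rfl⟩ := exists_rk (S.ψ0 hR.1) hw
      have h1 := LinearMap.congr_fun (hc (ψ.smulRight c) (φ.smulRight x)).eq (y v)
      simp only [End.mul_apply, cj_apply, inv_app] at h1
      refine hx (h.mem_of_pure_T hφ (hM c ψ hR _ ?_ (by simp [h.app, hx0])))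
      rw [← h.rk, ← h1]
      exact cm_map hy (Submodule.mem_sup_left (rk_mem_T hR.2.1 _ _))
    obtain ⟨A, B, e⟩ := h.kron hz
    have hB : Function.Surjective B := LinearMap.injective_iff_surjective.1
      ((injective_iff_map_eq_zero B).2 fun u hu =>
        pure_inj h.tp (S.c0 hR.1) (y.injective (by simp [e, hu])))
    have hA : ∀ x ∈ L, A x ∈ L := fun x hx => NW' _ fun u => by
      obtain ⟨u, rfl⟩ := hB u
      exact e u x ▸ cm_map hy (Submodule.mem_sup_left (h.pure_T u hx))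
    have hs : ∀ x ∉ L, ∀ c ψ, RL D L c ψ → ψ x = 0 → ψ (A x) = 0 → ∃ s : F, ∀ u, B u = s • u :=
      fun x hx c ψ hR h1 h2 => h.scal (fun u => hM c ψ hR _ (e u x ▸ hy.2 _)
        (by simp [h.app, h1, h2])) hx
    obtain ⟨s, hs⟩ : ∃ s : F, ∀ u, B u = s • u := by
      rcases hL.sc A hA fun c ψ => N.root S h hy.1 e with ⟨x, hx, c, ψ, hR, h1, h2⟩ | ⟨q, hd, ha⟩
      · exact hs x hx c ψ hR h1 h2
      by_cases hE : ∃ x ∉ L, ∃ l : F, A x - l • x ∈ L
      · obtain ⟨x, hx, l, hl⟩ := hE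
        obtain ⟨c, ψ, hR, h1⟩ := ha x
        exact hs x hx c ψ hR h1 (by simpa [h1] using hR.2.2 _ hl)
      exfalso
      push Not at hE
      have h1 : ∀ {L : Submodule F V₁} {x}, x ∉ L → finrank F (L ⊔ F ∙ x : Submodule F V₁) =
          finrank F L + 1 := fun hx => Submodule.finrank_sup_span_singleton hx
      have h2 : A x ∉ L ⊔ F ∙ x := fun hm => by
        obtain ⟨a, ha, b, hb, e⟩ := Submodule.mem_sup.1 hm
        obtain ⟨l, rfl⟩ := Submodule.mem_span_singleton.1 hb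
        exact hE x hx l (by simpa [← e] using ha)
      have h3 : A (A x) ∈ (L ⊔ F ∙ x) ⊔ F ∙ A x := by
        have : (L ⊔ F ∙ x) ⊔ F ∙ A x = ⊤ :=
          Submodule.eq_top_of_finrank_eq (by rw [h1 h2, h1 hx, ← hd])
        rw [this]; trivial
      obtain ⟨a, ha', b, hb, e1⟩ := Submodule.mem_sup.1 h3
      obtain ⟨s, rfl⟩ := Submodule.mem_span_singleton.1 hb
      obtain ⟨a, ha'', b, hb, rfl⟩ := Submodule.mem_sup.1 ha'
      obtain ⟨n, rfl⟩ := Submodule.mem_span_singleton.1 hb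
      obtain ⟨c, ψ, hR, h4⟩ := ha (A x)
      refine N.nq q y hy.1 A (ρ (A⁻¹ : V₁ ≃ₗ[F] V₁) * y) (h.comm_of_left (B := B) fun u x => by
        simp [e, h.app, inv_app]) (ext_of h.tp fun u x => by simp [e, h.app, app_inv]) s (-n)
        (fun l hl => hE (A x - (s - l) • x) (fun hm => h2 ?_) l ?_) (ext_of h.tp fun u z => ?_)
      · simpa using Submodule.add_mem _ (Submodule.mem_sup_left hm) (Submodule.mem_sup_right
          (Submodule.smul_mem _ (s - l) (Submodule.mem_span_singleton_self x)))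
      · convert ha'' using 1
        rw [map_sub, map_smul, ← e1]
        linear_combination (norm := module) (-hl) • x
      · have h5 : τ (-n • B (B u) - s • B u + u) (A x) ∈ M := by
          have := M.sub_mem (M.add_mem (M.neg_mem (hy.2 (τ u (A x))))
            (Submodule.mem_sup_left (h.pure_T (B u) ha''))) (M.smul_mem n (hy.2 (τ (B u) x)))
          convert this using 1
          simp [e, ← e1]; module
        have h6 : -n • B (B u) - s • B u + u = 0 := by_contra fun h0 =>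
          h2 (Submodule.mem_sup_left (h.mem_of_pure_T h0 (hM c ψ hR _ h5 (by simp [h.app, h4]))))
        have := congrArg (fun u => τ u z) h6
        simpa [e, h.app, inv_app] using this
    exact ⟨s • A - 1, h.eq_rho fun u x => by simp [e, hs], fun x => NW' _ fun u => by
      simpa [e, hs] using hy.2 (τ u x)⟩
  obtain ⟨c, ψ, c', ψ', h1, h2, h3⟩ := hL.two
  obtain ⟨u, hu, e⟩ := N.mem c ψ h1.1
  obtain ⟨u', hu', e'⟩ := N.mem c' ψ' h2.1
  have n0 : ∀ c ψ, RL D L c ψ → ρ (ψ.smulRight c) ≠ 0 := fun c ψ hR h0 => by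
    obtain ⟨x, hx⟩ := DFunLike.ne_iff.1 (S.ψ0 hR.1)
    simpa [S.c0 hR.1, show ψ x ≠ 0 from hx] using
      LinearMap.congr_fun (rho_inj ρ (h0.trans (map_zero ρ).symm)) x
  have m0 : ∀ c ψ, RL D L c ψ → ∀ u ∈ X, (∀ v, u v = v + ρ (ψ.smulRight c) v) → u ∈ cm X M ⊓ H :=
    fun c ψ hR u hu e => ⟨⟨hu, fun v => by
      simpa [e] using Submodule.mem_sup_left (rk_mem_T hR.2.1 ψ v)⟩,
      N.map u hu c ψ hR.1 c fun w hw => by
        simpa [e] using Submodule.add_mem _ hw (rk_mem_T (Submodule.mem_span_singleton_self c) ψ w)⟩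
  refine hs' (frob (G := cm X M) (fun g hg hg' x hx hx' hx'' => by_contra fun x1 => hg' ?_)
    (m0 c ψ h1 u hu e) (m0 c' ψ' h2 u' hu' e') e e' (rk_rk (S.fl h1.1))
    (fun v => rk_T h1.2.2 c (rk_mem_T h2.2.1 _ _)) (n0 c ψ h1) (n0 c' ψ' h2)
    (fun h0 => h3 (rho_inj ρ (by simpa using h0))) ⟨hs, fun v => Submodule.mem_sup_right (hW v)⟩)
  obtain ⟨A, eA, hA⟩ := kr x hx hx'
  obtain ⟨A', eA', hA'⟩ := kr _ ((cm X M).mul_mem ((cm X M).mul_mem hg hx) ((cm X M).inv_mem hg)) hx''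
  obtain ⟨z, hz⟩ : ∃ z, A z ≠ 0 := by
    by_contra! h0
    exact x1 (LinearEquiv.toLinearMap_injective (by
      rw [eA, show A = 0 from LinearMap.ext h0]; simp; rfl))
  obtain ⟨φ, hφ⟩ := hL.pt _ (hA z) hz
  simpa using H.inv_mem (N.of_fix S (X.inv_mem hg.1) hφ.1 fun w hw => rk_T hφ.2.2 _ (by
    obtain ⟨u, rfl⟩ := mem_mem.1 (h.T_span _ ▸ hw)
    have e1 : x (τ u z) = τ u z + τ u (A z) := by
      simpa [h.app] using LinearMap.congr_fun eA (τ u z)
    have e2 := LinearMap.congr_fun eA' (g (τ u z))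
    simp only [LinearEquiv.coe_coe, mul_app, inv_app, e1, map_add, map_one, LinearMap.add_apply,
      End.one_apply, add_right_inj] at e2
    rw [inv_inv, e2]
    exact h.map_T (L := ⊤) (B := 1) (fun u x => by simp [h.app]) (fun x _ => hA' x)
      fun A hA => by rw [show A = 0 from LinearMap.ext fun x => hA x trivial]; simp))

end Un

end CL.Wr
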