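/-
Rigid tensor factors: a group in which the root elements lie in a unique conjugate of `H` is
contained in `H`; a root element of a rigid factor does not move another rigid factor.
-/
import Mathlib
import Cfsg.Agent.CLAS.Wr2

set_option autoImplicit false
set_option linter.unusedSectionVars false

namespace CL.Wr

open Module CL.ExtF CL.Tens

attribute [-simp] LinearEquiv.coe_inv

variable {F : Type*} [Field F] {V₁ V : Type*} [AddCommGroup V₁] [Module F V₁] [AddCommGroup V]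
  [Module F V] [FiniteDimensional F V₁] [FiniteDimensional F V] [Nontrivial V]
  {D : RD F V₁} {X H : Subgroup (V ≃ₗ[F] V)} {ρ ρ' : Rep F V₁ V} {g t : V ≃ₗ[F] V}
  {L : Submodule F V₁} {c c' x : V₁} {ψ ψ' : Dual F V₁}

theorem mem_T_of_rk (hc : c ≠ 0) {v : V}
    (H : ∀ ψ : Dual F V₁, (∀ x ∈ L, ψ x = 0) → ρ (ψ.smulRight c) v = 0) : v ∈ T ρ L := by
  have := nontrivial_of_ne c 0 hc
  obtain ⟨U, τ, h⟩ := exists_tn ρ
  exact h.mem_T_ct fun ψ hψ => pure_inj h.tp hc (by simpa [h.rk] using H ψ hψ)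

theorem smul_rk (s : F) (ψ : Dual F V₁) (c : V₁) :
    ((s • ψ).smulRight c : End F V₁) = s • ψ.smulRight c := by ext; simp [mul_smul]

theorem rk_self {φ : Dual F V₁} (h : φ x = 1) {w : V} (hw : w ∈ T ρ (F ∙ x)) :
    ρ (φ.smulRight x) w = w := by
  have := hw (1 - φ.smulRight x) fun y hy => by
    obtain ⟨s, rfl⟩ := Submodule.mem_span_singleton.1 hy
    simp [h]
  exact (sub_eq_zero.1 (by simpa using this)).symm

theorem T_disj (hx : x ∉ F ∙ c) {w : V} (h1 : w ∈ T ρ (F ∙ c)) (h2 : w ∈ T ρ (F ∙ x)) : w = 0 := by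
  have := nontrivial_of_ne x 0 (by rintro rfl; simp at hx)
  exact T_bot (disjoint_iff.1 (Submodule.disjoint_span_singleton_of_notMem hx) ▸ T_inf h1 h2)

theorem rk_ne (ρ : Rep F V₁ V) (hc : c ≠ 0) (hψ : ψ ≠ 0) : ρ (ψ.smulRight c) ≠ 0 := fun h0 => by
  obtain ⟨x, hx⟩ := DFunLike.ne_iff.1 hψ
  simpa [hc, show ψ x ≠ 0 from hx] using
    LinearMap.congr_fun (rho_inj ρ (h0.trans (map_zero ρ).symm)) x

theorem RS.exists_root (S : RS D) : ∃ c ψ, D.R c ψ :=
  have := S.nt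
  (S.span (L := ⊥) bot_ne_top).imp fun _ h => h.imp fun _ h => h.1

theorem Un.step [Finite F] (S : RS D) (N : Un D X H ρ) (hg : g ∈ X) (hg' : g ∉ H) (hR : D.R c' ψ')
    (mx : ∀ k ∈ X, k ∉ H → finrank F (T ρ (F ∙ c') ⊓ T (cj k ρ) (F ∙ c') : Submodule F V) ≤
      finrank F (T ρ (F ∙ c) ⊓ T (cj g ρ) (F ∙ c') : Submodule F V)) (hL : LD D L) (hc : c ∈ L) :
    ∃ x ∉ L, T ρ (F ∙ x) ≤ T ρ L ⊔ T (cj g ρ) (F ∙ c') ∧ ∀ c ψ, RL D L c ψ → ψ x ≠ 0 := by
  have hcL : T ρ (F ∙ c) ≤ T ρ L := T_mono ((Submodule.span_singleton_le_iff_mem _ _).2 hc)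
  have hO : ∀ d φ, RL D L d φ → ∀ v ∈ T (cj g ρ) (F ∙ c'), ρ (φ.smulRight d) v = 0 →
      v ∈ T ρ L := by
    intro d φ hd v hv h0
    obtain ⟨t, ht, e⟩ := N.mem d φ hd.1
    let J := T (cj g ρ) (F ∙ c') ⊓ LinearMap.ker (ρ (φ.smulRight d))
    have h1 := mx _ (X.mul_mem (X.mul_mem (X.inv_mem hg) ht) hg) fun h => hg' (by
      simpa using H.inv_mem (N.conj _ (X.inv_mem hg) d φ hd.1 t e (by simpa using h)))
    have h2 : J.map (g⁻¹ : V ≃ₗ[F] V).toLinearMap ≤
        T ρ (F ∙ c') ⊓ T (cj (g⁻¹ * t * g) ρ) (F ∙ c') := by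
      rintro _ ⟨w, ⟨h3, h4⟩, rfl⟩
      refine ⟨mem_T_cj.1 h3, mem_T_cj.2 ?_⟩
      have : t⁻¹ w = w := inv_app_eq (by rw [e, LinearMap.mem_ker.1 h4, add_zero])
      simpa [mul_app, app_inv, this] using mem_T_cj.1 h3
    have h3 : T ρ (F ∙ c) ⊓ T (cj g ρ) (F ∙ c') = J :=
      Submodule.eq_of_le_of_finrank_le (fun w hw => ⟨hw.2, rk_T hd.2.2 d (hcL hw.1)⟩)
        (((LinearEquiv.finrank_map_eq g⁻¹ J).ge.trans (Submodule.finrank_mono h2)).trans h1)
    exact hcL (h3.ge ⟨hv, h0⟩).1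
  obtain ⟨t, ht, e⟩ := N.mem c' ψ' hR
  obtain ⟨x, hx, h⟩ := N.core S hL (X.mul_mem (X.mul_mem hg ht) (X.inv_mem hg))
    (fun h => hg' (N.conj g hg c' ψ' hR t e h)) (W := T (cj g ρ) (F ∙ c')) (fun v => mem_T_cj.2 (by
      simpa [mul_app, e, inv_app, app_inv] using
        rk_mem_T (Submodule.mem_span_singleton_self c') ψ' _)) hO
  refine ⟨x, hx, h, fun d φ hd h0 => hx (mem_of_T_le (ρ := ρ) fun w hw => ?_)⟩
  obtain ⟨a, ha, b, hb, rfl⟩ := Submodule.mem_sup.1 (h hw)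
  refine Submodule.add_mem _ ha (hO d φ hd b hb ?_)
  simpa [rk_T hd.2.2 d ha] using rk_T (L := F ∙ x) (ψ := φ) (fun y hy => by
    obtain ⟨s, rfl⟩ := Submodule.mem_span_singleton.1 hy
    simp [h0]) d hw

/-- The condition on the root data under which `Un` forces `X ≤ H`. -/
def BC (D : RD F V₁) : Prop :=
  (∀ c ψ, D.R c ψ → ∃ L, c ∈ L ∧ LD D L ∧ ∀ x, ∃ c ψ, RL D L c ψ ∧ ψ x = 0) ∨
    (3 ≤ finrank F V₁ ∧ ∀ c ψ, D.R c ψ → LD D (F ∙ c))

theorem Un.le [Finite F] (S : RS D) (hB : BC D) (N : Un D X H ρ) : X ≤ H := by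
  intro g₀ hg₀
  by_contra hg₀'
  have := S.nt
  obtain ⟨c', ψ', hR'⟩ := S.exists_root
  let f : V₁ × (V ≃ₗ[F] V) → ℕ := fun p =>
    finrank F (T ρ (F ∙ p.1) ⊓ T (cj p.2 ρ) (F ∙ c') : Submodule F V)
  obtain ⟨⟨c, g⟩, ⟨⟨ψ, hR⟩, hg, hg'⟩, mx⟩ := Set.exists_max_image
    {p : V₁ × (V ≃ₗ[F] V) | (∃ ψ, D.R p.1 ψ) ∧ p.2 ∈ X ∧ p.2 ∉ H} f
    (by have := finite_equiv F V
        have := Module.finite_of_finite F (M := V₁)
        exact Set.toFinite _) ⟨(c', g₀), ⟨ψ', hR'⟩, hg₀, hg₀'⟩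
  replace mx : ∀ k ∈ X, k ∉ H → f (c', k) ≤ f (c, g) := fun k h h' => mx _ ⟨⟨ψ', hR'⟩, h, h'⟩
  rcases hB with hB | ⟨h3, hB⟩
  · obtain ⟨L, hc, hL, hx⟩ := hB c ψ hR
    obtain ⟨x, -, -, h⟩ := N.step S hg hg' hR' mx hL hc
    obtain ⟨d, φ, h1, h2⟩ := hx x
    exact h d φ h1 h2
  have key : ∀ c ψ, D.R c ψ → (∀ k ∈ X, k ∉ H → f (c', k) ≤ f (c, g)) →
      f (c, g) = 0 ∧ ∃ x, T (cj g ρ) (F ∙ c') ≤ T ρ (Submodule.span F {c, x}) := by
    intro c ψ hR mx
    obtain ⟨x, hx, h, -⟩ := N.step S hg hg' hR' mx (hB c ψ hR) (Submodule.mem_span_singleton_self c)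
    have e1 := Submodule.finrank_sup_add_finrank_inf_eq (T ρ (F ∙ c)) (T ρ (F ∙ x))
    have e2 := Submodule.finrank_sup_add_finrank_inf_eq (T ρ (F ∙ c)) (T (cj g ρ) (F ∙ c'))
    rw [(Submodule.eq_bot_iff (T ρ (F ∙ c) ⊓ T ρ (F ∙ x))).2 fun w hw => T_disj hx hw.1 hw.2,
      finrank_bot, finrank_T_eq ρ (cj g ρ) (c := x) (by rintro rfl; simp at hx) (S.c0 hR')] at e1
    have e3 : T ρ (F ∙ c) ⊔ T ρ (F ∙ x) ≤ T ρ (F ∙ c) ⊔ T (cj g ρ) (F ∙ c') := sup_le le_sup_left h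
    have e4 := Submodule.finrank_mono e3
    refine ⟨by simp only [f]; omega, x, le_sup_right.trans ((Submodule.eq_of_le_of_finrank_le e3
      (by omega)).ge.trans (sup_le ?_ ?_))⟩ <;> exact T_mono (Submodule.span_mono (by simp))
  obtain ⟨h0, x, hx⟩ := key c ψ hR mx
  obtain ⟨d, φ, hd, hd'⟩ := S.span (L := Submodule.span F {c, x}) fun e => by
    have := finrank_pair_le (F := F) c x
    rw [e, finrank_top] at this; omega
  obtain ⟨-, y, hy⟩ := key d φ hd fun k h h' => (mx k h h').trans (h0.le.trans (Nat.zero_le _))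
  have h1 : finrank F (Submodule.span F {c, x} ⊓ Submodule.span F {d, y} : Submodule F V₁) <
      finrank F (Submodule.span F {d, y}) := Submodule.finrank_lt_finrank_of_lt
    (inf_le_right.lt_of_ne fun e => hd' (e.ge (Submodule.subset_span (by simp))).1)
  obtain ⟨l, hl⟩ := Submodule.finrank_le_one_iff_isPrincipal _ |>.1
    (Nat.le_of_lt_succ (h1.trans_le (finrank_pair_le d y)))
  refine hg' (N.map g hg c' ψ' hR' l fun w hw => ?_)
  have h2 : g w ∈ T (cj g ρ) (F ∙ c') := mem_T_cj.2 (by rwa [inv_app])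
  exact hl ▸ T_inf (hx h2) (hy h2)

/-- An involution of small rank interchanging two factors is the plain swap in dimension `3`. -/
theorem swap_fix {W : Submodule F V} (hW : ∀ v, t v - v ∈ W)
    (hd : finrank F W * finrank F V₁ = finrank F V) (h3 : 3 ≤ finrank F V₁)
    (c12 : ∀ A B v, ρ' B (ρ A v) = ρ A (ρ' B v)) (t1 : ∀ A v, t (ρ A v) = ρ' A (t v))
    (t2 : ∀ A v, t (ρ' A v) = ρ A (t v)) : finrank F V₁ = 3 ∧ ∀ (φ : Dual F V₁) (x : V₁) (v : V),
      t (ρ (φ.smulRight x) (ρ' (φ.smulRight x) v)) = ρ (φ.smulRight x) (ρ' (φ.smulRight x) v) := by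
  classical
  let b := finBasis F V₁
  let o : Fin (finrank F V₁) := ⟨0, by omega⟩
  let E : Dual F V₁ → V₁ → Dual F V₁ → V₁ → End F V := fun φ x ψ y =>
    ρ (φ.smulRight x) * ρ' (ψ.smulRight y)
  have EE : ∀ φ x ψ y φ' x' ψ' y' v, E φ x ψ y (E φ' x' ψ' y' v) =
      (φ x' * ψ y') • E φ' x ψ' y v := fun _ _ _ _ _ _ _ _ _ => by
    simp [E, c12, rho_mul, rk_mul, smul_smul, mul_comm]
  have tE : ∀ φ x ψ y v, t (E φ x ψ y v) = E ψ y φ x (t v) := fun _ _ _ _ _ => by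
    simp [E, t1, t2, c12]
  let U := LinearMap.eqLocus (E (b.coord o) (b o) (b.coord o) (b o)) 1
  have mU : ∀ {w}, w ∈ U ↔ E (b.coord o) (b o) (b.coord o) (b o) w = w := Iff.rfl
  have hU : ∀ φ ψ v, E φ (b o) ψ (b o) v ∈ U := fun φ ψ v => mU.2 (by simp [EE])
  have tU : ∀ w ∈ U, t w ∈ U := fun w hw => mU.2 (by rw [← tE, mU.1 hw])
  let q : V →ₗ[F] (Fin (finrank F V₁) × Fin (finrank F V₁) → U) :=
    LinearMap.pi fun p => (E (b.coord p.1) (b o) (b.coord p.2) (b o)).codRestrict U (hU _ _)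
  have hq : Function.Injective q := (injective_iff_map_eq_zero q).2 fun v hv => by
    have h1 : ∀ i j, E (b.coord i) (b i) (b.coord j) (b j) v = 0 := fun i j => by
      have : E (b.coord i) (b o) (b.coord j) (b o) v = 0 := congrArg Subtype.val (congrFun hv (i, j))
      simpa [EE] using congrArg (E (b.coord o) (b i) (b.coord o) (b j)) this
    have h2 : v = ρ 1 (ρ' 1 v) := by simp
    rw [h2, ← sum_rk]
    simpa [map_sum, E] using Finset.sum_eq_zero fun i _ => Finset.sum_eq_zero fun j _ => h1 j i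
  let P := Finset.univ.filter fun p : Fin (finrank F V₁) × Fin (finrank F V₁) => p.1 < p.2
  let Φ : (P → U) →ₗ[F] W := LinearMap.codRestrict W (∑ p : P, ((t : End F V) - 1) ∘ₗ
    E (b.coord o) (b p.1.1) (b.coord o) (b p.1.2) ∘ₗ U.subtype ∘ₗ LinearMap.proj p) fun w => by
      simpa using W.sum_mem fun p _ => hW _
  have hΦ : ∀ w i j, i ≤ j → E (b.coord i) (b o) (b.coord j) (b o) (Φ w) =
      -∑ p : P, if p.1 = (i, j) then (w p : V) else 0 := fun w i j hij => by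
    simp only [Φ, LinearMap.codRestrict_apply, LinearMap.sum_apply, map_sum, ← Finset.sum_neg_distrib]
    refine Finset.sum_congr rfl fun ⟨⟨k, l⟩, hp⟩ _ => ?_
    have h1 : k < l := by simpa [P] using hp
    have h2 : ¬ (l = i ∧ k = j) := by omega
    simp [tE, EE, mU.1 (w _).2, mU.1 (tU _ (w _).2), Finsupp.single_apply, ite_and] at h2 ⊢
    split_ifs <;> simp_all
  have hi : Function.Injective Φ := (injective_iff_map_eq_zero Φ).2 fun w hw => funext fun p => by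
    have := hΦ w p.1.1 p.1.2 (Finset.mem_filter.1 p.2).2.le
    simpa [hw, Subtype.coe_inj] using this
  have d1 := LinearMap.finrank_le_finrank_of_injective hq
  have d2 := LinearMap.finrank_le_finrank_of_injective hi
  have d3 : finrank F (P → U) = (finrank F V₁).choose 2 * finrank F U := by
    simp [finrank_pi_fintype, P, Fintype.card_product_filter_lt]
  have d4 : 0 < finrank F V := finrank_pos
  simp only [finrank_pi_fintype, Finset.sum_const, Finset.card_univ, Fintype.card_prod,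
    Fintype.card_fin, smul_eq_mul] at d1
  have d5 : finrank F W ≤ finrank F V₁ * finrank F U :=
    Nat.le_of_mul_le_mul_right (by rw [hd]; linarith) (show 0 < finrank F V₁ by omega)
  have d6 : finrank F V₁ = 3 := by
    have : (finrank F V₁).choose 2 ≤ finrank F V₁ := Nat.le_of_mul_le_mul_right
      (d3.ge.trans (d2.trans d5)) (Nat.pos_of_ne_zero fun h => by simp [h] at d1; omega)
    rw [Nat.choose_two_right, Nat.div_le_iff_le_mul_add_pred two_pos] at this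
    by_contra h
    have : finrank F V₁ * 3 ≤ finrank F V₁ * (finrank F V₁ - 1) := Nat.mul_le_mul_left _ (by omega)
    omega
  have hs := (LinearMap.injective_iff_surjective_of_finrank_eq_finrank
    (d2.antisymm (by rw [d3]; simpa [d6] using d5))).1 hi
  have fU : ∀ w ∈ U, t w = w := fun w hw => by
    obtain ⟨w', e⟩ := hs ⟨_, hW w⟩
    have := hΦ w' o o le_rfl
    rw [e, Finset.sum_eq_zero fun p _ => if_neg fun h => by simpa [P, h] using p.2] at this
    simpa [mU.1 hw, mU.1 (tU w hw), sub_eq_zero] using this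
  refine ⟨d6, fun φ x v => ?_⟩
  have : E φ x φ x v = E (b.coord o) x (b.coord o) x (E φ (b o) φ (b o) v) := by simp [EE]
  change t (E φ x φ x v) = E φ x φ x v
  rw [this, tE, fU _ (hU _ _ _)]

/-- A root element of a rigid factor does not move a rigid factor to a commuting one. -/
theorem no_move (S : RS D) (G' : Good D X ρ') (G : Good D X ρ) (hR : D.R c' ψ') (ht : t ∈ X)
    (e : ∀ v, t v = v + ρ' (ψ'.smulRight c') v) (h1 : ∀ A B, Commute (cj t ρ A) (ρ B)) : False := by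
  have := S.nt
  have e0 := rk_rk (ρ := ρ') (S.fl hR)
  have ei := quad_inv e e0
  set ε := ρ' (ψ'.smulRight c')
  by_cases h2 : (2 : F) ≠ 0
  · obtain ⟨c, ψ, hc⟩ := S.exists_root
    have hN : (ψ.smulRight c : End F V₁) ≠ 0 := fun h => rk_ne ρ (S.c0 hc) (S.ψ0 hc) (by simp [h])
    have a0 := rk_rk (ρ := ρ) (S.fl hc)
    set N : End F V₁ := ψ.smulRight c
    let b := cj t ρ N + cj t⁻¹ ρ N
    have hb : ∀ B, Commute b (ρ B) := fun B => (h1 N B).add_left (by
      have := (commute_cj (g := t⁻¹) (h1 B N)).symm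
      rwa [show t⁻¹.conjAlgEquiv F (cj t ρ B) = ρ B by ext v; simp [cj_apply, inv_app]] at this)
    have e1 : ∀ v, b v = (2 : F) • (ρ N v - ε (ρ N (ε v))) := fun v => by
      simp only [b, cj_apply, LinearMap.add_apply, inv_inv, e, ei, map_add, map_sub]
      module
    have e2 : ∀ v, b (b v) = (4 : F) • ρ N (b v) := fun v => by
      have := LinearMap.congr_fun (hb N).eq v
      simp only [End.mul_apply, e1, map_smul, map_sub, a0, e0, map_zero] at this ⊢
      linear_combination (norm := module) (2 : F) • this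
    have e3 := eq_zero_of_mul hN (fun B => (hb B).mul_left (hb B))
      (LinearMap.ext fun v => by simp [e2, a0])
    have h4 : (4 : F) ≠ 0 := by simpa [← two_mul, show (4 : F) = 2 * 2 by norm_num] using h2
    have e4 := eq_zero_of_mul hN hb (LinearMap.ext fun v => by
      simpa [e2, h4] using LinearMap.congr_fun e3 v)
    have e5 : ∀ v, ρ N v = ε (ρ N (ε v)) := fun v => by simpa [e4, h2, sub_eq_zero] using (e1 v).symm
    exact rk_ne ρ (S.c0 hc) (S.ψ0 hc) (LinearMap.ext fun v => by rw [e5, e5 (ε v), e0]; rfl)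
  push Not at h2
  have ad : ∀ v : V, v + v = 0 := fun v => by rw [← two_smul F, h2, zero_smul]
  have ng : ∀ v : V, -v = v := fun v => neg_eq_of_add_eq_zero_right (ad v)
  have ti : ∀ v, t⁻¹ v = t v := fun v => by rw [ei, e, sub_eq_add_neg, ng]
  set ρ₂ := cj t ρ
  have c12 : ∀ A B v, ρ₂ B (ρ A v) = ρ A (ρ₂ B v) := fun A B v => LinearMap.congr_fun (h1 B A).eq v
  have t1 : ∀ A v, t (ρ A v) = ρ₂ A (t v) := fun A v => by simp [ρ₂, cj_apply, inv_app]
  have t2 : ∀ A v, t (ρ₂ A v) = ρ A (t v) := fun A v => by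
    rw [cj_apply, ← ti, inv_app, ti]
  have hW : ∀ v, t v - v ∈ T ρ' (F ∙ c') := fun v => by
    simpa [e] using rk_mem_T (Submodule.mem_span_singleton_self c') ψ' v
  obtain ⟨d3, K1⟩ := swap_fix hW (finrank_T ρ' (S.c0 hR)) (S.dim.resolve_right fun h => h.2 h2)
    c12 t1 t2
  have K2 : ∀ (φ : Dual F V₁) x, ∀ w ∈ T ρ' (F ∙ c'),
      ρ (φ.smulRight x) (ρ₂ (φ.smulRight x) w) = 0 := fun φ x w hw => by
    obtain ⟨v, rfl⟩ := exists_rk (S.ψ0 hR) hw
    have := K1 φ x v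
    rwa [t1, t2, c12, e, map_add, map_add, add_eq_left] at this
  have ker2 : ∀ {ψ : Dual F V₁} {c}, ψ ≠ 0 → c ≠ 0 → ψ c = 0 →
      ∃ y ∉ F ∙ c, ψ y = 0 ∧ LinearMap.ker ψ = (F ∙ c) ⊔ F ∙ y := fun {ψ c} h1 h2 h3 => by
    have h4 := Module.Dual.finrank_ker_add_one_of_ne_zero h1
    have h5 := finrank_span_singleton (K := F) h2
    obtain ⟨y, hy, hy'⟩ := SetLike.exists_of_lt (Submodule.lt_of_le_of_finrank_lt_finrank
      ((Submodule.span_singleton_le_iff_mem c (LinearMap.ker ψ)).2 h3) (by omega))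
    exact ⟨y, hy', hy, (Submodule.eq_of_le_of_finrank_le (by simp [h3, show ψ y = 0 from hy])
      (by rw [Submodule.finrank_sup_span_singleton hy']; omega)).symm⟩
  obtain ⟨y, hy, hy0, hk⟩ := ker2 (S.ψ0 hR) (S.c0 hR) (S.fl hR)
  obtain ⟨φ₀, p1, p2⟩ := CL.Tv.exists_dual_one_zero hy
  obtain ⟨z, hz⟩ := Module.Projective.exists_dual_eq_one F (V := Dual F V₁) (S.ψ0 hR)
  obtain ⟨z, rfl⟩ := (evalEquiv F V₁).surjective z
  replace hz : ψ' z = 1 := hz
  set θ := ρ' (φ₀.smulRight c')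
  have kill : ∀ {χ : Dual F V₁}, χ c' = 0 → χ y = 0 → ∀ v, ε v = 0 → ρ' (χ.smulRight c') v = 0 := by
    intro χ q1 q2 v hv
    refine rk_T (L := LinearMap.ker ψ') (fun x hx => ?_) _ (mem_T_of_rk (S.c0 hR) fun χ' hχ => ?_)
    · exact (hk.le.trans (sup_le (by simpa) (by simpa)) : _ ≤ LinearMap.ker χ) hx
    · have : χ' = χ' z • ψ' := LinearMap.ext fun x => by
        simpa [hz, sub_eq_zero, mul_comm] using hχ (x - ψ' x • z) (by simp [hz])
      rw [this, smul_rk, map_smul, LinearMap.smul_apply, hv, smul_zero]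
  have θW : ∀ v, θ v ∈ T ρ' (F ∙ c') := rk_mem_T (Submodule.mem_span_singleton_self c') _
  have θ0 : ∀ v, θ (ε v) = 0 := fun v => by simp [θ, ε, rho_mul, rk_mul, p2]
  have th1 : ∀ v, ε v = 0 → θ v = 0 → v ∈ T ρ' (F ∙ c') := fun v h1 h2 =>
    mem_T_of_rk (S.c0 hR) fun χ hχ => by
      have := kill (χ := χ - χ y • φ₀) (by simp [p2, hχ c' (Submodule.mem_span_singleton_self _)])
        (by simp [p1]) v h1
      rw [show (χ - χ y • φ₀).smulRight c' = χ.smulRight c' - χ y • φ₀.smulRight c' by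
        ext; simp [sub_smul, mul_smul]] at this
      simpa [show ρ' _ v = 0 from h2] using this
  have th2 : ∀ c ψ, D.R c ψ → ∀ r : V → V, (∀ v, r v = v + ρ₂ (ψ.smulRight c) v +
      ρ (ψ.smulRight c) (v + ρ₂ (ψ.smulRight c) v)) → ∀ v, ε v = 0 → θ (r v) = r (θ v) := by
    intro c ψ hc r' er'
    obtain ⟨s, hs, es⟩ := G.mem c ψ hc
    have hr := X.mul_mem hs (X.mul_mem (X.mul_mem ht hs) (X.inv_mem ht))
    set r := s * (t * s * t⁻¹)
    have er : ∀ v, r v = v + ρ₂ (ψ.smulRight c) v +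
        ρ (ψ.smulRight c) (v + ρ₂ (ψ.smulRight c) v) := fun v => by
      simp [r, es, app_inv, ρ₂, cj_apply]
    obtain rfl : r' = r := funext fun v => (er' v).trans (er v).symm
    have rr : ∀ v, r (r v) = v := fun v => by
      simp only [er, map_add, c12, rk_rk (S.fl hc), map_zero]
      linear_combination (norm := module) h2 • (ρ (ψ.smulRight c) v + ρ₂ (ψ.smulRight c) v +
        (2 : F) • ρ (ψ.smulRight c) (ρ₂ (ψ.smulRight c) v))
    have rε : ∀ v, r (ε v) = ε (r v) := fun v => by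
      have : t (r v) = r (t v) := by simp only [er, map_add, t1, t2, c12]; abel
      simpa [e] using this.symm
    obtain ⟨B, hB⟩ := (G'.stab c' ψ' hR r hr fun w hw => by
      obtain ⟨v, rfl⟩ := exists_rk (S.ψ0 hR) hw
      rw [rε]; exact rk_mem_T (Submodule.mem_span_singleton_self c') _ _).exists_equiv
    have h3 := LinearMap.congr_fun (rho_inj ρ' (LinearMap.ext fun v => by
      obtain ⟨v, rfl⟩ := r.surjective v
      exact (hB (ψ'.smulRight c') v).symm.trans (rε v))) z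
    simp only [End.mul_apply, LinearMap.smulRight_apply, LinearEquiv.coe_coe, map_smul, hz,
      one_smul] at h3
    have h4 : ψ' (B⁻¹ z) ≠ 0 := fun h => S.c0 hR (by simpa [h] using h3.symm)
    let χ : Dual F V₁ := (ψ' (B⁻¹ z))⁻¹ • φ₀ ∘ₗ (B⁻¹ : V₁ ≃ₗ[F] V₁)
    have h5 : ∀ v, ε v = 0 → r (θ v) = χ y • θ (r v) := fun v hv => by
      have := kill (χ := χ - χ y • φ₀) (by
        simp [χ, p2, inv_app_eq (show B (ψ' (B⁻¹ z) • c') = c' by simpa using h3)])
        (by simp [p1]) (r v) (by rw [← rε, hv, map_zero])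
      rw [show (χ - χ y • φ₀).smulRight c' = (B : End F V₁) * φ₀.smulRight c' *
          (B⁻¹ : V₁ ≃ₗ[F] V₁) - χ y • φ₀.smulRight c' by
        ext x
        simp [χ, sub_smul, (eq_inv_smul_iff₀ h4).2 h3, smul_smul, mul_comm], map_sub,
        LinearMap.sub_apply, ← hB, sub_eq_zero, map_smul] at this
      exact this
    obtain ⟨v, hv⟩ := DFunLike.ne_iff.1 (rk_ne ρ' (S.c0 hR) (S.ψ0 hR))
    have h6 : ε (ρ' (ψ'.smulRight y) v) = 0 := by simp [ε, rho_mul, rk_mul, hy0]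
    have h7 := congrArg r (h5 _ h6)
    rw [rr, map_smul, h5 _ (by rw [← rε, h6, map_zero]), rr, smul_smul] at h7
    have h8 : χ y * χ y = 1 := smul_left_injective F (show ε v ≠ 0 from hv) (by
      simpa [θ, rho_mul, rk_mul, p1] using h7.symm)
    have h9 : χ y = 1 := sub_eq_zero.1 (pow_eq_zero_iff two_ne_zero |>.1 (by
      linear_combination h8 + (1 - χ y) * h2))
    intro v hv
    rw [h5 v hv, h9, one_smul]
  obtain ⟨w, hw⟩ : ∃ w, ρ (ψ'.smulRight z) (ρ₂ (ψ'.smulRight z) w) ≠ 0 := by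
    have z0 : z ≠ 0 := by rintro rfl; simp at hz
    by_contra! h
    exact rk_ne ρ₂ z0 (S.ψ0 hR) (eq_zero_of_mul (fun h => rk_ne ρ z0 (S.ψ0 hR) (by simp [h]))
      (h1 _) (LinearMap.ext h))
  have tw := K1 ψ' z w
  have Ew : ρ (ψ'.smulRight z) (ρ₂ (ψ'.smulRight z) (ρ (ψ'.smulRight z)
      (ρ₂ (ψ'.smulRight z) w))) = ρ (ψ'.smulRight z) (ρ₂ (ψ'.smulRight z) w) := by
    simp [c12, rho_mul, rk_mul, hz]
  generalize ρ (ψ'.smulRight z) (ρ₂ (ψ'.smulRight z) w) = w at hw tw Ew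
  let p : V₁ → V₁ → V := fun x y => ρ (ψ'.smulRight x) (ρ₂ (ψ'.smulRight y) w)
  have εd : ∀ x, ε (p x x) = 0 := fun x => by simpa [e] using K1 ψ' x w
  have key : ∀ c ψ, D.R c ψ → ∀ x, (ψ x * ψ x) • θ (p c c) =
      ρ (ψ.smulRight c) (θ (p x x)) + ρ₂ (ψ.smulRight c) (θ (p x x)) := fun c ψ hc x => by
    have h3 := th2 c ψ hc _ (fun _ => rfl) _ (εd x)
    have h4 : θ (p c x) = θ (p x c) := by
      have : t (p x c) = p c x := by simp only [p, t1, t2, c12, tw]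
      rw [← this, e, map_add, θ0, add_zero]
    simp only [map_add, K2 _ _ _ (θW _)] at h3
    simp only [p, c12, rho_mul, rk_mul, map_smul, LinearMap.smul_apply] at h3 h4 ⊢
    linear_combination (norm := module) h3 - ψ x • h4 -
      (h2 * ψ x) • θ (ρ (ψ'.smulRight x) (ρ₂ (ψ'.smulRight c) w))
  suffices ∃ x, x ≠ 0 ∧ θ (p x x) = 0 by
    obtain ⟨x, hx, h⟩ := this
    obtain ⟨φ, hφ⟩ := Module.Projective.exists_dual_eq_one F hx
    have := K2 φ z _ (th1 _ (εd x) h)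
    simp only [p, c12, rho_mul, rk_mul, hφ, one_smul, Ew] at this
    exact hw this
  rcases S.sw h2 d3 with H | ⟨c, ψ, s, hc, hs, s1⟩
  · have c0 := S.c0 hR
    have h3 : ∀ ψ : Dual F V₁, (∀ x ∈ F ∙ c', ψ x = 0) → ρ (ψ.smulRight c') (θ (p c' c')) = 0 ∧
        ρ₂ (ψ.smulRight c') (θ (p c' c')) = 0 := fun ψ hψ => by
      have h4 := hψ c' (Submodule.mem_span_singleton_self _)
      rcases eq_or_ne ψ 0 with rfl | ψ0
      · simp
      obtain ⟨y, hy, hy0, -⟩ := ker2 ψ0 c0 h4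
      have h5 : ∀ y, y ≠ 0 → ψ y = 0 → ρ (ψ.smulRight y) (θ (p c' c')) =
          ρ₂ (ψ.smulRight y) (θ (p c' c')) := fun y y0 hy => by
        have := key y ψ (H y ψ y0 ψ0 hy) c'
        rw [h4, zero_mul, zero_smul, eq_comm, add_eq_zero_iff_eq_neg, ng] at this
        exact this
      have y0 : y ≠ 0 := by rintro rfl; simp at hy
      obtain ⟨φ, hφ⟩ := Module.Projective.exists_dual_eq_one F y0
      have h6 : ρ (ψ.smulRight c') (θ (p c' c')) = 0 := by
        refine T_disj (ρ := ρ₂) hy (h5 c' c0 h4 ▸ rk_mem_T (Submodule.mem_span_singleton_self _) _ _) ?_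
        have := rk_mem_T (ρ := ρ₂) (Submodule.mem_span_singleton_self y) ψ
          (ρ (φ.smulRight c') (θ (p c' c')))
        rwa [c12, ← h5 y y0 hy0, rho_mul, rk_mul, hφ, one_smul] at this
      exact ⟨h6, h5 c' c0 h4 ▸ h6⟩
    obtain ⟨φ, hφ⟩ := Module.Projective.exists_dual_eq_one F c0
    refine ⟨c', c0, ?_⟩
    rw [← K2 φ c' _ (θW (p c' c')), rk_self hφ (mem_T_of_rk c0 fun ψ h => (h3 ψ h).2),
      rk_self hφ (mem_T_of_rk c0 fun ψ h => (h3 ψ h).1)]
  · obtain ⟨x, hx⟩ := DFunLike.ne_iff.1 (S.ψ0 hc)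
    have s0 : s ≠ 0 := by rintro rfl; simpa using S.ψ0 hs
    have k1 := key c ψ hc x
    have k2 := key c _ hs x
    rw [smul_rk] at k2
    simp only [map_smul, LinearMap.smul_apply, smul_eq_mul] at k2
    have : (s * (s - 1) * (ψ x * ψ x)) • θ (p c c) = 0 := by
      linear_combination (norm := module) k2 - s • k1
    exact ⟨c, S.c0 hc, by simpa [s0, sub_eq_zero, s1, show ψ x ≠ 0 from hx] using this⟩

end CL.Wr
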