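/-
Families of commuting tensor factors: a group in which all factors are rigid permutes them.
-/
import Mathlib
import Cfsg.Agent.CLAS.Wr3

set_option autoImplicit false
set_option linter.unusedSectionVars false

namespace CL.Wr

open Module CL.ExtF CL.Tens

attribute [-simp] LinearEquiv.coe_inv

variable {F : Type*} [Field F] {V₁ V : Type*} [AddCommGroup V₁] [Module F V₁] [AddCommGroup V]
  [Module F V] [FiniteDimensional F V₁]

section Cmp

variable {σ : Rep F V₁ V} {ξ η : End F V} {φ ψ : Dual F V₁} {x y : V₁}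

/-- The component of `ξ` in the centralizer of the factor `σ`. -/
noncomputable def cmp (σ : Rep F V₁ V) (φ : Dual F V₁) (x : V₁) (ξ : End F V) : End F V :=
  ∑ i, σ (φ.smulRight (finBasis F V₁ i)) * ξ * σ (((finBasis F V₁).coord i).smulRight x)

theorem cmp_spec (σ : Rep F V₁ V) (φ ψ : Dual F V₁) (x y : V₁) (ξ : End F V) :
    σ (ψ.smulRight y) * cmp σ φ x ξ = σ (φ.smulRight y) * ξ * σ (ψ.smulRight x) := by
  simp only [cmp, Finset.mul_sum, ← mul_assoc, ← map_mul, rk_mul, map_smul, smul_mul_assoc]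
  simp only [← mul_smul_comm, ← Finset.mul_sum, ← map_smul, ← map_sum]
  congr 2
  ext v
  rw [LinearMap.smulRight_apply, ← (finBasis F V₁).sum_repr v, map_sum ψ, Finset.sum_smul]
  simp [smul_smul, mul_comm]

theorem cmp_spec' (σ : Rep F V₁ V) (φ ψ : Dual F V₁) (x y : V₁) (ξ : End F V) :
    cmp σ φ x ξ * σ (ψ.smulRight y) = σ (φ.smulRight y) * ξ * σ (ψ.smulRight x) := by
  simp only [cmp, Finset.sum_mul, mul_assoc, ← map_mul, rk_mul, map_smul, mul_smul_comm]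
  simp only [← smul_mul_assoc, ← Finset.sum_mul, ← map_smul, ← map_sum]
  congr 2
  ext v
  simp [smul_comm _ (φ v), ← Finset.smul_sum]

theorem sum_rk' (A : End F V₁) :
    ∑ i, (((finBasis F V₁).coord i).smulRight (A (finBasis F V₁ i)) : End F V₁) = A := by
  conv_rhs => rw [← mul_one A, ← sum_rk, Finset.mul_sum]
  exact Finset.sum_congr rfl fun i _ => by ext; simp

theorem cmp_comm (A : End F V₁) : Commute (cmp σ φ x ξ) (σ A) := by
  rw [← sum_rk' A, map_sum]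
  exact Commute.sum_right _ _ _ fun i _ => (cmp_spec' ..).trans (cmp_spec ..).symm

theorem sum_cmp (σ : Rep F V₁ V) (ξ : End F V) :
    ∑ k, ∑ l, σ (((finBasis F V₁).coord l).smulRight (finBasis F V₁ k)) *
      cmp σ ((finBasis F V₁).coord k) (finBasis F V₁ l) ξ = ξ := by
  simp only [cmp_spec, ← Finset.mul_sum, ← Finset.sum_mul, ← map_sum, sum_rk, map_one, mul_one,
    one_mul]

theorem cmp_mem {𝒜 : Subalgebra F (End F V)} (h : ∀ A, σ A ∈ 𝒜) (hξ : ξ ∈ 𝒜) : cmp σ φ x ξ ∈ 𝒜 :=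
  𝒜.sum_mem fun _ _ => 𝒜.mul_mem (𝒜.mul_mem (h _) hξ) (h _)

theorem cmp_commute (h : ∀ A, Commute η (σ A)) (hξ : Commute η ξ) : Commute η (cmp σ φ x ξ) :=
  Commute.sum_right _ _ _ fun _ _ => ((h _).mul_right hξ).mul_right (h _)

theorem cmp_mul (h : ∀ A, Commute η (σ A)) (A : End F V₁) :
    cmp σ φ x (σ A * η) = φ (A x) • η := by
  simp only [cmp, mul_assoc, (h _).eq]
  simp only [← mul_assoc, ← map_mul, ← Finset.sum_mul, ← map_sum]
  rw [show ∑ i, φ.smulRight (finBasis F V₁ i) * A * ((finBasis F V₁).coord i).smulRight x =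
    φ (A x) • (1 : End F V₁) by
      rw [← sum_rk, Finset.smul_sum]
      exact Finset.sum_congr rfl fun i _ => by ext; simp [smul_smul, mul_comm]]
  simp

variable (σ) in
/-- The centralizer of a factor. -/
def cen : Subgroup (V ≃ₗ[F] V) where
  carrier := {g | ∀ A, Commute (g : End F V) (σ A)}
  one_mem' _ := Commute.one_left _
  mul_mem' ha hb A := (ha A).mul_left (hb A)
  inv_mem' {g} hg A := LinearMap.ext fun v => inv_app_eq
    ((LinearMap.congr_fun (hg A).eq _).trans (congrArg (σ A) (app_inv g v)))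

end Cmp

variable {I : Type*} [DecidableEq I] {ρ : I → Rep F V₁ V} {s : Finset I}
  {𝒜 : Subalgebra F (End F V)} {i j : I}

/-- Commuting factors generating the algebra `𝒜`. -/
structure Fam (ρ : I → Rep F V₁ V) (s : Finset I) (𝒜 : Subalgebra F (End F V)) : Prop where
  mem : ∀ i ∈ s, ∀ A, ρ i A ∈ 𝒜
  comm : ∀ i ∈ s, ∀ j ∈ s, i ≠ j → ∀ A B, Commute (ρ i A) (ρ j B)
  cent : ∀ ξ ∈ 𝒜, (∀ i ∈ s, ∀ A, Commute ξ (ρ i A)) → ∃ μ : F, ξ = μ • 1

theorem Fam.erase (Φ : Fam ρ s 𝒜) (hj : j ∈ s) :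
    Fam ρ (s.erase j) (𝒜 ⊓ Subalgebra.centralizer F (Set.range (ρ j))) where
  mem i hi A := ⟨Φ.mem i (Finset.mem_of_mem_erase hi) A, by
    rintro _ ⟨B, rfl⟩
    exact Φ.comm j hj i (Finset.mem_of_mem_erase hi) (Finset.ne_of_mem_erase hi).symm B A⟩
  comm i hi k hk := Φ.comm i (Finset.mem_of_mem_erase hi) k (Finset.mem_of_mem_erase hk)
  cent ξ hξ h := Φ.cent ξ hξ.1 fun i hi A => by
    rcases eq_or_ne i j with rfl | e
    · exact (hξ.2 _ ⟨A, rfl⟩).symm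
    · exact h i (Finset.mem_erase.2 ⟨e, hi⟩) A

theorem Fam.mem_range (Φ : Fam ρ s 𝒜) (hj : j ∈ s) {ξ : End F V} (hξ : ξ ∈ 𝒜)
    (h : ∀ i ∈ s, i ≠ j → ∀ A, Commute ξ (ρ i A)) : ∃ A, ξ = ρ j A := by
  suffices ξ ∈ (ρ j).range from this.imp fun _ e => e.symm
  rw [← sum_cmp (ρ j) ξ]
  refine Subalgebra.sum_mem _ fun k _ => Subalgebra.sum_mem _ fun l _ =>
    Subalgebra.mul_mem _ ⟨_, rfl⟩ ?_
  obtain ⟨μ, e⟩ := Φ.cent (cmp (ρ j) ((finBasis F V₁).coord k) (finBasis F V₁ l) ξ)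
    (cmp_mem (Φ.mem j hj) hξ) fun i hi A => by
    rcases eq_or_ne i j with e | e
    · rw [e]; exact cmp_comm A
    · exact (cmp_commute (Φ.comm i hi j hj e A) (h i hi e A).symm).symm
  exact e ▸ Subalgebra.smul_mem _ (Subalgebra.one_mem _) μ

variable [Finite F] [FiniteDimensional F V]

variable (ρ s) in
/-- The elements permuting the factors. -/
def NF : Subgroup (V ≃ₗ[F] V) :=
  let M : Submonoid (V ≃ₗ[F] V) :=
    { carrier := {g | ∀ i ∈ s, ∃ j ∈ s, Nz (ρ i) (ρ j) g}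
      one_mem' := fun i hi => ⟨i, hi, nz_one _⟩
      mul_mem' := fun ha hb i hi =>
        have ⟨j, hj, h⟩ := hb i hi
        have ⟨k, hk, h'⟩ := ha j hj
        ⟨k, hk, h'.mul h⟩ }
  { M with
    inv_mem' := fun {g} hg =>
      have := finite_equiv F V
      Submonoid.powers_le.2 (show g ∈ M from hg)
        (mem_powers_iff_mem_zpowers.2 (Subgroup.inv_mem _ (Subgroup.mem_zpowers g))) }

theorem mem_NF {g : V ≃ₗ[F] V} : g ∈ NF ρ s ↔ ∀ i ∈ s, ∃ j ∈ s, Nz (ρ i) (ρ j) g := Iff.rfl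

variable [Nontrivial V] {D : RD F V₁} {X : Subgroup (V ≃ₗ[F] V)} {ρ' : Rep F V₁ V} {c c' : V₁}
  {ψ' : Dual F V₁} {g t : V ≃ₗ[F] V}

theorem small_root (S : RS D) {σ : Rep F V₁ V} (hR : D.R c' ψ')
    (e : ∀ v, t v = v + ρ' (ψ'.smulRight c') v) (h : Nz σ σ t) :
    (∃ A, ρ' (ψ'.smulRight c') = σ A) ∨ ∀ A, Commute (ρ' (ψ'.smulRight c')) (σ A) := by
  have et : ρ' (ψ'.smulRight c') = t - 1 := LinearMap.ext fun v => by simp [e]
  rw [et]
  refine (h.small (S := T ρ' (F ∙ c')) (fun v => by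
    simpa [e] using rk_mem_T (Submodule.mem_span_singleton_self c') ψ' v) (finrank_T ρ' (S.c0 hR))
    (S.dim.imp_right fun h => ⟨h.1, h.2, fun v => by simp [e, rk_rk (S.fl hR)]⟩)).imp
    (fun ⟨A, h⟩ => ⟨A - 1, by simp [h]⟩) fun h A => (h A).sub_left (Commute.one_left _)

namespace Fam

variable (Φ : Fam ρ s 𝒜) (S : RS D) (G : ∀ i ∈ s, Good D X (ρ i)) (G' : Good D X ρ')
  (hA : ∀ A, ρ' A ∈ 𝒜) (hR : D.R c' ψ')
include Φ S G G' hA hR

theorem uniq (hj : j ∈ s) (hc : c ≠ 0) (hW : T ρ' (F ∙ c') = T (ρ j) (F ∙ c)) :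
    Nz ρ' (ρ j) 1 := fun A => by
  have := S.nt
  refine (Φ.mem_range hj (hA A) fun k hk hkj => S.comm fun d φ hd => ?_).imp
    fun _ e v => LinearMap.congr_fun e v
  obtain ⟨r, hr, e⟩ := (G k hk).mem d φ hd
  have hb := Φ.comm k hk j hj hkj (φ.smulRight d)
  have h1 : ∀ w ∈ T ρ' (F ∙ c'), ρ k (φ.smulRight d) w ∈ T ρ' (F ∙ c') := fun w hw =>
    hW.ge (T_comm hb (hW.le hw))
  refine ((small_root S hd e (G'.stab c' ψ' hR r hr fun w hw =>
    e w ▸ Submodule.add_mem _ hw (h1 w hw))).resolve_left ?_ A).symm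
  rintro ⟨B, hB⟩
  obtain ⟨U, τ, h⟩ := exists_tn ρ'
  have := h.nt
  obtain ⟨u, hu⟩ := exists_ne (0 : U)
  obtain ⟨μ, hμ⟩ := Submodule.mem_span_singleton.1 (h.mem_of_pure_T (x := B c') hu (by
    simpa [hB, h.app] using h1 _ (h.pure_T u (Submodule.mem_span_singleton_self c'))))
  have h2 : μ = 0 := by
    have := rk_rk (ρ := ρ k) (S.fl hd) (τ u c')
    simp only [hB, h.app, ← hμ, map_smul, smul_smul, smul_eq_zero, mul_self_eq_zero] at this
    exact this.resolve_right fun h0 => hu (pure_inj h.tp (S.c0 hR) (by simpa using h0))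
  obtain ⟨χ, hχ⟩ := Module.Projective.exists_dual_eq_one F hc
  refine rk_ne (ρ k) (S.c0 hd) (S.ψ0 hd) (eq_zero_of_mul (A := χ.smulRight c)
    (fun h0 => by simpa [hχ, hc] using LinearMap.congr_fun h0 c) hb ?_)
  rw [← (hb _).eq]
  ext v
  obtain ⟨u, e⟩ := mem_mem.1 (h.T_span c' ▸
    hW.ge (rk_mem_T (Submodule.mem_span_singleton_self c) χ v))
  simp [← e, hB, h.app, ← hμ, h2]

theorem recog (ht : t ∈ X) (e : ∀ v, t v = v + ρ' (ψ'.smulRight c') v) (hN : t ∈ NF ρ s) :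
    ∃ j ∈ s, Nz ρ' (ρ j) 1 := by
  have h1 : ∀ i ∈ s, Nz (ρ i) (ρ i) t := fun i hi => by
    obtain ⟨k, hk, h⟩ := hN i hi
    rcases eq_or_ne k i with rfl | hki
    · exact h
    · exact (no_move S G' (G i hi) hR ht e fun A B => by
        obtain ⟨A', e⟩ := h.cj_eq A
        exact e ▸ Φ.comm k hk i hi hki A' B).elim
  have n0 := rk_ne ρ' (S.c0 hR) (S.ψ0 hR)
  by_cases h : ∃ j ∈ s, ∃ A, ρ' (ψ'.smulRight c') = ρ j A
  · obtain ⟨j, hj, A, h⟩ := h
    obtain ⟨x, hx⟩ : ∃ x, A x ≠ 0 := by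
      by_contra! h0
      exact n0 (by rw [h, show A = 0 from LinearMap.ext h0, map_zero])
    refine ⟨j, hj, Φ.uniq S G G' hA hR hj hx (Submodule.eq_of_le_of_finrank_eq (fun w hw => ?_)
      (finrank_T_eq _ _ hx (S.c0 hR))).symm⟩
    obtain ⟨φ, hφ⟩ := Module.Projective.exists_dual_eq_one F hx
    have := rk_mem_T (ρ := ρ') (Submodule.mem_span_singleton_self c') ψ' (ρ j (φ.smulRight x) w)
    rwa [h, rho_mul, show A * φ.smulRight x = φ.smulRight (A x) by ext; simp, rk_self hφ hw] at this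
  · obtain ⟨μ, hμ⟩ := Φ.cent _ (hA (ψ'.smulRight c')) fun i hi =>
      (small_root S hR e (h1 i hi)).resolve_left fun hh => h ⟨i, hi, hh⟩
    obtain ⟨v, hv⟩ := exists_ne (0 : V)
    have := rk_rk (ρ := ρ') (S.fl hR) v
    simp only [hμ, LinearMap.smul_apply, End.one_apply, smul_smul, smul_eq_zero, hv, or_false,
      mul_self_eq_zero] at this
    exact (n0 (by simp [hμ, this])).elim

end Fam

/-- A group in which all factors are rigid permutes the factors. -/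
theorem Fam.le_NF (S : RS D) (hB : ∀ Y ≤ X, ∀ H, ∀ i ∈ s, Un D Y H (ρ i) → Y ≤ H) (Φ : Fam ρ s 𝒜) (hX : ∀ g ∈ X, (g : End F V) ∈ 𝒜)
    (G : ∀ i ∈ s, Good D X (ρ i)) : X ≤ NF ρ s := by
  induction s using Finset.strongInduction generalizing X 𝒜 with
  | H s ih =>
  have hA : ∀ g ∈ X, ∀ i ∈ s, ∀ A, cj g (ρ i) A ∈ 𝒜 := fun g hg i hi A =>
    𝒜.mul_mem (𝒜.mul_mem (hX g hg) (Φ.mem i hi A)) (hX _ (X.inv_mem hg))
  have nz : ∀ {g i j}, Nz (cj g (ρ i)) (ρ j) 1 → Nz (ρ i) (ρ j) g := fun h => by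
    simpa using h.mul nz_cj
  have K : ∀ g ∈ X, ∀ i ∈ s, ∀ j ∈ s, Nz (ρ i) (ρ j) g → g ∈ NF ρ s := by
    intro g hg i hi j hj h k hk
    rcases eq_or_ne k i with rfl | hki
    · exact ⟨j, hj, h⟩
    have hle := ih _ (Finset.erase_ssubset hj) (X := X ⊓ cen (ρ j))
      (fun Y hY H l hl => hB Y (hY.trans inf_le_left) H l (Finset.mem_of_mem_erase hl)) (Φ.erase hj)
      (fun y hy => ⟨hX y hy.1, by rintro _ ⟨B, rfl⟩; exact (hy.2 B).symm⟩) fun l hl =>
      (G l (Finset.mem_of_mem_erase hl)).mono inf_le_left fun c ψ hc => by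
        obtain ⟨r, hr, e⟩ := (G l (Finset.mem_of_mem_erase hl)).mem c ψ hc
        exact ⟨r, ⟨hr, fun B => LinearMap.ext fun v => by
          simpa [e] using LinearMap.congr_fun (Φ.comm l (Finset.mem_of_mem_erase hl) j hj
            (Finset.ne_of_mem_erase hl) _ B).eq v⟩, e⟩
    obtain ⟨c, ψ, hc⟩ := S.exists_root
    obtain ⟨t, ht, e⟩ := ((G k hk).cj hg).mem c ψ hc
    have hc' : t ∈ cen (ρ j) := fun B => LinearMap.ext fun v => by
      obtain ⟨B', e'⟩ := h.inv B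
      have := LinearMap.congr_fun (Φ.comm k hk i hi hki (ψ.smulRight c) B').eq (g⁻¹ v)
      simp only [End.mul_apply, LinearEquiv.coe_coe, e, map_add, add_right_inj, cj_apply] at this ⊢
      rw [e', this, ← inv_app g (ρ k _ _), ← e', app_inv, inv_app]
    obtain ⟨l, hl, h'⟩ := Φ.recog S G ((G k hk).cj hg) (hA g hg k hk) hc ht e fun l hl => by
      rcases eq_or_ne l j with rfl | hlj
      · exact ⟨l, hl, nz_of_comm hc'⟩
      · exact (hle ⟨ht, hc'⟩ l (Finset.mem_erase.2 ⟨hlj, hl⟩)).imp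
          fun _ h => ⟨Finset.mem_of_mem_erase h.1, h.2⟩
    exact ⟨l, hl, nz h'⟩
  rcases s.eq_empty_or_nonempty with rfl | ⟨i, hi⟩
  · exact fun g _ i hi => absurd hi (by simp)
  refine hB X le_rfl _ i hi ⟨G i hi, fun g hg c ψ hc t e h => ?_, fun y hy h => ?_,
    fun y hy c ψ hc c' h => ?_⟩
  · obtain ⟨t', ht, e'⟩ := (G i hi).mem c ψ hc
    obtain rfl : t' = t := LinearEquiv.ext fun v => (e' v).trans (e v).symm
    obtain ⟨l, hl, h'⟩ := Φ.recog S G ((G i hi).cj hg) (hA g hg i hi) hc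
      (X.mul_mem (X.mul_mem hg ht) (X.inv_mem hg)) (fun v => by simp [e, app_inv, cj_apply]) h
    exact K g hg i hi l hl (nz h')
  · obtain ⟨j, hj, h⟩ := h i hi
    rcases eq_or_ne j i with rfl | hji
    · exact Or.inl h
    · exact Or.inr fun A B => by
        obtain ⟨A', e⟩ := h.cj_eq A
        exact e ▸ Φ.comm j hj i hi hji A' B
  · have h1 : T (cj y (ρ i)) (F ∙ c) ≤ T (ρ i) (F ∙ c') := fun w hw => by
      simpa [app_inv] using h _ (mem_T_cj.1 hw)
    have c0 : c' ≠ 0 := by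
      rintro rfl
      obtain ⟨w, hw, w0⟩ := exists_mem_T (cj y (ρ i)) (S.c0 hc)
      exact w0 (T_bot (by simpa using h1 hw))
    exact K y hy i hi i hi (nz (Φ.uniq S G ((G i hi).cj hy) (hA y hy i hi) hc hi c0
      (Submodule.eq_of_le_of_finrank_eq h1 (finrank_T_eq _ _ (S.c0 hc) c0))))

end CL.Wr
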