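/-
Tensor powers: pure tensors, the group permuting the factors, and the transfer to matrices.
-/
import Mathlib
import Cfsg.Agent.CLAS.Wr4

set_option autoImplicit false
set_option linter.unusedSectionVars false

namespace CL.Wr

open Module CL.ExtF CL.Tens Function

attribute [-simp] LinearEquiv.coe_inv

variable {F : Type*} [Field F] {V₁ V : Type*} [AddCommGroup V₁] [Module F V₁] [AddCommGroup V]
  [Module F V]

/-- The action of `GL(V₁)` through a factor. -/
def un (σ : Rep F V₁ V) : (V₁ ≃ₗ[F] V₁) →* (V ≃ₗ[F] V) where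
  toFun g := LinearEquiv.ofLinearMap (σ g) (σ (g⁻¹ : V₁ ≃ₗ[F] V₁))
    (by rw [← End.mul_eq_comp, ← map_mul, ← LinearEquiv.coe_toLinearMap_mul, mul_inv_cancel]
        exact map_one σ)
    (by rw [← End.mul_eq_comp, ← map_mul, ← LinearEquiv.coe_toLinearMap_mul, inv_mul_cancel]
        exact map_one σ)
  map_one' := LinearEquiv.ext fun v => LinearMap.congr_fun (map_one σ) v
  map_mul' _ _ := LinearEquiv.ext fun v => LinearMap.congr_fun (map_mul σ _ _) v

theorem un_apply (σ : Rep F V₁ V) (g : V₁ ≃ₗ[F] V₁) (v : V) : un σ g v = σ g v := rfl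

theorem un_inv_apply (σ : Rep F V₁ V) (g : V₁ ≃ₗ[F] V₁) (v : V) :
    (un σ g)⁻¹ v = σ (g⁻¹ : V₁ ≃ₗ[F] V₁) v := rfl

variable {I : Type*} [Fintype I] [DecidableEq I] {ρ : I → Rep F V₁ V} {π : (I → V₁) → V}

/-- `V` is the tensor power of `V₁` with pure tensors `π xs` and factors `ρ i`. -/
structure PT (ρ : I → Rep F V₁ V) (π : (I → V₁) → V) : Prop where
  app : ∀ i A xs, ρ i A (π xs) = π (update xs i (A (xs i)))
  span : Submodule.span F (Set.range π) = ⊤
  perm : ∀ σ : Equiv.Perm I, ∃ g : V ≃ₗ[F] V, ∀ xs, g (π xs) = π (xs ∘ σ)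

namespace PT

variable (h : PT ρ π)
include h

theorem ext {M : Type*} [AddCommGroup M] [Module F M] {f g : V →ₗ[F] M}
    (H : ∀ xs, f (π xs) = g (π xs)) : f = g := LinearMap.ext_on_range h.span H

theorem comm {i j : I} (hij : i ≠ j) (A B : End F V₁) : Commute (ρ i A) (ρ j B) :=
  h.ext fun xs => by simp [h.app, hij, hij.symm, update_comm hij]

/-- The product of maps in the factors. -/
def pr (s : Finset I) (As : I → End F V₁) : End F V :=
  s.noncommProd (fun i => ρ i (As i)) fun _ _ _ _ hij => h.comm hij _ _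

theorem pr_insert {s : Finset I} {j : I} (hj : j ∉ s) (As : I → End F V₁) :
    h.pr (insert j s) As = ρ j (As j) * h.pr s As :=
  Finset.noncommProd_insert_of_notMem _ _ _ _ hj

theorem pr_app (s : Finset I) (As : I → End F V₁) (xs : I → V₁) :
    h.pr s As (π xs) = π fun i => if i ∈ s then As i (xs i) else xs i := by
  induction s using Finset.induction_on with
  | empty => simp; rfl
  | insert j s hj ih =>
    rw [h.pr_insert hj, End.mul_apply, ih, h.app]
    congr 1
    ext i
    rcases eq_or_ne i j with rfl | e <;> simp [*]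

theorem pr_univ (As : I → End F V₁) (xs : I → V₁) :
    h.pr Finset.univ As (π xs) = π fun i => As i (xs i) := by simp [h.pr_app]

theorem pr_comm {ξ : End F V} {s : Finset I} (H : ∀ i ∈ s, ∀ A, Commute ξ (ρ i A))
    (As : I → End F V₁) : Commute ξ (h.pr s As) :=
  Finset.noncommProd_commute _ _ _ _ fun i hi => H i hi _

theorem smul (s : I → F) (xs : I → V₁) : π (fun i => s i • xs i) = (∏ i, s i) • π xs := by
  have : ∀ S : Finset I, h.pr S (fun i => s i • 1) = (∏ i ∈ S, s i) • 1 := fun S => by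
    induction S using Finset.induction_on with
    | empty => simp; rfl
    | insert j S hj ih => simp [h.pr_insert hj, ih, hj, smul_smul, mul_comm]
  simpa [this] using (h.pr_univ (fun i => s i • 1) xs).symm

theorem pr_rk (φ : I → Dual F V₁) (xs : I → V₁) (v : V) :
    h.pr Finset.univ (fun i => (φ i).smulRight (xs i)) v ∈ F ∙ π xs := by
  refine (Submodule.span_le.2 ?_ : _ ≤ (F ∙ π xs).comap (h.pr Finset.univ _)) (h.span.ge trivial)
  rintro _ ⟨ys, rfl⟩
  simp [h.pr_univ, h.smul, Submodule.smul_mem]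

theorem pure_ne [Nontrivial V] {xs : I → V₁} (H : ∀ i, xs i ≠ 0) : π xs ≠ 0 := fun h0 => by
  choose φ hφ using fun i => Module.Projective.exists_dual_eq_one F (H i)
  refine one_ne_zero (α := End F V) (h.ext fun ys => ?_)
  simpa [h0, hφ] using (h.pr_univ (fun i => (φ i).smulRight (ys i)) xs).symm

variable [FiniteDimensional F V₁] [Nontrivial V₁]

theorem fam : Fam ρ Finset.univ ⊤ where
  mem _ _ _ := trivial
  comm _ _ _ _ := h.comm
  cent ξ _ H := by
    obtain ⟨x, hx⟩ := exists_ne (0 : V₁)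
    obtain ⟨φ, hφ⟩ := Module.Projective.exists_dual_eq_one F hx
    have e : ∀ ys : I → V₁, ξ (π ys) = h.pr Finset.univ (fun i => φ.smulRight (ys i))
        (ξ (π fun _ => x)) := fun ys => by
      simpa [h.pr_univ, hφ] using
        LinearMap.congr_fun (h.pr_comm H fun i => φ.smulRight (ys i)).eq (π fun _ => x)
    obtain ⟨μ, hμ⟩ := Submodule.mem_span_singleton.1
      (h.pr_rk (fun _ => φ) (fun _ => x) (ξ (π fun _ => x)))
    exact ⟨μ, h.ext fun ys => by rw [e ys, e fun _ => x, ← hμ]; simp [h.pr_univ, hφ]⟩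

omit [FiniteDimensional F V₁] [Nontrivial V₁] in
theorem nz_of {g : V ≃ₗ[F] V} {σ : Equiv.Perm I} {D : I → V₁ ≃ₗ[F] V₁}
    (H : ∀ xs, g (π xs) = π fun i => D i (xs (σ i))) (i : I) (A : End F V₁) (v : V) :
    g (ρ (σ i) A v) = ρ i ((D i : End F V₁) * A * ((D i)⁻¹ : V₁ ≃ₗ[F] V₁)) (g v) := by
  refine LinearMap.congr_fun (h.ext (f := (g : End F V) * ρ (σ i) A) (g := ρ i _ * g) fun xs => ?_) v
  simp only [End.mul_apply, LinearEquiv.coe_coe, h.app, H, inv_app]
  congr 1
  ext j
  rcases eq_or_ne j i with rfl | e <;> simp [*]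

variable [Finite F] [FiniteDimensional F V] [Nontrivial V]

theorem mem_NF_iff [Nonempty I] (h2 : 2 ≤ finrank F V₁) {g : V ≃ₗ[F] V} : g ∈ NF ρ Finset.univ ↔
    ∃ (σ : Equiv.Perm I) (D : I → V₁ ≃ₗ[F] V₁), ∀ xs, g (π xs) = π fun i => D i (xs (σ i)) := by
  refine ⟨fun hg => ?_, fun ⟨σ, D, H⟩ i _ => ⟨σ.symm i, Finset.mem_univ _, fun A =>
    ⟨_, fun v => σ.apply_symm_apply i ▸ h.nz_of H (σ.symm i) A v⟩⟩⟩
  choose f _ hf using fun i => hg i (Finset.mem_univ i)
  have hi : Injective f := fun i j e => by_contra fun hij => by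
    obtain ⟨x, hx⟩ := exists_ne (0 : V₁)
    obtain ⟨y, hy⟩ : ∃ y, y ∉ F ∙ x := by
      by_contra! H
      have := finrank_span_singleton (K := F) hx
      rw [Submodule.eq_top_iff'.2 H, finrank_top] at this
      omega
    obtain ⟨φ, p1, p2⟩ := CL.Tv.exists_dual_one_zero hy
    obtain ⟨A, hA⟩ := ((hf j).inv.mul (e ▸ hf i)) (φ.smulRight x)
    simp only [inv_mul_cancel, LinearEquiv.coe_one, id_eq] at hA
    have h1 := LinearMap.congr_fun (rho_inj (ρ i) (a₁ := φ.smulRight x * φ.smulRight y)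
      (a₂ := φ.smulRight y * φ.smulRight x) (by
        rw [map_mul, map_mul, LinearMap.ext hA]; exact (h.comm hij _ _).symm)) y
    simp [p1, p2, hx] at h1
  let σ := (Equiv.ofBijective f (Finite.injective_iff_bijective.1 hi)).symm
  choose D hD using fun i => (show Nz (ρ (σ i)) (ρ i) g by
    simpa [σ, Equiv.ofBijective_apply_symm_apply] using
      (Equiv.ofBijective_apply_symm_apply f _ i ▸ hf (σ i) :)).exists_equiv
  obtain ⟨p, hp⟩ := h.perm σ
  let E := h.pr Finset.univ fun i => ((D i)⁻¹ : V₁ ≃ₗ[F] V₁)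
  let k : End F V := E * g
  have hk : ∀ i A v, k (ρ (σ i) A v) = ρ i A (k v) := fun i A v => by
    have : ∀ B : End F V₁, E * ρ i ((D i : End F V₁) * B * ((D i)⁻¹ : V₁ ≃ₗ[F] V₁)) =
        ρ i B * E := fun B => h.ext fun xs => by
      simp only [End.mul_apply, h.app, E, h.pr_univ]
      congr 1
      ext j
      rcases eq_or_ne j i with rfl | e <;> simp [*, inv_app]
    simpa [k, hD] using LinearMap.congr_fun (this A) (g v)
  obtain ⟨μ, hμ⟩ := h.fam.cent (k * (p⁻¹ : V ≃ₗ[F] V)) trivial fun i _ A => LinearMap.ext fun v => by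
    have := h.nz_of (D := 1) hp i A (p⁻¹ v)
    simp only [app_inv, Pi.one_apply, inv_one, LinearEquiv.coe_toLinearMap_one] at this
    simp only [End.mul_apply, LinearEquiv.coe_coe, ← hk]
    exact congrArg k (inv_app_eq this)
  have e : ∀ xs, g (π xs) = μ • π fun i => D i (xs (σ i)) := fun xs => by
    have h1 := congrArg (h.pr Finset.univ fun i => D i) (LinearMap.congr_fun hμ (p (π xs)))
    have h2 : h.pr Finset.univ (fun i => D i) * E = 1 :=
      h.ext fun xs => by simp [E, h.pr_univ, app_inv]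
    rw [End.mul_apply, LinearEquiv.coe_coe, inv_app, hp] at h1
    simpa [k, h.pr_univ, ← End.mul_apply (h.pr _ _), h2] using h1
  have μ0 : μ ≠ 0 := by
    rintro rfl
    obtain ⟨x, hx⟩ := exists_ne (0 : V₁)
    exact h.pure_ne (fun _ => hx) (g.injective (by simp [e]))
  obtain ⟨i⟩ := ‹Nonempty I›
  refine ⟨σ, update D i (LinearEquiv.smulOfNeZero F V₁ μ μ0 * D i), fun xs => ?_⟩
  have := h.smul (update (1 : I → F) i μ) fun i => D i (xs (σ i))
  rw [show ∏ j, update (1 : I → F) i μ j = μ by simp [Finset.prod_update_of_mem]] at this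
  rw [e, ← this]
  congr 1
  ext j
  rcases eq_or_ne j i with rfl | e <;> simp [*]

omit [Nontrivial V₁] in
theorem exists_perm (σ : Equiv.Perm I) : ∃ g ∈ NF ρ Finset.univ, (∀ xs, g (π xs) = π (xs ∘ σ)) ∧
    ∀ i A v, g (ρ (σ i) A v) = ρ i A (g v) := by
  obtain ⟨g, hg⟩ := h.perm σ
  have e : ∀ i A v, g (ρ (σ i) A v) = ρ i A (g v) := fun i A v => h.nz_of (D := 1) hg i A v
  exact ⟨g, fun i _ => ⟨σ.symm i, Finset.mem_univ _, fun A =>
    ⟨A, by simpa using e (σ.symm i) A⟩⟩, hg, e⟩

end PT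

omit [Fintype I] in
theorem Fam.un_mem [FiniteDimensional F V₁] [Finite F] [FiniteDimensional F V] {s : Finset I}
    {𝒜 : Subalgebra F (End F V)} (Φ : Fam ρ s 𝒜) {i : I} (hi : i ∈ s) (g : V₁ ≃ₗ[F] V₁) :
    un (ρ i) g ∈ NF ρ s := fun j hj => ⟨j, hj, by
  rcases eq_or_ne i j with rfl | e
  · exact fun A => ⟨(g : End F V₁) * A * (g⁻¹ : V₁ ≃ₗ[F] V₁), fun v => by
      simp only [un_apply, rho_mul]; congr 2; ext; simp [inv_app]⟩
  · exact nz_of_comm (Φ.comm i hi j hj e g)⟩

section Matrices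

open Matrix Cfsg Cfsg.Geo CL.Tv CL.Asch

variable {ι κ J : Type} [Fintype ι] [DecidableEq ι] [Fintype κ] [DecidableEq κ] [Fintype J]
  [DecidableEq J]

/-- The standard factors of `(J → κ) → F`. -/
def rho0 (i : J) : Rep F (κ → F) ((J → κ) → F) :=
  AlgHom.ofLinearMap
    { toFun := fun A =>
        { toFun := fun v a => A (fun k => v (update a i k)) (a i)
          map_add' := fun v w => funext fun a => congrFun (A.map_add _ _) _
          map_smul' := fun s v => funext fun a => congrFun (A.map_smul s _) _ }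
      map_add' := fun _ _ => rfl
      map_smul' := fun _ _ => rfl }
    (by ext; simp) fun A B => by ext; simp

/-- The standard pure tensors. -/
def pi0 (xs : J → κ → F) : (J → κ) → F := fun a => ∏ i, xs i (a i)

theorem pi0_single (a : J → κ) : pi0 (fun i => Pi.single (a i) (1 : F)) = Pi.single a 1 := by
  ext b
  simp only [pi0, Pi.single_apply, Finset.prod_boole, Finset.mem_univ, forall_const, ← funext_iff]

theorem pt0' : PT (rho0 (F := F) (κ := κ) (J := J)) pi0 where
  app i A xs := funext fun a => by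
    have e : ∀ ys : J → κ → F, ∀ b, pi0 ys b = (∏ j ∈ Finset.univ.erase i, ys j (b j)) * ys i (b i) :=
      fun ys b => (Finset.prod_erase_mul _ _ (Finset.mem_univ i)).symm
    have : (fun k => pi0 xs (update a i k)) = (∏ j ∈ Finset.univ.erase i, xs j (a j)) • xs i := by
      ext k
      simp only [e, update_self, Pi.smul_apply, smul_eq_mul]
      rw [Finset.prod_congr rfl fun j hj => by rw [update_of_ne (Finset.ne_of_mem_erase hj)]]
    change A (fun k => pi0 xs (update a i k)) (a i) = _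
    rw [this, e, update_self, map_smul]
    rw [Pi.smul_apply, smul_eq_mul]
    congr 1
    exact Finset.prod_congr rfl fun j hj => by rw [update_of_ne (Finset.ne_of_mem_erase hj)]
  span := top_le_iff.1 ((Pi.basisFun F _).span_eq.ge.trans (Submodule.span_mono (by
    rintro _ ⟨a, rfl⟩
    exact ⟨_, (pi0_single a).trans (by simp)⟩)))
  perm σ := ⟨LinearEquiv.funCongrLeft F F (σ.arrowCongr (Equiv.refl κ)), fun xs => funext fun a =>
    (Equiv.prod_comp σ _).symm.trans (by simp [pi0])⟩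

omit [Fintype I] in
theorem PT.map {V' : Type*} [AddCommGroup V'] [Module F V'] (h : PT ρ π) (θ : V ≃ₗ[F] V') :
    PT (fun i => (θ.conjAlgEquiv F).toAlgHom.comp (ρ i)) (θ ∘ π) where
  app i A xs := by simp [h.app]
  span := by
    rw [Set.range_comp, ← LinearEquiv.coe_coe, ← Submodule.map_span, h.span, Submodule.map_top,
      θ.range]
  perm σ := (h.perm σ).elim fun g hg => ⟨θ.symm.trans (g.trans θ), fun xs => by simp [hg]⟩

/-- The change of coordinates given by `e` and `P`. -/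
noncomputable def crd (e : ι ≃ (J → κ)) (P : GL ι F) : ((J → κ) → F) ≃ₗ[F] (ι → F) :=
  (LinearEquiv.funCongrLeft F F e).trans (act P)

theorem crd_apply (e : ι ≃ (J → κ)) (P : GL ι F) (x : (J → κ) → F) :
    crd e P x = (P : Matrix ι ι F) *ᵥ (x ∘ e) := rfl

/-- The factors transported along `e` and `P`. -/
noncomputable def rhoT (e : ι ≃ (J → κ)) (P : GL ι F) (i : J) : Rep F (κ → F) (ι → F) :=
  ((crd e P).conjAlgEquiv F).toAlgHom.comp (rho0 i)

theorem ptT (e : ι ≃ (J → κ)) (P : GL ι F) : PT (rhoT e P) (crd e P ∘ pi0) := pt0'.map _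

theorem act_coord (e : ι ≃ (J → κ)) (P : GL ι F) (g : GL (J → κ) F) (x : (J → κ) → F) :
    act (coordGL e P g) (crd e P x) = crd e P (act g x) := by
  rw [crd_apply, crd_apply, act_apply, coe_coordGL, coord_apply, ← mulVec_mulVec, ← mulVec_mulVec,
    inv_mulVec_mulVec, submatrix_mulVec_equiv]
  simp [act_apply, comp_assoc]

theorem mem_wreath_iff [Finite F] {m t : ℕ} (hm : 2 ≤ m) (ht : 0 < t) (e : ι ≃ (Fin t → Fin m))
    (P g : GL ι F) : g ∈ tensorWreathSubgroup m t e P ↔ act g ∈ NF (rhoT e P) Finset.univ := by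
  have : NeZero m := ⟨by omega⟩
  have : NeZero t := ⟨by omega⟩
  have : Nonempty ι := ⟨e.symm 0⟩
  obtain ⟨g, rfl⟩ := (coordGL e P).surjective g
  have key : ∀ g, act (coordGL e P g) ∈ NF (rhoT e P) Finset.univ ↔ ∃ (σ : Equiv.Perm (Fin t))
      (D : Fin t → (Fin m → F) ≃ₗ[F] (Fin m → F)),
        ∀ xs, act g (pi0 xs) = pi0 fun i => D i (xs (σ i)) := fun g => by
    simp [(ptT e P).mem_NF_iff (by simpa using hm), act_coord]
  have ent : ∀ (g : GL (Fin t → Fin m) F) x y,
      g.1 x y = act g (pi0 fun i => Pi.single (y i) 1) x := fun g x y => by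
    simp [pi0_single, act_apply]
  rw [tensorWreathSubgroup, mem_map_coord, MulEquiv.symm_apply_apply]
  refine ⟨fun hg => (Subgroup.closure_le ((NF _ _).comap ((CL.Root.actE ι F).toMonoidHom.comp
    (coordGL e P).toMonoidHom))).2 (fun g hg => (key g).2 ?_) hg, fun hg => ?_⟩
  · rcases hg with ⟨gs, h⟩ | ⟨σ, h⟩
    · refine ⟨1, fun i => act (gs i), fun xs => funext fun a => ?_⟩
      simp [act_apply, mulVec, dotProduct, h, pi0, Finset.prod_univ_sum, Finset.prod_mul_distrib]
    · refine ⟨σ.symm, 1, fun xs => funext fun a => ?_⟩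
      rw [pi0, ← Equiv.prod_comp σ]
      simp [act_apply, mulVec, dotProduct, h, pi0]
  · obtain ⟨σ, D, h⟩ := (key g).1 hg
    obtain ⟨p, hp⟩ := (pt0' (F := F) (κ := Fin m)).perm σ
    rw [← inv_mul_cancel_right g (ofLin p)]
    refine Subgroup.mul_mem _ (Subgroup.subset_closure (Or.inl ⟨fun i => ofLin (D i), fun x y => ?_⟩))
      (Subgroup.subset_closure (Or.inr ⟨σ.symm, fun x y => ?_⟩))
    · rw [ent, act_mul, act_inv, act_ofLin, show p.symm _ = pi0 fun i => Pi.single (y (σ.symm i)) 1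
        from p.symm_apply_eq.2 (by rw [hp]; congr; ext; simp), h]
      simp [pi0, ← act_ofLin_apply (D _), act_apply]
    · rw [ent, act_ofLin, hp]
      refine (congrFun (pi0_single (y ∘ σ)) x).trans ?_
      simp only [Pi.single_apply, eq_comm (a := y), Equiv.comp_symm_eq]

theorem form_pure {σ : F →+* F} {f : (ι → F) → (ι → F) → F} {k t : ℕ}
    {f₁ : (Fin k → F) → (Fin k → F) → F} {e : ι ≃ (Fin t → Fin k)} {P : GL ι F}
    (hf : ∀ x y, f₁ x y = ∑ a, ∑ b, x a * gramMatrix f₁ a b * σ (y b))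
    (hT : IsTensorPowerFormStructure σ f f₁ e P) : ∃ c : F, c ≠ 0 ∧ ∀ xs ys,
      f ((crd e P ∘ pi0) xs) ((crd e P ∘ pi0) ys) = c * ∏ i, f₁ (xs i) (ys i) :=
  hT.imp fun c h => ⟨h.1, fun xs ys => (h.2 (pi0 xs) (pi0 ys)).trans (by
    simp only [hf, pi0, Finset.prod_univ_sum, Finset.prod_mul_distrib, map_prod,
      Fintype.piFinset_univ])⟩

end Matrices

end CL.Wr
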