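/-
Tensor powers in the linear group: levels, and maximality of the tensor wreath subgroup in `SL`.
-/
import Mathlib
import Cfsg.Agent.CLAS.Wr5

set_option autoImplicit false
set_option linter.unusedSectionVars false

namespace CL.Wr

open Module CL.ExtF CL.Tens Function

attribute [-simp] LinearEquiv.coe_inv

theorem even_of_quad {F : Type*} [Field F] {s n : F} (hs : ∀ l : F, l * l - s * l + n ≠ 0) (k : ℕ)
    {V : Type*} [AddCommGroup V] [Module F V] [FiniteDimensional F V] (hk : finrank F V = k)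
    {b : End F V} (hb : ∀ v, n • b (b v) - s • b v + v = 0) : Even k := by
  induction k using Nat.strong_induction_on generalizing V with
  | _ k ih =>
  rcases subsingleton_or_nontrivial V with h | h
  · simp [← hk, finrank_zero_of_subsingleton]
  obtain ⟨v, hv⟩ := exists_ne (0 : V)
  have h1 : b v ∉ F ∙ v := fun h => by
    obtain ⟨l, hl⟩ := Submodule.mem_span_singleton.1 h
    have h2 : n * l * l - s * l + 1 = 0 := smul_left_injective F hv (by
      have := hb v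
      simp only [← hl, map_smul] at this
      linear_combination (norm := module) this)
    have l0 : l ≠ 0 := by rintro rfl; simp at h2
    exact hs l⁻¹ (by field_simp; linear_combination h2)
  have n0 : n ≠ 0 := by rintro rfl; exact hs 0 (by simp)
  let W := (F ∙ v) ⊔ F ∙ b v
  have m1 : v ∈ W := Submodule.mem_sup_left (Submodule.mem_span_singleton_self v)
  have m2 : b v ∈ W := Submodule.mem_sup_right (Submodule.mem_span_singleton_self _)
  have hW : W ≤ W.comap b := sup_le ((Submodule.span_singleton_le_iff_mem _ _).2 m2)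
    ((Submodule.span_singleton_le_iff_mem _ _).2 ((W.smul_mem_iff n0).1 (by
      convert W.sub_mem (W.smul_mem s m2) m1 using 1
      linear_combination (norm := module) hb v)))
  have h2 := W.finrank_quotient_add_finrank
  rw [Submodule.finrank_sup_span_singleton h1, finrank_span_singleton hv, hk] at h2
  rw [← h2]
  exact (ih _ (by omega) rfl (b := W.mapQ W b hW) fun v => by
    obtain ⟨v, rfl⟩ := W.mkQ_surjective v
    simpa using congrArg W.mkQ (hb v)).add even_two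

variable {F : Type*} [Field F] {V₁ V : Type*} [AddCommGroup V₁] [Module F V₁] [AddCommGroup V]
  [Module F V] [FiniteDimensional F V₁] {X Z : Subgroup (V ≃ₗ[F] V)} {σ σ' : Rep F V₁ V}
  {g z : V ≃ₗ[F] V} {c : V₁} {ψ : Dual F V₁} {ξ η : End F V}

theorem exists_dual_kill {k : ℕ} (x : Fin k → V₁) (h : k < finrank F V₁) :
    ∃ φ : Dual F V₁, φ ≠ 0 ∧ ∀ i, φ (x i) = 0 :=
  have ⟨φ, h1, h2⟩ := Submodule.exists_mem_ne_zero_of_ne_bot (LinearMap.ker_ne_bot_of_finrank_lt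
    (f := LinearMap.pi fun i => Dual.eval F V₁ (x i)) (by simpa using h))
  ⟨φ, h2, congrFun h1⟩

theorem comm_of_T [Nontrivial V₁] [FiniteDimensional F V]
    (H : ∀ c, ∀ w ∈ T σ (F ∙ c), ξ w ∈ T σ (F ∙ c)) (A : End F V₁) : Commute ξ (σ A) := by
  obtain ⟨U, τ, h⟩ := exists_tn σ
  obtain ⟨x, hx⟩ := exists_ne (0 : V₁)
  obtain ⟨χ, hχ⟩ := Module.Projective.exists_dual_eq_one F hx
  refine h.comm_of_left (B := ct h.tp χ ∘ₗ ξ ∘ₗ τ.flip x) (fun u y => ?_) A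
  refine sub_eq_zero.1 (eq_zero_of_ct (flip h.tp) fun α => ?_)
  obtain ⟨s, hs⟩ := exists_smul_of_mem_span (f := cl h.tp α ∘ₗ ξ ∘ₗ τ u) fun y =>
    h.mem_T_cl.1 (H y _ (h.pure_T u (Submodule.mem_span_singleton_self y))) α
  change cl h.tp α _ = 0
  simp only [LinearMap.comp_apply] at hs
  simp [hs, ← ct_comm, hχ]

theorem gen_flag (h2 : 2 ≤ finrank F V₁) (S : Subalgebra F (End F V₁))
    (H : ∀ c (ψ : Dual F V₁), ψ c = 0 → ψ.smulRight c ∈ S) : S = ⊤ := by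
  refine eq_top_iff.2 fun A _ => sum_rk' A ▸ S.sum_mem fun i _ => ?_
  generalize (finBasis F V₁).coord i = φ, A (finBasis F V₁ i) = x
  by_cases h : φ x = 0
  · exact H x φ h
  obtain ⟨y, hy, y0⟩ := Submodule.exists_mem_ne_zero_of_ne_bot (p := LinearMap.ker φ) fun e => by
    have := Module.Dual.finrank_ker_add_one_of_ne_zero (f := φ) (by rintro rfl; simp at h)
    rw [e, finrank_bot] at this; omega
  obtain ⟨χ, p1, p2⟩ := CL.Tv.exists_dual_one_zero (notMem_span_symm y0 fun hx : x ∈ F ∙ y =>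
    h ((Submodule.span_singleton_le_iff_mem _ _).2 hy hx))
  simpa [rk_mul, p1] using S.mul_mem (H x χ p2) (H y φ hy)

variable (F V₁) in
/-- The root data of `SL`. -/
def slD : RD F V₁ := ⟨fun c ψ => c ≠ 0 ∧ ψ ≠ 0 ∧ ψ c = 0, finrank F V₁ = 3, False⟩

theorem slRS (h3 : 3 ≤ finrank F V₁) : RS (slD F V₁) where
  c0 h := h.1
  ψ0 h := h.2.1
  fl h := h.2.2
  gen S H := gen_flag (by omega) S fun c ψ h => by
    rcases eq_or_ne c 0 with rfl | hc
    · simp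
    rcases eq_or_ne ψ 0 with rfl | hψ
    · simp
    exact H c ψ ⟨hc, hψ, h⟩
  dim := Or.inl h3
  sw _ _ := Or.inl fun _ _ h1 h2 h3 => ⟨h1, h2, h3⟩

theorem slBC (h3 : 3 ≤ finrank F V₁) : BC (slD F V₁) := Or.inl fun c ψ ⟨c0, ψ0, h⟩ => by
  have rl : ∀ d ∈ F ∙ c, d ≠ 0 → ∀ φ : Dual F V₁, φ ≠ 0 → φ c = 0 → RL (slD F V₁) (F ∙ c) d φ :=
    fun d hd d0 φ φ0 h =>
      have : F ∙ c ≤ LinearMap.ker φ := (Submodule.span_singleton_le_iff_mem _ _).2 h
      ⟨⟨d0, φ0, this hd⟩, hd, this⟩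
  have m := Submodule.mem_span_singleton_self (R := F) c
  have al : ∀ x, ∃ d φ, RL (slD F V₁) (F ∙ c) d φ ∧ φ x = 0 := fun x =>
    have ⟨φ, h1, h2, h3⟩ := exists_dual_two h3 c x
    ⟨c, φ, rl c m c0 φ h1 h2, h3⟩
  obtain ⟨d, d1, d2⟩ := exists_ker_notMem h3 ψ c
  refine ⟨_, m, ⟨fun d hd d0 => ⟨ψ, rl d hd d0 ψ ψ0 h⟩, ?_, ⟨c, ψ, rl c m c0 ψ ψ0 h, d, d2, d1⟩,
    fun A _ _ => ?_⟩, al⟩
  · obtain ⟨φ, p1, p2⟩ := CL.Tv.exists_dual_one_zero d2
    exact ⟨c, ψ, c, φ, rl c m c0 ψ ψ0 h, rl c m c0 φ (by rintro rfl; simp at p1) p2, fun e => by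
      simpa [d1, p1, c0] using LinearMap.congr_fun e d⟩
  rcases h3.eq_or_lt with e | e
  · exact Or.inr ⟨e.symm, by rw [finrank_span_singleton c0, ← e], al⟩
  obtain ⟨φ, φ0, hφ⟩ := exists_dual_kill ![c, d, A d] e
  exact Or.inl ⟨d, d2, c, φ, rl c m c0 φ φ0 (hφ 0), hφ 1, hφ 2⟩

theorem has_mul {P Q : End F V} (hP : Has X P) (hQ : Has X Q) (h1 : P * P = 0) (h2 : Q * P = 0) :
    Has X (P * Q) := by
  obtain ⟨s, hs, e⟩ := hQ
  have e1 := LinearMap.congr_fun h1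
  have e2 := LinearMap.congr_fun h2
  simp only [End.mul_apply, LinearMap.zero_apply] at e1 e2
  have h4 : ∀ v, s⁻¹ (P v) = P v := fun v => inv_app_eq (by simp [e, e2])
  exact (Has.sub ((hP.conj (X.inv_mem hs)).congr (η := fun v => P v + P (Q v)) fun v => by
    simp [h4, e]) hP (fun v w => by simp [e1, e2]) fun v w => by simp [e1]).congr fun v => by simp

theorem cm_app (h : ∀ A, Commute ξ (σ A)) (A : End F V₁) (v : V) : ξ (σ A v) = σ A (ξ v) :=
  LinearMap.congr_fun (h A).eq v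

theorem cen_conj (hz : z ∈ cen σ) (A : End F V₁) : z.conjAlgEquiv F (σ A) = σ A :=
  LinearMap.ext fun v => (cm_app hz A _).trans (congrArg (σ A) (app_inv z v))

theorem sub_rk (ψ φ : Dual F V₁) (c : V₁) :
    ((ψ - φ).smulRight c : End F V₁) = ψ.smulRight c - φ.smulRight c := by ext; simp [sub_smul]

theorem un_rk (σ : Rep F V₁ V) (g : V₁ ≃ₗ[F] V₁) (ψ : Dual F V₁) (c : V₁)
    (h : ∀ A, Commute ξ (σ A)) : (un σ g).conjAlgEquiv F (σ (ψ.smulRight c) * ξ) =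
      σ ((ψ ∘ₗ (g⁻¹ : V₁ ≃ₗ[F] V₁)).smulRight (g c)) * ξ := by
  change σ g * (_ * ξ) * σ _ = _
  rw [mul_assoc, mul_assoc, (h _).eq, ← mul_assoc, ← mul_assoc, ← map_mul, ← map_mul]
  congr 2
  ext; simp

/-- `X` contains all transvections of the factor. -/
def SLF (X : Subgroup (V ≃ₗ[F] V)) (σ : Rep F V₁ V) : Prop := HK F (X.comap (un σ))

theorem SLF.has (K : SLF X σ) (h : ψ c = 0) : Has X (σ (ψ.smulRight c)) := by
  obtain ⟨t, ht, -, e⟩ := K.tv h
  exact ⟨_, ht, fun v => by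
    rw [un_apply, show (t : End F V₁) = 1 + ψ.smulRight c from LinearMap.ext e]; simp⟩

theorem SLF.tv (K : SLF X σ) (h : ψ c = 0) : ∃ t ∈ X, (t : End F V) = 1 + σ (ψ.smulRight c) ∧
    ((t⁻¹ : V ≃ₗ[F] V) : End F V) = 1 - σ (ψ.smulRight c) :=
  have ⟨t, ht, e⟩ := K.has h
  ⟨t, ht, LinearMap.ext e, LinearMap.ext (quad_inv e (rk_rk h))⟩

variable (h3 : 3 ≤ finrank F V₁)

/-- The level of `X` for a factor. -/
def Lev (K : SLF X σ) : Subalgebra F (End F V) where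
  carrier := {ξ | (∀ A, Commute ξ (σ A)) ∧
    ∀ c (ψ : Dual F V₁), ψ c = 0 → Has X (σ (ψ.smulRight c) * ξ)}
  mul_mem' {a b} ha hb := ⟨fun A => (ha.1 A).mul_left (hb.1 A), fun c φ h0 => by
    obtain ⟨d, d1, d2⟩ := exists_ker_notMem h3 φ c
    obtain ⟨ψ, p1, p2⟩ := CL.Tv.exists_dual_one_zero d2
    have e : ∀ {a b : End F V} (A B), (∀ A, Commute a (σ A)) →
        σ A * a * (σ B * b) = σ (A * B) * (a * b) := fun {a b} A B h => by
      rw [mul_assoc, ← mul_assoc a, (h B).eq, map_mul, mul_assoc, mul_assoc]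
    simpa [e _ _ ha.1, rk_mul, p1] using has_mul (ha.2 c ψ p2) (hb.2 d φ d1)
      (by simp [e _ _ ha.1, rk_mul, p2]) (by simp [e _ _ hb.1, rk_mul, h0])⟩
  add_mem' {a b} ha hb := ⟨fun A => (ha.1 A).add_left (hb.1 A), fun c ψ h0 =>
    ((ha.2 c ψ h0).add (hb.2 c ψ h0) fun v => by
      simp [cm_app ha.1, rk_rk h0]).congr fun v => by simp⟩
  algebraMap_mem' s := ⟨fun A => Algebra.commutes s _, fun c ψ h0 =>
    (K.has (c := c) (ψ := s • ψ) (by simp [h0])).congr fun v => by simp [smul_rk]⟩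

include h3

theorem mem_Lev (K : SLF X σ) (hξ : ∀ A, Commute ξ (σ A)) (hc : c ≠ 0) (hψ : ψ ≠ 0) (h0 : ψ c = 0)
    (H : Has X (σ (ψ.smulRight c) * ξ)) : ξ ∈ Lev h3 K := ⟨hξ, fun c' φ hφ => by
  rcases eq_or_ne c' 0 with rfl | hc'
  · exact Has.zero.congr fun v => by simp
  refine all_of_flag (P := fun c ψ => Has X (σ (ψ.smulRight c) * ξ)) h3 K
    (fun c ψ φ h1 h2 p1 p2 => ?_) (fun g hg c ψ p => ?_) H hc hψ h0 hc' hφ
  · exact (Has.sub p1 p2 (fun v w => by simp [cm_app hξ, rho_mul, rk_mul, h1])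
      fun v w => by simp [cm_app hξ, rk_rk h2]).congr fun v => by simp [sub_rk]
  · exact (p.conj hg).congr (LinearMap.congr_fun (un_rk σ g ψ c hξ))⟩

omit h3 in
/-- The elements of `X` acting trivially on `U ⊗ c` and its quotient are the obvious ones. -/
def Sc (X : Subgroup (V ≃ₗ[F] V)) (σ : Rep F V₁ V) (c : V₁) : Prop :=
  ∀ η : End F V, Has X η → (∀ v, η v ∈ T σ (F ∙ c)) → (∀ w ∈ T σ (F ∙ c), η w = 0) →
    ∃ ψ : Dual F V₁, ψ c = 0 ∧ η = σ (ψ.smulRight c)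

omit h3 in
theorem Sc.cj (H : Sc X σ c) (hz : z ∈ X) : Sc X (cj z σ) c := fun η h1 h2 h3 => by
  obtain ⟨ψ, h, e⟩ := H (z⁻¹.conjAlgEquiv F η) (h1.conj (X.inv_mem hz))
    (fun v => mem_T_cj.1 (h2 _)) fun w hw =>
      (congrArg (fun v => z⁻¹ v) (h3 (z w) (mem_T_cj.2 (by rwa [inv_app])))).trans (map_zero _)
  exact ⟨ψ, h, LinearMap.ext fun v => by simp [cj_apply, ← e, app_inv]⟩

variable [FiniteDimensional F V] [Nontrivial V]

theorem sc_of_Lev (K : SLF X σ) (hL : ∀ ξ ∈ Lev h3 K, ∃ μ : F, ξ = μ • 1) (hc : c ≠ 0) :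
    Sc X σ c := fun η h1 h2 h4 => by
  obtain ⟨χ, hχ⟩ := Module.Projective.exists_dual_eq_one F hc
  have e : σ (χ.smulRight c) * η = η := LinearMap.ext fun v => rk_self hχ (h2 v)
  choose μ hμ using fun y => hL (cmp σ χ y η) (by
    obtain ⟨φ, f0, f1, f2⟩ := exists_dual_two h3 c y
    refine mem_Lev h3 K cmp_comm hc f0 f1 ?_
    rw [cmp_spec, e]
    exact has_mul h1 (K.has f2) (LinearMap.ext fun v => h4 _ (h2 v)) (LinearMap.ext fun v =>
      rk_T ((Submodule.span_singleton_le_iff_mem _ (LinearMap.ker φ)).2 f1) y (h2 v)))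
  have e2 : η = σ ((∑ k, μ (finBasis F V₁ k) • (finBasis F V₁).coord k).smulRight c) := by
    conv_lhs => rw [← e, ← mul_one (_ * η), ← map_one σ, ← sum_rk, map_sum, Finset.mul_sum]
    simp only [← cmp_spec, hμ, mul_smul_comm, mul_one, ← map_smul, ← map_sum]
    congr 1
    ext; simp [Finset.sum_smul, mul_smul]
  refine ⟨_, ?_, e2⟩
  obtain ⟨w, hw, w0⟩ := exists_mem_T σ hc
  have := h4 w hw
  rw [e2, ← rk_self hχ hw, rho_mul, rk_mul, map_smul, LinearMap.smul_apply, rk_self hχ hw] at this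
  exact (smul_eq_zero.1 this).resolve_right w0

omit h3 in
theorem range_of_sc (K : ∀ c (ψ : Dual F V₁), ψ c = 0 → Has X (σ (ψ.smulRight c)))
    (K' : ∀ c (ψ : Dual F V₁), ψ c = 0 → Has X (σ' (ψ.smulRight c))) (H : Sc X σ c)
    (H' : Sc X σ' c) (hc : c ≠ 0)
    (hW : T σ' (F ∙ c) = T σ (F ∙ c)) {φ : Dual F V₁} (h1 : φ c = 0) {d : V₁} (h2 : φ d = 0) :
    ∃ A, σ' (φ.smulRight d) = σ A := by
  have := nontrivial_of_ne c 0 hc
  have m := Submodule.mem_span_singleton_self (R := F) c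
  have k : ∀ {ψ : Dual F V₁}, ψ c = 0 → ∀ x ∈ F ∙ c, ψ x = 0 := fun {ψ} h =>
    (Submodule.span_singleton_le_iff_mem _ (LinearMap.ker ψ)).2 h
  obtain ⟨U, τ, h⟩ := exists_tn σ
  obtain ⟨χ, hχ⟩ := Module.Projective.exists_dual_eq_one F hc
  obtain ⟨w, hw, w0⟩ := exists_mem_T σ hc
  obtain ⟨u, rfl⟩ := mem_mem.1 (h.T_span c ▸ hw)
  obtain ⟨α, hα⟩ := Module.Projective.exists_dual_eq_one F (show u ≠ 0 by rintro rfl; simp at w0)
  obtain ⟨d', hd⟩ : ∃ d', ∀ ψ ψ' : Dual F V₁, σ (ψ.smulRight c) = σ' (ψ'.smulRight c) →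
      ψ d' = ψ' d := ⟨cl h.tp α (σ' (χ.smulRight d) (τ u c)), fun ψ ψ' e => by
    have := LinearMap.congr_fun e (σ' (χ.smulRight d) (τ u c))
    rw [rho_mul, rk_mul, map_smul, LinearMap.smul_apply, rk_self hχ (hW.ge hw), h.rk,
      ← LinearMap.smul_apply, ← map_smul] at this
    simp [ct_comm, show _ = ψ' d • u from pure_inj h.tp hc this, hα]⟩
  obtain ⟨φ', p1, p2⟩ := H _ (K' c φ h1) (fun v => hW.le (rk_mem_T m φ v))
    fun w hw => rk_T (k h1) c (hW.ge hw)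
  have p3 : φ' d' = 0 := (hd φ' φ p2.symm).trans h2
  have p4 : ∀ v, σ' (φ.smulRight d) (σ (φ'.smulRight d') v) = 0 := fun v => by
    rw [show φ.smulRight d = χ.smulRight d * φ.smulRight c by simp [rk_mul, hχ], ← rho_mul, p2,
      rho_mul σ, rk_mul, p3]; simp
  obtain ⟨ψ, -, e⟩ := H (σ' (φ.smulRight d) - σ (φ'.smulRight d')) ((K' d φ h2).sub (K d' φ' p3)
    (fun v w => by simp [p4]) fun v w => by simp [rk_rk p3])
    (fun v => mem_T_of_rk hc fun ψ hψ => by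
      obtain ⟨ψ', -, e⟩ := H' _ (K c ψ (hψ c m)) (fun v => hW.ge (rk_mem_T m ψ v))
        fun w hw => rk_T hψ c (hW.le hw)
      rw [LinearMap.sub_apply, map_sub, rho_mul σ, rk_mul, hd ψ ψ' e, e, rho_mul, rk_mul, map_smul,
        map_smul, p2, sub_self])
    fun w hw => by simp [rk_T (k h1) d (hW.ge hw), rk_T (k p1) d' hw]
  exact ⟨_, (sub_eq_iff_eq_add.1 e).trans (map_add σ _ _).symm⟩

variable {I : Type*} [DecidableEq I] {ρ : I → Rep F V₁ V} {s : Finset I}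
  {𝒜 Λ : Subalgebra F (End F V)} {i j : I}

theorem Fam.good_sl (Φ : Fam ρ s ⊤) (hi : i ∈ s) (K : SLF X (ρ i))
    (hL : ∀ ξ ∈ Lev h3 K, ∃ μ : F, ξ = μ • 1) (ho : finrank F V₁ = 3 → Odd (finrank F V)) :
    Good (slD F V₁) X (ρ i) where
  mem c ψ h := K.has h.2.2
  sat c ψ h1 h2 h _ := ⟨h1, h2, h.resolve_right id⟩
  nq h y _ A b _ _ s n hs e := Nat.not_even_iff_odd.2 (ho h)
    (even_of_quad hs _ rfl (LinearMap.congr_fun e))
  stab c ψ hc z hz hW A := by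
    have := nontrivial_of_ne c 0 hc.1
    have e : T (cj z (ρ i)) (F ∙ c) = T (ρ i) (F ∙ c) := Submodule.eq_of_le_of_finrank_eq
      (fun w hw => by simpa [app_inv] using hW _ (mem_T_cj.1 hw)) (finrank_T_eq _ _ hc.1 hc.1)
    obtain ⟨A', e'⟩ := Φ.mem_range hi (ξ := cj z (ρ i) A) trivial fun j hj hji B =>
      (comm_of_T (fun d w hw => by
        obtain ⟨φ, f0, f1, f2⟩ := exists_dual_two h3 c d
        obtain ⟨C, hC⟩ := range_of_sc (fun _ _ => K.has) (fun _ _ h => (K.has h).conj hz)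
          (sc_of_Lev h3 K hL hc.1) ((sc_of_Lev h3 K hL hc.1).cj hz) hc.1 e f1 f2
        obtain ⟨v, rfl⟩ := exists_rk f0 hw
        rw [hC, ← End.mul_apply, (Φ.comm j hj i hi hji B C).eq, End.mul_apply, ← hC]
        exact rk_mem_T (Submodule.mem_span_singleton_self d) _ _) A).symm
    exact ⟨A', fun v => by rw [← e', cj_apply, inv_app]⟩

omit h3 in
theorem Fam.le_of (Φ : Fam ρ s 𝒜) (H : ∀ j ∈ s, ∀ A, ρ j A ∈ Λ) : 𝒜 ≤ Λ := by
  induction s using Finset.induction_on generalizing 𝒜 with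
  | empty => exact fun ξ hξ => (Φ.cent ξ hξ (by simp)).elim fun μ e => e ▸ Λ.smul_mem Λ.one_mem μ
  | insert j s hj ih =>
    intro ξ hξ
    have m := Finset.mem_insert_self j s
    rw [← sum_cmp (ρ j) ξ]
    exact Λ.sum_mem fun k _ => Λ.sum_mem fun l _ => Λ.mul_mem (H j m _)
      (ih (𝒜 := _ ⊓ _) (Finset.erase_insert hj ▸ Φ.erase m)
        (fun i hi => H i (Finset.mem_insert_of_mem hi)) ⟨cmp_mem (Φ.mem j m) hξ, by rintro _ ⟨B, rfl⟩; exact (cmp_comm B).symm⟩)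

omit h3 in
/-- Adjoining the identity. -/
def adj1 (J : NonUnitalSubalgebra F (End F V)) : Subalgebra F (End F V) where
  carrier := {ξ | ∃ μ : F, ξ - μ • 1 ∈ J}
  add_mem' := fun ⟨μ, ha⟩ ⟨ν, hb⟩ => ⟨μ + ν, by convert add_mem ha hb using 1; module⟩
  algebraMap_mem' := fun s => ⟨s, by simp [Algebra.algebraMap_eq_smul_one]⟩
  mul_mem' := fun ⟨μ, ha⟩ ⟨ν, hb⟩ => ⟨μ * ν, by
    convert add_mem (mul_mem ha hb) (add_mem (SMulMemClass.smul_mem μ hb)
      (SMulMemClass.smul_mem ν ha)) using 1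
    simp only [mul_sub, sub_mul, smul_mul_assoc, mul_smul_comm, mul_one, one_mul]; module⟩

theorem one_mem_of_adj1 {J : NonUnitalSubalgebra F (End F V)} (hk : ∀ A, σ A ∈ adj1 J) :
    (1 : End F V) ∈ J := by
  have id : ∀ a ∈ adj1 J, ∀ b ∈ J, a * b ∈ J ∧ b * a ∈ J := fun a ⟨μ, ha⟩ b hb =>
    ⟨by simpa [sub_mul] using add_mem (mul_mem ha hb) (SMulMemClass.smul_mem μ hb),
      by simpa [mul_sub] using add_mem (mul_mem hb ha) (SMulMemClass.smul_mem μ hb)⟩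
  have : Nontrivial V₁ := Module.nontrivial_of_finrank_pos (R := F) (by omega)
  obtain ⟨x, hx⟩ := exists_ne (0 : V₁)
  obtain ⟨φ, hφ⟩ := Module.Projective.exists_dual_eq_one F hx
  obtain ⟨ψ, ψ0, p, -⟩ := exists_dual_two h3 x x
  obtain ⟨y, hy⟩ := DFunLike.ne_iff.1 ψ0
  obtain ⟨μ, hμ⟩ := hk (φ.smulRight x)
  have h4 : σ (ψ.smulRight x) ∈ J := by
    convert sub_mem (id _ (hk (ψ.smulRight x)) _ hμ).2 (id _ (hk (ψ.smulRight x)) _ hμ).1 using 1
    simp [mul_sub, sub_mul, ← map_mul, rk_mul, hφ, p]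
  rw [← map_one σ, ← sum_rk, map_sum]
  refine sum_mem fun i _ => ?_
  convert (id _ (hk (φ.smulRight (finBasis F V₁ i))) _ (id _ (hk (((finBasis F V₁).coord i).smulRight
    ((ψ y)⁻¹ • y))) _ h4).2).1 using 1
  simp [← map_mul, rk_mul, hφ, show ψ y ≠ 0 from hy]

/-- An invariant non-scalar algebra contains a factor. -/
theorem Fam.alg (Φ : Fam ρ s 𝒜) (hΛ : Λ ≤ 𝒜) (K : ∀ j ∈ s, SLF Z (ρ j))
    (hA : ∀ z ∈ Z, ∀ ξ ∈ 𝒜, z.conjAlgEquiv F ξ ∈ 𝒜) (hZ : ∀ z ∈ Z, ∀ ξ ∈ Λ, z.conjAlgEquiv F ξ ∈ Λ)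
    (hn : ¬ ∀ ξ ∈ Λ, ∃ μ : F, ξ = μ • 1) :
    ∃ j ∈ s, ∀ A, ρ j A ∈ Λ := by
  induction s using Finset.strongInduction generalizing 𝒜 Λ Z with
  | H s ih =>
  have : Nontrivial V₁ := Module.nontrivial_of_finrank_pos (R := F) (by omega)
  obtain ⟨ξ, hξ, j, hj, hc⟩ : ∃ ξ ∈ Λ, ∃ j ∈ s, ¬ ∀ A, Commute ξ (ρ j A) := by
    by_contra! h
    exact hn fun ξ hξ => Φ.cent ξ (hΛ hξ) (h ξ hξ)
  have δ : ∀ c (ψ : Dual F V₁), ψ c = 0 → ∀ ξ ∈ Λ, ρ j (ψ.smulRight c) * ξ - ξ * ρ j (ψ.smulRight c) -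
      ρ j (ψ.smulRight c) * ξ * ρ j (ψ.smulRight c) ∈ Λ := fun c ψ h ξ hξ => by
    obtain ⟨t, ht, e, e'⟩ := (K j hj).tv h
    convert Λ.sub_mem (hZ t ht ξ hξ) hξ using 1
    change _ = (t : End F V) * ξ * (t⁻¹ : V ≃ₗ[F] V) - ξ
    rw [e, e']; noncomm_ring
  let 𝒜' := 𝒜 ⊓ Subalgebra.centralizer F (Set.range (ρ j))
  have cm : ∀ ξ ∈ 𝒜', ∀ A, Commute ξ (ρ j A) := fun ξ hξ A => (hξ.2 _ ⟨A, rfl⟩).symm
  let J : NonUnitalSubalgebra F (End F V) :=
    { carrier := {η | η ∈ 𝒜' ∧ ∀ c (ψ : Dual F V₁), ψ c = 0 → ρ j (ψ.smulRight c) * η ∈ Λ}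
      add_mem' := fun ha hb => ⟨𝒜'.add_mem ha.1 hb.1, fun c ψ h =>
        mul_add (ρ j _) _ _ ▸ Λ.add_mem (ha.2 c ψ h) (hb.2 c ψ h)⟩
      zero_mem' := ⟨𝒜'.zero_mem, by simp⟩
      smul_mem' := fun s _ ha => ⟨𝒜'.smul_mem ha.1 s, fun c ψ h =>
        mul_smul_comm s (ρ j _) _ ▸ Λ.smul_mem (ha.2 c ψ h) s⟩
      mul_mem' := fun {a b} ha hb => ⟨𝒜'.mul_mem ha.1 hb.1, fun c φ h0 => by
        obtain ⟨d, d1, d2⟩ := exists_ker_notMem h3 φ c
        obtain ⟨ψ, p1, p2⟩ := CL.Tv.exists_dual_one_zero d2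
        have := Λ.mul_mem (ha.2 c ψ p2) (hb.2 d φ d1)
        rwa [mul_assoc, ← mul_assoc a, (cm a ha.1 _).eq, mul_assoc, ← mul_assoc, ← map_mul, rk_mul,
          p1, one_smul] at this⟩ }
  obtain ⟨η, hη, η0⟩ : ∃ η ∈ J, η ≠ 0 := by
    by_contra! h
    refine hc (comm_of_T fun c w hw => ?_)
    rcases eq_or_ne c 0 with rfl | c0
    · simp [T_bot (by simpa using hw)]
    obtain ⟨χ, hχ⟩ := Module.Projective.exists_dual_eq_one F c0
    refine mem_T_of_rk c0 fun φ hφ => ?_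
    rcases eq_or_ne φ 0 with rfl | φ0
    · simp
    replace hφ := hφ c (Submodule.mem_span_singleton_self c)
    obtain ⟨y, y1, y2⟩ := exists_ker_notMem h3 φ c
    obtain ⟨ψ, p1, p2⟩ := CL.Tv.exists_dual_one_zero y2
    have h1 := δ y φ y1 _ (δ c φ hφ _ (δ c ψ p2 ξ hξ))
    simp only [mul_sub, sub_mul, ← mul_assoc, ← map_mul, rk_mul, hφ, zero_smul, map_zero,
      zero_mul, sub_zero] at h1
    simp only [mul_assoc, ← map_mul, rk_mul, p1, p2, y1, zero_smul, one_smul, map_zero, mul_zero,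
      sub_zero, zero_sub, neg_neg, zero_mul] at h1
    have h2 := h (cmp (ρ j) φ c ξ) ⟨⟨cmp_mem (Φ.mem j hj) (hΛ hξ), by
      rintro _ ⟨B, rfl⟩; exact (cmp_comm B).symm⟩, fun c' φ' h' => by
        rcases eq_or_ne c' 0 with rfl | hc'
        · simp
        refine all_of_flag (P := fun c' ψ => ρ j (ψ.smulRight c') * cmp (ρ j) φ c ξ ∈ Λ) h3 (K j hj)
          (fun c ψ φ _ _ p1 p2 => by simpa [sub_rk, sub_mul] using Λ.sub_mem p1 p2)
          (fun g hg c ψ p => un_rk (ρ j) g ψ c cmp_comm ▸ hZ _ hg _ p) ?_ c0 φ0 hφ hc' h'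
        rwa [cmp_spec, mul_assoc]⟩
    have := LinearMap.congr_fun (cmp_spec (ρ j) φ χ c c ξ) w
    simpa [h2, rk_self hχ hw] using this.symm
  have h1 : (1 : End F V) ∈ J := by
    by_cases hs : ∀ ξ ∈ adj1 J, ∃ μ : F, ξ = μ • 1
    · obtain ⟨μ, rfl⟩ := hs η ⟨0, by simpa using hη⟩
      simpa [smul_smul, show μ ≠ 0 by rintro rfl; simp at η0] using J.smul_mem μ⁻¹ hη
    have hA' : ∀ z ∈ Z ⊓ cen (ρ j), ∀ ξ ∈ 𝒜', z.conjAlgEquiv F ξ ∈ 𝒜' := fun z hz ξ hξ =>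
      ⟨hA z hz.1 ξ hξ.1, by
        rintro _ ⟨B, rfl⟩
        exact cen_conj hz.2 B ▸ ((cm ξ hξ B).map (z.conjAlgEquiv F)).symm⟩
    obtain ⟨k, -, hk⟩ := ih _ (Finset.erase_ssubset hj) (Λ := adj1 J) (Z := Z ⊓ cen (ρ j)) (Φ.erase hj)
      (fun ξ ⟨μ, h⟩ => sub_add_cancel ξ (μ • 1) ▸ 𝒜'.add_mem h.1 (𝒜'.smul_mem 𝒜'.one_mem μ))
      (fun k hk φ x h => (K k (Finset.mem_of_mem_erase hk) φ x h).imp fun t ht => ⟨⟨ht.1,
        Φ.comm k (Finset.mem_of_mem_erase hk) j hj (Finset.ne_of_mem_erase hk) _⟩, ht.2⟩) hA'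
      (fun z hz ξ ⟨μ, h⟩ => ⟨μ, by
        rw [← map_one (z.conjAlgEquiv F), ← map_smul, ← map_sub]
        exact ⟨hA' z hz _ h.1, fun c ψ h0 => by
          simpa only [map_mul, cen_conj hz.2] using hZ z hz.1 _ (h.2 c ψ h0)⟩⟩) hs
    exact one_mem_of_adj1 h3 hk
  exact ⟨j, hj, fun A => (gen_flag (by omega) (Λ.comap (ρ j)) fun c ψ h => by
    simpa using h1.2 c ψ h).ge trivial⟩

theorem Lev.conj {K : SLF X σ} {K' : SLF X σ'} (hg : g ∈ X) (e : ∀ A v, g (σ A v) = σ' A (g v))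
    (hξ : ξ ∈ Lev h3 K) : g.conjAlgEquiv F ξ ∈ Lev h3 K' := by
  have e' : ∀ A, g.conjAlgEquiv F (σ A) = σ' A := fun A =>
    LinearMap.ext fun v => (e A _).trans (congrArg (σ' A) (app_inv g v))
  exact ⟨fun A => e' A ▸ (hξ.1 A).map _, fun c ψ h => ((hξ.2 c ψ h).conj hg).congr
    (LinearMap.congr_fun ((map_mul (g.conjAlgEquiv F) _ ξ).trans (by rw [e'])))⟩

/-- If some level is not scalar, all levels are full. -/
theorem Fam.lev_full (Φ : Fam ρ s ⊤) (K : ∀ i, SLF X (ρ i)) (hi : i ∈ s)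
    (hn : ¬ ∀ ξ ∈ Lev h3 (K i), ∃ μ : F, ξ = μ • 1)
    (cyc : ∀ i ∈ s, ∀ j ∈ s, ∀ k ∈ s, i ≠ j → i ≠ k → j ≠ k → ∃ g ∈ X,
      (∀ A v, g (ρ i A v) = ρ k A (g v)) ∧ ∀ A v, g (ρ j A v) = ρ i A (g v))
    (hj : j ∈ s) (hξ : ∀ A, Commute ξ (ρ j A)) : ξ ∈ Lev h3 (K j) := by
  have sy : ∀ i j, (∀ A, ρ j A ∈ Lev h3 (K i)) → ∀ A, ρ i A ∈ Lev h3 (K j) := fun i j H A =>
    (gen_flag (by omega) ((Lev h3 (K j)).comap (ρ i)) fun c ψ h => ⟨fun B => ((H B).1 _).symm,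
      fun d φ _ => ((H (φ.smulRight d)).1 _).eq ▸ (H _).2 c ψ h⟩).ge trivial
  have al : ∀ i ∈ s, ∀ j ∈ s, i ≠ j → (∀ A, ρ j A ∈ Lev h3 (K i)) → ∀ k ∈ s, i ≠ k →
      ∀ A, ρ k A ∈ Lev h3 (K i) := fun i hi j hj hij H k hk hik => by
    rcases eq_or_ne j k with rfl | hjk
    · exact H
    obtain ⟨g, hg, e1, e2⟩ := cyc i hi j hj k hk hij hik hjk
    refine sy k i fun A => ?_
    convert Lev.conj h3 hg e1 (H A) using 1
    exact LinearMap.ext fun v => ((e2 A _).trans (congrArg (ρ i A) (app_inv g v))).symm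
  obtain ⟨k, hk, H⟩ := (Φ.erase hi).alg h3 (Λ := Lev h3 (K i)) (Z := X ⊓ cen (ρ i))
    (fun ξ hξ => ⟨trivial, by rintro _ ⟨B, rfl⟩; exact (hξ.1 B).symm⟩)
    (fun k hk φ x h => (K k φ x h).imp fun t ht => ⟨⟨ht.1,
      Φ.comm k (Finset.mem_of_mem_erase hk) i hi (Finset.ne_of_mem_erase hk) _⟩, ht.2⟩)
    (fun z hz ξ hξ => ⟨trivial, by
      rintro _ ⟨B, rfl⟩
      exact cen_conj hz.2 B ▸ Commute.map (hξ.2 _ ⟨B, rfl⟩) (z.conjAlgEquiv F)⟩)
    (fun z hz ξ => Lev.conj h3 hz.1 (cm_app hz.2)) hn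
  replace H := al i hi k (Finset.mem_of_mem_erase hk) (Finset.ne_of_mem_erase hk).symm H
  refine (Φ.erase hj).le_of (fun l hl => ?_) ⟨trivial, by rintro _ ⟨B, rfl⟩; exact (hξ B).symm⟩
  have hl' := (Finset.ne_of_mem_erase hl).symm
  rcases eq_or_ne i j with rfl | e
  · exact H l (Finset.mem_of_mem_erase hl) hl'
  · exact al j hj i hi e.symm (sy i j (H j hj e)) l (Finset.mem_of_mem_erase hl) hl'

omit [FiniteDimensional F V] [Nontrivial V] in
theorem has_of_full (K : SLF X σ) (H : ∀ ξ, (∀ A, Commute ξ (σ A)) → ξ ∈ Lev h3 K) {χ : Dual F V₁}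
    (hχ : χ c = 1) (η : End F V) :
    Has X (σ (χ.smulRight c) * η * (1 - σ (χ.smulRight c)) : End F V) := by
  have e : ∀ (φ : Dual F V₁) x, (φ.smulRight x : End F V₁) * (1 - χ.smulRight c) =
      (φ - φ c • χ).smulRight x := fun φ x => by ext; simp [sub_smul, mul_comm, mul_smul]
  have e' := congrArg (· * (1 - χ.smulRight c)) (sum_rk (F := F) (V₁ := V₁))
  simp only [Finset.sum_mul, e, one_mul] at e'
  rw [← map_one σ, ← map_sub, ← e', map_sum, Finset.mul_sum]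
  simp only [← cmp_spec]
  refine (Finset.sum_induction _ (fun a : End F V => Has X a ∧ (∀ v, a v ∈ T σ (F ∙ c)) ∧
    ∀ w ∈ T σ (F ∙ c), a w = 0) (fun a b ha hb => ⟨ha.1.add hb.1 fun v => by
      simp [ha.2.2 _ (hb.2.1 v)], fun v => Submodule.add_mem _ (ha.2.1 v) (hb.2.1 v),
      fun w hw => by simp [ha.2.2 w hw, hb.2.2 w hw]⟩) ⟨Has.zero, by simp, by simp⟩ fun k _ => ?_).1
  have h0 : ((finBasis F V₁).coord k - (finBasis F V₁).coord k c • χ) c = 0 := by simp [hχ]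
  exact ⟨(H _ cmp_comm).2 c _ h0, fun v => rk_mem_T (Submodule.mem_span_singleton_self c) _ _,
    fun w hw => rk_T ((Submodule.span_singleton_le_iff_mem _ (LinearMap.ker _)).2 h0) c
      (T_comm cmp_comm hw)⟩

theorem not_mem_NF [Finite F] (Φ : Fam ρ s 𝒜) (hi : i ∈ s) (hj : j ∈ s) (hij : i ≠ j) (hc : c ≠ 0)
    (hψ : ψ ≠ 0) (h0 : ψ c = 0) (hξ : ∀ A, Commute ξ (ρ i A)) {B : End F V₁}
    (hB : ¬ Commute ξ (ρ j B)) (e : ∀ v, g v = v + ρ i (ψ.smulRight c) (ξ v)) : g ∉ NF ρ s := by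
  intro hg
  have n0 : (ψ.smulRight c : End F V₁) ≠ 0 := fun h => rk_ne (ρ i) hc hψ (by simp [h])
  obtain ⟨χ, hχ⟩ := Module.Projective.exists_dual_eq_one F hc
  obtain ⟨k, hk, h⟩ := hg i hi
  rcases eq_or_ne k i with rfl | hki
  · have eg : ρ k (ψ.smulRight c) * ξ = g - 1 := LinearMap.ext fun v => by simp [e]
    rcases h.small (S := T (ρ k) (F ∙ c)) (fun v => by
      simpa [e] using rk_mem_T (Submodule.mem_span_singleton_self c) ψ _) (finrank_T _ hc)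
      (Or.inl h3) with ⟨A, h⟩ | h
    · have := ((h ▸ Φ.comm k hk j hj hij A B).sub_left (Commute.one_left _)).eq
      rw [← eg, ← mul_assoc, ← (Φ.comm k hk j hj hij _ B).eq, mul_assoc, mul_assoc] at this
      exact hB (sub_eq_zero.1 (eq_zero_of_mul n0 (fun C => ((hξ C).mul_left
        (Φ.comm j hj k hk hij.symm B C)).sub_left ((Φ.comm j hj k hk hij.symm B C).mul_left (hξ C)))
        (by rw [mul_sub, this, sub_self])))
    · have := ((h (χ.smulRight c)).sub_left (Commute.one_left _)).eq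
      rw [← eg, mul_assoc, (hξ _).eq, ← mul_assoc, ← mul_assoc, ← map_mul, ← map_mul, rk_mul, rk_mul,
        h0, hχ, one_smul, zero_smul, map_zero, zero_mul] at this
      exact hB (by rw [eq_zero_of_mul n0 hξ this.symm]; exact Commute.zero_left _)
  · obtain ⟨A, hA⟩ := h (ψ.smulRight c)
    have e1 : ρ i (ψ.smulRight c) = ρ k A := LinearMap.ext fun v => by
      obtain ⟨v, rfl⟩ := g.surjective v
      rw [← hA]; simp [e, cm_app hξ, rk_rk h0]
    have := (Φ.comm k hk i hi hki A (χ.smulRight c)).eq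
    rw [← e1, ← map_mul, ← map_mul, rk_mul, rk_mul, h0, hχ, one_smul, zero_smul] at this
    exact n0 (rho_inj _ this).symm

section PT

variable [Fintype I] {π : (I → V₁) → V} (h : PT ρ π)
include h

omit h3 in
theorem PT.exists_cyc [Finite F] {k : I} (hij : i ≠ j) (hik : i ≠ k) (hjk : j ≠ k) :
    ∃ g ∈ NF ρ Finset.univ, LinearMap.det (g : End F V) = 1 ∧
      (∃ σ : Equiv.Perm I, ∀ xs, g (π xs) = π (xs ∘ σ)) ∧
      (∀ A v, g (ρ i A v) = ρ k A (g v)) ∧ ∀ A v, g (ρ j A v) = ρ i A (g v) := by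
  obtain ⟨a, ha, a1, a2⟩ := h.exists_perm (Equiv.swap i j)
  obtain ⟨b, hb, b1, b2⟩ := h.exists_perm (Equiv.swap j k)
  have d : ∀ {a : V ≃ₗ[F] V} {i j}, (∀ xs, a (π xs) = π (xs ∘ Equiv.swap i j)) →
      LinearMap.det (a : End F V) * LinearMap.det (a : End F V) = 1 := fun {a i j} e => by
    rw [← map_mul, show (a : End F V) * a = 1 from h.ext fun xs => by simp [e, comp_def], map_one]
  have ai := a2 i; have aj := a2 j; have ak := a2 k; have bi := b2 i; have bj := b2 j; have bk := b2 k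
  simp only [Equiv.swap_apply_left, Equiv.swap_apply_right, Equiv.swap_apply_of_ne_of_ne hik.symm
    hjk.symm, Equiv.swap_apply_of_ne_of_ne hij hik] at ai aj ak bi bj bk
  refine ⟨a * b * (a * b), mul_mem (mul_mem ha hb) (mul_mem ha hb), ?_,
    ⟨Equiv.swap j k * Equiv.swap i j * (Equiv.swap j k * Equiv.swap i j), fun xs => by
      simp [a1, b1, comp_assoc]⟩, by simp [*], by simp [*]⟩
  simp only [LinearEquiv.coe_toLinearMap_mul, map_mul]
  linear_combination (LinearMap.det (b : End F V) * LinearMap.det (b : End F V)) * d a1 + d b1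

theorem PT.ht (K : ∀ i, SLF X (ρ i)) (H : ∀ i ξ, (∀ A, Commute ξ (ρ i A)) → ξ ∈ Lev h3 (K i))
    (xs : I → V₁) {γ : Dual F V} (h0 : γ (π xs) = 0) : HT X (π xs) γ := by
  by_cases hx : ∃ i, xs i = 0
  · obtain ⟨i, hi⟩ := hx
    have := h.app i 0 xs
    rw [map_zero, LinearMap.zero_apply, LinearMap.zero_apply, ← hi, update_eq_self] at this
    exact this ▸ HT.zero_left γ
  push Not at hx
  choose φ hφ using fun i => Module.Projective.exists_dual_eq_one F (hx i)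
  have e0 : ∀ s, h.pr s (fun i => (φ i).smulRight (xs i)) (π xs) = π xs := fun s => by
    simp [h.pr_app, hφ]
  have key : ∀ s, HT X (π xs) (γ - γ ∘ₗ h.pr s fun i => (φ i).smulRight (xs i)) := fun s => by
    induction s using Finset.induction_on with
    | empty => exact (HT.zero_right _).congr fun v => congrArg (· • π xs) (sub_self (γ v)).symm
    | insert j s hj ih =>
      refine (ih.add_right (β := γ ∘ₗ (h.pr s (fun i => (φ i).smulRight (xs i)) *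
        (1 - ρ j ((φ j).smulRight (xs j))))) ((has_of_full h3 (K j) (H j) (hφ j)
          ((γ ∘ₗ h.pr s fun i => (φ i).smulRight (xs i)).smulRight (π xs))).congr fun v => by
            simp [h.app, hφ]) (by simp [e0])).congr fun v => ?_
      simp [h.pr_insert hj, (h.pr_comm (fun i hi => h.comm (ne_of_mem_of_not_mem hi hj).symm _) _).eq]
  refine (key Finset.univ).congr fun v => ?_
  obtain ⟨μ, hμ⟩ := Submodule.mem_span_singleton.1 (h.pr_rk φ xs v)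
  simp [← hμ, h0]

theorem PT.sl_main [Finite F] (ho : finrank F V₁ = 3 → Odd (finrank F V))
    (hX : ∀ g ∈ NF ρ Finset.univ, LinearMap.det (g : End F V) = 1 → g ∈ X) :
    X ≤ NF ρ Finset.univ ∨ ∀ xs (γ : Dual F V), γ (π xs) = 0 → HT X (π xs) γ := by
  have : Nontrivial V₁ := Module.nontrivial_of_finrank_pos (R := F) (by omega)
  have K : ∀ i, SLF X (ρ i) := fun i φ x h0 => by
    have h0 : φ x = 0 := by simpa using h0
    have m := Submodule.mem_span_singleton_self (R := F) x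
    have e : ∀ v, un (ρ i) (LinearEquiv.transvection h0) v = v + ρ i (φ.smulRight x) v := fun v => by
      rw [un_apply, show (LinearEquiv.transvection h0 : End F V₁) = 1 + φ.smulRight x from
        LinearMap.ext (LinearEquiv.transvection.apply h0)]; simp
    exact ⟨LinearEquiv.transvection h0, hX _ (h.fam.un_mem (Finset.mem_univ i) _)
      (det_eq_one_of_sq_zero (W := T (ρ i) (F ∙ x)) (fun w hw => by
        simp [e, rk_T ((Submodule.span_singleton_le_iff_mem _ (LinearMap.ker φ)).2 h0) x hw])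
        fun v => by simpa [e] using rk_mem_T m φ v), LinearEquiv.transvection.apply h0⟩
  by_cases hL : ∀ i, ∀ ξ ∈ Lev h3 (K i), ∃ μ : F, ξ = μ • 1
  · exact Or.inl (h.fam.le_NF (slRS h3) (fun _ _ _ _ _ N => N.le (slRS h3) (slBC h3))
      (fun _ _ => trivial) fun i hi => h.fam.good_sl h3 hi (K i) (hL i) ho)
  obtain ⟨i, hi⟩ := not_forall.1 hL
  exact Or.inr fun xs γ => h.ht h3 K (fun j ξ => h.fam.lev_full h3 K (Finset.mem_univ i) hi
    (fun i _ j _ k _ h1 h2 h3 =>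
      have ⟨g, g1, g2, _, g3⟩ := h.exists_cyc h1 h2 h3
      ⟨g, hX g g1 g2, g3⟩) (Finset.mem_univ j)) xs

end PT

open Cfsg Cfsg.Geo CL.Tv in
omit h3 in
/-- The stabilizer in `SL` of a decomposition as a tensor power is maximal. -/
theorem wreath_SL_maximal [Finite F] {ι : Type} [Fintype ι] [DecidableEq ι] {m t : ℕ} (hm : 3 ≤ m)
    (ht : 2 ≤ t) (e : ι ≃ (Fin t → Fin m)) (P : GL ι F) :
    IsMaximalIn (specialLinear ι F) (tensorWreathSubgroup m t e P ⊓ specialLinear ι F) := by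
  have h := ptT e P
  have h3 : 3 ≤ finrank F (Fin m → F) := by simpa using hm
  have : Nontrivial (Fin m → F) := Module.nontrivial_of_finrank_pos (R := F) (by omega)
  have : Nonempty ι := ⟨e.symm fun _ => ⟨0, by omega⟩⟩
  refine CL.Root.isMaximalIn_of_act (fun g => CL.Root.act_mem_toE g)
    (mem_wreath_iff (by omega) (by omega) e P) (fun hle => ?_) fun K h4 h5 ⟨g, hg, hg'⟩ => ?_
  · obtain ⟨c, ψ, c0, ψ0, h0⟩ := (slRS h3).exists_root
    obtain ⟨χ, hχ⟩ := Module.Projective.exists_dual_eq_one F c0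
    obtain ⟨i, j, hij⟩ := Fin.nontrivial_iff_two_le.2 ht
    have hc := h.comm hij.symm (ψ.smulRight c)
    let g : (ι → F) ≃ₗ[F] (ι → F) := LinearEquiv.ofLinearMap
      (1 + rhoT e P i (ψ.smulRight c) * rhoT e P j (ψ.smulRight c))
      (1 - rhoT e P i (ψ.smulRight c) * rhoT e P j (ψ.smulRight c))
      (LinearMap.ext fun v => by simp [cm_app hc, rk_rk h0])
      (LinearMap.ext fun v => by simp [cm_app hc, rk_rk h0])
    refine not_mem_NF h3 (g := g) h.fam (Finset.mem_univ _) (Finset.mem_univ _) hij c0 ψ0 h0 hc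
      (B := χ.smulRight c) (fun h' => rk_ne _ c0 ψ0 (by
        simpa [← map_mul, rk_mul, h0, hχ] using h'.eq.symm)) (fun _ => rfl)
      (hle (CL.Root.mem_toE_SL.2 (det_eq_one_of_sq_zero (W := T (rhoT e P _) (F ∙ c))
        (fun w hw => add_eq_left.2 (rk_T ((Submodule.span_singleton_le_iff_mem _
          (LinearMap.ker ψ)).2 h0) c (T_comm hc hw))) fun v => by
        simpa [g] using rk_mem_T (Submodule.mem_span_singleton_self c) ψ _)))
  rcases h.sl_main h3 (X := K) (fun h3 => by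
      rw [finrank_fintype_fun_eq_card, Fintype.card_congr e]
      simp at h3
      simpa [h3] using Odd.pow (by decide : Odd 3)) (fun g h6 h7 => h4 ⟨h6, CL.Root.mem_toE_SL.2 h7⟩) with h6 | h6
  · exact absurd (h6 hg) hg'
  · have h7 : full (K.comap (CL.Root.actE ι F).toMonoidHom) = ⊤ :=
      top_le_iff.1 (h.span.ge.trans (Submodule.span_le.2 (by
        rintro _ ⟨xs, rfl⟩ γ h0
        obtain ⟨t, ht, h7⟩ := h6 xs γ h0
        exact ⟨(CL.Root.actE ι F).symm t, by simpa using ht,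
          fun v => by rw [CL.Root.act_actE_symm, h7]⟩)))
    intro k hk
    simpa using SL_le_of_full h7 (CL.Root.mem_toE.1 hk)

end CL.Wr
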