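/-
Commuting symplectic tensor factors: invariant spaces of endomorphisms.
-/
import Mathlib
import Cfsg.Agent.CLAS.Wr6
import Cfsg.Agent.CLAS.TFormS
import Cfsg.Agent.CLAS.SpTwo1

set_option autoImplicit false
set_option linter.unusedSectionVars false

namespace CL.WrS

open Module CL.ExtF CL.Tens CL.Wr CL.Witt CL.Witt.Form

attribute [-simp] LinearEquiv.coe_inv
attribute [local simp] FormType.alt_σ FormType.alt_ε alt_B_self

variable {F : Type*} [Field F] {V₁ U : Type*} [AddCommGroup V₁] [Module F V₁] [AddCommGroup U]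
  [Module F U] {f : Form (FormType.alt F) V₁} {σ : Rep F V₁ U} {a b c d x y : V₁}
  {ξ η ζ : End F U} {S : Submodule F (End F U)} {ε : F}

variable (f) in
/-- The rank one operator `v ↦ f(a, v) b`. -/
def tv : V₁ →ₗ[F] V₁ →ₗ[F] End F V₁ :=
  LinearMap.mk₂ F (fun a b => (f.B a).smulRight b) (fun _ _ _ => by ext; simp [add_smul])
    (fun _ _ _ => by ext; simp [mul_smul]) (fun _ _ _ => by ext; simp)
    fun s _ _ => by ext; simp [smul_comm s]

theorem tv_eq (a b : V₁) : tv f a b = (f.B a).smulRight b := rfl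

@[simp] theorem tv_apply (a b x : V₁) : tv f a b x = f.B a x • b := rfl

theorem tv_mul (a b c d : V₁) : tv f a b * tv f c d = f.B a d • tv f c b := rk_mul _ _ _ _

theorem tv_conj {e : V₁ ≃ₗ[F] V₁} (he : e ∈ f.O) (a b : V₁) :
    (e : End F V₁) * tv f a b * (e⁻¹ : V₁ ≃ₗ[F] V₁) = tv f (e a) (e b) := by
  ext x; simp [B_apply_left he]

theorem tv_ne (hf : f.Nondeg) (ha : a ≠ 0) (hb : b ≠ 0) : tv f a b ≠ 0 := fun h =>
  ha (hf a fun x => by simpa [hb] using LinearMap.congr_fun h x)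

theorem exists_B_ne (hf : f.Nondeg) (ha : a ≠ 0) (hb : b ≠ 0) :
    ∃ c, f.B a c ≠ 0 ∧ f.B b c ≠ 0 :=
  have p : ∀ x : V₁, x ≠ 0 → LinearMap.ker (f.B x) ≠ ⊤ := fun x x0 e =>
    x0 (hf x fun y => (e ▸ Submodule.mem_top : y ∈ LinearMap.ker (f.B x)))
  exists_not_mem_not_mem (p a ha) (p b hb)

theorem B_ne_symm (h : f.B a b ≠ 0) : f.B b a ≠ 0 := fun e => h (f.B_eq_zero_symm e)

theorem coe_ei (c : V₁) (μ : F) : (f.ei c 0 μ : End F V₁) = 1 + μ • tv f c c := by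
  ext x; simp [alt_tv_apply, mul_smul]

theorem coe_ei_inv (c : V₁) (μ : F) :
    (((f.ei c 0 μ)⁻¹ : V₁ ≃ₗ[F] V₁) : End F V₁) = 1 - μ • tv f c c := by
  ext x; exact inv_app_eq (by simp [alt_tv_apply, mul_smul])

variable (f ε) in
/-- The symmetrized operators. -/
def sa (c d : V₁) : End F V₁ := tv f c d + ε • tv f d c

variable (f σ S) in
/-- Invariance under the symplectic group of the factor. -/
def Inv : Prop := ∀ e ∈ f.O, ∀ ξ ∈ S, σ e * ξ * σ (e⁻¹ : V₁ ≃ₗ[F] V₁) ∈ S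

theorem conj_mul {e : V₁ ≃ₗ[F] V₁} (A : End F V₁) (h : ∀ A, Commute η (σ A)) :
    σ e * (σ A * η) * σ (e⁻¹ : V₁ ≃ₗ[F] V₁) = σ (e * A * (e⁻¹ : V₁ ≃ₗ[F] V₁)) * η := by
  rw [mul_assoc, mul_assoc, (h _).eq, map_mul, map_mul, mul_assoc, mul_assoc]

theorem Inv.delta (H : Inv f σ S) (c : V₁) (hξ : ξ ∈ S) :
    σ (tv f c c) * ξ - ξ * σ (tv f c c) - σ (tv f c c) * ξ * σ (tv f c c) ∈ S := by
  convert S.sub_mem (H _ (ei_mem_O c 0 1) ξ hξ) hξ using 1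
  rw [coe_ei, coe_ei_inv, one_smul, map_add, map_sub, map_one]; noncomm_ring

theorem Inv.two (H : Inv f σ S) (h : f.B c d = 0) (hξ : ξ ∈ S) :
    σ (tv f d d) * ξ * σ (tv f c c) + σ (tv f c c) * ξ * σ (tv f d d) ∈ S := by
  have e1 : σ (tv f d d) * σ (tv f c c) = 0 := by
    rw [← map_mul, tv_mul, f.B_eq_zero_symm h]; simp
  have e2 : σ (tv f c c) * σ (tv f d d) = 0 := by rw [← map_mul, tv_mul, h]; simp
  convert S.neg_mem (H.delta d (H.delta c hξ)) using 1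
  simp only [mul_sub, sub_mul, ← mul_assoc, e1, zero_mul]
  simp only [mul_assoc, e2, mul_zero]
  abel

variable [FiniteDimensional F V₁]

theorem eq_top_of_tv (hf : f.Nondeg) {R : Submodule F (End F V₁)} (H : ∀ a b, tv f a b ∈ R)
    (A : End F V₁) : A ∈ R := by
  refine sum_rk' A ▸ R.sum_mem fun i _ => ?_
  obtain ⟨a, ha⟩ := hf.exists_rep ((finBasis F V₁).coord i)
  rw [← show f.B a = _ from LinearMap.ext ha]
  exact H _ _

theorem gen (hf : f.Nondeg) (R : Subalgebra F (End F V₁)) (H : ∀ c, tv f c c ∈ R) (A : End F V₁) :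
    A ∈ R := eq_top_of_tv hf (R := R.toSubmodule) (fun a b => by
  rcases eq_or_ne a 0 with rfl | ha
  · simp
  rcases eq_or_ne b 0 with rfl | hb
  · simp
  obtain ⟨c, h1, h2⟩ := exists_B_ne hf ha hb
  have := R.smul_mem (R.mul_mem (H b) (R.mul_mem (H c) (H a))) (f.B c a * f.B b c)⁻¹
  rwa [tv_mul, mul_smul_comm, tv_mul, smul_smul, smul_smul, mul_assoc,
    inv_mul_cancel₀ (mul_ne_zero (B_ne_symm h1) h2), one_smul] at this) A

omit [FiniteDimensional F V₁] in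
theorem rk_add (φ : Dual F V₁) (x y : V₁) :
    (φ.smulRight (x + y) : End F V₁) = φ.smulRight x + φ.smulRight y := by ext; simp

omit [FiniteDimensional F V₁] in
theorem rk_smul (φ : Dual F V₁) (s : F) (x : V₁) :
    (φ.smulRight (s • x) : End F V₁) = s • φ.smulRight x := by ext; simp [smul_comm s]

variable (f σ ξ) in
/-- The components of `ξ`. -/
noncomputable def mm : V₁ →ₗ[F] V₁ →ₗ[F] End F U :=
  LinearMap.mk₂ F (fun a b => cmp σ (f.B a) b ξ)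
    (fun _ _ _ => by simp only [Wr.cmp, ← tv_eq]; simp [add_mul, Finset.sum_add_distrib])
    (fun _ _ _ => by simp only [Wr.cmp, ← tv_eq]; simp [Finset.smul_sum])
    (fun _ _ _ => by simp [Wr.cmp, rk_add, mul_add, Finset.sum_add_distrib])
    fun s _ _ => by simp [Wr.cmp, rk_smul, Finset.smul_sum]

theorem mm_eq (a b : V₁) : mm f σ ξ a b = cmp σ (f.B a) b ξ := rfl

theorem mm_spec (a b x y : V₁) :
    σ (tv f x y) * mm f σ ξ a b = σ (tv f a y) * ξ * σ (tv f x b) := cmp_spec _ _ _ _ _ _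

theorem mm_comm (a b : V₁) (A : End F V₁) : Commute (mm f σ ξ a b) (σ A) := cmp_comm A

variable [FiniteDimensional F U] [Nontrivial U] (hf : f.Nondeg)
include hf

theorem comm_of_mm [Nontrivial V₁] (H : ∀ a b, f.B a b = 0 → mm f σ ξ a b = 0) (A : End F V₁) :
    Commute ξ (σ A) := comm_of_T (fun c w hw => by
  rcases eq_or_ne c 0 with rfl | c0
  · simp [T_bot (by simpa using hw)]
  obtain ⟨χ, hχ⟩ := Module.Projective.exists_dual_eq_one F c0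
  refine mem_T_of_rk c0 fun φ hφ => ?_
  obtain ⟨a, ha⟩ := hf.exists_rep φ
  obtain rfl : f.B a = φ := LinearMap.ext ha
  have := LinearMap.congr_fun (cmp_spec σ (f.B a) χ c c ξ) w
  rw [← mm_eq, H a c (hφ c (Submodule.mem_span_singleton_self c))] at this
  simpa [rk_self hχ hw] using this.symm) A

omit [FiniteDimensional F U] [Nontrivial U] in
theorem perp_two (h2 : finrank F V₁ = 2) (hc : c ≠ 0) (h : f.B c d = 0) : d ∈ F ∙ c := by
  have p1 := hf.finrank_add_finrank_perp (F ∙ c)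
  rw [finrank_span_singleton hc] at p1
  have := Submodule.eq_of_le_of_finrank_eq (S₁ := F ∙ c) (S₂ := f.perp (F ∙ c))
    ((Submodule.span_singleton_le_iff_mem _ _).2 (f.mem_perp_span_singleton.2 (by simp)))
    (by rw [finrank_span_singleton hc]; omega)
  exact this ▸ f.mem_perp_span_singleton.2 h

/-- Extraction of an isotypic component in dimension two. -/
theorem Inv.ext2 (H : Inv f σ S) (h2 : finrank F V₁ = 2) (h2' : (2 : F) ≠ 0) (hξ : ξ ∈ S)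
    (hn : ¬ ∀ A, Commute ξ (σ A)) : ∃ c, mm f σ ξ c c ≠ 0 ∧ ∀ x, σ (tv f x x) * mm f σ ξ c c ∈ S := by
  have : Nontrivial V₁ := Module.nontrivial_of_finrank_pos (R := F) (by omega)
  obtain ⟨c, hc⟩ : ∃ c, mm f σ ξ c c ≠ 0 := by
    by_contra! h
    refine hn (comm_of_mm hf fun a b hab => ?_)
    rcases eq_or_ne a 0 with rfl | a0
    · simp
    obtain ⟨s, rfl⟩ := Submodule.mem_span_singleton.1 (perp_two hf h2 a0 hab)
    simp [h]
  refine ⟨c, hc, fun x => ?_⟩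
  rcases eq_or_ne x 0 with rfl | x0
  · simp
  obtain ⟨e, he, rfl⟩ := hf.witt_vector (show c ≠ 0 by rintro rfl; simp at hc) x0 (by simp [alt_q])
  have := H.two (c := c) (d := c) (by simp) hξ
  rw [← two_smul F, S.smul_mem_iff h2', ← mm_spec] at this
  simpa only [conj_mul _ (mm_comm c c), tv_conj he] using H e he _ this

/-- Extraction of an isotypic component in dimension at least three. -/
theorem Inv.ext (H : Inv f σ S) (h3 : 3 ≤ finrank F V₁) (hξ : ξ ∈ S)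
    (hn : ¬ ∀ A, Commute ξ (σ A)) : ∃ (ε : F) (η : End F U), (ε = 1 ∨ ε = -1) ∧ η ≠ 0 ∧
      (∀ A, Commute η (σ A)) ∧ (∀ 𝒜 : Subalgebra F (End F U), (∀ A, σ A ∈ 𝒜) → ξ ∈ 𝒜 → η ∈ 𝒜) ∧
      ∀ c d, f.B c d = 0 → σ (sa f ε c d) * η ∈ S := by
  have : Nontrivial V₁ := Module.nontrivial_of_finrank_pos (R := F) (by omega)
  obtain ⟨c, d, c0, hd, h0, hc⟩ : ∃ c d, c ≠ 0 ∧ d ∉ F ∙ c ∧ f.B c d = 0 ∧ mm f σ ξ d c ≠ 0 := by
    by_contra! h
    refine hn (comm_of_mm hf fun a b hab => ?_)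
    rcases eq_or_ne b 0 with rfl | b0
    · simp
    by_cases ha : a ∈ F ∙ b
    · obtain ⟨d, d1, d2⟩ := exists_ker_notMem h3 (f.B b) b
      have := h b (a + d) b0 (fun e => d2 (by simpa using sub_mem e ha))
        (by simp [d1, f.B_eq_zero_symm hab])
      simpa [h b d b0 d2 d1] using this
    · exact h b a b0 ha (f.B_eq_zero_symm hab)
  have key : ∀ (ε : F) (η : End F U), (∀ A, Commute η (σ A)) → σ (sa f ε c d) * η ∈ S →
      ∀ x y, f.B x y = 0 → σ (sa f ε x y) * η ∈ S := fun ε η hη h => by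
    have k : ∀ x y, x ≠ 0 → y ∉ F ∙ x → f.B x y = 0 → σ (sa f ε x y) * η ∈ S := fun x y x0 hy e => by
      obtain ⟨g, hg, rfl, rfl⟩ := alt_witt2 hf c0 hd x0 hy (e.trans h0.symm)
      simpa only [conj_mul _ hη, sa, mul_add, add_mul, mul_smul_comm, smul_mul_assoc, tv_conj hg]
        using H g hg _ h
    intro x y e
    rcases eq_or_ne x 0 with rfl | x0
    · simp [sa]
    by_cases hy : y ∈ F ∙ x
    · obtain ⟨z, z1, z2⟩ := exists_ker_notMem h3 (f.B x) x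
      convert S.sub_mem (k x (y + z) x0 (fun e => z2 (by simpa using sub_mem e hy))
        (by simp [e, z1])) (k x z x0 z2 z1) using 1
      simp [sa, add_mul]; abel
    · exact k x y x0 hy e
  have h1 := H.two h0 hξ
  rw [← mm_spec, ← mm_spec] at h1
  by_cases hs : mm f σ ξ d c + mm f σ ξ c d = 0
  · refine ⟨-1, _, Or.inr rfl, hc, mm_comm _ _, fun _ h h' => cmp_mem h h',
      key _ _ (mm_comm _ _) ?_⟩
    rw [← neg_eq_of_add_eq_zero_right hs] at h1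
    simpa [sa, add_mul] using h1
  have cm : ∀ A, Commute (mm f σ ξ d c + mm f σ ξ c d) (σ A) := fun A =>
    (mm_comm d c A).add_left (mm_comm c d A)
  refine ⟨1, _, Or.inl rfl, hs, cm, fun _ h h' => add_mem (cmp_mem h h') (cmp_mem h h'),
    key _ _ cm ?_⟩
  obtain ⟨g, hg, g1, g2⟩ := alt_witt2 hf c0 hd (show d ≠ 0 by rintro rfl; simp at hd)
    (SpTwo.nmem_symm c0 hd) ((f.B_eq_zero_symm h0).trans h0.symm)
  have h2 := H g hg _ h1
  simp only [mul_add, add_mul, conj_mul _ (mm_comm _ _), tv_conj hg, g1, g2] at h2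
  convert S.add_mem h1 h2 using 1
  simp [sa, add_mul, mul_add]; abel

omit hf in
/-- A component of a scalar. -/
theorem smul_eq_of_mul {C : End F V₁} {μ ν : F} (hζ : ∀ A, Commute ζ (σ A))
    (h : σ C * ζ = μ • 1) (hx : x ≠ 0) (hC : C x = ν • x) : ν • ζ = μ • 1 := by
  obtain ⟨φ, hφ⟩ := Module.Projective.exists_dual_eq_one F hx
  have := cmp_mul (σ := σ) (φ := φ) (x := x) (η := μ • 1)
    (fun A => (Commute.one_left _).smul_left μ) 1
  rw [map_one, one_mul, ← h, cmp_mul hζ] at this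
  simpa [hC, hφ, h] using this

omit hf in
theorem eq_zero_of_scalar {C : End F V₁} {μ : F} (hζ : ∀ A, Commute ζ (σ A))
    (h : σ C * ζ = μ • 1) (hx : x ≠ 0) (hC : C x = 0) (h0 : C ≠ 0) : ζ = 0 :=
  eq_zero_of_mul h0 hζ (by rw [h, ← smul_eq_of_mul (ν := 0) hζ h hx (by simp [hC]), zero_smul])

omit hf [FiniteDimensional F V₁] [FiniteDimensional F U] [Nontrivial U]

variable (σ S) in
/-- The coefficients of a set of operators. -/
def lv (P : Set (End F V₁)) (𝒜 : Subalgebra F (End F U)) : Submodule F (End F U) where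
  carrier := {η | η ∈ 𝒜 ⊓ Subalgebra.centralizer F (Set.range σ) ∧ ∀ B ∈ P, σ B * η ∈ S}
  zero_mem' := ⟨zero_mem _, by simp⟩
  add_mem' ha hb := ⟨add_mem ha.1 hb.1, fun B hB => mul_add (σ B) _ _ ▸ S.add_mem (ha.2 B hB) (hb.2 B hB)⟩
  smul_mem' s _ ha := ⟨Subalgebra.smul_mem _ ha.1 s, fun B hB =>
    mul_smul_comm s (σ B) _ ▸ S.smul_mem s (ha.2 B hB)⟩

variable {𝒜 Λ : Subalgebra F (End F U)} {P : Set (End F V₁)}

theorem mem_cen (h : ξ ∈ 𝒜) (h' : ∀ A, Commute ξ (σ A)) :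
    ξ ∈ 𝒜 ⊓ Subalgebra.centralizer F (Set.range σ) := ⟨h, by rintro _ ⟨B, rfl⟩; exact (h' B).symm⟩

theorem cen_comm (h : ξ ∈ 𝒜 ⊓ Subalgebra.centralizer F (Set.range σ)) (A : End F V₁) :
    Commute ξ (σ A) := (h.2 _ ⟨A, rfl⟩).symm

theorem inv_alg (h : ∀ A, σ A ∈ 𝒜) : Inv f σ 𝒜.toSubmodule := fun _ _ _ hξ =>
  𝒜.mul_mem (𝒜.mul_mem (h _) hξ) (h _)

theorem Inv.inf {S' : Submodule F (End F U)} (h : Inv f σ S) (h' : Inv f σ S') :
    Inv f σ (S ⊓ S') := fun e he ξ hξ => ⟨h e he ξ hξ.1, h' e he ξ hξ.2⟩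

theorem Inv.lv {σ' : Rep F V₁ U} (H : Inv f σ' S)
    (h : ∀ A, σ' A ∈ 𝒜 ⊓ Subalgebra.centralizer F (Set.range σ)) : Inv f σ' (lv σ S P 𝒜) :=
  fun e he η hη => ⟨inv_alg h e he η hη.1, fun B hB => by
    rw [← mul_assoc, ← mul_assoc, ← (cen_comm (h e) B).eq, mul_assoc (σ' e)]
    exact H e he _ (hη.2 B hB)⟩

theorem mul_mul (h : ∀ A, Commute η (σ A)) (A B : End F V₁) :
    σ A * η * (σ B * ζ) = σ (A * B) * (η * ζ) := by
  rw [mul_assoc, ← mul_assoc η, (h B).eq, map_mul, mul_assoc, mul_assoc]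

variable [FiniteDimensional F V₁] {I : Type*} [DecidableEq I] {ρ : I → Rep F V₁ U} {s : Finset I}
  {j l : I}

theorem one_mem_of_ideal (Φ : Fam ρ s 𝒜) (hS : S ≤ 𝒜.toSubmodule)
    (h : ∀ l ∈ s, ∀ A, ∀ ξ ∈ S, ρ l A * ξ ∈ S ∧ ξ * ρ l A ∈ S) (hξ : ξ ∈ S) (h0 : ξ ≠ 0) :
    1 ∈ S := by
  induction s using Finset.induction_on generalizing 𝒜 S ξ with
  | empty =>
    obtain ⟨μ, rfl⟩ := Φ.cent ξ (hS hξ) (by simp)
    exact (S.smul_mem_iff (by rintro rfl; simp at h0)).1 hξ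
  | insert j s hj ih =>
    have m := Finset.mem_insert_self j s
    obtain ⟨φ, x, hx⟩ : ∃ φ x, Wr.cmp (ρ j) φ x ξ ≠ 0 := by
      by_contra! H
      exact h0 (by rw [← sum_cmp (ρ j) ξ]; simp [H])
    have Φ' := Φ.erase m
    rw [Finset.erase_insert hj] at Φ'
    exact (ih (S := S ⊓ _) Φ' inf_le_right (fun l hl A ξ hξ =>
      have := h l (Finset.mem_insert_of_mem hl) A ξ hξ.1
      ⟨⟨this.1, Subalgebra.mul_mem _ (Φ'.mem l hl A) hξ.2⟩,
        this.2, Subalgebra.mul_mem _ hξ.2 (Φ'.mem l hl A)⟩)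
      ⟨S.sum_mem fun _ _ => (h j m _ _ (h j m _ _ hξ).1).2,
        mem_cen (cmp_mem (Φ.mem j m) (hS hξ)) cmp_comm⟩ hx).1

include hf

/-- An invariant space has no annihilator. -/
theorem exists_mul_ne (Φ : Fam ρ s 𝒜) (H : ∀ l ∈ s, Inv f (ρ l) S) (hη : η ∈ S) (h0 : η ≠ 0)
    (hζ : ζ ∈ 𝒜) (h1 : ζ ≠ 0) : ∃ η' ∈ S, ζ * η' ≠ 0 := by
  by_contra! h
  let K : Submodule F (End F U) :=
    { carrier := {ζ | ζ ∈ 𝒜 ∧ ∀ η ∈ S, ζ * η = 0}
      zero_mem' := ⟨zero_mem _, by simp⟩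
      add_mem' := fun ha hb => ⟨add_mem ha.1 hb.1, fun η h => by simp [add_mul, ha.2 η h, hb.2 η h]⟩
      smul_mem' := fun s _ ha => ⟨𝒜.smul_mem ha.1 s, fun η h => by simp [ha.2 η h]⟩ }
  refine h0 ((one_mul η).symm.trans ((one_mem_of_ideal (S := K) Φ (fun _ h => h.1)
    (fun l hl A ξ hξ => ⟨⟨𝒜.mul_mem (Φ.mem l hl A) hξ.1, fun η h => by
      simp [mul_assoc, hξ.2 η h]⟩, ?_⟩) ⟨hζ, h⟩ h1).2 η hη))
  let R : Subalgebra F (End F V₁) :=
    { carrier := {A | ∀ ξ ∈ K, ξ * ρ l A ∈ K}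
      mul_mem' := fun ha hb ξ hξ => by simpa [mul_assoc] using hb _ (ha ξ hξ)
      add_mem' := fun ha hb ξ hξ => by simpa [mul_add] using K.add_mem (ha ξ hξ) (hb ξ hξ)
      algebraMap_mem' := fun s ξ hξ => by
        simpa [Algebra.algebraMap_eq_smul_one] using K.smul_mem s hξ }
  refine gen hf R (fun c ξ hξ => ⟨𝒜.mul_mem hξ.1 (Φ.mem l hl _), fun η hη => ?_⟩) A ξ hξ
  have := congrArg (· * ρ l (f.ei c 0 1)) (hξ.2 _ (H l hl _ (ei_mem_O c 0 1) η hη))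
  simp only [mul_assoc, ← map_mul, ← LinearEquiv.coe_toLinearMap_mul, inv_mul_cancel] at this
  simpa [coe_ei, add_mul, mul_add, hξ.2 η hη, mul_assoc, ← End.one_eq_id] using this

omit [FiniteDimensional F V₁] hf in
theorem sa_mul (h1 : f.B d c = 0) (h2 : f.B d y = 0) : sa f ε c d * sa f ε y d =
    (ε * f.B c y) • tv f d d := by
  simp [sa, add_mul, mul_add, tv_mul, h2, f.B_eq_zero_symm h1, smul_smul]

theorem exists_hyp (h3 : 3 ≤ finrank F V₁) (d : V₁) :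
    ∃ c y, f.B d c = 0 ∧ f.B d y = 0 ∧ f.B c y = 1 :=
  have ⟨c, h1, h2⟩ := exists_ker_notMem h3 (f.B d) d
  have ⟨y, h3, h4⟩ := SpTwo.exists_perp_B hf h2 1
  ⟨c, y, h1, h3, h4⟩

variable [FiniteDimensional F U] [Nontrivial U]

omit hf in
theorem exists_not_comm (Φ : Fam ρ s 𝒜) (hξ : ξ ∈ 𝒜) (h : ¬ ∃ μ : F, ξ = μ • 1) :
    ∃ j ∈ s, ¬ ∀ A, Commute ξ (ρ j A) := by
  by_contra! H
  exact h (Φ.cent ξ hξ H)

/-- An invariant non-scalar algebra contains a factor. -/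
theorem alg (h3 : 3 ≤ finrank F V₁) (Φ : Fam ρ s 𝒜) (hΛ : Λ ≤ 𝒜)
    (H : ∀ l ∈ s, Inv f (ρ l) Λ.toSubmodule) (hξ : ξ ∈ Λ) (hn : ¬ ∃ μ : F, ξ = μ • 1) :
    ∃ j ∈ s, ∀ A, ρ j A ∈ Λ := by
  induction s using Finset.strongInduction generalizing 𝒜 Λ ξ with
  | H s ih =>
  obtain ⟨j, hj, hc⟩ := exists_not_comm Φ (hΛ hξ) hn
  obtain ⟨ε, η, hε, η0, p1, p2, p3⟩ := (H j hj).ext hf h3 hξ hc
  have Φ' := Φ.erase hj
  have iv : ∀ P, ∀ l ∈ s.erase j, Inv f (ρ l) (lv (ρ j) Λ.toSubmodule P 𝒜) := fun P l hl =>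
    (H l (Finset.mem_of_mem_erase hl)).lv (Φ'.mem l hl)
  have m1 : η ∈ lv (ρ j) Λ.toSubmodule {B | ∃ c d, f.B c d = 0 ∧ B = sa f ε c d} 𝒜 :=
    ⟨mem_cen (p2 _ (Φ.mem j hj) (hΛ hξ)) p1, by rintro _ ⟨c, d, h, rfl⟩; exact p3 c d h⟩
  obtain ⟨η', m2, n2⟩ := exists_mul_ne hf Φ' (iv _) m1 η0 m1.1 η0
  have m3 : η * η' ∈ lv (ρ j) Λ.toSubmodule {B | ∃ d, B = tv f d d} 𝒜 :=
    ⟨mul_mem m1.1 m2.1, by
      rintro _ ⟨d, rfl⟩
      obtain ⟨c, y, q1, q2, q3⟩ := exists_hyp hf h3 d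
      have := Λ.mul_mem (p3 c d (f.B_eq_zero_symm q1)) (m2.2 _ ⟨y, d, f.B_eq_zero_symm q2, rfl⟩)
      rw [mul_mul p1, sa_mul q1 q2, q3, mul_one, map_smul, smul_mul_assoc] at this
      exact (Λ.toSubmodule.smul_mem_iff (by rcases hε with rfl | rfl <;> simp)).1 this⟩
  obtain ⟨ζ₂, m4, n4⟩ := exists_mul_ne hf Φ' (iv _) m3 n2 m3.1 n2
  obtain ⟨ζ₃, m5, n5⟩ := exists_mul_ne hf Φ' (iv _) m3 n2 (mul_mem m3.1 m4.1) n4
  have key : ∀ B, ρ j B * (η * η' * ζ₂ * ζ₃) ∈ Λ := eq_top_of_tv hf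
    (R := Λ.toSubmodule.comap ((LinearMap.mulRight F _).comp (ρ j).toLinearMap)) fun a b => by
      rcases eq_or_ne a 0 with rfl | ha
      · simp
      rcases eq_or_ne b 0 with rfl | hb
      · simp
      obtain ⟨c, h1, h2⟩ := exists_B_ne hf ha hb
      have := Λ.mul_mem (Λ.mul_mem (m3.2 _ ⟨b, rfl⟩) (m4.2 _ ⟨c, rfl⟩)) (m5.2 _ ⟨a, rfl⟩)
      rw [mul_mul (cen_comm m3.1), mul_mul (cen_comm (mul_mem m3.1 m4.1)), tv_mul, smul_mul_assoc,
        tv_mul, smul_smul, map_smul, smul_mul_assoc] at this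
      exact (Λ.toSubmodule.smul_mem_iff (mul_ne_zero h2 (B_ne_symm h1))).1 this
  by_cases hs : ∃ μ : F, η * η' * ζ₂ * ζ₃ = μ • 1
  · obtain ⟨μ, e⟩ := hs
    refine ⟨j, hj, fun A => (Λ.toSubmodule.smul_mem_iff
      (show μ ≠ 0 by rintro rfl; simp [e] at n5)).1 ?_⟩
    simpa [e] using key A
  obtain ⟨k, hk, h⟩ := ih _ (Finset.erase_ssubset hj) (Λ := Λ ⊓ _) Φ' inf_le_right
    (fun l hl => (H l (Finset.mem_of_mem_erase hl)).inf (inv_alg (Φ'.mem l hl)))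
    ⟨by simpa using key 1, mul_mem (mul_mem m3.1 m4.1) m5.1⟩ hs
  exact ⟨k, Finset.mem_of_mem_erase hk, fun A => (h A).1⟩

end CL.WrS
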