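/-
Commuting symplectic tensor factors: Clifford and Jordan type spaces of endomorphisms.
-/
import Mathlib
import Cfsg.Agent.CLAS.WrS1

set_option autoImplicit false
set_option linter.unusedSectionVars false

namespace CL.WrS

open Module CL.ExtF CL.Tens CL.Wr CL.Witt CL.Witt.Form

attribute [-simp] LinearEquiv.coe_inv
attribute [local simp] FormType.alt_σ FormType.alt_ε alt_B_self

variable {F : Type*} [Field F] {V₁ U : Type*} [AddCommGroup V₁] [Module F V₁] [AddCommGroup U]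
  [Module F U] {f : Form (FormType.alt F) V₁} {σ : Rep F V₁ U} {a b c d x y : V₁}
  {ξ η ζ : End F U} {S : Submodule F (End F U)} {ε : F} {𝒜 : Subalgebra F (End F U)}
  {I : Type*} [DecidableEq I] {ρ : I → Rep F V₁ U} {s : Finset I} {j l : I}
  {st : End F U →ₗ[F] End F U}

variable (f ρ s st) in
/-- An anti-involution compatible with the factors. -/
structure Adj : Prop where
  mul : ∀ a b, st (a * b) = st b * st a
  one : st 1 = 1
  tv : ∀ l ∈ s, ∀ a b, st (ρ l (tv f a b)) = -ρ l (tv f b a)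

theorem Adj.mono (h : Adj f ρ s st) {s' : Finset I} (hs : s' ⊆ s) : Adj f ρ s' st :=
  ⟨h.mul, h.one, fun l hl => h.tv l (hs hl)⟩

theorem Adj.comm (h : Adj f ρ s st) (hl : l ∈ s) (H : Commute η (ρ l (WrS.tv f x x))) :
    Commute (st η) (ρ l (WrS.tv f x x)) := by
  have := congrArg st H.eq
  rw [h.mul, h.mul, h.tv l hl, neg_mul, mul_neg, neg_inj] at this
  exact this.symm

theorem sa_sq (h : f.B c d = 0) : sa f ε c d * sa f ε c d = 0 := by
  simp [sa_mul (f.B_eq_zero_symm h) (f.B_eq_zero_symm h)]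

theorem sa_four {c' d' : V₁} (h1 : f.B c c' = 1) (h2 : f.B d d' = 1) (h3 : f.B c d' = 0)
    (h4 : f.B c' d = 0) :
    sa f ε c d * sa f ε c' d' + sa f ε c' d' * sa f ε c d =
      ε • (tv f d' d + tv f c' c - tv f d d' - tv f c c') := by
  simp [sa, add_mul, mul_add, tv_mul, h1, h2, h3, h4, f.B_eq_zero_symm h3, f.B_eq_zero_symm h4,
    f.alt_symm c c', f.alt_symm d d', smul_add, smul_sub]
  abel

variable [FiniteDimensional F V₁] (hf : f.Nondeg)
include hf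

theorem exists_hyp2 (h3 : 3 ≤ finrank F V₁) : ∃ c c' d d', f.B c c' = 1 ∧ f.B d d' = 1 ∧
    f.B c d' = 0 ∧ f.B c' d = 0 ∧ f.B c d = 0 ∧ f.B c' d' = 0 := by
  obtain ⟨c, c', -, -, h⟩ := exists_hyp hf h3 0
  obtain ⟨d, d0, d1, d2⟩ := SpTwo.exists_perp2 (f := f) h3 c c'
  obtain ⟨y, hy⟩ := hf.exists_B_eq d0 1
  refine ⟨c, c', d, y - f.B c y • c' + f.B c' y • c, h, ?_, by simp [h], d2, d1, ?_⟩
  · simp [hy, f.B_eq_zero_symm d1, f.B_eq_zero_symm d2]
  · simp [f.alt_symm c c', h]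

omit hf in
theorem exists_perp4 (h5 : 5 ≤ finrank F V₁) (a b c d : V₁) :
    ∃ x, x ≠ 0 ∧ f.B a x = 0 ∧ f.B b x = 0 ∧ f.B c x = 0 ∧ f.B d x = 0 := by
  obtain ⟨w, hw, h0⟩ := Submodule.exists_mem_ne_zero_of_ne_bot (LinearMap.ker_ne_bot_of_finrank_lt
    (f := ((f.B a).prod (f.B b)).prod ((f.B c).prod (f.B d))) (by simp; omega))
  exact ⟨w, h0, congrArg (·.1.1) hw, congrArg (·.1.2) hw, congrArg (·.2.1) hw, congrArg (·.2.2) hw⟩

variable [FiniteDimensional F U] [Nontrivial U]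

/-- An invariant space of Clifford type is scalar. -/
theorem clif (h3 : 3 ≤ finrank F V₁) (h5 : 5 ≤ finrank F V₁ ∨ (2 : F) ≠ 0) (Φ : Fam ρ s 𝒜)
    (A : Adj f ρ s st) (hS : S ≤ 𝒜.toSubmodule) (H : ∀ l ∈ s, Inv f (ρ l) S) (h1 : 1 ∈ S)
    (hc : ∀ N ∈ S, ∀ M ∈ S, ∃ μ : F, N * st M + M * st N = μ • 1) (hξ : ξ ∈ S) :
    ∃ μ : F, ξ = μ • 1 := by
  by_contra hn
  have sk : ∀ N ∈ S, N * N = 0 → st N = -N := fun N hN h0 => by
    rcases eq_or_ne N 0 with rfl | N0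
    · simp
    obtain ⟨μ, e⟩ := hc N hN 1 h1
    rw [A.one, mul_one, one_mul, ← eq_sub_iff_add_eq'] at e
    have h2 : N * st (N * N) = 0 := by simp [h0]
    rw [A.mul, e] at h2
    simp only [mul_sub, ← mul_assoc, mul_smul_comm, mul_one, sub_mul, h0, sub_zero, smul_mul_assoc,
      smul_smul, smul_zero, smul_eq_zero, mul_self_eq_zero] at h2
    simp [e, h2.resolve_right N0]
  obtain ⟨j, hj, hj'⟩ := exists_not_comm Φ (hS hξ) hn
  obtain ⟨ε, η, hε, η0, p1, p2, p3⟩ := (H j hj).ext hf h3 hξ hj'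
  have ε0 : ε ≠ 0 := by rcases hε with rfl | rfl <;> simp
  have Φ' := Φ.erase hj
  set J := lv (ρ j) S {B | ∃ c d, f.B c d = 0 ∧ B = sa f ε c d} 𝒜
  have iv : ∀ l ∈ s.erase j, Inv f (ρ l) J := fun l hl =>
    (H l (Finset.mem_of_mem_erase hl)).lv (Φ'.mem l hl)
  have m1 : η ∈ J :=
    ⟨mem_cen (p2 _ (Φ.mem j hj) (hS hξ)) p1, by rintro _ ⟨c, d, h, rfl⟩; exact p3 c d h⟩
  have k1 : ∀ η₁ ∈ J, ∀ η₂ ∈ J, ∀ c d c' d', f.B c d = 0 → f.B c' d' = 0 → ∃ μ : F,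
      ρ j (sa f ε c d * sa f ε c' d') * (η₁ * η₂) + ρ j (sa f ε c' d' * sa f ε c d) * (η₂ * η₁) =
        μ • 1 := fun η₁ q1 η₂ q2 c d c' d' e e' => by
    have r1 := q1.2 _ ⟨c, d, e, rfl⟩
    have r2 := q2.2 _ ⟨c', d', e', rfl⟩
    obtain ⟨μ, h⟩ := hc _ r1 _ r2
    rw [sk _ r1 (by simp [mul_mul (cen_comm q1.1), sa_sq e]),
      sk _ r2 (by simp [mul_mul (cen_comm q2.1), sa_sq e']), mul_neg, mul_neg,
      mul_mul (cen_comm q1.1), mul_mul (cen_comm q2.1), ← neg_add, neg_eq_iff_eq_neg] at h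
    exact ⟨-μ, by rw [h, neg_smul]⟩
  obtain ⟨c, c', d, d', a1, a2, a3, a4, a5, a6⟩ := exists_hyp2 hf h3
  have c0 : c ≠ 0 := by rintro rfl; simp at a1
  have d0 : d ≠ 0 := by rintro rfl; simp at a2
  have k2 : ∀ η₁ ∈ J, ∀ η₂ ∈ J, η₂ * η₁ = η₁ * η₂ := fun η₁ q1 η₂ q2 => by
    obtain ⟨μ, h⟩ := k1 η₁ q1 η₂ q2 c d c' d a5 a4
    rw [sa_mul (f.B_eq_zero_symm a5) (f.B_eq_zero_symm a4), sa_mul (f.B_eq_zero_symm a4)
      (f.B_eq_zero_symm a5), f.alt_symm c c', a1] at h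
    refine (sub_eq_zero.1 (eq_zero_of_scalar (C := ε • tv f d d) (μ := μ)
      (cen_comm (sub_mem (mul_mem q1.1 q2.1) (mul_mem q2.1 q1.1))) ?_ d0 (by simp)
      (smul_ne_zero ε0 (tv_ne hf d0 d0)))).symm
    simpa [mul_add, sub_eq_add_neg] using h
  have k3 : ∀ η₁ ∈ J, ∀ η₂ ∈ J, ∃ μ : F, η₁ * η₂ = μ • 1 := fun η₁ q1 η₂ q2 => by
    obtain ⟨μ, h⟩ := k1 η₁ q1 η₂ q2 c d c' d' a5 a6
    rw [k2 η₁ q1 η₂ q2, ← add_mul, ← map_add, sa_four a1 a2 a3 a4] at h
    have := smul_eq_of_mul (ν := -ε) (cen_comm (mul_mem q1.1 q2.1)) h c0 (by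
      simp [f.B_eq_zero_symm a3, f.B_eq_zero_symm a5, f.alt_symm c c', a1])
    exact ⟨(-ε)⁻¹ * μ, by rw [mul_smul, ← this, inv_smul_smul₀ (neg_ne_zero.2 ε0)]⟩
  obtain ⟨ν, rfl⟩ : ∃ ν : F, η = ν • 1 := by
    by_contra hn'
    obtain ⟨l, hl, hl'⟩ := exists_not_comm Φ' m1.1 hn'
    obtain ⟨ε', ζ, hε', ζ0, r1, -, r3⟩ := (iv l hl).ext hf h3 m1 hl'
    have n1 : ρ l (sa f ε' c d) * ζ ≠ 0 := fun e => ζ0 (eq_zero_of_mul (fun e => d0 (by
      simpa [sa, a1, f.B_eq_zero_symm a4] using LinearMap.congr_fun e c')) r1 e)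
    obtain ⟨η', m2, n2⟩ := exists_mul_ne hf Φ' iv (r3 c d a5) n1 (r3 c d a5).1 n1
    obtain ⟨μ, e⟩ := k3 _ (r3 c d a5) _ m2
    have := congrArg (ρ l (sa f ε' c d) * ζ * ·) e
    simp only [mul_smul_comm, mul_one] at this
    rw [← mul_assoc, mul_mul r1, sa_sq a5, map_zero, zero_mul, zero_mul] at this
    have μ0 := (smul_eq_zero.1 this.symm).resolve_right n1
    exact n2 (by rw [e, μ0, zero_smul])
  have m2 : 1 ∈ J := (J.smul_mem_iff (by rintro rfl; simp at η0)).1 m1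
  obtain rfl : ε = 1 := by
    have h := sk _ (m2.2 _ ⟨c, d, a5, rfl⟩) (by simp [← map_mul, sa_sq a5])
    simp only [sa, mul_one, map_add, map_smul, A.tv j hj, smul_neg, ← neg_add, neg_inj] at h
    have := LinearMap.congr_fun (rho_inj (ρ j) (a₁ := tv f d c + ε • tv f c d)
      (a₂ := tv f c d + ε • tv f d c) (by simpa using h)) c'
    simp only [LinearMap.add_apply, LinearMap.smul_apply, tv_apply, a1, f.B_eq_zero_symm a4] at this
    exact smul_left_injective F d0 (by simpa using this)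
  have k4 : ∀ c d c' d', f.B c d = 0 → f.B c' d' = 0 → ∀ x, x ≠ 0 →
      (sa f 1 c d * sa f 1 c' d' + sa f 1 c' d' * sa f 1 c d) x = 0 →
      sa f 1 c d * sa f 1 c' d' + sa f 1 c' d' * sa f 1 c d = 0 := fun c d c' d' e e' x x0 hx => by
    obtain ⟨μ, h⟩ := k1 1 m2 1 m2 c d c' d' e e'
    rw [← add_mul, ← map_add] at h
    by_contra h0
    simpa using eq_zero_of_scalar (fun A => by simp) h x0 hx h0
  rcases h5 with h5 | h2
  · obtain ⟨x, x0, b1, b2, b3, b4⟩ := exists_perp4 (f := f) h5 c c' d d'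
    have := k4 c d c' d' a5 a6 x x0 (by simp [sa_four a1 a2 a3 a4, b1, b2, b3, b4])
    rw [sa_four a1 a2 a3 a4] at this
    simpa [f.B_eq_zero_symm a3, f.B_eq_zero_symm a5, f.alt_symm c c', a1, c0] using
      LinearMap.congr_fun this c
  · have := LinearMap.congr_fun (k4 c c c' c' (by simp) (by simp) d d0 (by simp [sa, a4, a5])) c
    simp only [sa, ← two_smul F, one_smul, LinearMap.add_apply, End.mul_apply, LinearMap.smul_apply,
      tv_apply, map_smul, a1, f.alt_symm c c', alt_B_self] at this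
    simp [h2, c0] at this

section Two

variable (h2 : finrank F V₁ = 2) (h2' : (2 : F) ≠ 0)
include h2

omit [FiniteDimensional F U] [Nontrivial U] in
theorem tv_sub (a b : V₁) : tv f a b - tv f b a = f.B a b • 1 := by
  ext v
  rcases eq_or_ne a 0 with rfl | a0
  · simp
  by_cases h : f.B a b = 0
  · obtain ⟨s, rfl⟩ := Submodule.mem_span_singleton.1 (perp_two hf h2 a0 h)
    simp
  obtain ⟨s, hs⟩ := Submodule.mem_span_singleton.1 (perp_two hf h2 a0
    (d := f.B a b • v - f.B a v • b) (by simp [mul_comm]))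
  have := congrArg (f.B b) hs
  simp [f.alt_symm a b] at this
  obtain rfl : s = -f.B b v := mul_right_cancel₀ h (by linear_combination -this)
  simp only [LinearMap.sub_apply, tv_apply, LinearMap.smul_apply, End.one_apply]
  linear_combination (norm := module) hs

include h2'

omit [FiniteDimensional F U] [Nontrivial U] in
theorem mem_of_two {R : Submodule F (End F V₁)} (h1 : 1 ∈ R) (H : ∀ x, tv f x x ∈ R)
    (B : End F V₁) : B ∈ R := eq_top_of_tv hf (fun a b => (R.smul_mem_iff h2').1 (by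
  convert R.add_mem (R.sub_mem (R.sub_mem (H (a + b)) (H a)) (H b)) (R.smul_mem (f.B a b) h1) using 1
  rw [← tv_sub hf h2]; simp; module)) B

omit [FiniteDimensional F U] [Nontrivial U] in
theorem mem_of_cmp (H : ∀ φ x, Wr.cmp σ φ x ξ ∈ S)
    (H' : ∀ φ x y, σ (tv f y y) * Wr.cmp σ φ x ξ ∈ S) : ξ ∈ S :=
  sum_cmp σ ξ ▸ S.sum_mem fun a _ => S.sum_mem fun b _ => mem_of_two hf h2 h2'
    (R := S.comap ((LinearMap.mulRight F (Wr.cmp σ ((finBasis F V₁).coord a) (finBasis F V₁ b)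
      ξ)).comp σ.toLinearMap)) (by simpa using H _ _) (H' _ _) _

/-- An invariant non-scalar Jordan space contains a product of two root directions. -/
theorem jord (Φ : Fam ρ s 𝒜) (A : Adj f ρ s st) (hS : S ≤ 𝒜.toSubmodule)
    (H : ∀ l ∈ s, Inv f (ρ l) S) (hs : ∀ β ∈ S, st β = β)
    (hJ : ∀ β ∈ S, β * β = 0 → ∀ γ ∈ S, β * γ + γ * β ∈ S) (hξ : ξ ∈ S)
    (hn : ¬ ∃ μ : F, ξ = μ • 1) :
    ∃ j ∈ s, ∃ l ∈ s, j ≠ l ∧ ∀ x y, ρ j (tv f x x) * ρ l (tv f y y) ∈ S := by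
  induction s using Finset.strongInduction generalizing 𝒜 S ξ with
  | H s ih =>
  obtain ⟨j, hj, hj'⟩ := exists_not_comm Φ (hS hξ) hn
  obtain ⟨c, η0, p⟩ := (H j hj).ext2 hf h2 h2' hξ hj'
  have c0 : c ≠ 0 := by rintro rfl; simp at η0
  have Φ' := Φ.erase hj
  set J := lv (ρ j) S {B | ∃ x, B = tv f x x} 𝒜
  have iv : ∀ l ∈ s.erase j, Inv f (ρ l) J := fun l hl =>
    (H l (Finset.mem_of_mem_erase hl)).lv (Φ'.mem l hl)
  have m1 : mm f (ρ j) ξ c c ∈ J :=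
    ⟨mem_cen (cmp_mem (Φ.mem j hj) (hS hξ)) (mm_comm c c), by rintro _ ⟨x, rfl⟩; exact p x⟩
  obtain ⟨l, hl, hl'⟩ := exists_not_comm Φ' m1.1 (by
    rintro ⟨μ, e⟩
    have := hs _ (p c)
    rw [e, mul_smul_comm, mul_one, map_smul, A.tv j hj, smul_neg, neg_eq_iff_add_eq_zero,
      ← two_smul F, smul_eq_zero, smul_eq_zero] at this
    rcases this with h | rfl | h
    · exact h2' h
    · simp [e] at η0
    · exact rk_ne _ c0 (fun e => c0 (hf c (LinearMap.congr_fun e))) h)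
  have hl1 := Finset.mem_of_mem_erase hl
  have cm := Φ.comm l hl1 j hj (Finset.ne_of_mem_erase hl)
  obtain ⟨d, ζ0, q⟩ := (iv l hl).ext2 hf h2 h2' m1 hl'
  have Φ'' := Φ'.erase hl
  set J' := lv (ρ l) J {B | ∃ x, B = tv f x x} (𝒜 ⊓ Subalgebra.centralizer F (Set.range (ρ j)))
  have m2 : mm f (ρ l) (mm f (ρ j) ξ c c) d d ∈ J' :=
    ⟨mem_cen (cmp_mem (Φ'.mem l hl) m1.1) (mm_comm d d), by rintro _ ⟨x, rfl⟩; exact q x⟩
  generalize mm f (ρ l) (mm f (ρ j) ξ c c) d d = ζ at ζ0 m2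
  obtain ⟨ζ', m3, n3⟩ := exists_mul_ne hf Φ'' (S := J')
    (fun m hm => (iv m (Finset.mem_of_mem_erase hm)).lv (Φ''.mem m hm)) m2 ζ0 m2.1 ζ0
  obtain ⟨c', a1⟩ := hf.exists_B_eq c0 1
  have e1 : ∀ {ζ ζ' : End F U}, ζ ∈ J' → ∀ B C B' C', ρ j B * (ρ l C * ζ) * (ρ j B' * (ρ l C' * ζ')) =
      ρ j (B * B') * (ρ l (C * C') * (ζ * ζ')) := fun h B C B' C' => by
    rw [mul_mul fun A => (cm C A).mul_left (cen_comm h.1.1 A), mul_mul (cen_comm h.1)]
  have T : ∀ y y', ρ j (tv f c c * tv f c' c') * (ρ l (tv f y y * tv f y' y') * (ζ * ζ')) +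
      ρ j (tv f c' c' * tv f c c) * (ρ l (tv f y' y' * tv f y y) * (ζ' * ζ)) ∈ S := fun y y' => by
    have := hJ _ ((m2.2 _ ⟨y, rfl⟩).2 _ ⟨c, rfl⟩) (by simp [e1 m2, tv_mul]) _
      ((m3.2 _ ⟨y', rfl⟩).2 _ ⟨c', rfl⟩)
    rwa [e1 m2, e1 m3] at this
  have T1 := T c c'
  have T2 := T c' c
  have e2 : tv f c c' = 1 + tv f c' c := by rw [← sub_eq_iff_eq_add, tv_sub hf h2, a1, one_smul]
  simp only [tv_mul, a1, f.alt_symm c c', one_smul, neg_smul, map_neg, neg_mul, mul_neg,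
    neg_neg] at T1 T2
  have T3 : ρ j (tv f c c') * (ζ' * ζ) - ρ j (tv f c' c) * (ζ * ζ') ∈ S := by
    convert S.add_mem T1 T2 using 1
    simp only [e2, map_add, map_one, add_mul, mul_add, one_mul]; abel
  have c1 := cen_comm (mul_mem m2.1.1 m3.1.1)
  have c2 := cen_comm (mul_mem m3.1.1 m2.1.1)
  by_cases h : ∃ μ : F, ρ j (tv f c c') * (ζ' * ζ) - ρ j (tv f c' c) * (ζ * ζ') = μ • 1
  swap
  · have Ψ := Φ.erase hl1
    obtain ⟨a, ha, b, hb, r⟩ := ih _ (Finset.erase_ssubset hl1) (S := S ⊓ _) Ψ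
      (A.mono (Finset.erase_subset _ _)) inf_le_right
      (fun m hm => (H m (Finset.mem_of_mem_erase hm)).inf (inv_alg (Ψ.mem m hm)))
      (fun β h => hs β h.1) (fun β h e γ h' => ⟨hJ β h.1 e γ h'.1,
        Subalgebra.add_mem _ (Subalgebra.mul_mem _ h.2 h'.2) (Subalgebra.mul_mem _ h'.2 h.2)⟩) ⟨T3, mem_cen (hS T3) fun B =>
        ((cm B _).symm.mul_left (cen_comm (mul_mem m3.1 m2.1) B)).sub_left
          ((cm B _).symm.mul_left (cen_comm (mul_mem m2.1 m3.1) B))⟩ h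
    exact ⟨a, Finset.mem_of_mem_erase ha, b, Finset.mem_of_mem_erase hb, r.1,
      fun x y => (r.2 x y).1⟩
  obtain ⟨μ, h⟩ := h
  have c'0 : c' ≠ 0 := by rintro rfl; simp at a1
  have one : ∀ B, Commute (μ • 1 : End F U) (ρ j B) := fun B => (Commute.one_left _).smul_left μ
  have e3 : ζ * ζ' = μ • 1 := sub_eq_zero.1 (eq_zero_of_mul (tv_ne hf c'0 c0)
    (fun B => (c1 B).sub_left (one B)) (by
      simpa [mul_sub, ← mul_assoc, ← map_mul, tv_mul, f.alt_symm c c', a1, sub_eq_zero] using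
        congrArg (ρ j (tv f c' c) * ·) h))
  have e4 : ζ' * ζ = μ • 1 := sub_eq_zero.1 (eq_zero_of_mul (tv_ne hf c0 c'0)
    (fun B => (c2 B).sub_left (one B)) (by
      simpa [mul_sub, ← mul_assoc, ← map_mul, tv_mul, a1, sub_eq_zero] using
        congrArg (ρ j (tv f c c') * ·) h))
  simp only [e3, e4, mul_smul_comm, mul_one, ← smul_add] at T1
  rw [S.smul_mem_iff (by rintro rfl; simp [e3] at n3)] at T1
  have z0 : c + c' ≠ 0 := fun e => by simpa [a1] using congrArg (f.B c) e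
  have e5 : ∀ (σ : Rep F V₁ U) a b, σ (tv f (c + c') (c + c')) * σ (tv f a b) *
      σ (tv f (c + c') (c + c')) = (f.B (c + c') b * f.B a (c + c')) •
        σ (tv f (c + c') (c + c')) := fun σ a b => by
    rw [← map_mul, ← map_mul, tv_mul, smul_mul_assoc, tv_mul, smul_smul, map_smul]
  have T4 := (H j hj).two (c := c + c') (d := c + c') (by simp only [alt_B_self]) T1
  rw [← two_smul F, S.smul_mem_iff h2'] at T4
  simp only [mul_add, add_mul, ← mul_assoc (ρ j _)] at T4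
  simp only [mul_assoc _ (ρ l _), (cm _ _).eq] at T4
  simp only [← mul_assoc, e5, smul_mul_assoc] at T4
  have T5 := (H l hl1).two (c := c + c') (d := c + c') (by simp only [alt_B_self]) T4
  rw [← two_smul F, S.smul_mem_iff h2'] at T5
  simp only [mul_add, add_mul, mul_smul_comm, smul_mul_assoc, ← mul_assoc, (cm _ _).eq] at T5
  simp only [mul_assoc (ρ j _), e5, mul_smul_comm, smul_smul, ← add_smul] at T5
  rw [S.smul_mem_iff (by simpa [a1, f.alt_symm c c', ← two_mul, one_add_one_eq_two] using h2')] at T5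
  refine ⟨j, hj, l, hl1, (Finset.ne_of_mem_erase hl).symm, fun x y => ?_⟩
  rcases eq_or_ne x 0 with rfl | x0
  · simp
  rcases eq_or_ne y 0 with rfl | y0
  · simp
  obtain ⟨g, hg, rfl⟩ := hf.witt_vector z0 x0 (by simp [alt_q])
  obtain ⟨g', hg', rfl⟩ := hf.witt_vector z0 y0 (by simp [alt_q])
  have T6 := H j hj g hg _ T5
  rw [conj_mul _ (cm _), tv_conj hg, ← (cm _ _).eq] at T6
  have T7 := H l hl1 g' hg' _ T6
  rwa [conj_mul _ fun B => (cm B _).symm, tv_conj hg', (cm _ _).eq] at T7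

omit [FiniteDimensional F U] [Nontrivial U] in
/-- A Jordan space containing all products of two root directions is full. -/
theorem jord_full (A : Adj f ρ s st) (h1 : 1 ∈ S)
    (hJ : ∀ β ∈ S, β * β = 0 → ∀ γ ∈ S, β * γ + γ * β ∈ S)
    (cm : ∀ j ∈ s, ∀ l ∈ s, j ≠ l → ∀ A B, Commute (ρ j A) (ρ l B))
    (hp : ∀ j ∈ s, ∀ l ∈ s, j ≠ l → ∀ x y, ρ j (tv f x x) * ρ l (tv f y y) ∈ S) {s' : Finset I}
    (hs : s' ⊆ s) (Φ : Fam ρ s' 𝒜) (hξ : ξ ∈ 𝒜) : ξ + st ξ ∈ S ∧ ∀ l ∈ s, l ∉ s' →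
      (∀ B, Commute ξ (ρ l B)) → ∀ y, ρ l (tv f y y) * (ξ - st ξ) ∈ S := by
  induction s' using Finset.induction_on generalizing 𝒜 ξ with
  | empty =>
    obtain ⟨μ, rfl⟩ := Φ.cent ξ hξ (by simp)
    simpa [A.one] using S.add_mem (S.smul_mem μ h1) (S.smul_mem μ h1)
  | insert j s' hj ih =>
    have m := Finset.mem_insert_self j s'
    have Φ' := Φ.erase m
    rw [Finset.erase_insert hj] at Φ'
    have k := fun φ x => ih ((Finset.subset_insert _ _).trans hs) Φ'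
      (mem_cen (cmp_mem (φ := φ) (x := x) (Φ.mem j m) hξ) cmp_comm)
    have e : ∀ φ x y, st (ρ j (tv f y y) * Wr.cmp (ρ j) φ x ξ) =
        -(ρ j (tv f y y) * st (Wr.cmp (ρ j) φ x ξ)) := fun φ x y => by
      rw [A.mul, A.tv j (hs m), mul_neg, (A.comm (hs m) (cmp_comm _)).eq]
    refine ⟨?_, fun l hl hl' hc y => ?_⟩
    · suffices ξ ∈ S.comap (LinearMap.id + st) by simpa using this
      exact mem_of_cmp hf h2 h2' (σ := ρ j) (fun φ x => by simpa using (k φ x).1) fun φ x y => by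
        simpa [e, ← sub_eq_add_neg, mul_sub] using (k φ x).2 j (hs m) hj cmp_comm y
    have lj : l ≠ j := fun e => hl' (e ▸ m)
    have c1 := cm l hl j (hs m) lj
    have c2 : ∀ φ x B, Commute (Wr.cmp (ρ j) φ x ξ) (ρ l B) := fun φ x B =>
      (cmp_commute (c1 B) (hc B).symm).symm
    suffices ξ ∈ S.comap ((LinearMap.mulLeft F (ρ l (tv f y y))).comp (LinearMap.id - st)) by
      simpa using this
    refine mem_of_cmp hf h2 h2' (σ := ρ j) (fun φ x => by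
      simpa using (k φ x).2 l hl (fun h => hl' (Finset.mem_insert_of_mem h)) (c2 _ _) y)
      fun φ x z => ?_
    have := hJ _ (hp l hl j (hs m) lj y z) (by
      simp [mul_mul fun B => (c1 B _).symm, tv_mul]) _ (k φ x).1
    rw [(((c2 _ _ _).add_left (A.comm hl (c2 _ _ _))).mul_right ((cmp_comm _).add_left
      (A.comm (hs m) (cmp_comm _)))).eq, ← two_smul F, S.smul_mem_iff h2'] at this
    simpa [e, mul_add, mul_assoc] using this

end Two

end CL.WrS
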