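/-
Tensor powers of symplectic spaces: the level calculus, and the stabilizer of a member `U ⊗ c`.
-/
import Mathlib
import Cfsg.Agent.CLAS.WrS2

set_option autoImplicit false
set_option linter.unusedSectionVars false

namespace CL.WrS

open Module CL.ExtF CL.Tens CL.Wr CL.Witt CL.Witt.Form

attribute [-simp] LinearEquiv.coe_inv
attribute [local simp] FormType.alt_σ FormType.alt_ε alt_B_self

variable {F : Type*} [Field F] {U V₁ V : Type*} [AddCommGroup V₁] [Module F V₁] [AddCommGroup U]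
  [Module F U] [AddCommGroup V] [Module F V] {τ : U →ₗ[F] V₁ →ₗ[F] V} {h : IsTensorProduct τ}
  {T T₁ : FormType F} {f : Form T V} {fU : Form T₁ U} {f₁ : Form (FormType.alt F) V₁}
  {X : Subgroup (V ≃ₗ[F] V)} {I : Type*} [DecidableEq I] {ρ : I → Rep F V₁ U} {s : Finset I}
  {st : End F U →ₗ[F] End F U} {c y : V₁} {β γ N M : End F U}

theorem exists_st [FiniteDimensional F U] (hf : fU.Nondeg) (hσ : ∀ a, T₁.σ a = a) :
    ∃ st : End F U →ₗ[F] End F U, ∀ N x y, fU.B (N x) y = fU.B x (st N y) := by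
  choose t ht using exists_adjL hf
  exact ⟨IsLinearMap.mk' t ⟨fun a b => LinearMap.ext fun y => hf.ext_right fun x => by simp [← ht],
    fun s a => LinearMap.ext fun y => hf.ext_right fun x => by simp [← ht, hσ]⟩, ht⟩

/-- If all components of an element of the radical are scalar, it is obvious up to a central
element. -/
theorem split [FiniteDimensional F V₁] [Nontrivial U] (hT : TF h f fU f₁)
    (h2 : ∀ e ∈ f₁.O, kr h 1 e ∈ f.O) (hc : c ≠ 0) {z : V ≃ₗ[F] V} (hz : z ∈ f.O)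
    (hq : QW h f₁ c z) {θ : V₁ →ₗ[F] End F U}
    (hθ : ∀ y, f₁.B c y = 0 → ∀ x, z (τ x y) = τ x y + τ (θ y x) c)
    (hL : ∀ y, f₁.B c y = 0 → ∃ s : F, θ y = s • 1) : ∃ (t : V₁) (β : End F U),
      ∀ v, ((ec h f₁ c t 0)⁻¹ * z) v = v + τ (β (eta h f₁ c v)) c := by
  obtain ⟨c', h1⟩ := hT.exists_partner hc
  obtain ⟨x0, hx0⟩ := exists_ne (0 : U)
  obtain ⟨α, hα⟩ := Module.Projective.exists_dual_eq_one F hx0
  obtain ⟨t, ht⟩ := hT.nd₂.exists_rep (α ∘ₗ θ.flip x0)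
  have e1 : ∀ y, f₁.B c y = 0 → ∀ x, z (τ x y) = τ x y + f₁.B t y • τ x c := fun y hy x => by
    obtain ⟨s, hs⟩ := hL y hy
    simp [hθ y hy, ht, hs, hα]
  have e2 : f₁.B c t = 0 := by
    have := e1 c (by simp) x0
    rw [hq.1, left_eq_add, smul_eq_zero] at this
    exact f₁.B_eq_zero_symm (this.resolve_right (pure_ne_zero h hx0 hc))
  refine ⟨t, hT.exists_level (f.O.mul_mem (f.O.inv_mem (h2 _ (ei_mem_O c t 0))) hz) hc
    fun v hv => ?_⟩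
  have := mem_of_perp_pure (h := h) (S := ⊥)
    (g := (z : V →ₗ[F] V) - (ec h f₁ c t 0 : V →ₗ[F] V)) h1
    (fun x y hy => by simp [e1 y hy, ec_apply e2, hy]) hv
  exact inv_app_eq (sub_eq_zero.1 this).symm

variable (X h f₁ st) in
/-- The middle level. -/
def lvR : Submodule F (End F U) where
  carrier := {N | ∀ c y, c ≠ 0 → y ∉ F ∙ c → f₁.B c y = 0 → ∃ β, El X h f₁ c y N (st N) β}
  zero_mem' _ _ _ _ _ := ⟨0, Has.zero.congr fun v => by simp⟩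
  add_mem' ha hb c y c0 y0 e := by
    obtain ⟨β, a⟩ := ha c y c0 y0 e
    obtain ⟨γ, b⟩ := hb c y c0 y0 e
    exact ⟨β + γ, (Has.add a b fun v => by simp [e, f₁.alt_symm c y]).congr fun v => by simp; abel⟩
  smul_mem' s N ha c y c0 y0 e := by
    rcases eq_or_ne s 0 with rfl | s0
    · exact ⟨0, Has.zero.congr fun v => by simp⟩
    obtain ⟨β, a⟩ := ha (s • c) y (smul_ne_zero s0 c0) (by
      rwa [Submodule.span_singleton_smul_eq (IsUnit.mk0 s s0)]) (by simp [e])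
    exact ⟨(s * s) • β, Has.congr a fun v => by simp [smul_smul]⟩

variable [Finite F]

theorem lvA_sand [FiniteDimensional F V₁] (hf : f₁.Nondeg) {t t' : End F U} (ht : t ∈ lvA X h f₁) (ht' : t' ∈ lvA X h f₁)
    (e : t' * t = 1) (e' : t * t' = 1) (hγ : γ ∈ lvA X h f₁) : t * γ * t ∈ lvA X h f₁ := fun c => by
  rcases eq_or_ne c 0 with rfl | c0
  · exact Has.zero.congr fun v => by simp
  obtain ⟨c', h1⟩ := hf.exists_B_eq c0 1
  obtain ⟨a, ha, ea⟩ := ht c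
  obtain ⟨b, hb, eb⟩ := ht' c'
  have e1 := LinearMap.congr_fun e
  have e2 := LinearMap.congr_fun e'
  simp only [End.mul_apply, End.one_apply] at e1 e2
  refine ((hγ c').conj (X.mul_mem hb ha)).congr fun v => ?_
  obtain ⟨v, rfl⟩ := (b * a).surjective v
  rw [inv_app]
  simp [ea, eb, h1, e1, e2, f₁.alt_symm c c']

theorem lvA_jord [FiniteDimensional F V₁] (hf : f₁.Nondeg) (h2 : (2 : F) ≠ 0) (h1 : 1 ∈ lvA X h f₁) (β : End F U)
    (hβ : β ∈ lvA X h f₁) (h0 : β * β = 0) (γ : End F U) (hγ : γ ∈ lvA X h f₁) :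
    β * γ + γ * β ∈ lvA X h f₁ := by
  have e : (1 - β) * (1 + β) = 1 := by simp [mul_add, sub_mul, h0]
  have e' : (1 + β) * (1 - β) = 1 := by simp [mul_sub, add_mul, h0]
  rw [← Submodule.smul_mem_iff _ h2]
  convert sub_mem (lvA_sand hf (add_mem h1 hβ) (sub_mem h1 hβ) e e' hγ)
    (lvA_sand hf (sub_mem h1 hβ) (add_mem h1 hβ) e' e hγ) using 1
  rw [two_smul]; noncomm_ring

variable (X h f fU f₁ ρ s st) in
/-- A proper overgroup of the tensor wreath subgroup, seen from one factor. -/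
structure WS : Prop extends TF h f fU f₁ where
  le : X ≤ f.O
  R : ∀ e ∈ f₁.O, kr h 1 e ∈ X
  kO : ∀ k ∈ Kron τ, (∀ v w, f.B (k v) (k w) = f.B v w) → k ∈ f.O
  fam : Fam ρ s ⊤
  adj : ∀ N x y, fU.B (N x) y = fU.B x (st N y)
  atv : ∀ l ∈ s, ∀ a b, st (ρ l (tv f₁ a b)) = -ρ l (tv f₁ b a)
  L : ∀ l ∈ s, ∀ e ∈ f₁.O, un (ρ l) e ∈ fU.O ∧ kr h (un (ρ l) e) 1 ∈ X
  sw : ∀ a ∈ s, ∀ b ∈ s, ∃ p ∈ fU.O, kr h p 1 ∈ X ∧ ∀ l B,
    (p : End F U) * ρ l B * (p⁻¹ : U ≃ₗ[F] U) = ρ (Equiv.swap a b l) B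
  nf : ¬ ∀ N, N + st N ∈ lvA X h f₁
  nt : Nontrivial U
  dim : finrank F V₁ = 2 ∧ (2 : F) ≠ 0 ∧ (∃ t : F, t ≠ 0 ∧ t * t ≠ 1) ∨
    3 ≤ finrank F V₁ ∧ (5 ≤ finrank F V₁ ∨ (2 : F) ≠ 0)

namespace WS

variable (S : WS h f fU f₁ X ρ s st)
include S

theorem nt₁ : Nontrivial V₁ :=
  Module.nontrivial_of_finrank_pos (R := F) (by have := S.dim; omega)

theorem A : Adj f₁ ρ s st :=
  ⟨fun _ _ => LinearMap.ext fun y => S.nd₁.ext_right fun x => by simp [← S.adj],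
    LinearMap.ext fun y => S.nd₁.ext_right fun x => by simp [← S.adj], S.atv⟩

theorem one_mem : 1 ∈ lvA X h f₁ := fun c =>
  ⟨ec h f₁ c 0 1, S.R _ (ei_mem_O _ _ _), fun v => by simp [ec_zero_apply, pc_apply]⟩

theorem st_conj {p : U ≃ₗ[F] U} (hp : p ∈ fU.O) (N : End F U) :
    st ((p : End F U) * N * (p⁻¹ : U ≃ₗ[F] U)) = (p : End F U) * st N * (p⁻¹ : U ≃ₗ[F] U) :=
  LinearMap.ext fun y => S.nd₁.ext_right fun x => by
    simp [← S.adj, B_apply_left hp, ← mem_O_B (fU.O.inv_mem hp) x,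
      inv_app]

theorem lvR_conj {p : U ≃ₗ[F] U} (hp : p ∈ fU.O) (hk : kr h p 1 ∈ X) (hN : N ∈ lvR h f₁ X st) :
    (p : End F U) * N * (p⁻¹ : U ≃ₗ[F] U) ∈ lvR h f₁ X st := fun c y c0 y0 e =>
  have ⟨β, a⟩ := hN c y c0 y0 e
  ⟨(p : End F U) * β * (p⁻¹ : U ≃ₗ[F] U), by
    rw [S.st_conj hp N]; exact Has.congr (a.conj f₁.O.one_mem hk) fun _ => rfl⟩

theorem one_mem_lvR : 1 ∈ lvR h f₁ X st := fun _ _ _ _ e => ⟨0, by rw [S.A.one]; exact el_id S.R e⟩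

theorem inv_of {R : Submodule F (End F U)} (H : ∀ p ∈ fU.O, kr h p 1 ∈ X → ∀ N ∈ R,
    (p : End F U) * N * (p⁻¹ : U ≃ₗ[F] U) ∈ R) (l : I) (hl : l ∈ s) : Inv f₁ (ρ l) R :=
  fun e he => H (un (ρ l) e) (S.L l hl e he).1 (S.L l hl e he).2

variable [FiniteDimensional F V₁]

theorem st_eq {X : Subgroup (V ≃ₗ[F] V)} (hX : X ≤ f.O) (hc : c ≠ 0)
    (H : Has X fun v => τ (β (eta h f₁ c v)) c) : st β = β :=
  have ⟨_, h1⟩ := S.exists_partner hc
  LinearMap.ext fun y => S.nd₁.ext_right fun x => by rw [← S.adj, S.level_B hX h1 H]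

theorem st_lvA (β : End F U) (H : β ∈ lvA X h f₁) : st β = β :=
  have := S.nt₁
  have ⟨c, hc⟩ := exists_ne (0 : V₁)
  S.st_eq S.le hc (H c)

theorem mem_lvR (hc : c ≠ 0) (hy : y ∉ F ∙ c) (e : f₁.B c y = 0) (H : El X h f₁ c y N (st N) β) :
    N ∈ lvR h f₁ X st := fun d w d0 w0 e' => by
  obtain ⟨g, hg, rfl, rfl⟩ := alt_witt2 S.nd₂ hc hy d0 w0 (e'.trans e.symm)
  exact ⟨β, by simpa using H.conj hg (S.R g hg)⟩

theorem mul_mem_lvR (hc : c ≠ 0) (hy : y ∉ F ∙ c) (e : f₁.B c y = 0) {z : V ≃ₗ[F] V} (hz : z ∈ X)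
    (hN : ∀ x, z (τ x y) = τ x y + τ (N x) c) (hγ : γ ∈ lvA X h f₁) : N * γ ∈ lvR h f₁ X st := by
  have e1 : ∀ v, eta h f₁ y (z⁻¹ v) = eta h f₁ y v + st N (eta h f₁ c v) := fun v =>
    S.nd₁.ext_right fun x => by
      rw [← S.B_pure, ← B_apply_left (S.le hz), hN]; simp [S.B_pure, S.adj]
  refine S.mem_lvR hc hy e (β := N * γ * st N) ?_
  rw [S.A.mul, S.st_lvA γ hγ]
  exact (((hγ y).conj hz).sub (hγ y) (fun v w => by simp [e1, e]) fun v w => by simp).congr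
    fun v => by simp [e1, hN]; abel

theorem lvR_mul (hN : N ∈ lvR h f₁ X st) (hγ : γ ∈ lvA X h f₁) : N * γ ∈ lvR h f₁ X st :=
  fun c y c0 y0 e => by
  obtain ⟨y', p1, p2⟩ := SpTwo.exists_perp_B S.nd₂ y0 (-1)
  obtain ⟨β, z, hz, ez⟩ := hN c y' c0 (SpTwo.nmem_of_B' e (by simp [f₁.alt_symm y y', p2])) p1
  exact S.mul_mem_lvR c0 y0 e hz (fun x => by simp [ez, e, f₁.alt_symm y y', p2]) hγ c y c0 y0 e

theorem lvR_comm (h3 : 3 ≤ finrank F V₁) (hN : N ∈ lvR h f₁ X st) (hM : M ∈ lvR h f₁ X st) :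
    N * st M + M * st N ∈ lvA X h f₁ := by
  have := S.nt₁
  obtain ⟨c, c0⟩ := exists_ne (0 : V₁)
  obtain ⟨y, y', p1, p2, p3⟩ := exists_hyp S.nd₂ h3 c
  obtain ⟨_, a⟩ := hN c y c0 (SpTwo.nmem_of_B' p2 (by simp [p3])) p1
  obtain ⟨_, b⟩ := hM c y' c0 (SpTwo.nmem_of_B' p1 (by simp [f₁.alt_symm y y', p3])) p2
  exact S.level_move S.R c0 (by simpa [p3] using a.comm b p1 p2)

variable [FiniteDimensional F U]

/-- The central level is scalar. -/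
theorem lvA_scalar (hβ : β ∈ lvA X h f₁) : ∃ μ : F, β = μ • 1 := by
  by_contra hn
  have := S.nt
  refine S.nf fun N => ?_
  rcases S.dim with ⟨h2, h2', -⟩ | ⟨h3, -⟩
  · have hJ := lvA_jord S.nd₂ h2' S.one_mem
    obtain ⟨j, hj, l, hl, hjl, H⟩ := jord S.nd₂ h2 h2' S.fam S.A le_top
      (S.inv_of fun _ _ hk _ => lvA_conj hk) S.st_lvA hJ hβ hn
    have mv : ∀ a ∈ s, ∀ b ∈ s, ∀ j l x y, ρ j (tv f₁ x x) * ρ l (tv f₁ y y) ∈ lvA X h f₁ →
        ρ (Equiv.swap a b j) (tv f₁ x x) * ρ (Equiv.swap a b l) (tv f₁ y y) ∈ lvA X h f₁ :=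
      fun a ha b hb j l x y H => by
        obtain ⟨p, -, hk, e⟩ := S.sw a ha b hb
        convert lvA_conj hk H using 1
        ext v; simp [← e, inv_app]
    refine (jord_full S.nd₂ h2 h2' S.A S.one_mem hJ S.fam.comm (fun a ha b hb hab x y => ?_)
      le_rfl S.fam trivial).1
    have h1 : Equiv.swap j a l ∈ s := by rw [Equiv.swap_apply_def]; split_ifs <;> assumption
    have := mv _ h1 b hb _ _ x y (mv j hj a ha j l x y (H x y))
    rwa [Equiv.swap_apply_left, Equiv.swap_apply_left, Equiv.swap_apply_of_ne_of_ne (by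
      rwa [Ne, eq_comm, Equiv.swap_apply_eq_iff, Equiv.swap_apply_right, eq_comm]) hab] at this
  let Λ : Subalgebra F (End F U) :=
    { carrier := {a | ∀ N ∈ lvR h f₁ X st, N * a ∈ lvR h f₁ X st}
      mul_mem' := fun ha hb N hN => mul_assoc N _ _ ▸ hb _ (ha N hN)
      add_mem' := fun ha hb N hN => mul_add N _ _ ▸ add_mem (ha N hN) (hb N hN)
      algebraMap_mem' := fun s N hN => by
        simpa [Algebra.algebraMap_eq_smul_one] using Submodule.smul_mem _ s hN }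
  have cj : ∀ p ∈ fU.O, kr h p 1 ∈ X → ∀ a ∈ Λ, (p : End F U) * a * (p⁻¹ : U ≃ₗ[F] U) ∈ Λ :=
    fun p hp hk a ha N hN => by
      convert S.lvR_conj hp hk (ha _ (S.lvR_conj (fU.O.inv_mem hp) (by
        convert X.inv_mem hk using 1
        exact equiv_ext h fun x y => by simp [kr_inv_apply]) hN)) using 1
      ext v; simp [app_inv]
  obtain ⟨j, hj, H⟩ := alg S.nd₂ h3 S.fam (Λ := Λ) le_top
    (S.inv_of cj) (fun N hN => S.lvR_mul hN hβ) hn
  have := S.fam.le_of (Λ := Λ) (fun l hl B => by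
    obtain ⟨p, hp, hk, e⟩ := S.sw j hj l hl
    simpa [e] using cj p hp hk _ (H B)) (show N ∈ ⊤ from trivial) 1 S.one_mem_lvR
  simpa [S.A.one] using S.lvR_comm h3 this S.one_mem_lvR

theorem hA (hc : c ≠ 0) (β : End F U) (H : Has X fun v => τ (β (eta h f₁ c v)) c) :
    ∃ s : F, ∀ x, β x = s • x :=
  (S.lvA_scalar (S.level_move S.R hc H)).imp fun _ e x => by simp [e]

theorem lvR_scalar (hN : N ∈ lvR h f₁ X st) (hy : y ∉ F ∙ c) (hc : c ≠ 0) (e : f₁.B c y = 0) :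
    ∃ μ : F, N = μ • 1 := by
  have := S.nt
  rcases S.dim with ⟨h2, -⟩ | ⟨h3, h5⟩
  · exact absurd (perp_two S.nd₂ h2 hc e) hy
  exact clif S.nd₂ h3 h5 S.fam S.A le_top
    (S.inv_of fun _ hp hk _ => S.lvR_conj hp hk) S.one_mem_lvR
    (fun _ a _ b => S.lvA_scalar (S.lvR_comm h3 a b)) hN

theorem scalar (hc : c ≠ 0) (e : f₁.B c y = 0) {z : V ≃ₗ[F] V} (hz : z ∈ X)
    (h1 : ∀ x, z (τ x c) = τ x c) (hN : ∀ x, z (τ x y) = τ x y + τ (N x) c) :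
    ∃ μ : F, N = μ • 1 := by
  by_cases hy : y ∈ F ∙ c
  · obtain ⟨a, rfl⟩ := Submodule.mem_span_singleton.1 hy
    exact ⟨0, LinearMap.ext fun x => pure_inj h hc (by simpa [h1] using hN x)⟩
  simpa using S.lvR_scalar (S.mul_mem_lvR hc hy e hz hN S.one_mem) hy hc e

/-- The stabilizer of a member lies in the Kronecker subgroup. -/
theorem stab (hc : c ≠ 0) {z : V ≃ₗ[F] V} (hz : z ∈ X) (hW : ∀ w ∈ mem τ c, z w ∈ mem τ c) :
    z ∈ Kron τ := by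
  have := S.nt
  refine S.stab_kron S.le S.R hc (fun u hu hq => S.QT_of_scalar S.le S.R hc (S.hA hc) hu hq
    fun y N hy hN => (S.scalar hc hy hu hq.1 hN).imp fun _ e x => by simp [e]) hz hW
    fun k hk iso hq => ?_
  have uO := f.O.mul_mem (f.O.inv_mem (S.kO k hk iso)) (S.le hz)
  have hu : ∀ e ∈ f₁.O, (k⁻¹ * z)⁻¹ * kr h 1 e * (k⁻¹ * z) ∈ X := fun e he => by
    obtain ⟨A, B, hk⟩ := hk
    obtain ⟨x, hx⟩ := exists_ne (0 : U)
    obtain ⟨x', hx'⟩ := S.nd₁.exists_B_eq hx 1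
    have e1 : ∀ y y', fU.B (A x) (A x') * f₁.B (B y) (B y') = f₁.B y y' := fun y y' => by
      simpa [hk, S.mul, hx'] using iso (τ x y) (τ x' y')
    obtain ⟨c', h1⟩ := S.exists_partner hc
    have m0 : fU.B (A x) (A x') ≠ 0 := fun e => by simpa [e, h1] using e1 c c'
    convert X.mul_mem (X.mul_mem (X.inv_mem hz) (S.R (B * e * B⁻¹) ⟨fun y y' =>
      mul_left_cancel₀ m0 (by
        rw [mul_app, mul_app, mul_app, mul_app, e1, mem_O_B he, ← e1, app_inv, app_inv]),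
      fun y => by simp [alt_q]⟩)) hz using 1
    have : k * kr h 1 e * k⁻¹ = kr h 1 (B * e * B⁻¹) := mul_inv_eq_of_eq_mul
      (equiv_ext h fun x y => by simp [hk, inv_app])
    rw [← this]; group
  suffices k⁻¹ * z ∈ X by simpa using X.mul_mem hz (X.inv_mem this)
  generalize k⁻¹ * z = u at hq uO hu
  obtain ⟨θ, hθ⟩ := S.exists_theta hc hq
  obtain ⟨t, β, hβ⟩ := split S.toTF (fun e he => S.le (S.R e he)) hc uO hq hθ fun y hy => by
    by_cases hyc : y ∈ F ∙ c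
    · obtain ⟨a, rfl⟩ := Submodule.mem_span_singleton.1 hyc
      exact ⟨0, LinearMap.ext fun x => pure_inj h hc (by simpa [hq.1] using hθ (a • c) hy x)⟩
    obtain ⟨y', p1, p2⟩ := SpTwo.exists_perp_B S.nd₂ hyc 1
    have i1 : ∀ x, u⁻¹ (τ x c) = τ x c := fun x => inv_app_eq (hq.1 x)
    have i2 : ∀ x, u⁻¹ (τ x y') = τ x y' - τ (θ y' x) c := fun x =>
      inv_app_eq (by simp [hθ y' p1, hq.1])
    have e1 : f₁.ei y 0 (-1) c = c := by simp [alt_tv_apply, f₁.B_eq_zero_symm hy]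
    refine S.scalar hc p1 (X.mul_mem (hu _ (ei_mem_O y 0 (-1))) (S.R _ (ei_mem_O y 0 1)))
      (fun x => by simp [alt_tv_apply, f₁.B_eq_zero_symm hy, hq.1, i1]) fun x => ?_
    simp [alt_tv_apply, p2, hθ y' p1, hθ y hy, e1, i1, i2]
    abel
  have hm := S.R _ (ei_mem_O c t 0)
  have wO := f.O.mul_mem (f.O.inv_mem (S.le hm)) uO
  have hw : ∀ d, d ≠ 0 → Has X fun v => τ (β (eta h f₁ c v)) c -
      τ (β (eta h f₁ d (v + τ (β (eta h f₁ c v)) c))) d := fun d hd => by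
    obtain ⟨e, he, rfl⟩ := S.nd₂.witt_vector hc hd (by simp [alt_q])
    refine ⟨kr h 1 e * (u⁻¹ * kr h 1 (f₁.ei c t 0 * e⁻¹ * (f₁.ei c t 0)⁻¹) * u), X.mul_mem (S.R e he)
      (hu _ (mul_mem (mul_mem (ei_mem_O c t 0) (inv_mem he)) (inv_mem (ei_mem_O c t 0)))),
      fun v => ?_⟩
    have e1 : kr h 1 (f₁.ei c t 0 * e⁻¹ * (f₁.ei c t 0)⁻¹) =
        ec h f₁ c t 0 * (kr h 1 e)⁻¹ * (ec h f₁ c t 0)⁻¹ := equiv_ext h fun x y => by
      simp [ec, kr_inv_apply]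
    have e2 : ∀ v, ((ec h f₁ c t 0)⁻¹ * u)⁻¹ v = v - τ (β (eta h f₁ c v)) c := fun v =>
      inv_app_eq (by rw [hβ]; simp)
    rw [e1, show kr h 1 e * (u⁻¹ * (ec h f₁ c t 0 * (kr h 1 e)⁻¹ * (ec h f₁ c t 0)⁻¹) * u) =
      kr h 1 e * ((ec h f₁ c t 0)⁻¹ * u)⁻¹ * (kr h 1 e)⁻¹ * ((ec h f₁ c t 0)⁻¹ * u) by group,
      mul_app, hβ, mul_app, mul_app, e2, map_sub, app_inv, eta_kr_inv _ he, kr_apply]
    simp [add_sub_assoc]
  obtain ⟨μ, rfl⟩ : ∃ μ : F, β = μ • 1 := by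
    rcases S.dim with ⟨-, -, a, a0, a1⟩ | ⟨h3, -⟩
    · obtain ⟨μ, e⟩ := S.hA hc ((1 - a * a) • β) ((hw (a • c) (smul_ne_zero a0 hc)).congr
        fun v => by simp [sub_smul, smul_smul])
      exact ⟨(1 - a * a)⁻¹ * μ, LinearMap.ext fun x => by
        simp [mul_smul, ← e, sub_ne_zero.2 a1.symm]⟩
    obtain ⟨d, y, p1, p2, p3⟩ := exists_hyp S.nd₂ h3 c
    obtain ⟨a, ha, ea⟩ := hw d (by rintro rfl; simp at p3)
    obtain ⟨b, hb, eb⟩ := hw (d + c) fun e => by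
      simpa [p3, p2] using congrArg (f₁.B · y) e
    refine S.scalar hc p2 (X.mul_mem (X.inv_mem hb) ha) (fun x => inv_app_eq ?_)
      fun x => inv_app_eq ?_ <;>
    simp [ea, eb, p2, p3, f₁.B_eq_zero_symm p1]
  convert X.mul_mem hm (S.R _ (ei_mem_O c 0 μ)) using 1
  refine (inv_mul_eq_iff_eq_mul.1 (LinearEquiv.ext fun v => ?_))
  exact (hβ v).trans ((ec_zero_apply c μ v).trans (by simp [pc_apply])).symm

end WS

end CL.WrS
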