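/-
Two square-zero operators with complementary images: Dickson's lemma.
-/
import Mathlib
import Cfsg.Agent.CLAS.TFormC
import Cfsg.Agent.CLAS.DicksonProp

namespace CL.Tens

open Module CL.ExtF Polynomial Matrix

attribute [-simp] LinearEquiv.coe_inv

variable {F : Type*} [Field F] {V : Type*} [AddCommGroup V] [Module F V]
  {G : Subgroup (V ≃ₗ[F] V)} {W U : Submodule F V} {P Q : Module.End F V}

theorem aeval_comm' (Θ : Module.End F V) (p q : F[X]) (w : V) :
    aeval Θ p (aeval Θ q w) = aeval Θ q (aeval Θ p w) := by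
  rw [← Module.End.mul_apply, ← map_mul, mul_comm, map_mul, Module.End.mul_apply]

theorem aeval_comm'' (Θ : Module.End F V) (p : F[X]) (w : V) : aeval Θ p (Θ w) = Θ (aeval Θ p w) := by
  simpa using aeval_comm' Θ p X w

theorem exists_irred_ker [FiniteDimensional F V] (Θ : Module.End F V) (hW : ∀ w ∈ W, Θ w ∈ W)
    {w : V} (hw : w ∈ W) (w0 : w ≠ 0) :
    ∃ m : F[X], Irreducible m ∧ ∃ y ∈ W, y ≠ 0 ∧ aeval Θ m y = 0 := by
  have key : ∀ p : F[X], p ≠ 0 → ∀ w ∈ W, w ≠ 0 → aeval Θ p w = 0 →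
      ∃ m : F[X], Irreducible m ∧ ∃ y ∈ W, y ≠ 0 ∧ aeval Θ m y = 0 := fun p => by
    induction p using WfDvdMonoid.induction_on_irreducible with
    | zero => simp
    | unit u hu =>
      obtain ⟨r, hr, rfl⟩ := Polynomial.isUnit_iff.1 hu
      intro _ w _ w0 e
      simp [hr.ne_zero, w0] at e
    | mul a i a0 hi ih =>
      intro _ w hw w0 e
      by_cases h : aeval Θ a w = 0
      · exact ih a0 w hw w0 h
      · exact ⟨i, hi, _, aeval_apply_smul_mem_of_le_comap hw a Θ hW, h, by simpa using e⟩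
  exact key (minpoly F Θ) (minpoly.ne_zero (Algebra.IsIntegral.isIntegral Θ)) w hw w0 (by simp)

variable (G W P Q) in
/-- The matrices over `F[X]` realised by elements of `G`. -/
def lifts (hW : ∀ v, P v ∈ W) : Subgroup (SpecialLinearGroup (Fin 2) F[X]) where
  carrier := {M | ∃ k ∈ G, (∀ w ∈ W,
    k (Q w) = Q (aeval (P * Q) (M 0 0) w) + P (Q (aeval (P * Q) (M 1 0) w)) ∧
    k (P (Q w)) = Q (aeval (P * Q) (M 0 1) w) + P (Q (aeval (P * Q) (M 1 1) w))) ∧
    ∀ m, P m = 0 → Q m = 0 → k m = m}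
  one_mem' := ⟨1, G.one_mem, fun w _ => by simp, fun _ _ _ => rfl⟩
  mul_mem' := by
    rintro M M' ⟨k, hk, h1, h2⟩ ⟨k', hk', h1', h2'⟩
    have e : ∀ p, ∀ w ∈ W, aeval (P * Q) p w ∈ W := fun p w hw =>
      aeval_apply_smul_mem_of_le_comap hw p _ fun _ _ => hW _
    refine ⟨k * k', G.mul_mem hk hk', fun w hw => ?_, fun m a b => by
      rw [mul_app, h2' m a b, h2 m a b]⟩
    simp only [mul_app, h1' w hw, map_add, h1 _ (e _ w hw), Matrix.SpecialLinearGroup.coe_mul,
      Matrix.mul_apply, Fin.sum_univ_two, map_mul, LinearMap.add_apply, Module.End.mul_apply]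
    constructor <;> abel
  inv_mem' := by
    rintro M ⟨k, hk, h1, h2⟩
    have e : ∀ p, ∀ w ∈ W, aeval (P * Q) p w ∈ W := fun p w hw =>
      aeval_apply_smul_mem_of_le_comap hw p _ fun _ _ => hW _
    refine ⟨k⁻¹, G.inv_mem hk, fun w hw => ?_, fun m a b => inv_app_eq (h2 m a b)⟩
    have d : aeval (P * Q) (M 0 0) (aeval (P * Q) (M 1 1) w) =
        w + aeval (P * Q) (M 0 1) (aeval (P * Q) (M 1 0) w) := by
      have := congrArg (fun p => aeval (P * Q) p w) ((Matrix.det_fin_two M.1).symm.trans M.2)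
      simp only [map_sub, map_mul, map_one, LinearMap.sub_apply, Module.End.mul_apply,
        Module.End.one_apply] at this
      linear_combination (norm := module) this
    simp only [Matrix.SpecialLinearGroup.SL2_inv_expl, cons_val', cons_val_zero, cons_val_one,
      cons_val_fin_one, map_neg, LinearMap.neg_apply]
    constructor <;> refine inv_app_eq ?_ <;>
      simp only [map_add, map_neg, h1 _ (e _ w hw), aeval_comm' _ (M 1 1) (M 1 0),
        aeval_comm' _ (M 1 1) (M 0 0), aeval_comm' _ (M 0 1) (M 0 0),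
        aeval_comm' _ (M 1 0) (M 0 1), d] <;> abel

/-- A lower unipotent matrix. -/
noncomputable def lM (F : Type*) [Field F] : SpecialLinearGroup (Fin 2) F[X] :=
  ⟨!![1, 0; 1, 1], by simp [Matrix.det_fin_two]⟩

/-- An upper unipotent matrix. -/
noncomputable def uM (η : F) : SpecialLinearGroup (Fin 2) F[X] :=
  ⟨!![1, C η * X; 0, 1], by simp [Matrix.det_fin_two]⟩

theorem lu_pow (η : F) : ((lM F * uM η) ^ 5) 0 1 = C η * X * ((C η * X) ^ 4 + 8 * (C η * X) ^ 3 +
    21 * (C η * X) ^ 2 + 20 * (C η * X) + 5) := by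
  rw [Matrix.SpecialLinearGroup.coe_pow, Matrix.SpecialLinearGroup.coe_mul]
  simp [pow_succ, lM, uM]
  ring

namespace PF

variable (H : PF G W U P Q) (h0 : ∀ w ∈ W, w ∈ U → w = 0)
include H

theorem ev_mem (p : F[X]) {w : V} (hw : w ∈ W) : aeval (P * Q) p w ∈ W :=
  aeval_apply_smul_mem_of_le_comap hw p _ fun _ _ => H.PW _

theorem l_mem : lM F ∈ lifts G W P Q H.PW := by
  obtain ⟨t, ht, e⟩ := H.tX 1
  exact ⟨t, ht, fun w _ => by simp [lM, e, H.P0 _ (H.PW _)], fun m a _ => by simp [e, a]⟩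

theorem u_mem (η : F) : uM η ∈ lifts G W P Q H.PW := by
  obtain ⟨t, ht, e⟩ := H.zX η
  exact ⟨t, ht, fun w _ => by simp [uM, e, H.Q0 _ (H.QU _), add_comm], fun m _ a => by simp [e, a]⟩

include h0

theorem inj0 {w : V} (hw : w ∈ W) (e : P (Q w) = 0) : w = 0 := h0 w hw (H.mem_of_PQ hw e)

variable [FiniteDimensional F V]

theorem mem_range {w : V} (hw : w ∈ W) : w ∈ LinearMap.range (P * Q) := by
  obtain ⟨w₁, h1, h2, h3⟩ := H.decW hw
  rwa [sub_eq_zero.1 (h0 _ h2 h3)]

omit [FiniteDimensional F V] in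
theorem lift_stab {k : V ≃ₗ[F] V} (hk : k ∈ G) {b d : F[X]}
    (e : ∀ w ∈ W, k (P (Q w)) = Q (aeval (P * Q) b w) + P (Q (aeval (P * Q) d w))) {y : V}
    (hy : y ∈ W) (y0 : y ≠ 0) (hb : aeval (P * Q) b y = 0) :
    (∀ w ∈ W, k w ∈ W) ∧ ∀ w ∈ W, aeval (P * Q) b w = 0 := by
  have h1 := H.mx k hk (fun n a b => by simp [h0 n a b]) _ (H.PW (Q y))
    (fun a => y0 (H.inj0 h0 hy (h0 _ (H.PW _) a))) (by simpa [e y hy, hb] using H.PW _)
  refine ⟨h1, fun w hw => h0 _ (H.ev_mem _ hw) (H.i1 _ (H.ev_mem _ hw) ?_)⟩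
  simpa [e w hw] using W.sub_mem (h1 _ (H.PW (Q w))) (H.PW (Q (aeval (P * Q) d w)))

theorem dickson [Finite F] (h2 : (2 : F) ≠ 0) : (∃ μ : F, ∀ w ∈ W, P (Q w) = μ • w) ∨
    (∀ t : F, t ≠ 0 → t * t = 1) ∧ ∀ w ∈ W, P (Q (P (Q w))) = -w := by
  obtain ⟨w₀, hw₀, w0⟩ := H.exists_ne
  obtain ⟨m, hm, y, hy, y0, hmy⟩ := exists_irred_ker (P * Q) (fun _ _ => H.PW _) (H.le_W hw₀) w0
  have : Fact (Irreducible m) := ⟨hm⟩
  have : Module.Finite F (AdjoinRoot m) := (AdjoinRoot.powerBasis hm.ne_zero).finite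
  have : Finite (AdjoinRoot m) := Module.finite_of_finite F
  have ev : ∀ p q : F[X], AdjoinRoot.mk m p = AdjoinRoot.mk m q →
      aeval (P * Q) p y = aeval (P * Q) q y := fun p q e => by
    obtain ⟨r, hr⟩ := AdjoinRoot.mk_eq_mk.1 e
    rw [← sub_eq_zero, ← LinearMap.sub_apply, ← map_sub, hr, mul_comm]
    simp [hmy]
  have r0 : AdjoinRoot.root m ≠ 0 := fun e => y0 (H.inj0 h0 hy (by simpa using ev X 0 (by simpa)))
  by_cases hη : ∃ η : F, η ≠ 0 ∧ (AdjoinRoot.mk m (C η * X)) ^ 2 ≠ -1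
  · obtain ⟨η, η0, hη⟩ := hη
    obtain ⟨M, ⟨k, hk, e1, e2⟩, eM⟩ := CL.Root.dicksonProp (F := AdjoinRoot m)
      (fun e => h2 ((AdjoinRoot.of m).injective (by rw [map_ofNat, e, map_zero]))) _
      (by simp [η0, r0]) hη
      ((lifts G W P Q H.PW).map (SpecialLinearGroup.map (AdjoinRoot.mk m)))
      (fun g hg => ⟨_, H.l_mem, Subtype.ext (by
        rw [hg]; ext i j; change AdjoinRoot.mk m _ = _
        fin_cases i <;> fin_cases j <;> simp [lM])⟩)
      (fun g hg => ⟨_, H.u_mem η, Subtype.ext (by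
        rw [hg]; ext i j; change AdjoinRoot.mk m _ = _
        fin_cases i <;> fin_cases j <;> simp [uM])⟩)
      ⟨!![1, 0; AdjoinRoot.mk m (C η * X), 1], by simp [Matrix.det_fin_two]⟩ rfl
    have eM' : ∀ i j, AdjoinRoot.mk m (M i j) = !![1, 0; AdjoinRoot.mk m (C η * X), 1] i j :=
      fun i j => congrFun (congrFun (congrArg Subtype.val eM) i) j
    have a1 : aeval (P * Q) (M 0 0) y = y := by simpa using ev _ 1 (by simpa using eM' 0 0)
    have b1 : aeval (P * Q) (M 0 1) y = 0 := by simpa using ev _ 0 (by simpa using eM' 0 1)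
    have c1 : aeval (P * Q) (M 1 0) y = η • P (Q y) := by
      rw [ev _ (C η * X) (by simpa using eM' 1 0), map_mul, aeval_C, aeval_X]
      simp [Algebra.algebraMap_eq_smul_one]
    have d1 : aeval (P * Q) (M 1 1) y = y := by simpa using ev _ 1 (by simpa using eM' 1 1)
    obtain ⟨s1, s2⟩ := H.lift_stab h0 hk (fun w hw => (e1 w hw).2) hy y0 b1
    obtain ⟨t, ht, et⟩ := H.tX 1
    obtain ⟨s, hs⟩ := H.lev _ (G.mul_mem (G.mul_mem hk ht) (G.inv_mem hk)) fun v => by
      simpa [et, app_inv] using s1 _ (H.PW _)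
    have ad : ∀ w ∈ W, aeval (P * Q) (M 1 1) w = s • aeval (P * Q) (M 0 0) w := fun w hw => by
      have := hs (k (Q w))
      rw [mul_app, mul_app, inv_app] at this
      simp only [et, one_smul, map_add, e1 w hw, s2 w hw, H.P0 _ (H.PW _)] at this
      refine sub_eq_zero.1 (H.inj0 h0 (W.sub_mem (H.ev_mem _ hw) (W.smul_mem _ (H.ev_mem _ hw))) ?_)
      simp only [map_sub, map_smul, map_zero] at this ⊢
      linear_combination (norm := module) this
    have s0 : s = 1 := by
      have := ad y hy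
      rw [a1, d1] at this
      exact smul_left_injective F y0 (by simpa using this.symm)
    simp only [s0, one_smul] at ad
    have aa : ∀ w ∈ W, aeval (P * Q) (M 0 0) (aeval (P * Q) (M 0 0) w) = w := fun w hw => by
      have := congrArg (fun p => aeval (P * Q) p w) ((Matrix.det_fin_two M.1).symm.trans M.2)
      simpa [s2 _ (H.ev_mem _ hw), ad w hw] using this
    have kk : ∀ w ∈ W, k (k (Q w)) =
        Q w + (2 : F) • P (Q (aeval (P * Q) (M 0 0) (aeval (P * Q) (M 1 0) w))) := fun w hw => by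
      simp only [e1 w hw, map_add, e1 _ (H.ev_mem _ hw), aa w hw, s2 _ (H.ev_mem _ hw),
        ad _ (H.ev_mem _ hw), aeval_comm' _ (M 1 0) (M 0 0), map_zero]
      module
    obtain ⟨s', hs'⟩ := H.lev _ (G.mul_mem hk hk) fun v => by
      obtain ⟨w₁, p1, w₂, p2, p3, p4⟩ := H.dec v
      have p5 := e2 _ (h0 _ (H.PW _) p3) (h0 _ p4 (H.QU _))
      have : v = (v - w₁ - Q w₂) + w₁ + Q w₂ := by abel
      rw [this, mul_app, map_add, map_add, map_add, map_add, p5, p5, kk _ (H.le_W p2)]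
      convert W.add_mem (W.sub_mem (s1 _ (s1 _ (H.le_W p1))) (H.le_W p1))
        (W.smul_mem 2 (H.PW (Q (aeval (P * Q) (M 0 0) (aeval (P * Q) (M 1 0) w₂))))) using 1
      abel
    have := (hs' (Q y)).symm.trans (kk y hy)
    rw [c1, map_smul, ← Module.End.mul_apply P, aeval_comm'', a1, add_right_inj] at this
    have p := H.inj0 h0 (W.sub_mem (W.smul_mem s' hy) (W.smul_mem (2 * η) (H.PW (Q y)))) (by
      simp only [map_sub, map_smul, Module.End.mul_apply] at this ⊢
      linear_combination (norm := module) this)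
    refine Or.inl ⟨s' / (2 * η), fun w hw => H.scalar (H.mem_range h0 hy) y0 ?_ (H.mem_range h0 hw)⟩
    linear_combination (norm := match_scalars <;> field_simp <;> ring) -(2 * η)⁻¹ • p
  push Not at hη
  have r1 : AdjoinRoot.root m ^ 2 = -1 := by simpa using hη 1 one_ne_zero
  have h3 : ∀ t : F, t ≠ 0 → t * t = 1 := fun t t0 => (AdjoinRoot.of m).injective (by
    have := hη t t0
    simp only [map_mul, AdjoinRoot.mk_C, AdjoinRoot.mk_X, mul_pow, r1, map_one] at this ⊢
    linear_combination -this)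
  have three : (3 : F[X]) = 0 := by
    rw [show (3 : F[X]) = C 3 from rfl, show (3 : F) = 0 by linear_combination h3 2 h2, map_zero]
  have key : ∀ η : F, η ≠ 0 → ∀ w ∈ W,
      aeval (P * Q) (C η * X * (X ^ 2 - C η * X - 1) * (X ^ 2 + 1)) w = 0 := fun η η0 => by
    have ee : (C η : F[X]) * C η = 1 := by rw [← map_mul, h3 η η0, map_one]
    obtain ⟨M, ⟨k, hk, e1, -⟩, e5⟩ : ∃ M ∈ lifts G W P Q H.PW,
        M 0 1 = C η * X * (X ^ 2 - C η * X - 1) * (X ^ 2 + 1) :=
      ⟨_, Subgroup.pow_mem _ (Subgroup.mul_mem _ H.l_mem (H.u_mem η)) 5, by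
        rw [lu_pow]
        linear_combination ((C η ^ 3 + C η) * X ^ 5 + 8 * C η ^ 2 * X ^ 4) * ee +
          (3 * C η ^ 2 * X ^ 4 + 7 * C η ^ 3 * X ^ 3 + 7 * C η ^ 2 * X ^ 2 + 2 * C η * X) * three⟩
    refine (H.lift_stab h0 hk (d := M 1 1) (fun w hw => by rw [← e5]; exact (e1 w hw).2) hy y0 ?_).2
    exact (ev _ 0 (by rw [map_mul, map_add, map_pow, AdjoinRoot.mk_X, r1]; simp)).trans (by simp)
  refine Or.inr ⟨h3, fun w hw => ?_⟩
  have p1 := key 1 one_ne_zero w hw
  have p2 := key (-1) (by simp) w hw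
  have p3 : aeval (P * Q) (X * (X * (X ^ 2 + 1)) : F[X]) w = 0 := by
    rw [show (X * (X * (X ^ 2 + 1)) : F[X]) = C 1 * X * (X ^ 2 - C 1 * X - 1) * (X ^ 2 + 1) +
      C (-1) * X * (X ^ 2 - C (-1) * X - 1) * (X ^ 2 + 1) by
        simp only [map_one, map_neg]; linear_combination (X ^ 2 * (X ^ 2 + 1)) * three,
      map_add, LinearMap.add_apply, p1, p2, add_zero]
  rw [map_mul, map_mul, aeval_X, Module.End.mul_apply, Module.End.mul_apply] at p3
  have := H.inj0 h0 (H.ev_mem _ hw) (H.inj0 h0 (H.PW _) p3)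
  simpa [pow_two, add_eq_zero_iff_eq_neg] using this

end PF

section Plane

variable {R : Type*} [Ring R] [Algebra F R] (Ψ : V →ₗ[F] V →ₗ[F] R)

theorem plane_sum (h3 : (3 : F) = 0) (x y z : V) :
    Ψ x x * Ψ x x + Ψ y y * Ψ y y + Ψ (x + y) (x + y) * Ψ (x + y) (x + y) +
      Ψ (x - y) (x - y) * Ψ (x - y) (x - y) + ∑ p : Fin 3 × Fin 3,
      Ψ (z + (p.1 : F) • x + (p.2 : F) • y) (z + (p.1 : F) • x + (p.2 : F) • y) *
      Ψ (z + (p.1 : F) • x + (p.2 : F) • y) (z + (p.1 : F) • x + (p.2 : F) • y) = 0 := by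
  have h2 : (2 : F) = -1 := by linear_combination h3
  simp only [Fintype.sum_prod_type, Fin.sum_univ_three, Fin.val_zero, Fin.val_one, Fin.val_two,
    Nat.cast_zero, Nat.cast_one, Nat.cast_ofNat, h2, zero_smul, one_smul, neg_smul, add_zero,
    map_add, map_sub, map_neg, LinearMap.add_apply, LinearMap.sub_apply, LinearMap.neg_apply,
    map_zero, LinearMap.zero_apply, neg_zero]
  obtain ⟨D, hD⟩ : ∃ D, Ψ y x = D - Ψ x y := ⟨Ψ y x + Ψ x y, by simp⟩
  obtain ⟨E, hE⟩ : ∃ D, Ψ z x = D - Ψ x z := ⟨Ψ z x + Ψ x z, by simp⟩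
  obtain ⟨K, hK⟩ : ∃ D, Ψ z y = D - Ψ y z := ⟨Ψ z y + Ψ y z, by simp⟩
  rw [hD, hE, hK]
  generalize Ψ x x = A
  generalize Ψ y y = B
  generalize Ψ z z = C
  have : (3 : F) • ((3 : F) • (A * A + B * B + C * C) + (2 : F) • (A * B + B * A + A * C + C * A +
    B * C + C * B + D * D + E * E + K * K)) = 0 := by rw [h3, zero_smul]
  refine Eq.trans ?_ this
  simp only [add_mul, mul_add, sub_mul, mul_sub, neg_mul, mul_neg]
  module

theorem no_quad_map [Nontrivial R] [FiniteDimensional F V] (h2 : (2 : F) ≠ 0)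
    (h3 : ∀ t : F, t ≠ 0 → t * t = 1) (h4 : 4 ≤ finrank F V)
    (H : ∀ d, d ≠ 0 → (∃ s : F, s ≠ 0 ∧ Ψ d d = s • 1) ∨ Ψ d d * Ψ d d = -1) : False := by
  have three : (3 : F) = 0 := by linear_combination h3 2 h2
  have sq : ∀ s : F, s ≠ 0 → (s • (1 : R)) * (s • 1) = 1 := fun s hs => by
    simp [smul_smul, h3 s hs]
  have inj : ∀ a b : F, a • (1 : R) = b • 1 → a = b := fun a b e =>
    smul_left_injective F one_ne_zero e
  have sc : ∀ d, d ≠ 0 → Ψ d d ∈ F ∙ (1 : R) → ∃ s : F, s ≠ 0 ∧ Ψ d d = s • 1 := fun d d0 e =>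
    (H d d0).resolve_right fun e' => by
      obtain ⟨s, hs⟩ := Submodule.mem_span_singleton.1 e
      rw [← hs] at e'
      by_cases s0 : s = 0
      · simp [s0] at e'
      · rw [sq s s0] at e'
        exact h2 (by linear_combination inj 1 (-1) (by simpa using e'))
  have pair : ∀ x y, (∀ a b : F, a • x + b • y = 0 → a = 0 ∧ b = 0) → ∀ s : F, s ≠ 0 →
      Ψ x x = s • 1 → Ψ y y = s • 1 → Ψ x y + Ψ y x ∈ F ∙ (1 : R) := fun x y I s s0 e1 e2 => by
    have n1 : x + y ≠ 0 := fun e => by simpa using I 1 1 (by simpa using e)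
    have n2 : x - y ≠ 0 := fun e => by simpa using I 1 (-1) (by simpa [sub_eq_add_neg] using e)
    have m1 : ∀ a : F, a • (1 : R) ∈ F ∙ (1 : R) := fun a =>
      Submodule.smul_mem _ _ (Submodule.mem_span_singleton_self _)
    have e3 : Ψ x y + Ψ y x = Ψ (x + y) (x + y) - (2 * s) • 1 := by simp [e1, e2]; module
    have e4 : Ψ (x - y) (x - y) = s • 1 - Ψ (x + y) (x + y) := by
      simp [e1, e2]; linear_combination (norm := module) (three * s) • (1 : R)
    rw [e3]
    refine sub_mem ?_ (m1 _)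
    rcases H _ n1 with ⟨a, -, e⟩ | e
    · exact e ▸ m1 a
    have e5 : Ψ (x - y) (x - y) * Ψ (x - y) (x - y) = s • Ψ (x + y) (x + y) := by
      rw [e4]
      rw [sub_mul, mul_sub, mul_sub, sq s s0, e]
      simp only [smul_mul_assoc, mul_smul_comm, one_mul, mul_one]
      linear_combination (norm := module) -(three * s) • Ψ (x + y) (x + y)
    refine (Submodule.smul_mem_iff _ s0).1 ?_
    rcases H _ n2 with ⟨a, a0, e'⟩ | e'
    · rw [← e5, e', sq a a0]; exact Submodule.mem_span_singleton_self _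
    · rw [← e5, e']; exact neg_mem (Submodule.mem_span_singleton_self _)
  have plane : ∀ x y z, (∀ a b c : F, a • x + b • y + c • z = 0 → a = 0 ∧ b = 0 ∧ c = 0) →
      ∀ ε δ : F, (∀ a b : F, a • x + b • y ≠ 0 →
        Ψ (a • x + b • y) (a • x + b • y) * Ψ (a • x + b • y) (a • x + b • y) = ε • 1) →
      (∀ a b : F, Ψ (z + a • x + b • y) (z + a • x + b • y) *
        Ψ (z + a • x + b • y) (z + a • x + b • y) = δ • 1) → ε = 0 := fun x y z I ε δ e1 e2 => by
    have := plane_sum Ψ three x y z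
    have p1 := e1 1 0 fun e => by simpa using I 1 0 0 (by simpa using e)
    have p2 := e1 0 1 fun e => by simpa using I 0 1 0 (by simpa using e)
    have p3 := e1 1 1 fun e => by simpa using I 1 1 0 (by simpa using e)
    have p4 := e1 1 (-1) fun e => by simpa using I 1 (-1) 0 (by simpa using e)
    simp only [one_smul, zero_smul, add_zero, zero_add, neg_smul, ← sub_eq_add_neg] at p1 p2 p3 p4
    rw [p1, p2, p3, p4] at this
    simp only [e2, Finset.sum_const, Finset.card_univ, Fintype.card_prod, Fintype.card_fin] at this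
    refine inj _ _ ?_
    linear_combination (norm := module) this - (three * (ε + 3 * δ)) • (1 : R)
  have ext : ∀ (S : Submodule F V), 3 ≤ finrank F S → ∀ x y : V, ∃ z ∈ S,
      ∀ a b c : F, a • x + b • y + c • z = 0 → c = 0 := fun S hS x y => by
    obtain ⟨z, hz, hz'⟩ : ∃ z ∈ S, z ∉ Submodule.span F {x, y} := by
      by_contra! e
      have h1 := Submodule.finrank_mono (show S ≤ _ from e)
      have h2 : finrank F (Submodule.span F {x, y}) ≤ 2 := by
        classical exact (finrank_span_le_card ({x, y} : Set V)).trans (by simpa using Finset.card_le_two)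
      omega
    refine ⟨z, hz, fun a b c e => by_contra fun c0 => hz' ((Submodule.smul_mem_iff _ c0).1 ?_)⟩
    exact Submodule.mem_span_pair.2 ⟨-a, -b, by linear_combination (norm := module) -e⟩
  have all : ∀ x y z, (∀ a b c : F, a • x + b • y + c • z = 0 → a = 0 ∧ b = 0 ∧ c = 0) →
      ∀ s : F, s ≠ 0 → Ψ x x = s • 1 → Ψ y y = s • 1 → Ψ z z = s • 1 → False := by
    intro x y z I s s0 e1 e2 e3
    have p1 := pair x y (fun a b e => by simpa using I a b 0 (by simpa using e)) s s0 e1 e2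
    have p2 := pair x z (fun a b e => by simpa using I a 0 b (by simpa using e)) s s0 e1 e3
    have p3 := pair y z (fun a b e => by simpa using I 0 a b (by simpa using e)) s s0 e2 e3
    have p4 : ∀ a b c : F, a • x + b • y + c • z ≠ 0 → Ψ (a • x + b • y + c • z)
        (a • x + b • y + c • z) * Ψ (a • x + b • y + c • z) (a • x + b • y + c • z) =
        (1 : F) • 1 := fun a b c n => by
      obtain ⟨t, t0, e⟩ := sc _ n (by
        convert add_mem (add_mem (add_mem (Submodule.smul_mem _ ((a * a + b * b + c * c) * s)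
          (Submodule.mem_span_singleton_self (1 : R))) (Submodule.smul_mem _ (a * b) p1))
          (Submodule.smul_mem _ (a * c) p2)) (Submodule.smul_mem _ (b * c) p3) using 1
        simp [e1, e2, e3]; module)
      rw [e, sq t t0, one_smul]
    refine one_ne_zero (plane x y z I 1 1 (fun a b n => by simpa using p4 a b 0 (by simpa using n))
      fun a b => ?_)
    have : z + a • x + b • y = a • x + b • y + (1 : F) • z := by module
    rw [this]
    exact p4 a b 1 fun e => by simpa using I a b 1 e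
  by_cases hA : ∃ x y, (∀ a b : F, a • x + b • y = 0 → a = 0 ∧ b = 0) ∧ ∃ s : F, s ≠ 0 ∧
      Ψ x x = s • 1 ∧ Ψ y y = s • 1
  · obtain ⟨x, y, I, s, s0, e1, e2⟩ := hA
    obtain ⟨z, -, hz⟩ := ext ⊤ (by rw [finrank_top]; omega) x y
    have I' : ∀ a b c : F, a • x + b • y + c • z = 0 → a = 0 ∧ b = 0 ∧ c = 0 := fun a b c e => by
      have := hz a b c e
      simpa [this] using I a b (by simpa [this] using e)
    have p1 := pair x y I s s0 e1 e2
    have p2 : ∀ a b : F, a • x + b • y ≠ 0 →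
        ∃ t : F, t ≠ 0 ∧ Ψ (a • x + b • y) (a • x + b • y) = t • 1 := fun a b n => sc _ n (by
      convert add_mem (Submodule.smul_mem _ ((a * a + b * b) * s)
        (Submodule.mem_span_singleton_self (1 : R))) (Submodule.smul_mem _ (a * b) p1) using 1
      simp [e1, e2]; module)
    refine one_ne_zero (plane x y z I' 1 (-1) (fun a b n => ?_) fun a b => ?_)
    · obtain ⟨t, t0, e⟩ := p2 a b n
      rw [e, sq t t0, one_smul]
    rw [neg_smul, one_smul]
    refine (H _ fun e => ?_).resolve_left fun ⟨t, t0, e⟩ => ?_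
    · simpa using I' a b 1 (by linear_combination (norm := module) e)
    by_cases ts : t = s
    · refine all x y _ (fun a' b' c' e' => ?_) s s0 e1 e2 (ts ▸ e)
      obtain ⟨q1, q2, q3⟩ := I' (a' + c' * a) (b' + c' * b) c'
        (by linear_combination (norm := module) e')
      simpa [q3] using And.intro q1 q2
    obtain ⟨u, u0, eu⟩ := p2 1 1 fun e => by simpa using I 1 1 e
    obtain ⟨v, v0, ev⟩ := p2 1 (-1) fun e => by simpa using I 1 (-1) e
    have uv : u + v = s := inj _ _ (by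
      rw [add_smul, ← eu, ← ev]; simp [e1, e2]
      linear_combination (norm := module) (three * s) • (1 : R))
    have o : ∀ a : F, a ≠ 0 → a = s ∨ a = -s := fun a a0 =>
      mul_self_eq_mul_self_iff.1 ((h3 a a0).trans (h3 s s0).symm)
    have ht := (o t t0).resolve_left ts
    have hu : u = t := ht ▸ (o u u0).resolve_left fun e => v0 (by linear_combination uv - e)
    have hv : v = t := ht ▸ (o v v0).resolve_left fun e => u0 (by linear_combination uv - e)
    refine all _ _ _ (fun a' b' c' e' => ?_) t t0 (hu ▸ eu) (hv ▸ ev) e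
    obtain ⟨q1, q2, q3⟩ := I' (a' + b' + c' * a) (a' - b' + c' * b) c'
      (by linear_combination (norm := module) e')
    rw [q3] at q1 q2
    exact ⟨mul_left_cancel₀ h2 (by linear_combination q1 + q2),
      mul_left_cancel₀ h2 (by linear_combination q1 - q2), q3⟩
  have : Nontrivial V := Module.nontrivial_of_finrank_pos (R := F) (by omega)
  have pt : ∀ s : F, s ≠ 0 → ∃ p : V, p ≠ 0 ∧ ∀ d, Ψ d d = s • 1 → d ∈ F ∙ p := fun s s0 => by
    by_cases e : ∃ p, Ψ p p = s • 1
    · obtain ⟨p, hp⟩ := e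
      have p0 : p ≠ 0 := by rintro rfl; exact s0 (inj _ _ (by simpa using hp.symm))
      refine ⟨p, p0, fun d hd => by_contra fun n => hA ⟨p, d, fun a b e => ?_, s, s0, hp, hd⟩⟩
      have : b = 0 := by_contra fun b0 => n ((Submodule.smul_mem_iff _ b0).1
        (Submodule.mem_span_singleton.2 ⟨-a, by linear_combination (norm := module) -e⟩))
      simpa [this, p0] using e
    · obtain ⟨p, hp⟩ := exists_ne (0 : V)
      exact ⟨p, hp, fun d hd => (e ⟨d, hd⟩).elim⟩
  obtain ⟨p, p0, hp⟩ := pt 1 one_ne_zero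
  obtain ⟨q, q0, hq⟩ := pt (-1) (by simp)
  obtain ⟨φ, φ1, φ2⟩ : ∃ φ : Dual F V, φ p ≠ 0 ∧ φ q ≠ 0 := by
    obtain ⟨α, hα⟩ := Module.Projective.exists_dual_eq_one F p0
    obtain ⟨β, hβ⟩ := Module.Projective.exists_dual_eq_one F q0
    by_cases a : α q = 0
    · by_cases b : β p = 0
      · exact ⟨α + β, by simp [hα, b], by simp [hβ, a]⟩
      · exact ⟨β, b, by simp [hβ]⟩
    · exact ⟨α, by simp [hα], a⟩
  have hk : 3 ≤ finrank F (LinearMap.ker φ) := by
    have h1 := φ.finrank_range_add_finrank_ker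
    have h2 : finrank F (LinearMap.range φ) ≤ 1 := by simpa using (LinearMap.range φ).finrank_le
    omega
  have J : ∀ d, d ≠ 0 → φ d = 0 → Ψ d d * Ψ d d = (-1 : F) • 1 := fun d d0 e => by
    rw [neg_smul, one_smul]
    refine (H d d0).resolve_left fun ⟨s, s0, hs⟩ => ?_
    rcases mul_self_eq_one_iff.1 (h3 s s0) with rfl | rfl
    · obtain ⟨a, rfl⟩ := Submodule.mem_span_singleton.1 (hp d hs)
      simp [φ1] at e; simp [e] at d0
    · obtain ⟨a, rfl⟩ := Submodule.mem_span_singleton.1 (hq d hs)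
      simp [φ2] at e; simp [e] at d0
  obtain ⟨x, hx, ix⟩ := ext _ hk 0 0
  obtain ⟨y, hy, iy⟩ := ext _ hk 0 x
  obtain ⟨z, hz, iz⟩ := ext _ hk x y
  rw [LinearMap.mem_ker] at hx hy hz
  have I : ∀ a b c : F, a • x + b • y + c • z = 0 → a = 0 ∧ b = 0 ∧ c = 0 := fun a b c e => by
    have p1 := iz a b c e
    have p2 := iy 0 a b (by simpa [p1] using e)
    exact ⟨ix 0 0 a (by simpa [p1, p2] using e), p2, p1⟩
  have := plane x y z I (-1) (-1) (fun a b n => J _ n (by simp [hx, hy])) fun a b =>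
    J _ (fun e => by simpa using I a b 1 (by linear_combination (norm := module) e))
      (by simp [hx, hy, hz])
  simp at this

end Plane

end CL.Tens
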