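/-
Tensor powers of symplectic spaces: root data, and rigid factors of dimension two.
-/
import Mathlib
import Cfsg.Agent.CLAS.WrS2
import Cfsg.Agent.CLAS.TFormE

set_option autoImplicit false
set_option linter.unusedSectionVars false

namespace CL.WrS

open Module CL.ExtF CL.Tens CL.Wr CL.Witt CL.Witt.Form

attribute [-simp] LinearEquiv.coe_inv
attribute [local simp] FormType.alt_σ FormType.alt_ε alt_B_self

variable {F : Type*} [Field F] {V₁ V : Type*} [AddCommGroup V₁] [Module F V₁] [AddCommGroup V]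
  [Module F V] {f : Form (FormType.alt F) V₁} {ρ : Rep F V₁ V} {c c' d : V₁}
  {Y H : Subgroup (V ≃ₗ[F] V)} {g k : V ≃ₗ[F] V} {P Q ξ : End F V}

variable (f) in
/-- The root data of `Sp`. -/
def spD : RD F V₁ := ⟨fun c ψ => c ≠ 0 ∧ ∃ l : F, l ≠ 0 ∧ ψ = l • f.B c, False, True⟩

theorem spD_R (hc : c ≠ 0) : (spD f).R c (f.B c) := ⟨hc, 1, one_ne_zero, (one_smul _ _).symm⟩

section Alg

variable (P Q) in
/-- The span of `P`, `Q` and their commutator over the centralizer. -/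
def sl : Set (End F V) := {ξ | ∃ a b c : End F V, (Commute a P ∧ Commute a Q) ∧
  (Commute b P ∧ Commute b Q) ∧ (Commute c P ∧ Commute c Q) ∧ ξ = a * P + b * Q + c * (P * Q - Q * P)}

theorem sl_symm (h : ξ ∈ sl P Q) : ξ ∈ sl Q P := by
  obtain ⟨a, b, c, ha, hb, hc, rfl⟩ := h
  exact ⟨b, a, -c, hb.symm, ha.symm, ⟨hc.2.neg_left, hc.1.neg_left⟩, by noncomm_ring⟩

theorem sl_conj (hP : P * P = 0) (hQ : Q * Q = 0) (s : F) (h : ξ ∈ sl P Q) :
    (1 + s • P) * ξ * (1 - s • P) ∈ sl P Q := by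
  obtain ⟨a, b, c, ha, hb, hc, rfl⟩ := h
  have p : ∀ x, P * (P * x) = 0 := fun x => by rw [← mul_assoc, hP, zero_mul]
  have q : ∀ x, Q * (Q * x) = 0 := fun x => by rw [← mul_assoc, hQ, zero_mul]
  have t1 : Commute (P * Q + Q * P) P := by simp [Commute, SemiconjBy, mul_add, add_mul, mul_assoc, hP, p]
  have t2 : Commute (P * Q + Q * P) Q := by simp [Commute, SemiconjBy, mul_add, add_mul, mul_assoc, hQ, q]
  refine ⟨a - ((s * s) • b + (2 * s) • c) * (P * Q + Q * P), b, c + s • b,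
    ⟨ha.1.sub_left (((hb.1.smul_left _).add_left (hc.1.smul_left _)).mul_left t1),
      ha.2.sub_left (((hb.2.smul_left _).add_left (hc.2.smul_left _)).mul_left t2)⟩, hb,
    ⟨hc.1.add_left (hb.1.smul_left _), hc.2.add_left (hb.2.smul_left _)⟩, ?_⟩
  simp only [mul_add, add_mul, mul_sub, sub_mul, mul_assoc, smul_mul_assoc, mul_smul_comm, one_mul,
    mul_one, ha.1.symm.left_comm, hb.1.symm.left_comm, hc.1.symm.left_comm, p, hP, mul_zero,
    zero_mul]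
  module

theorem sl_mul_eq_zero (h2 : (2 : F) ≠ 0) (hP : P * P = 0) (j1 : ∀ v, P (Q (P v)) = 0 → Q (P v) = 0)
    (j2 : ∀ v, Q (P (Q v)) = 0 → P (Q v) = 0) (h : ξ ∈ sl P Q) (hc : Commute ξ P) : ξ * P = 0 := by
  obtain ⟨a, b, c, ha, hb, hc', rfl⟩ := h
  have p := LinearMap.congr_fun hP
  have a1 := LinearMap.congr_fun ha.1.eq
  have b1 := LinearMap.congr_fun hb.1.eq
  have b2 := LinearMap.congr_fun hb.2.eq
  have c1 := LinearMap.congr_fun hc'.1.eq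
  have c2 := LinearMap.congr_fun hc'.2.eq
  have e := LinearMap.congr_fun hc.eq
  simp only [End.mul_apply, LinearMap.zero_apply, LinearMap.add_apply, LinearMap.sub_apply, map_add,
    map_sub] at p a1 b1 b2 c1 c2 e
  simp only [a1, b1, b2, c1, c2, p, map_zero, sub_zero, zero_add, zero_sub] at e
  have e1 : ∀ v, Q (P (b v)) = 0 := fun v => j1 _ (by simpa [p] using congrArg P (e v))
  have e2 : ∀ v, P (Q (P (c v))) = 0 := fun v => j2 _ ((smul_eq_zero.1 (by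
    have := congrArg Q (e v)
    simp only [e1, map_add, map_neg, ← b2, zero_add] at this
    linear_combination (norm := module) this)).resolve_left h2)
  ext v
  simp [b1, b2, c1, c2, p, e1, e2]

variable (Y P Q) in
/-- The elements normalizing `sl P Q`. -/
def slG : Subgroup (V ≃ₗ[F] V) where
  carrier := {k | k ∈ Y ∧ ∀ ξ ∈ sl P Q, k.conjAlgEquiv F ξ ∈ sl P Q ∧ k⁻¹.conjAlgEquiv F ξ ∈ sl P Q}
  one_mem' := ⟨Y.one_mem, fun _ h => ⟨h, h⟩⟩
  mul_mem' ha hb := ⟨Y.mul_mem ha.1 hb.1, fun ξ h =>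
    ⟨(ha.2 _ (hb.2 ξ h).1).1, (hb.2 _ (ha.2 ξ h).2).2⟩⟩
  inv_mem' ha := ⟨Y.inv_mem ha.1, fun ξ h => (ha.2 ξ h).symm⟩

theorem slG_symm (h : k ∈ slG Y P Q) : k ∈ slG Y Q P :=
  ⟨h.1, fun ξ hξ => (h.2 ξ (sl_symm hξ)).imp sl_symm sl_symm⟩

theorem has_slG (hP : P * P = 0) (hQ : Q * Q = 0) {s : F} (h : Has Y fun v => s • P v) :
    Has (slG Y P Q) fun v => s • P v := by
  obtain ⟨t, ht, e⟩ := h
  have e' : ∀ v, t⁻¹ v = v - s • P v := fun v => inv_app_eq (by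
    simp [e, show ∀ v, P (P v) = 0 from LinearMap.congr_fun hP])
  refine ⟨t, ⟨ht, fun ξ hξ => ⟨?_, ?_⟩⟩, e⟩
  · convert sl_conj hP hQ s hξ using 1
    ext v
    exact (e _).trans (by simp [show t.symm v = _ from e' v])
  · convert sl_conj hP hQ (-s) hξ using 1
    ext v
    exact (e' _).trans (by simp [show (t⁻¹).symm v = _ from e v, sub_eq_add_neg])

end Alg

theorem rho_T (B : End F V₁) {w : V} (hw : w ∈ T ρ (F ∙ c)) : ρ B w ∈ T ρ (F ∙ B c) := fun A hA => by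
  rw [rho_mul]
  exact hw _ fun x hx => by
    obtain ⟨s, rfl⟩ := Submodule.mem_span_singleton.1 hx
    simp [hA _ (Submodule.mem_span_singleton_self _)]

variable [FiniteDimensional F V₁] (hf : f.Nondeg)
include hf

theorem B_ne (hc : c ≠ 0) : (f.B c : Dual F V₁) ≠ 0 := fun e => hc (hf c (LinearMap.congr_fun e))

theorem spRS (hd : 3 ≤ finrank F V₁ ∨ finrank F V₁ = 2 ∧ (2 : F) ≠ 0) : RS (spD f) where
  c0 h := h.1
  ψ0 := fun ⟨h, _, hl, e⟩ => e ▸ smul_ne_zero hl (B_ne hf h)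
  fl := fun ⟨_, _, _, e⟩ => by simp [e]
  gen S H := eq_top_iff.2 fun A _ => gen hf S (fun c => by
    rcases eq_or_ne c 0 with rfl | hc
    · simp
    · exact H c _ (spD_R hc)) A
  dim := hd
  sw _ h := by obtain ⟨k, e⟩ := hf.even_finrank_alt; omega

omit [FiniteDimensional F V₁] hf in
theorem spLD {L : Submodule F V₁} (hL : ∀ a ∈ L, ∀ b ∈ L, f.B a b = 0) (hc : c ∈ L) (c0 : c ≠ 0)
    (hd : d ∈ L) (d0 : d ≠ 0) (h : tv f c c + tv f d d ≠ 0) {x : V₁} (hx : x ∉ L)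
    (hx' : ∀ a ∈ L, f.B a x = 0) : LD (spD f) L where
  pt c hc c0 := ⟨_, spD_R c0, hc, hL c hc⟩
  two := ⟨c, _, d, _, ⟨spD_R c0, hc, hL c hc⟩, ⟨spD_R d0, hd, hL d hd⟩, h⟩
  out := ⟨c, _, ⟨spD_R c0, hc, hL c hc⟩, x, hx, hx' c hc⟩
  sc A hA H := by
    obtain ⟨h0, l, l0, e⟩ := H c _ (spD_R c0)
    refine Or.inl ⟨x, hx, A c, _, ⟨spD_R h0, hA c hc, hL _ (hA c hc)⟩, hx' _ (hA c hc), ?_⟩
    simpa [inv_app, hx' c hc, l0] using (LinearMap.congr_fun e (A x)).symm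

theorem spBC (h3 : 3 ≤ finrank F V₁) (h5 : 5 ≤ finrank F V₁ ∨ (2 : F) ≠ 0) : BC (spD f) := by
  rcases h5 with h5 | h2
  · refine Or.inl fun c ψ hc => ?_
    obtain ⟨d, d1, d2⟩ := exists_ker_notMem h3 (f.B c) c
    have hL : ∀ x, f.B c x = 0 → f.B d x = 0 → ∀ a ∈ Submodule.span F {c, d}, f.B a x = 0 :=
      fun x h1 h2 a ha => by
        obtain ⟨s, t, rfl⟩ := Submodule.mem_span_pair.1 ha
        simp [h1, h2]
    have hL' : ∀ a ∈ Submodule.span F {c, d}, ∀ b ∈ Submodule.span F {c, d}, f.B a b = 0 :=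
      fun a ha b hb => hL b (f.B_eq_zero_symm (hL c (by simp) (f.B_eq_zero_symm d1) b hb))
        (f.B_eq_zero_symm (hL d d1 (by simp) b hb)) a ha
    have m1 : c ∈ Submodule.span F {c, d} := Submodule.subset_span (by simp)
    have m2 : d ∈ Submodule.span F {c, d} := Submodule.subset_span (by simp)
    have d0 : d ≠ 0 := by rintro rfl; simp at d2
    obtain ⟨y, y', p1, p2, p3, p4, p5⟩ := exists_hyp5 hf h5 c d
    obtain ⟨z, z1, z2⟩ := SpTwo.exists_perp_B hf d2 1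
    refine ⟨_, m1, spLD hL' m1 hc.1 m2 d0 (fun e => d0 (by
      simpa [z1, z2] using LinearMap.congr_fun e z)) (fun h => by simpa [p5] using hL y' p3 p4 y h)
      (hL y p1 p2), fun x => ?_⟩
    by_cases h : f.B c x = 0
    · exact ⟨c, _, ⟨spD_R hc.1, m1, hL' c m1⟩, h⟩
    have m3 := sub_mem (Submodule.smul_mem _ (f.B c x) m2) (Submodule.smul_mem _ (f.B d x) m1)
    exact ⟨_, _, ⟨spD_R fun e => d2 ((Submodule.smul_mem_iff _ h).1 (sub_eq_zero.1 e ▸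
      Submodule.smul_mem _ _ (Submodule.mem_span_singleton_self c))), m3, hL' _ m3⟩,
      by simp [mul_comm]⟩
  refine Or.inr ⟨h3, fun c ψ hc => ?_⟩
  obtain ⟨d, d1, d2⟩ := exists_ker_notMem h3 (f.B c) c
  have hL : ∀ x, f.B c x = 0 → ∀ a ∈ F ∙ c, f.B a x = 0 := fun x h a ha => by
    obtain ⟨s, rfl⟩ := Submodule.mem_span_singleton.1 ha
    simp [h]
  have m := Submodule.mem_span_singleton_self (R := F) c
  exact spLD (fun a ha b hb => hL b (f.B_eq_zero_symm (hL c (by simp) b hb)) a ha) m hc.1 m hc.1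
    (by rw [← two_smul F]; exact smul_ne_zero h2 (tv_ne hf hc.1 hc.1)) d2 (hL d d1)

variable [FiniteDimensional F V] [Nontrivial V]

omit hf [FiniteDimensional F V] in
theorem nz_map (h : Nz ρ ρ k) (hc : c ≠ 0) {w₀ : V} (h0 : w₀ ≠ 0) (h1 : w₀ ∈ T ρ (F ∙ c))
    (h2 : k w₀ ∈ T ρ (F ∙ c')) {w : V} (hw : w ∈ T ρ (F ∙ c)) : k w ∈ T ρ (F ∙ c') := by
  have := nontrivial_of_ne c 0 hc
  obtain ⟨U, τ, hτ⟩ := exists_tn ρ
  obtain ⟨A, B, e⟩ := hτ.kron h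
  obtain ⟨u, rfl⟩ := mem_mem.1 (hτ.T_span c ▸ h1)
  obtain ⟨u', rfl⟩ := mem_mem.1 (hτ.T_span c ▸ hw)
  rw [e] at h2 ⊢
  exact hτ.pure_T _ (hτ.mem_of_pure_T (fun h => h0 (k.injective (by simp [e, h]))) h2)

variable (h2 : finrank F V₁ = 2) (h2' : (2 : F) ≠ 0) (N : Un (spD f) Y H ρ)
  (hfix : ∀ k ∈ Y, ∀ c, (∀ v, k v - v ∈ T ρ (F ∙ c)) → ∀ w ∈ T ρ (F ∙ c), k w = w)
include h2

theorem mem_T_of_ker (hc : c ≠ 0) {v : V} (h : ρ (tv f c c) v = 0) : v ∈ T ρ (F ∙ c) :=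
  mem_T_of_rk hc fun ψ hψ => by
    obtain ⟨a, ha⟩ := hf.exists_rep ψ
    obtain rfl : f.B a = ψ := LinearMap.ext ha
    obtain ⟨s, rfl⟩ := Submodule.mem_span_singleton.1 (perp_two hf h2 hc
      (f.B_eq_zero_symm (hψ c (Submodule.mem_span_singleton_self c))))
    rw [← tv_eq]; simp [h]

include h2' N hfix

theorem lev_two (hc : c ≠ 0) (hk : k ∈ Y) (h : ∀ v, k v - v ∈ T ρ (F ∙ c)) :
    ∃ s : F, ∀ v, k v = v + s • ρ (tv f c c) v := by
  have := nontrivial_of_ne c 0 hc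
  rcases (N.stab c _ (spD_R hc) k hk fun w hw => by rwa [hfix k hk c h w hw]).small h
    (finrank_T ρ hc) (Or.inr ⟨h2, h2', fun v => hfix k hk c h _ (h v)⟩) with ⟨A, e⟩ | e
  · obtain ⟨U, τ, hτ⟩ := exists_tn ρ
    have := hτ.nt
    obtain ⟨u, hu⟩ := exists_ne (0 : U)
    obtain ⟨φ, hφ⟩ := Module.Projective.exists_dual_eq_one F hc
    have e1 : A = 1 + (φ ∘ₗ (A - 1)).smulRight c := LinearMap.ext fun x => by
      obtain ⟨s, hs⟩ := Submodule.mem_span_singleton.1 (hτ.mem_of_pure_T (x := A x - x) hu (by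
        simpa [show k _ = _ from LinearMap.congr_fun e _, hτ.app] using h (τ u x)))
      have : φ (A x - x) = s := by simp [← hs, hφ]
      simp [-map_sub, this, hs]
    generalize φ ∘ₗ (A - 1) = ψ at e1
    have e2 : ∀ v, k v = v + ρ (ψ.smulRight c) v := fun v => by
      simpa [e1] using LinearMap.congr_fun e v
    rcases eq_or_ne ψ 0 with rfl | h0
    · exact ⟨0, by simpa using e2⟩
    obtain ⟨-, l, -, rfl⟩ := N.sat c ψ hc h0 (Or.inr trivial) ⟨k, hk, e2⟩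
    exact ⟨l, by simpa [smul_rk, tv_eq] using e2⟩
  · have := eq_zero_of_mul (tv_ne hf hc hc) (ξ := (k : End F V) - 1)
      (fun A => (e A).sub_left (Commute.one_left _)) (LinearMap.ext fun v => rk_T (L := F ∙ c) (fun x hx => by
        obtain ⟨s, rfl⟩ := Submodule.mem_span_singleton.1 hx
        simp) c (h v))
    exact ⟨0, fun v => by simpa [sub_eq_zero] using LinearMap.congr_fun this v⟩

theorem pf_two (hc : c ≠ 0) (hc' : c' ≠ 0) (hg : g ∈ Y) (hg' : g ∉ H)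
    (mx : ∀ d d', d ≠ 0 → d' ≠ 0 → ∀ k ∈ Y, k ∉ H →
      finrank F (T ρ (F ∙ d) ⊓ T (cj k ρ) (F ∙ d') : Submodule F V) ≤
        finrank F (T ρ (F ∙ c) ⊓ T (cj g ρ) (F ∙ c') : Submodule F V)) :
    PF (slG Y (ρ (tv f c c)) (cj g ρ (tv f c' c'))) (T ρ (F ∙ c)) (T (cj g ρ) (F ∙ c'))
      (ρ (tv f c c)) (cj g ρ (tv f c' c')) := by
  have big : ∀ a ∈ Y, ∀ b ∈ Y, ∀ d d', d ≠ 0 → d' ≠ 0 → ∀ w,
      w ∉ T ρ (F ∙ c) ⊓ T (cj g ρ) (F ∙ c') → (∀ v ∈ T ρ (F ∙ c), v ∈ T (cj g ρ) (F ∙ c') →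
        a v ∈ T ρ (F ∙ d) ∧ b v ∈ T ρ (F ∙ d')) → a w ∈ T ρ (F ∙ d) → b w ∈ T ρ (F ∙ d') →
      b * a⁻¹ ∈ H := fun a ha b hb d d' d0 d0' w hw h1 h3 h4 => by
    by_contra hn
    have p1 := mx d d' d0 d0' _ (Y.mul_mem ha (Y.inv_mem hb)) fun h => hn (by simpa using H.inv_mem h)
    have p2 := Submodule.finrank_mono (show (T ρ (F ∙ c) ⊓ T (cj g ρ) (F ∙ c') ⊔ F ∙ w).map
        (a : V →ₗ[F] V) ≤ T ρ (F ∙ d) ⊓ T (cj (a * b⁻¹) ρ) (F ∙ d') from
      Submodule.map_le_iff_le_comap.2 (sup_le (fun v hv => ⟨(h1 v hv.1 hv.2).1, mem_T_cj.2 (by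
        simpa [inv_app] using (h1 v hv.1 hv.2).2)⟩) ((Submodule.span_singleton_le_iff_mem _ _).2
        ⟨h3, mem_T_cj.2 (by simpa [inv_app] using h4)⟩)))
    rw [LinearEquiv.finrank_map_eq, Submodule.finrank_sup_span_singleton hw] at p2
    omega
  have k0 : ∀ c, ∀ x ∈ F ∙ c, f.B c x = 0 := fun c x hx => by
    obtain ⟨s, rfl⟩ := Submodule.mem_span_singleton.1 hx
    simp
  have m := fun c : V₁ => Submodule.mem_span_singleton_self (R := F) c
  have P0 : ∀ w ∈ T ρ (F ∙ c), ρ (tv f c c) w = 0 := fun w => rk_T (k0 c) c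
  have Q0 : ∀ w ∈ T (cj g ρ) (F ∙ c'), cj g ρ (tv f c' c') w = 0 := fun w => rk_T (k0 c') c'
  have PW : ∀ v, ρ (tv f c c) v ∈ T ρ (F ∙ c) := rk_mem_T (m c) _
  have QU : ∀ v, cj g ρ (tv f c' c') v ∈ T (cj g ρ) (F ∙ c') := rk_mem_T (m c') _
  obtain ⟨t, ht, et⟩ := N.mem c _ (spD_R hc)
  obtain ⟨z, hz, ez⟩ := N.mem c' _ (spD_R hc')
  have hz' := Y.mul_mem (Y.mul_mem hg hz) (Y.inv_mem hg)
  have ez' : ∀ v, (g * z * g⁻¹) v = v + cj g ρ (tv f c' c') v := fun v => by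
    simp [ez, app_inv, cj_apply, tv_eq]
  have zH : g * z * g⁻¹ ∉ H := fun h => hg' (N.conj g hg c' _ (spD_R hc') z ez h)
  rw [← tv_eq] at et
  have i1 : ∀ w ∈ T ρ (F ∙ c), cj g ρ (tv f c' c') w ∈ T ρ (F ∙ c) → w ∈ T (cj g ρ) (F ∙ c') :=
    fun w hw h => by_contra fun n => zH (by
      simpa using big 1 Y.one_mem _ hz' c c hc hc w (fun h => n h.2)
        (fun v a b => ⟨a, by simpa [ez', Q0 v b] using a⟩) hw (ez' w ▸ add_mem hw h))
  have i2 : ∀ u ∈ T (cj g ρ) (F ∙ c'), ρ (tv f c c) u ∈ T (cj g ρ) (F ∙ c') → u ∈ T ρ (F ∙ c) :=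
    fun u hu h => by_contra fun n => hg' (by
      simpa using H.inv_mem (N.conj _ (Y.inv_mem hg) c _ (spD_R hc) t et (big _ (Y.inv_mem hg) _
        (Y.mul_mem (Y.inv_mem hg) ht) c' c' hc' hc' u (fun h => n h.1)
        (fun v a b => ⟨mem_T_cj.1 b, by simpa [et, P0 v a] using mem_T_cj.1 b⟩) (mem_T_cj.1 hu)
        (by simpa [et] using mem_T_cj.1 (add_mem hu h)))))
  have hP : ρ (tv f c c) * ρ (tv f c c) = 0 := LinearMap.ext fun v => P0 _ (PW v)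
  have hQ : cj g ρ (tv f c' c') * cj g ρ (tv f c' c') = 0 := LinearMap.ext fun v => Q0 _ (QU v)
  have j1 : ∀ v, ρ (tv f c c) (cj g ρ (tv f c' c') (ρ (tv f c c) v)) = 0 →
      cj g ρ (tv f c' c') (ρ (tv f c c) v) = 0 := fun v h =>
    Q0 _ (i1 _ (PW v) (mem_T_of_ker hf h2 hc h))
  have j2 : ∀ v, cj g ρ (tv f c' c') (ρ (tv f c c) (cj g ρ (tv f c' c') v)) = 0 →
      ρ (tv f c c) (cj g ρ (tv f c' c') v) = 0 := fun v h =>
    P0 _ (i2 _ (QU v) (mem_T_of_ker hf h2 hc' h))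
  have m1 : ρ (tv f c c) ∈ sl (ρ (tv f c c)) (cj g ρ (tv f c' c')) :=
    ⟨1, 0, 0, by simp, by simp, by simp, by simp⟩
  have n1 : ∀ k : V ≃ₗ[F] V, cj k ρ (tv f c c) ≠ 0 := fun k => rk_ne _ hc (B_ne hf hc)
  have hs : ∀ c, c ≠ 0 → ∀ s : F, Has Y fun v => s • ρ (tv f c c) v := fun c hc s => by
    rcases eq_or_ne s 0 with rfl | s0
    · exact Has.zero.congr fun v => by simp
    · exact (N.mem c _ ⟨hc, s, s0, rfl⟩).congr fun v => by simp [smul_rk, tv_eq]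
  refine ⟨PW, QU, P0, Q0, fun w => exists_rk (B_ne hf hc), fun w => exists_rk (B_ne hf hc'), i1, i2,
    fun k hk h1 w hw hw' h3 => ?_, fun k hk h1 w hw hw' h3 => ?_,
    fun k hk => lev_two hf h2 h2' N hfix hc hk.1, fun s => has_slG hP hQ (hs c hc s),
    fun s => ?_, ?_⟩
  · have := big 1 Y.one_mem k hk.1 c c hc hc w (fun h => hw' h.2)
      (fun v a b => ⟨a, by rwa [h1 v a b]⟩) hw h3
    rcases N.dich k hk.1 (by simpa using this) with h | h
    · exact fun _ => nz_map h hc (by rintro rfl; simp at hw') hw h3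
    · exact (n1 k (eq_zero_of_mul (tv_ne hf hc hc) (h _) ((h _ _).eq.symm.trans
        (sl_mul_eq_zero h2' hP j1 j2 (hk.2 _ m1).1 (h _ _))))).elim
  · have hk' := Y.mul_mem (Y.inv_mem hg) hk.1
    have := big 1 Y.one_mem _ hk' c c' hc hc' w (fun h => hw' h.2)
      (fun v a b => ⟨a, by rw [mul_app, h1 v a b]; exact mem_T_cj.1 b⟩) hw (mem_T_cj.1 h3)
    rcases N.dich _ hk' (by simpa using this) with h | h
    · exact fun _ a => mem_T_cj.2 (nz_map h hc (by rintro rfl; simp at hw') hw (mem_T_cj.1 h3) a)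
    · have h' : ∀ B, Commute (cj k ρ (tv f c c)) (cj g ρ B) := fun B => by
        convert commute_cj (g := g) (h (tv f c c) B) using 1
        ext v; simp [cj_apply, app_inv]
      exact (n1 k (eq_zero_of_mul (tv_ne hf hc' hc') h' ((h' _).eq.symm.trans
        (sl_mul_eq_zero h2' hQ j2 j1 (sl_symm (hk.2 _ m1).1) (h' _))))).elim
  · obtain ⟨k, hk, e⟩ := has_slG hQ hP (s := s) (((hs c' hc' s).conj hg).congr fun v => by simp [cj_apply])
    exact ⟨k, slG_symm hk, e⟩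
  · by_contra! h
    have := Submodule.eq_of_le_of_finrank_eq (show _ ≤ _ from h) (finrank_T_eq _ _ hc hc')
    exact hg' (N.map g hg c' _ (spD_R hc') c fun w hw => this.ge (mem_T_cj.2 (by rwa [inv_app])))

/-- A group in which a rigid factor of dimension two has its root elements in a unique conjugate of
`H` is contained in `H`. -/
theorem le_two [Finite F] (ht : ∃ t : F, t ≠ 0 ∧ t * t ≠ 1) : Y ≤ H := by
  intro g₀ hg₀
  by_contra hg₀'
  have : Nontrivial V₁ := Module.nontrivial_of_finrank_pos (R := F) (by omega)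
  obtain ⟨x, x0⟩ := exists_ne (0 : V₁)
  obtain ⟨⟨c, c', g⟩, ⟨hc, hc', hg, hg'⟩, mx⟩ := Set.exists_max_image
    {p : V₁ × V₁ × (V ≃ₗ[F] V) | p.1 ≠ 0 ∧ p.2.1 ≠ 0 ∧ p.2.2 ∈ Y ∧ p.2.2 ∉ H}
    (fun p => finrank F (T ρ (F ∙ p.1) ⊓ T (cj p.2.2 ρ) (F ∙ p.2.1) : Submodule F V))
    (by have := finite_equiv F V
        have := Module.finite_of_finite F (M := V₁)
        exact Set.toFinite _) ⟨(x, x, g₀), x0, x0, hg₀, hg₀'⟩
  replace mx := fun d d' (h : d ≠ 0) (h' : d' ≠ 0) k (hk : k ∈ Y) (hk' : k ∉ H) =>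
    mx (d, d', k) ⟨h, h', hk, hk'⟩
  simp only at hc hc' hg hg' mx
  obtain ⟨t, t0, t1⟩ := ht
  have h0 : T ρ (F ∙ c) ⊓ T (cj g ρ) (F ∙ c') = ⊥ := (Submodule.eq_bot_iff _).2 fun n hn =>
    by_contra fun n0 => t1 (((pf_two hf h2 h2' N hfix hc hc' hg hg' mx).three h2' hn.1 hn.2 n0).1 t t0)
  rw [h0, finrank_bot] at mx
  set Q := cj g ρ (tv f c' c')
  have key : ∀ d, ∃ μ : F, mm f ρ Q d d = μ • 1 := fun d => by
    rcases eq_or_ne d 0 with rfl | d0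
    · exact ⟨0, by simp⟩
    obtain ⟨μ, e⟩ := ((pf_two hf h2 h2' N hfix d0 hc' hg hg' fun a b h h' k hk hk' =>
      (mx a b h h' k hk hk').trans (Nat.zero_le _)).dickson (fun w a b => (Submodule.eq_bot_iff _).1
        (Submodule.finrank_eq_zero.1 (Nat.le_zero.1 (mx d c' d0 hc' g hg hg'))) w ⟨a, b⟩)
        h2').resolve_right fun h => t1 (h.1 t t0)
    refine ⟨μ, sub_eq_zero.1 (eq_zero_of_mul (tv_ne hf d0 d0) (fun A => (mm_comm d d A).sub_left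
      ((Commute.one_left _).smul_left μ)) ?_)⟩
    rw [mul_sub, mm_spec, sub_eq_zero]
    rw [mul_smul_comm, mul_one]
    exact LinearMap.ext fun v => e _ (rk_mem_T (Submodule.mem_span_singleton_self d) (f.B d) v)
  obtain ⟨y, hy⟩ := hf.exists_B_eq x0 1
  obtain ⟨A, η, hη, e⟩ : ∃ A η, (∀ B, Commute η (ρ B)) ∧ Q = ρ A + η := by
    obtain ⟨μ₁, e1⟩ := key x
    obtain ⟨μ₂, e2⟩ := key y
    obtain ⟨μ₃, e3⟩ := key (x + y)
    have e4 : mm f ρ Q y x = (μ₃ - μ₁ - μ₂) • 1 - mm f ρ Q x y := by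
      simp only [map_add, LinearMap.add_apply, e1, e2] at e3
      linear_combination (norm := module) e3
    have e5 := tv_sub hf h2 x y
    rw [hy, one_smul] at e5
    refine ⟨(μ₃ - μ₁ - μ₂) • tv f y x - μ₁ • tv f y y - μ₂ • tv f x x, mm f ρ Q x y, mm_comm x y, ?_⟩
    conv_lhs => rw [← one_mul Q, ← mul_one (1 * Q), ← map_one ρ, ← e5]
    conv_rhs => rw [← one_mul (mm f ρ Q x y), ← map_one ρ, ← e5]
    simp only [map_sub, mul_sub, sub_mul, ← mm_spec, e1, e2, e4, mul_smul_comm, mul_one, map_smul]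
    module
  obtain ⟨z, hz, ez⟩ := N.mem c' _ (spD_R hc')
  have ez' : ∀ v, (g * z * g⁻¹) v = v + Q v := fun v => by simp [ez, app_inv, cj_apply, tv_eq, Q]
  refine hg' (N.conj g hg c' _ (spD_R hc') z ez ?_)
  have hz' := Y.mul_mem (Y.mul_mem hg hz) (Y.inv_mem hg)
  by_cases hA : ∀ x, A x ∈ F ∙ x
  · obtain ⟨s, hs⟩ := exists_smul_of_mem_span hA
    refine N.map _ hz' c _ (spD_R hc) c fun w hw => ?_
    rw [ez', e, show A = s • 1 from LinearMap.ext hs]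
    simpa using add_mem hw (add_mem (Submodule.smul_mem _ s hw) (T_comm hη hw))
  push Not at hA
  obtain ⟨a, ha⟩ := hA
  obtain ⟨φ, p1, p2⟩ := CL.Tv.exists_dual_one_zero ha
  have e0 : Q * Q = 0 := by simp [Q, ← map_mul, tv_mul]
  have e1 : ρ (A * A) * 1 + ρ A * ((2 : F) • η) + ρ 1 * (η * η) = 0 := by
    rw [← e0, e, map_mul, map_one, two_smul]
    simp only [mul_add, add_mul, (hη A).eq]; noncomm_ring
  have e2 := congrArg (Wr.cmp ρ φ a) e1
  have ad : ∀ ξ ζ, Wr.cmp ρ φ a (ξ + ζ) = Wr.cmp ρ φ a ξ + Wr.cmp ρ φ a ζ := fun _ _ => by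
    simp [Wr.cmp, mul_add, add_mul, Finset.sum_add_distrib]
  rw [ad, ad, cmp_mul fun _ => Commute.one_left _, cmp_mul fun B => (hη B).smul_left _,
    cmp_mul fun B => (hη B).mul_left (hη B)] at e2
  have e3 : η = (-(2 : F)⁻¹ * φ ((A * A) a)) • 1 := by
    simp only [p1, End.one_apply, p2, zero_smul, add_zero, one_smul, Wr.cmp, mul_zero, zero_mul,
      Finset.sum_const_zero] at e2
    rw [mul_smul, eq_neg_of_add_eq_zero_left e2]
    simp [h2']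
  refine N.map _ hz' c _ (spD_R hc) ((1 + A + (-(2 : F)⁻¹ * φ ((A * A) a)) • 1 : End F V₁) c)
    fun w hw => ?_
  convert rho_T _ hw using 1
  simp [ez', e, e3, add_assoc]

end CL.WrS
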