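/-
Maximality of the stabilizer of a decomposition as a tensor power of a symplectic space.
-/
import Mathlib
import Cfsg.Agent.CLAS.WrS3
import Cfsg.Agent.CLAS.WrS4
import Cfsg.Agent.CLAS.TFormT

set_option autoImplicit false
set_option linter.unusedSectionVars false

namespace CL.WrS

open Module CL.ExtF CL.Tens CL.Wr CL.Witt CL.Witt.Form CL.Root Function

attribute [-simp] LinearEquiv.coe_inv
attribute [local simp] FormType.alt_σ FormType.alt_ε alt_B_self FormType.quad_σ FormType.quad_ε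
  FormType.alt_π FormType.quad_π

variable {F : Type*} [Field F] {U V₁ V : Type*} [AddCommGroup V₁] [Module F V₁] [AddCommGroup U]
  [Module F U] [AddCommGroup V] [Module F V] {τ : U →ₗ[F] V₁ →ₗ[F] V} {h : IsTensorProduct τ}
  {T T₁ : FormType F} {f₁ : Form (FormType.alt F) V₁} {G X : Subgroup (V ≃ₗ[F] V)}
  [FiniteDimensional F V₁] [Finite F]

/-- The ambient group, seen from one factor. -/
structure Loc (h : IsTensorProduct τ) (f : Form T V) (fU : Form T₁ U)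
    (f₁ : Form (FormType.alt F) V₁) (G : Subgroup (V ≃ₗ[F] V)) : Prop extends TF h f fU f₁ where
  kO : ∀ k ∈ Kron τ, (∀ v w, f.B (k v) (k w) = f.B v w) → k ∈ f.O
  uO : ∀ A : U ≃ₗ[F] U, (∀ u u', fU.B (A u) (A u') = fU.B u u') → A ∈ fU.O
  R : ∀ e ∈ f₁.O, kr h 1 e ∈ G
  L : ∀ A ∈ fU.O, kr h A 1 ∈ G
  full : ∀ (X : Subgroup (V ≃ₗ[F] V)) (st : End F U →ₗ[F] End F U),
    (∀ N x y, fU.B (N x) y = fU.B x (st N y)) → (∀ N, N + st N ∈ lvA X h f₁) → G ≤ X
  root : ∀ c, ∃ g ∈ G, ∃ β : End F U, (¬ ∃ μ : F, β = μ • 1) ∧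
    ∀ v, g v = v + τ (β (eta h f₁ c v)) c

section Loc

variable [FiniteDimensional F U] [Nontrivial V₁] (h3 : 3 ≤ finrank F U)
include h3

theorem not_scalar {fU : Form T₁ U} (hf : fU.Nondeg) {u u' : U} {β : End F U}
    (h1 : ∀ x, fU.B u x = 0 → fU.B u' x = 0 → β x = 0) (h2 : β ≠ 0) : ¬ ∃ μ : F, β = μ • 1 := by
  rintro ⟨μ, rfl⟩
  obtain ⟨φ, f0, f1, f2⟩ := exists_dual_two h3 u u'
  obtain ⟨x, hx⟩ := hf.exists_rep φ
  have := h1 x (fU.B_eq_zero_symm ((hx u).trans f1)) (fU.B_eq_zero_symm ((hx u').trans f2))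
  have x0 : x ≠ 0 := by rintro rfl; exact f0 (LinearMap.ext fun v => by simp [← hx])
  exact h2 (by simp [show μ = 0 by simpa [x0] using this])

theorem loc_sp {f : Form (FormType.alt F) V} {fU : Form (FormType.quad F) U} (hT : TF h f fU f₁)
    (h2 : (2 : F) ≠ 0) : Loc h f fU f₁ f.O := by
  have := finiteDimensional h
  have : Nontrivial U := Module.nontrivial_of_finrank_pos (R := F) (by omega)
  have e : ∀ u c a v, f.ei (τ u c) 0 a v = v + τ ((a • (fU.B u).smulRight u) (eta h f₁ c v)) c :=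
    fun u c a v => by simp [alt_tv_apply, hT.B_pure, mul_smul]
  refine ⟨hT, fun k _ e => ⟨e, fun v => by simp [alt_q]⟩, fun A e => ⟨e, fun u =>
    mul_left_cancel₀ h2 (by rw [← quad_B_self, ← quad_B_self, e])⟩,
    fun e he => ⟨hT.kr_iso (mul_one 1) (by simp) (by simp [mem_O_B he]), fun v => by simp [alt_q]⟩,
    fun e he => ⟨hT.kr_iso (mul_one 1) (by simp [mem_O_B he]) (by simp), fun v => by simp [alt_q]⟩,
    fun X st hs H => ?_, fun c => ?_⟩
  swap
  · obtain ⟨u, u0⟩ := exists_ne (0 : U)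
    obtain ⟨y, hy⟩ := hT.nd₁.exists_B_eq u0 1
    exact ⟨_, ei_mem_O _ 0 1, _, not_scalar h3 hT.nd₁ (u := u) (u' := u) (fun x hx _ => by simp [hx])
      fun e => u0 (by simpa [hy] using LinearMap.congr_fun e y), e u c 1⟩
  have k2 : ∀ x d, Cen f X (τ x d) := fun x d a _ => by
    obtain ⟨u, hu, e'⟩ := H ((a / 2) • (fU.B x).smulRight x) d
    convert hu using 1
    refine LinearEquiv.ext fun v => (e x d a v).trans (Eq.trans ?_ (e' v).symm)
    have : st ((fU.B x).smulRight x) = (fU.B x).smulRight x := LinearMap.ext fun y =>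
      hT.nd₁.ext_right fun z => by simp [← hs, fU.quad_symm x z, mul_comm]
    rw [map_smul, this, ← add_smul, show a / 2 + a / 2 = a by field_simp; ring]
  have k3 : ∀ v, Cen f X v := fun v => by
    refine h.inductionOn v (by simpa using k2 0 0) k2 fun a b ha hb => ?_
    rcases eq_or_ne a 0 with rfl | a0
    · simpa using hb
    rcases eq_or_ne b 0 with rfl | b0
    · simpa using ha
    have p1 : ∀ w, w ≠ 0 → LinearMap.ker ((eta h f₁).flip w) ≠ ⊤ := fun w w0 e =>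
      w0 (hT.eq_zero_of_eta fun d =>
        (e ▸ Submodule.mem_top : d ∈ LinearMap.ker ((eta h f₁).flip w)))
    obtain ⟨d, d1, d2⟩ := exists_not_mem_not_mem (p1 a a0) (p1 b b0)
    have p2 : ∀ x : U, x ≠ 0 → LinearMap.ker (fU.B x) ≠ ⊤ := fun x x0 e =>
      x0 (hT.nd₁ x fun y => (e ▸ Submodule.mem_top : y ∈ LinearMap.ker (fU.B x)))
    obtain ⟨x, x1, x2⟩ := exists_not_mem_not_mem (p2 _ d1) (p2 _ d2)
    refine cen_add_of_common h2 ha hb (k2 x d) (fun e => x1 ?_) fun e => x2 ?_ <;>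
    · have := f.B_eq_zero_symm e
      rw [hT.B_pure] at this
      exact fU.B_eq_zero_symm this
  rw [← hT.nd.alt_E_eq_O]
  exact ((alt_iso3 f).idx2 hT.nd (by
    have := finrank_pos (R := F) (M := V₁)
    obtain ⟨k, hk⟩ := hT.nd₂.even_finrank_alt
    have : 2 ≤ finrank F V₁ := by omega
    rw [finrank_eq h]; nlinarith)).E_le_of_tv hT.nd one_ne_zero rfl fun u a _ ha => k3 u a ha

theorem loc_om {f : Form (FormType.quad F) V} {fU : Form (FormType.alt F) U} (S : TS h f₁ f fU) :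
    Loc h f fU f₁ f.E := by
  have := finiteDimensional h
  have : Nontrivial U := Module.nontrivial_of_finrank_pos (R := F) (by omega)
  have ok : ∀ u u' c, f.EichOK (τ u c) (τ u' c) 0 := fun u u' c =>
    ⟨S.q0 _ _, by simp [S.mul], by simp [S.q0]⟩
  have e : ∀ u u' c v, f.ei (τ u c) (τ u' c) 0 v = v + τ ((tv fU u u' - tv fU u' u) (eta h f₁ c v)) c :=
    fun u u' c v => by simp [(ok u u' c).ei_apply, S.B_pure]; abel
  refine ⟨S.toTF, fun k => S.mem_O, fun A e => ⟨e, fun u => by simp [alt_q]⟩,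
    fun e => S.right_mem_E, fun e => S.left_mem_E, fun X st hs H => ?_, fun c => ?_⟩
  swap
  · obtain ⟨u, u', -, -, p⟩ := exists_hyp S.nd₁ h3 0
    have u0 : u' ≠ 0 := by rintro rfl; simp at p
    exact ⟨_, ei_mem_E _ _ _, _, not_scalar h3 S.nd₁ (u := u) (u' := u') (fun x hx hx' => by simp [hx, hx'])
      fun e => u0 (by simpa [p] using LinearMap.congr_fun e u'), e u u' c⟩
  have k0 : ∀ u u' c, Rad f X (τ u c) (τ u' c) := fun u u' c => ⟨0, ok u u' c, by
    obtain ⟨k, hk, e'⟩ := H (tv fU u u') c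
    convert hk using 1
    refine LinearEquiv.ext fun v => (e u u' c v).trans (Eq.trans ?_ (e' v).symm)
    have : st (tv fU u u') = -tv fU u' u := LinearMap.ext fun y =>
      S.nd₁.ext_right fun z => by simp [← hs, fU.alt_symm u z, mul_comm]
    rw [this, sub_eq_add_neg]⟩
  have key : ∀ a c, a ≠ 0 → c ≠ 0 → f.U (τ a c) ≤ X := fun a c a0 c0 => by
    obtain ⟨c', h1⟩ := S.exists_partner c0
    have k1 : ∀ b y, fU.B b a = 0 → f₁.B y c ≠ 0 → Rad f X (τ a c) (τ b y) := fun b y hb hy => by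
      rcases eq_or_ne b 0 with rfl | b0
      · simpa using Rad.zero (S.q0 a c)
      obtain ⟨z, z1, z2⟩ : ∃ z, fU.B z a = 0 ∧ z ∉ F ∙ b := by
        by_contra! H
        have p1 := Submodule.finrank_mono (show fU.perp (F ∙ a) ≤ F ∙ b from fun z hz =>
          H z (fU.B_eq_zero_symm (fU.mem_perp_span_singleton.1 hz)))
        have p2 := S.nd₁.finrank_add_finrank_perp (F ∙ a)
        rw [finrank_span_singleton a0] at p2
        rw [finrank_span_singleton b0] at p1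
        omega
      obtain ⟨w, w1, w2⟩ := SpTwo.exists_perp_B S.nd₁ z2 (f₁.B y c)⁻¹
      simpa [S.mul, w1, w2, hy] using Rad.step (k0 a w c) (k0 z b y) (S.q0 _ _)
        (by simp [S.mul, z1]) (by simp [S.mul, hb])
    have k2 : ∀ b y, fU.B b a = 0 → Rad f X (τ a c) (τ b y) := fun b y hb => by
      by_cases hy : f₁.B y c = 0
      · have e' : f₁.B c' c ≠ 0 := by simp [f₁.alt_symm c c', h1]
        simpa using (k1 b (y + c') hb (by simpa [hy] using e')).sub (k1 b c' hb e')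
      · exact k1 b y hb hy
    have k3 : ∀ b y, f₁.B c y = 0 → Rad f X (τ a c) (τ b y) := fun b y hy => by
      rcases eq_or_ne y 0 with rfl | y0
      · simpa using Rad.zero (S.q0 a c)
      obtain ⟨w, w0, w1, w2⟩ := SpTwo.exists_perp2 (f := fU) h3 a b
      obtain ⟨z, hz⟩ := S.nd₁.exists_B_eq w0 (-1)
      obtain ⟨y', hy'⟩ := S.exists_partner y0
      simpa [S.mul, w2, hy', fU.alt_symm w z, hz] using Rad.step
        (k2 w y' (fU.B_eq_zero_symm w1)) (k0 z b y) (S.q0 _ _)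
        (by simp [S.mul, f₁.B_eq_zero_symm hy]) (by simp [S.mul, f₁.B_eq_zero_symm hy])
    have k4 : ∀ v, Rad f X (τ a c) (v - τ (eta h f₁ c v) c') := fun v =>
      h.inductionOn v (by simpa using Rad.zero (S.q0 a c))
        (fun x y => by simpa using k3 x (y - f₁.B c y • c') (by simp [h1]))
        fun v w hv hw => by convert hv.add hw using 1; simp; abel
    refine U_le_of_rad (cen_quad _) fun w hw => ?_
    rw [S.B_pure] at hw
    simpa using (k4 w).add (k2 _ c' (fU.B_eq_zero_symm hw))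
  obtain ⟨a, a0⟩ := exists_ne (0 : U)
  obtain ⟨c, c0⟩ := exists_ne (0 : V₁)
  obtain ⟨a', e1⟩ := S.nd₁.exists_B_eq a0 1
  obtain ⟨c', e2⟩ := S.exists_partner c0
  exact S.nd.E_le_of_B_ne (S.q0 a c) (S.q0 a' c') (by simp [S.mul, e1, e2]) (key a c a0 c0)
    (key a' c' (by rintro rfl; simp at e1) (by rintro rfl; simp at e2))

end Loc

variable {I : Type*} [DecidableEq I] {ρ : I → Rep F V₁ V} {π : (I → V₁) → V} {f : Form T V}
  {i j : I} {c : V₁} {c₀ : F} [FiniteDimensional F V] [Nontrivial V]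

theorem not_mem_NF' {s : Finset I} {𝒜 : Subalgebra F (End F V)} {ψ : Dual F V₁} {ξ : End F V}
    {g : V ≃ₗ[F] V} (hd : 3 ≤ finrank F V₁ ∨ finrank F V₁ = 2 ∧ (2 : F) ≠ 0) (Φ : Fam ρ s 𝒜)
    (hi : i ∈ s) (hj : j ∈ s) (hij : i ≠ j) (hc : c ≠ 0)
    (hψ : ψ ≠ 0) (h0 : ψ c = 0) (hξ : ∀ A, Commute ξ (ρ i A)) {B : End F V₁}
    (hB : ¬ Commute ξ (ρ j B)) (e : ∀ v, g v = v + ρ i (ψ.smulRight c) (ξ v)) : g ∉ NF ρ s := by
  intro hg
  have n0 : (ψ.smulRight c : End F V₁) ≠ 0 := fun h => rk_ne (ρ i) hc hψ (by simp [h])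
  obtain ⟨χ, hχ⟩ := Module.Projective.exists_dual_eq_one F hc
  obtain ⟨k, hk, h⟩ := hg i hi
  rcases eq_or_ne k i with rfl | hki
  · have eg : ρ k (ψ.smulRight c) * ξ = g - 1 := LinearMap.ext fun v => by simp [e]
    rcases h.small (S := Wr.T (ρ k) (F ∙ c)) (fun v => by
      simpa [e] using rk_mem_T (Submodule.mem_span_singleton_self c) ψ _) (finrank_T _ hc)
      (hd.imp_right fun h => ⟨h.1, h.2, fun v => by simp [e, cm_app hξ, rk_rk h0]⟩) with ⟨A, h⟩ | h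
    · have := ((h ▸ Φ.comm k hk j hj hij A B).sub_left (Commute.one_left _)).eq
      rw [← eg, ← mul_assoc, ← (Φ.comm k hk j hj hij _ B).eq, mul_assoc, mul_assoc] at this
      exact hB (sub_eq_zero.1 (eq_zero_of_mul n0 (fun C => ((hξ C).mul_left
        (Φ.comm j hj k hk hij.symm B C)).sub_left ((Φ.comm j hj k hk hij.symm B C).mul_left (hξ C)))
        (by rw [mul_sub, this, sub_self])))
    · have := ((h (χ.smulRight c)).sub_left (Commute.one_left _)).eq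
      rw [← eg, mul_assoc, (hξ _).eq, ← mul_assoc, ← mul_assoc, ← map_mul, ← map_mul, rk_mul, rk_mul,
        h0, hχ, one_smul, zero_smul, map_zero, zero_mul] at this
      exact hB (by rw [eq_zero_of_mul n0 hξ this.symm]; exact Commute.zero_left _)
  · obtain ⟨A, hA⟩ := h (ψ.smulRight c)
    have e1 : ρ i (ψ.smulRight c) = ρ k A := LinearMap.ext fun v => by
      obtain ⟨v, rfl⟩ := g.surjective v
      rw [← hA]; simp [e, cm_app hξ, rk_rk h0]
    have := (Φ.comm k hk i hi hki A (χ.smulRight c)).eq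
    rw [← e1, ← map_mul, ← map_mul, rk_mul, rk_mul, h0, hχ, one_smul, zero_smul] at this
    exact n0 (rho_inj _ this).symm

theorem exists_rep {σ σ' : Rep F V₁ V} [Nontrivial V₁] (hτ : Tn σ τ)
    (H : ∀ A B, Commute (σ' A) (σ B)) : ∃ κ : Rep F V₁ U, ∀ A u x, σ' A (τ u x) = τ (κ A u) x := by
  choose t ht using fun A => hτ.exists_left (H A)
  obtain ⟨c, hc⟩ := exists_ne (0 : V₁)
  exact ⟨AlgHom.ofLinearMap (IsLinearMap.mk' t
    ⟨fun a b => LinearMap.ext fun u => pure_inj hτ.tp hc (by simp [← ht]),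
      fun s a => LinearMap.ext fun u => pure_inj hτ.tp hc (by simp [← ht])⟩)
    (LinearMap.ext fun u => pure_inj hτ.tp hc (by simp [← ht]))
    fun a b => LinearMap.ext fun u => pure_inj hτ.tp hc (by simp [← ht]), ht⟩

variable [Fintype I]

variable (ρ π f f₁ c₀) in
/-- `f` is a tensor power of the symplectic form `f₁`. -/
structure PS : Prop extends PT ρ π where
  σ : ∀ a, T.σ a = a
  nd : f.Nondeg
  nd₁ : f₁.Nondeg
  mul : ∀ xs ys, f.B (π xs) (π ys) = c₀ * ∏ i, f₁.B (xs i) (ys i)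
  dim : finrank F V₁ = 2 ∧ (2 : F) ≠ 0 ∧ (∃ t : F, t ≠ 0 ∧ t * t ≠ 1) ∨
    3 ≤ finrank F V₁ ∧ (5 ≤ finrank F V₁ ∨ (2 : F) ≠ 0)
  big : 3 * finrank F V₁ ≤ finrank F V

namespace PS

variable (S : PS f₁ ρ π f c₀)
include S

theorem nt : Nontrivial V₁ := Module.nontrivial_of_finrank_pos (R := F) (by have := S.dim; omega)

theorem dim' : 3 ≤ finrank F V₁ ∨ finrank F V₁ = 2 ∧ (2 : F) ≠ 0 :=
  S.dim.symm.imp (·.1) fun h => ⟨h.1, h.2.1⟩

theorem B_ext {A B A' B' : End F V}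
    (H : ∀ xs ys, f.B (A (π xs)) (B (π ys)) = f.B (A' (π xs)) (B' (π ys))) (v w : V) :
    f.B (A v) (B w) = f.B (A' v) (B' w) := by
  have := S.ext (f := f.B (B w) ∘ₗ A) (g := f.B (B' w) ∘ₗ A') fun xs => by
    have := LinearMap.congr_fun (S.ext (f := f.B (A (π xs)) ∘ₗ B) (g := f.B (A' (π xs)) ∘ₗ B')
      (H xs)) w
    simp only [LinearMap.comp_apply] at this ⊢
    rw [f.symm, this, ← f.symm]
  rw [f.symm, show f.B (B w) (A v) = _ from LinearMap.congr_fun this v, LinearMap.comp_apply,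
    ← f.symm]

theorem adj (i : I) {A A' : End F V₁} (H : ∀ x y, f₁.B (A x) y = f₁.B x (A' y)) (v w : V) :
    f.B (ρ i A v) w = f.B v (ρ i A' w) := S.B_ext (B := 1) (A' := 1) (fun xs ys => by
  simp only [End.one_apply, S.app, S.mul]
  congr 1
  refine Finset.prod_congr rfl fun j _ => ?_
  rcases eq_or_ne j i with rfl | e <;> simp [*]) v w

theorem adj_tv (i : I) (a b : V₁) (v w : V) :
    f.B (ρ i (tv f₁ a b) v) w = f.B v (ρ i (-tv f₁ b a) w) :=
  S.adj i (fun x y => by simp [f₁.alt_symm a x, mul_comm]) v w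

theorem iso_T {w w' : V} (hw : w ∈ Wr.T (ρ i) (F ∙ c)) (hw' : w' ∈ Wr.T (ρ i) (F ∙ c)) :
    f.B w w' = 0 := by
  rcases eq_or_ne c 0 with rfl | hc
  · simp [T_bot (by simpa using hw)]
  obtain ⟨v, rfl⟩ := exists_rk (B_ne S.nd₁ hc) hw
  rw [← tv_eq, S.adj_tv, map_neg, LinearMap.neg_apply, tv_eq, rk_T (L := F ∙ c) (fun x hx => by
    obtain ⟨s, rfl⟩ := Submodule.mem_span_singleton.1 hx
    simp) c hw']
  simp

variable (hτ : Tn (ρ i) τ)
include hτ

theorem three : 3 ≤ finrank F U := by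
  have := S.nt
  have h1 := S.big
  rw [finrank_eq hτ.tp] at h1
  exact Nat.le_of_mul_le_mul_right h1 finrank_pos

theorem B_tau {c c' : V₁} (h1 : f₁.B c c' = 1) (u u' : U) (x y : V₁) :
    f.B (τ u x) (τ u' y) = f.B (τ u c) (τ u' c') * f₁.B x y := by
  have : τ u x = ρ i (tv f₁ (-c') x) (τ u c) := by simp [hτ.app, f₁.alt_symm c c', h1]
  rw [this, S.adj_tv, hτ.app]; simp [mul_comm]

theorem nd_tau {c c' : V₁} (h1 : f₁.B c c' = 1) (u : U) (H : ∀ u', f.B (τ u c) (τ u' c') = 0) :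
    u = 0 := pure_inj hτ.tp (show c ≠ 0 by rintro rfl; simp at h1) (by
  simpa using S.nd _ (LinearMap.congr_fun (ext_of hτ.tp (f := f.B (τ u c)) (g := 0) fun u' y => by
    simp [S.B_tau hτ h1 u u' c y, H])))

variable {fU : Form T₁ U} (L : Loc hτ.tp f fU f₁ G)
include L

theorem not_le : ¬ G ≤ NF ρ Finset.univ := fun hle => by
  have := S.nt
  obtain ⟨c, hc⟩ := exists_ne (0 : V₁)
  obtain ⟨g, hg, β, hβ, e⟩ := L.root c
  have e1 : ∀ u x, hτ.tp.map hτ.tp β LinearMap.id (τ u x) = τ (β u) x := fun u x => by simp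
  obtain ⟨j, -, hj⟩ := exists_not_comm S.fam (ξ := hτ.tp.map hτ.tp β LinearMap.id) trivial
    fun ⟨μ, h⟩ => hβ ⟨μ, LinearMap.ext fun u => pure_inj hτ.tp hc (by simp [← e1, h])⟩
  obtain ⟨B, hB⟩ := not_forall.1 hj
  refine not_mem_NF' S.dim' S.fam (Finset.mem_univ i) (Finset.mem_univ j)
    (by rintro rfl; exact hj (hτ.comm_of_left e1)) hc (B_ne S.nd₁ hc) (by simp) (hτ.comm_of_left e1) hB
    (fun v => ?_) (hle hg)
  rw [e, add_right_inj]
  exact LinearMap.congr_fun (ext_of hτ.tp (f := τ.flip c ∘ₗ β ∘ₗ eta hτ.tp f₁ c)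
    (g := ρ i _ ∘ₗ _) fun u x => by simp [hτ.app]) v

theorem good (h1 : NF ρ Finset.univ ⊓ G ≤ X) (h2 : X ≤ f.O) (hn : ¬ G ≤ X) :
    Good (spD f₁) X (ρ i) := by
  have := S.nt
  have := hτ.fd
  have := hτ.nt
  obtain ⟨c, hc⟩ := exists_ne (0 : V₁)
  obtain ⟨c', p1⟩ := L.exists_partner hc
  have R : ∀ e ∈ f₁.O, kr hτ.tp 1 e ∈ X := fun e he => h1 ⟨
    (equiv_ext hτ.tp fun x y => by simp [un_apply, hτ.app] : un (ρ i) e = kr hτ.tp 1 e) ▸
      S.fam.un_mem (Finset.mem_univ i) e, L.R e he⟩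
  choose κ hκ using fun j : {j // j ≠ i} => exists_rep hτ (S.comm j.2)
  obtain ⟨st, hst⟩ := exists_st L.nd₁ L.σ₁
  have eB : ∀ u u', fU.B u u' = f.B (τ u c) (τ u' c') := fun u u' => by simp [L.mul, p1]
  have W : WS hτ.tp f fU f₁ X κ Finset.univ st := by
    refine ⟨L.toTF, h2, R, L.kO, ⟨fun _ _ _ => trivial, fun j _ l _ hjl A B => LinearMap.ext fun u =>
      pure_inj hτ.tp hc (by simpa [← hκ] using LinearMap.congr_fun (S.comm
        (Subtype.coe_injective.ne hjl) A B).eq (τ u c)), fun ξ _ H => ?_⟩, hst,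
      fun l _ a b => LinearMap.ext fun y => L.nd₁.ext_right fun x => by
        simp [← hst, eB, ← hκ, S.adj_tv], fun l _ e he => ?_, fun a _ b _ => ?_,
      fun H => hn (L.full X st hst H), inferInstance, S.dim⟩
    · have e1 : ∀ u x, hτ.tp.map hτ.tp ξ LinearMap.id (τ u x) = τ (ξ u) x := fun u x => by simp
      obtain ⟨μ, e⟩ := S.fam.cent (hτ.tp.map hτ.tp ξ LinearMap.id) trivial fun j _ A => by
        rcases eq_or_ne j i with rfl | hj
        · exact hτ.comm_of_left e1 A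
        · exact ext_of hτ.tp fun u x => by
            simp [hκ ⟨j, hj⟩, cm_app (H ⟨j, hj⟩ (Finset.mem_univ _))]
      exact ⟨μ, LinearMap.ext fun u => pure_inj hτ.tp hc (by simp [← e1, e])⟩
    · have m := L.uO (un (κ l) e) fun u u' => by
        rw [eB, eB, un_apply, un_apply, ← hκ, ← hκ, S.adj l (A' := (e⁻¹ : V₁ ≃ₗ[F] V₁))
          (B_apply_left he), rho_mul, ← LinearEquiv.coe_toLinearMap_mul, inv_mul_cancel]
        simp [← End.one_eq_id]
      exact ⟨m, h1 ⟨(equiv_ext hτ.tp fun x y => by simp [un_apply, hκ] :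
        un (ρ l) e = kr hτ.tp (un (κ l) e) 1) ▸ S.fam.un_mem (Finset.mem_univ l.1) e, L.L _ m⟩⟩
    · obtain ⟨g, g1, g2, g3⟩ := S.exists_perm (Equiv.swap a.1 b.1)
      obtain ⟨B, hB⟩ := hτ.exists_left (ξ := g) fun A => LinearMap.ext fun v => by
        simpa [Equiv.swap_apply_of_ne_of_ne a.2.symm b.2.symm] using g3 i A v
      let p := LinearEquiv.ofInjectiveEndo B ((injective_iff_map_eq_zero B).2 fun u hu =>
        pure_inj hτ.tp hc (g.injective (by simpa [hu] using hB u c)))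
      have hp : ∀ u x, g (τ u x) = τ (p u) x := hB
      have m := L.uO p fun u u' => by
        rw [eB, eB, ← hp, ← hp]
        exact S.B_ext (A := g) (B := g) (A' := 1) (B' := 1) (fun xs ys => by
          simp [g2, S.mul, Equiv.prod_comp (Equiv.swap a.1 b.1) fun j => f₁.B (xs j) (ys j)]) _ _
      refine ⟨p, m, h1 ⟨(equiv_ext hτ.tp fun x y => by simp [hp] : g = kr hτ.tp p 1) ▸ g1, L.L _ m⟩,
        fun l A => LinearMap.ext fun u => pure_inj hτ.tp hc ?_⟩
      obtain ⟨u, rfl⟩ := p.surjective u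
      have := g3 (Equiv.swap a b l).1 A (τ u c)
      rw [Subtype.coe_injective.map_swap, Equiv.swap_apply_self,
        ← Subtype.coe_injective.map_swap] at this
      simpa [inv_app, hκ, hp] using this
  refine ⟨?_, fun d ψ hd z hz hW A => ?_, fun d ψ d0 ψ0 _ ⟨t, ht, e⟩ => ⟨d0, ?_⟩, False.elim⟩
  · rintro d _ ⟨-, l, -, rfl⟩
    exact ⟨_, R _ (ei_mem_O d 0 l), LinearMap.congr_fun (ext_of hτ.tp (f := kr hτ.tp 1 _)
      (g := 1 + ρ i _) fun u x => by simp [alt_tv_apply, hτ.app])⟩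
  · rw [hτ.T_span] at hW
    obtain ⟨D, B, e⟩ := W.stab hd.1 hz hW
    exact ⟨(B : End F V₁) * A * (B⁻¹ : V₁ ≃ₗ[F] V₁), LinearMap.congr_fun (ext_of hτ.tp
      (f := (z : End F V) * ρ i A) (g := ρ i _ * z) fun u x => by simp [hτ.app, e, inv_app])⟩
  · obtain ⟨u, hu⟩ := exists_ne (0 : U)
    obtain ⟨u', hu'⟩ := L.nd₁.exists_B_eq hu 1
    obtain ⟨d', p2⟩ := L.exists_partner d0
    have : ψ = ψ d' • f₁.B d := LinearMap.ext fun x => by
      have := mem_O_B (h2 ht) (τ u x) (τ u' d')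
      simp [e, hτ.app, L.mul, hu', p2, L.σ, f₁.alt_symm d x] at this ⊢
      linear_combination this
    exact ⟨_, fun h => ψ0 (by rw [this, h, zero_smul]), this⟩

omit hτ L in
theorem le_NF (h2 : X ≤ f.O) (H : ∀ i, Good (spD f₁) X (ρ i)) : X ≤ NF ρ Finset.univ := by
  have := S.nt
  refine S.fam.le_NF (spRS S.nd₁ S.dim') (fun Y hY K i _ N => ?_) (fun _ _ => trivial) fun i _ => H i
  rcases S.dim with ⟨p1, p2, p3⟩ | ⟨p1, p2⟩
  · refine le_two S.nd₁ p1 p2 N (fun k hk c h w hw => S.nd.ext_right fun v => ?_) p3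
    obtain ⟨v, rfl⟩ := k.surjective v
    have := S.iso_T (h v) hw
    rw [map_sub, LinearMap.sub_apply, sub_eq_zero] at this
    rw [mem_O_B (h2 (hY hk)), this]
  · exact N.le (spRS S.nd₁ S.dim') (spBC S.nd₁ p1 p2)

omit hτ L in
theorem main [Nonempty I] (hG : G ≤ f.O) (H : ∀ i (U : Submodule F V) (τ : U →ₗ[F] V₁ →ₗ[F] V)
    (hτ : Tn (ρ i) τ), ∃ fU : Form T₁ U, Loc hτ.tp f fU f₁ G) : ¬ G ≤ NF ρ Finset.univ ∧
      ∀ K, NF ρ Finset.univ ⊓ G ≤ K → K ≤ G → (∃ g ∈ K, g ∉ NF ρ Finset.univ) → G ≤ K := by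
  have := S.nt
  refine ⟨?_, fun K h1 h2 ⟨g, hg, hg'⟩ => by_contra fun hn =>
    hg' (S.le_NF (h2.trans hG) (fun i => ?_) hg)⟩
  · obtain ⟨i⟩ := ‹Nonempty I›
    obtain ⟨U, τ, hτ⟩ := exists_tn (ρ i)
    exact (H i U τ hτ).elim fun _ L => S.not_le hτ L
  · obtain ⟨U, τ, hτ⟩ := exists_tn (ρ i)
    exact (H i U τ hτ).elim fun _ L => S.good hτ L h1 (h2.trans hG) hn

end PS

theorem PS.exists_sp {f : Form (FormType.alt F) V} (S : PS f₁ ρ π f c₀) (h2 : (2 : F) ≠ 0)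
    (hτ : Tn (ρ i) τ) : ∃ fU : Form (FormType.quad F) U, Loc hτ.tp f fU f₁ f.O := by
  have := S.nt
  have := hτ.fd
  obtain ⟨c, hc⟩ := exists_ne (0 : V₁)
  obtain ⟨c', p⟩ := S.nd₁.exists_B_eq hc 1
  exact ⟨ofSymm h2 ((show V →ₗ[F] V →ₗ[F] F from f.B).compl₁₂ (τ.flip c) (τ.flip c')) fun x y => by
    change f.B (τ y c) (τ x c') = f.B (τ x c) (τ y c')
    rw [f.alt_symm, S.B_tau hτ p, f₁.alt_symm, p]; simp,
    loc_sp (S.three hτ) ⟨fun _ => rfl, fun _ => rfl, S.nd_tau hτ p, S.nd₁,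
      fun _ _ _ _ => S.B_tau hτ p _ _ _ _⟩ h2⟩

theorem PS.exists_om {f : Form (FormType.quad F) V} (S : PS f₁ ρ π f c₀) (hq : ∀ xs, f.q (π xs) = 0)
    (hτ : Tn (ρ i) τ) : ∃ fU : Form (FormType.alt F) U, Loc hτ.tp f fU f₁ f.E := by
  have := S.nt
  have := hτ.fd
  obtain ⟨c, hc⟩ := exists_ne (0 : V₁)
  obtain ⟨c', p⟩ := S.nd₁.exists_B_eq hc 1
  have q0 : ∀ u x, f.q (τ u x) = 0 := fun u x => by
    rcases eq_or_ne x 0 with rfl | x0
    · simp [q_zero]
    obtain ⟨φ, hφ⟩ := Module.Projective.exists_dual_eq_one F x0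
    have m := rk_mem_T (ρ := ρ i) (Submodule.mem_span_singleton_self x) φ
    rw [show τ u x = ρ i (φ.smulRight x) (τ u x) by simp [hτ.app, hφ]]
    refine Submodule.span_induction (p := fun v _ => f.q (ρ i (φ.smulRight x) v) = 0) ?_
      (by simp [q_zero]) (fun a b _ _ ha hb => by simp [quad_q_add, ha, hb, S.iso_T (m a) (m b)])
      (fun s a _ ha => by simp [quad_q_smul, ha]) (S.span.ge trivial)
    rintro _ ⟨xs, rfl⟩
    rw [S.app, hq]
  exact ⟨ofAlt ((show V →ₗ[F] V →ₗ[F] F from f.B).compl₁₂ (τ.flip c) (τ.flip c')) fun x => by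
    have := q0 x (c + c')
    rw [map_add, quad_q_add, q0, q0, zero_add, zero_add] at this
    exact this, loc_om (S.three hτ) ⟨⟨fun _ => rfl, fun _ => rfl, S.nd_tau hτ p, S.nd₁,
      fun _ _ _ _ => S.B_tau hτ p _ _ _ _⟩, q0⟩⟩

open Matrix Cfsg Cfsg.Geo CL.Tv in
theorem exists_ps {F : Type*} [Field F] [Fintype F] {ι : Type} [Fintype ι] [DecidableEq ι]
    {T : FormType F} (hσ : ∀ a, T.σ a = a) {f : Form T (ι → F)} (hf : f.Nondeg) {k t : ℕ}
    (hn : 13 ≤ Fintype.card ι) (ht : 2 ≤ t) (h1 : ¬ (Fintype.card F = 3 ∧ k = 2))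
    (h2 : ¬ Odd (Fintype.card F) → 6 ≤ k) (e : ι ≃ (Fin t → Fin k)) (P : GL ι F)
    {f₁ : (Fin k → F) → (Fin k → F) → F} (hf₁ : IsSymplecticForm f₁) {b : (ι → F) → (ι → F) → F}
    (hb : ∀ x y, f.B x y = b x y) (hT : IsTensorPowerFormStructure id b f₁ e P) : 2 ≤ k ∧
      ∃ c₀, PS (ofAlt (bilin hf₁.bilinear) hf₁.alternating) (rhoT e P) (crd e P ∘ pi0) f c₀ := by
  obtain ⟨c₀, -, H⟩ := form_pure (σ := RingHom.id F) (bilin_eq_gram hf₁.bilinear) hT
  have nd : (ofAlt (bilin hf₁.bilinear) hf₁.alternating).Nondeg := fun x hx => by_contra fun x0 => by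
    obtain ⟨y, hy⟩ := (hf₁.nondegenerate x x0).2
    exact hy (hx y)
  obtain ⟨m, hm⟩ := nd.even_finrank_alt
  rw [finrank_fin_fun] at hm
  have e1 : Fintype.card ι = k ^ t := by simp [Fintype.card_congr e]
  have k2 : 2 ≤ k := by
    by_contra h
    rw [show k = 0 by omega, zero_pow (by omega)] at e1
    omega
  refine ⟨k2, c₀, ptT e P, hσ, hf, nd, fun xs ys => (hb _ _).trans (H xs ys), ?_, ?_⟩
  · rw [finrank_fin_fun]
    by_cases ho : Odd (Fintype.card F)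
    · have h3 := FGL.two_ne_zero_of_odd ho
      refine k2.eq_or_lt.imp (fun h => ⟨h.symm, h3, by_contra fun h4 => h1 ⟨?_, h.symm⟩⟩)
        fun h => ⟨h, Or.inr h3⟩
      classical
      push Not at h4
      have := Finset.card_le_card (show Finset.univ ⊆ ({0, 1, -1} : Finset F) from fun x _ => by
        simpa [mul_self_eq_one_iff, or_iff_not_imp_left] using h4 x)
      have h5 := Finset.card_le_three (a := (0 : F)) (b := 1) (c := -1)
      have h6 := Fintype.one_lt_card (α := F)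
      obtain ⟨r, hr⟩ := ho
      rw [Finset.card_univ] at this
      omega
    · have := h2 ho
      exact Or.inr ⟨by omega, Or.inl (by omega)⟩
  · rw [finrank_fin_fun, finrank_fintype_fun_eq_card]
    rcases k2.eq_or_lt with h | h
    · omega
    · exact e1 ▸ (by nlinarith : 3 * k ≤ k ^ 2).trans (Nat.pow_le_pow_right (by omega) ht)

open Matrix Cfsg Cfsg.Geo CL.Tv in
/-- The stabilizer of a decomposition `Sp_k ⊗ ⋯ ⊗ Sp_k` is maximal in `Sp`. -/
theorem wreath_sp_maximal {F : Type*} [Field F] [Fintype F] {m : ℕ} (hm : 7 ≤ m)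
    (hodd : Odd (Fintype.card F)) {k t : ℕ} (ht : 2 ≤ t) (hex : ¬ (Fintype.card F = 3 ∧ k = 2))
    (e : (Fin m ⊕ Fin m) ≃ (Fin t → Fin k)) (P : GL (Fin m ⊕ Fin m) F)
    {f₁ : (Fin k → F) → (Fin k → F) → F} (hf₁ : IsSymplecticForm f₁)
    (hT : IsTensorPowerFormStructure id (sympForm m F) f₁ e P) :
    IsMaximalIn (spGL m F) (tensorWreathSubgroup k t e P ⊓ spGL m F) := by
  obtain ⟨k2, c₀, S⟩ := exists_ps (fun _ => rfl) (CL.Sp.spForm_nondeg m F) (by simp; omega) ht hex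
    (absurd hodd) e P hf₁ (CL.Sp.spForm_B m F) hT
  have : Nonempty (Fin m) := ⟨⟨0, by omega⟩⟩
  have : Nonempty (Fin t) := ⟨⟨0, by omega⟩⟩
  have := S.main le_rfl fun i U τ hτ => S.exists_sp (FGL.two_ne_zero_of_odd hodd) hτ
  exact isMaximalIn_of_act mem_spGL_iff_O (mem_wreath_iff k2 (by omega) e P) this.1 this.2

open Matrix Cfsg Cfsg.Geo CL.Tv in
/-- The stabilizer of a decomposition `Sp_k ⊗ ⋯ ⊗ Sp_k` is maximal in `Ω`. -/
theorem wreath_om_maximal {F : Type*} [Field F] [Fintype F] {ι : Type} [Fintype ι] [DecidableEq ι]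
    (hn : 13 ≤ Fintype.card ι) {Q : (ι → F) → F} (hQ : IsNondegenerateQuadraticForm Q) {k t : ℕ}
    (ht : 2 ≤ t) (hex : ¬ (Fintype.card F = 3 ∧ k = 2)) (hex' : ¬ Odd (Fintype.card F) → 6 ≤ k)
    (e : ι ≃ (Fin t → Fin k)) (P : GL ι F)
    {f₁ : (Fin k → F) → (Fin k → F) → F} (hf₁ : IsSymplecticForm f₁)
    (hT : IsTensorPowerFormStructure id (QuadraticMap.polar Q) f₁ e P)
    (hp : ∀ xs : Fin t → Fin k → F, Q ((P : Matrix ι ι F) *ᵥ
      ((fun a : Fin t → Fin k => ∏ i, xs i (a i)) ∘ e)) = 0) :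
    IsMaximalIn (omegaGL Q) (tensorWreathSubgroup k t e P ⊓ omegaGL Q) := by
  obtain ⟨k2, c₀, S⟩ := exists_ps (fun _ => rfl) (quadOfGeo_nondeg hQ) hn ht hex hex' e P hf₁
    (quadOfGeo_B hQ) hT
  have : Nonempty ι := Fintype.card_pos_iff.1 (by omega)
  have : Nonempty (Fin t) := ⟨⟨0, by omega⟩⟩
  have := S.main E_le_O fun i U τ hτ => S.exists_om hp hτ
  exact isMaximalIn_of_act (mem_omegaGL_iff_E (quadOfGeo_nondeg hQ) (by omega))
    (mem_wreath_iff k2 (by omega) e P) this.1 this.2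

end CL.WrS
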