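/-
Maximality of `Sp₂ ⊗ O₄⁻` and of `Sp₂ ⊗ Sp₂ ⊗ Sp₂` in `Sp₈`.
-/
import Mathlib
import Cfsg.Agent.CLAS.TFormD
import Cfsg.Agent.CLAS.WrS5

set_option autoImplicit false
set_option linter.unusedSectionVars false
set_option maxHeartbeats 200000

namespace CL.Tens

open Module CL.ExtF CL.Witt CL.Witt.Form CL.Root

attribute [-simp] LinearEquiv.coe_inv
attribute [local simp] FormType.alt_σ FormType.alt_ε alt_B_self FormType.quad_σ FormType.quad_ε
  FormType.alt_π FormType.quad_π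

variable {F : Type*} [Field F] {V₁ V₂ V : Type*} [AddCommGroup V₁] [Module F V₁] [AddCommGroup V₂]
  [Module F V₂] [AddCommGroup V] [Module F V] {X : Subgroup (V ≃ₗ[F] V)}
  {τ : V₁ →ₗ[F] V₂ →ₗ[F] V} {h : IsTensorProduct τ} {f₂ : Form (FormType.alt F) V₂} {c : V₂}
  {g : V ≃ₗ[F] V} [FiniteDimensional F V₁] [FiniteDimensional F V₂]
  {f : Form (FormType.alt F) V} {f₁ : Form (FormType.quad F) V₁}

variable (f₁) in
/-- Witt index at most one. -/
def W1 : Prop := ∀ x y, f₁.q x = 0 → f₁.q y = 0 → f₁.B x y = 0 → x ≠ 0 → y ∈ F ∙ x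

theorem W1.not (hm : W1 f₁) {x y a b : V₁} (hx : f₁.q x = 0) (hy : f₁.q y = 0) (e : f₁.B x y = 0)
    (ha : f₁.B a x ≠ 0) (hb : f₁.B b x = 0) (hb' : f₁.B b y ≠ 0) : False := by
  obtain ⟨l, rfl⟩ := Submodule.mem_span_singleton.1 (hm x y hx hy e (by rintro rfl; simp at ha))
  simp [hb] at hb'

theorem exists_perp_mem (f₁ : Form (FormType.quad F) V₁) {H : Submodule F V₁}
    (h2 : 2 ≤ finrank F H) (a : V₁) : ∃ b ∈ H, b ≠ 0 ∧ f₁.B a b = 0 := by
  obtain ⟨b, hb, b0⟩ := Submodule.exists_mem_ne_zero_of_ne_bot (LinearMap.ker_ne_bot_of_finrank_lt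
    (f := (show V₁ →ₗ[F] F from f₁.B a) ∘ₗ H.subtype) (by simp; omega))
  exact ⟨b, b.2, by simpa using b0, hb⟩

theorem W1.exists_hw (hm : W1 f₁) (h2 : (2 : F) ≠ 0) (h3 : ∀ t : F, t ≠ 0 → t * t = 1)
    {H : Submodule F V₁} (d2 : 2 ≤ finrank F H) {n n' : V₁} (e : f₁.B n n' = 0) (n0 : f₁.q n ≠ 0)
    (qn : f₁.q n' = f₁.q n) (p1 : ∀ x ∈ H, f₁.B n x = 0) (p2 : ∀ x ∈ H, f₁.B n' x = 0) :
    ∃ a ∈ H, ∃ w ∈ H, f₁.B a w = 0 ∧ f₁.q a = f₁.q n ∧ f₁.q w = -f₁.q n := by
  have three : (3 : F) = 0 := by linear_combination h3 2 h2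
  have pm : ∀ t : F, t ≠ 0 → t = f₁.q n ∨ t = -f₁.q n := fun t ht =>
    mul_self_eq_mul_self_iff.1 (by rw [h3 t ht, h3 _ n0])
  obtain ⟨a, ha, a0⟩ : ∃ a ∈ H, f₁.q a ≠ 0 := by
    by_contra! H0
    obtain ⟨x, hx, x0, -⟩ := exists_perp_mem f₁ d2 0
    have : H ≤ F ∙ x := fun y hy => hm x y (H0 x hx) (H0 y hy) (by
      simpa [quad_q_add, H0 x hx, H0 y hy] using H0 _ (H.add_mem hx hy)) x0
    have := Submodule.finrank_mono this
    rw [finrank_span_singleton x0] at this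
    omega
  obtain ⟨b, hb, b0, ab⟩ := exists_perp_mem f₁ d2 a
  have na := p1 a ha
  have nb := p1 b hb
  have na' := p2 a ha
  have nb' := p2 b hb
  have s1 := f₁.B_eq_zero_symm e
  have s2 := f₁.B_eq_zero_symm na
  have s3 := f₁.B_eq_zero_symm nb
  have s4 := f₁.B_eq_zero_symm na'
  have s5 := f₁.B_eq_zero_symm nb'
  have s6 := f₁.B_eq_zero_symm ab
  have qb : f₁.q b ≠ 0 := fun qb => by
    have key : ∀ y, f₁.q y = 0 → f₁.B b y = 0 → f₁.B n y = 0 := fun y hy e' => by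
      obtain ⟨l, rfl⟩ := Submodule.mem_span_singleton.1 (hm b y qb hy e' b0)
      simp [nb]
    rcases pm _ a0 with r | r
    · have := key (n + n' + a) (by
        simp only [quad_q_add, map_add, LinearMap.add_apply, e, na, na', qn, r]
        linear_combination f₁.q n * three) (by simp [s3, s5, s6])
      simp [e, na, quad_B_self, h2, n0] at this
    · have := key (n + a) (by simp [quad_q_add, na, r]) (by simp [s3, s6])
      simp [na, quad_B_self, h2, n0] at this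
  rcases pm _ a0 with r | r <;> rcases pm _ qb with r' | r'
  · refine (hm.not (x := n + n' + a) (y := n' - a + b) (a := n) (b := b) ?_ ?_ ?_ ?_ ?_ ?_).elim
    · simp only [quad_q_add, map_add, LinearMap.add_apply, e, na, na', qn, r]
      linear_combination f₁.q n * three
    · rw [sub_eq_add_neg, ← neg_one_smul F a]
      simp only [quad_q_add, quad_q_smul, map_add, LinearMap.add_apply, map_smul, qB_smul_left, nb',
        ab, na', qn, r, r', smul_eq_mul]
      linear_combination f₁.q n * three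
    · simp [e, na, nb, na', nb', s4, ab, quad_B_self, qn, r]
    · simp [e, na, quad_B_self, h2, n0]
    · simp [s3, s5, s6]
    · simp [s5, s6, quad_B_self, h2, qb]
  · exact ⟨a, ha, b, hb, ab, r, r'⟩
  · exact ⟨b, hb, a, ha, s6, r', r⟩
  · refine (hm.not (x := n + a) (y := n' + b) (a := n) (b := n') ?_ ?_ ?_ ?_ ?_ ?_).elim
    · simp [quad_q_add, na, r]
    · simp [quad_q_add, nb', r', qn]
    · simp [e, nb, s4, ab]
    · simp [na, quad_B_self, h2, n0]
    · simp [s1, na']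
    · simp [nb', quad_B_self, h2, n0, qn]

namespace SO

variable (S : SO X h f₂ f f₁)
include S

theorem not_left (hc : c ≠ 0) (hg : g ∈ X) (hm : W1 f₁) {M : V₁ →ₗ[F] V₁}
    (H : ∀ x y, qc h f₂ c g (τ x y) = τ (M x) y) : False := by
  have := S.nt
  obtain ⟨c', h1⟩ := S.exists_partner hc
  have sk : ∀ x x', f₁.B (M x) x' = -f₁.B (M x') x := fun x x' => by
    have := S.B_qc (c := c) hg (τ x c) (τ x' c')
    simpa [H, S.mul, f₂.alt_symm c c', h1] using this
  have hM : ∀ x, M (M x) = 0 := fun x => pure_inj h hc (by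
    simpa [H] using qc_qc (h := h) (f₂ := f₂) (c := c) (g := g) (τ x c))
  have b0 : ∀ x x', f₁.B (M x) (M x') = 0 := fun x x' => by rw [sk, hM]; simp
  have q0 : ∀ x, f₁.q (M x) = 0 := fun x =>
    mul_left_cancel₀ S.two (by rw [← quad_B_self, b0, mul_zero])
  obtain ⟨x, hx⟩ : ∃ x, M x ≠ 0 := by
    by_contra! H0
    obtain ⟨x, hx⟩ := exists_ne (0 : V₁)
    obtain ⟨v, hv⟩ := qc_surj (h := h) (g := g) h1 (w := g (τ x c)) (by
      rw [inv_app]; exact pure_mem _ _)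
    rw [show qc h f₂ c g = 0 from ext_of h fun x y => by simp [H, H0]] at hv
    exact pure_ne_zero h hx hc (by simpa using hv.symm)
  obtain ⟨x', hx'⟩ := S.nd₁.exists_B_eq hx 1
  obtain ⟨l, hl⟩ := Submodule.mem_span_singleton.1 (hm _ _ (q0 x) (q0 x') (b0 x x') hx)
  have p1 := sk x' x'
  have p2 := sk x x'
  rw [← hl] at p1 p2
  simp only [map_smulₛₗ, LinearMap.smul_apply, hx', smul_eq_mul, FormType.quad_σ] at p1 p2
  rw [show l = 0 from mul_left_cancel₀ S.two (by linear_combination p1)] at p2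
  simp at p2

theorem inv_mem_w1 (hc : c ≠ 0) (hm : W1 f₁) (O : Opt X (mem τ c) g) (hb : kp (mem τ c) g ≠ ⊥)
    {w : V} (hw : w ∈ mem τ c) (h1 : qc h f₂ c g w ∈ mem τ c) : g⁻¹ w ∈ mem τ c := by
  have := finiteDimensional h
  have := S.nt
  obtain ⟨c', h2⟩ := S.exists_partner hc
  by_contra h3
  have h4 := S.P c hc _ (S.zc_mem O.mem c 1) (Opt.eq_of_lt O.inv (S.zc_mem O.mem c 1)
    (fun w hw e => by rw [zc_apply, qc_of_mem e]; simpa using hw) hw
    (by rw [zc_apply, one_smul]; exact Submodule.add_mem _ hw h1) h3)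
  obtain ⟨n, hn, n0⟩ := Submodule.exists_mem_ne_zero_of_ne_bot hb
  obtain ⟨x, hx⟩ := mem_mem.1 (mem_kp.1 hn).2
  rcases mb_or_left S.two hc h2 h4 (x₁ := x) (by rintro rfl; exact n0 (by simpa using hx.symm)) hc
    (qc_of_mem (by rw [hx, inv_app]; exact hn.1)) with H | ⟨M, H⟩
  · exact O.ne (H.kp_eq h hb)
  · exact S.not_left hc O.mem hm H

theorem pf_w1 (hc : c ≠ 0) (hm : W1 f₁) (O : Opt X (mem τ c) g) (hb' : kp (mem τ c) g⁻¹ ≠ ⊥) :
    PF X (mem τ c) ((mem τ c).comap ((g⁻¹ : V ≃ₗ[F] V) : V →ₗ[F] V)) (pc h f₂ c)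
      (qc h f₂ c g) := by
  have := finiteDimensional h
  have hb : kp (mem τ c) g ≠ ⊥ := fun e => hb' (Submodule.finrank_eq_zero.1 (by
    rw [finrank_kp_inv, e, finrank_bot]))
  exact S.pf hc O.mem (fun w => S.inv_mem_w1 hc hm O hb)
    (fun w hw e => by simpa using S.inv_mem_w1 hc hm O.inv hb' hw e)
    (fun k hk e w hw h1 h2 => Opt.eq_of_lt O.inv hk e hw h1 h2) O.inv.ne

variable [Finite F]

/-- An optimal intersection contains no singular pure tensor. -/
theorem core_w1 (hc : c ≠ 0) (hm : W1 f₁) (O : Opt X (mem τ c) g) {s : V₁} (s0 : s ≠ 0)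
    (qs : f₁.q s = 0) (hs : g⁻¹ (τ s c) ∈ mem τ c) : False := by
  have := finiteDimensional h
  have n0 := pure_ne_zero h s0 hc
  have H := S.pf_w1 hc hm O fun e => n0 (by
    have : τ s c ∈ kp (mem τ c) g⁻¹ := ⟨pure_mem s c, hs⟩
    rwa [e] at this)
  set P := pc h f₂ c
  set Q := qc h f₂ c g
  set U := (mem τ c).comap ((g⁻¹ : V ≃ₗ[F] V) : V →ₗ[F] V)
  have hs' : τ s c ∈ U := hs
  obtain ⟨h3, μ, m0, e1, e2⟩ := H.three S.two (pure_mem s c) hs' n0
  have mm := h3 μ m0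
  have three : (3 : F) = 0 := by linear_combination h3 2 S.two
  obtain ⟨G, hG, eG⟩ := H.exists_G μ 1
  have QQ : ∀ v, Q (Q v) = 0 := fun v => H.Q0 _ (H.QU v)
  have g1 : ∀ m, P m ∈ U → Q m ∈ mem τ c → G m = m := fun m p1 p2 => by
    simp only [eG, one_smul, map_add, H.P0 _ p2]
    linear_combination (norm := module) e2 m p1 p2
  have g2 : ∀ w ∈ LinearMap.range (P * Q), G w = Q w + (2 : F) • w ∧ G (Q w) = Q w + w :=
    fun w hw => by
    simp only [eG, one_smul, H.P0 _ (H.le_W hw), map_add, e1 w hw, QQ, zero_add, add_zero,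
      smul_smul, mm]
    exact ⟨by module, trivial⟩
  have g3 : ∀ w ∈ LinearMap.range (P * Q), G (G w) = -w ∧ G (G (Q w)) = -Q w := fun w hw => by
    simp only [(g2 w hw).1, (g2 w hw).2, map_add, map_smul]
    constructor
    · linear_combination (norm := module) three • (Q w + (2 : F) • w)
    · linear_combination (norm := module) three • (Q w + w)
  have dec : ∀ v, ∃ w₁ ∈ LinearMap.range (P * Q), ∃ w₂ ∈ LinearMap.range (P * Q),
      G (v - w₁ - Q w₂) = v - w₁ - Q w₂ ∧ G (G v) = v - (2 : F) • (w₁ + Q w₂) := fun v => by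
    obtain ⟨w₁, a1, w₂, a2, a3, a4⟩ := H.dec v
    have a5 := g1 _ a3 a4
    refine ⟨w₁, a1, w₂, a2, a5, ?_⟩
    have : v = (v - w₁ - Q w₂) + w₁ + Q w₂ := by abel
    conv_lhs => rw [this]
    rw [map_add, map_add, map_add, map_add, a5, a5, (g3 _ a1).1, (g3 _ a2).2]
    module
  have fix : ∀ v, G (G v) = v → G v = v := fun v hv => by
    obtain ⟨w₁, -, w₂, -, a3, a4⟩ := dec v
    rw [hv, eq_comm, sub_eq_self, smul_eq_zero] at a4
    rwa [sub_sub, a4.resolve_left S.two, sub_zero] at a3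
  have neg : ∀ v, G (G v) = -v → P v ∈ U → v ∈ mem τ c := fun v hv hu => by
    obtain ⟨w₁, a1, w₂, a2, -, a4⟩ := dec v
    have : v = w₁ + Q w₂ := smul_right_injective V S.two (by
      linear_combination (norm := module) hv - a4)
    rw [this, map_add, H.P0 _ (H.le_W a1), zero_add] at hu
    rw [this, H.inj a2 (H.disj ⟨w₂, rfl⟩ hu), map_zero, add_zero]
    exact H.le_W a1
  have fN : ∀ w ∈ mem τ c, w ∈ U → G w = w := fun w a1 a2 =>
    g1 w (by simp [H.P0 w a1]) (by simp [H.Q0 w a2])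
  have hK := S.P c hc _ (X.mul_mem hG hG) fun w hw => by
    obtain ⟨w₁, a1, a2, a3⟩ := H.decW hw
    rw [← sub_add_cancel w w₁, map_add, mul_app, mul_app, fN _ a2 a3, fN _ a2 a3, (g3 _ a1).1]
    exact add_mem a2 (neg_mem (H.le_W a1))
  obtain ⟨A, B, hA, hB, hAB⟩ := kron_norm h hK s0 hc (by
    rw [mul_app, fN _ (pure_mem s c) hs', fN _ (pure_mem s c) hs'])
  simp only [mul_app] at hAB
  have B1 : ∀ y, B y = y := fun y => by
    have p1 : B (B y) = y := pure_inj (flip h) s0 (by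
      obtain ⟨w₁, a1, w₂, a2, -, a4⟩ := dec (τ s y)
      have := congrArg (fun v => G (G v)) a4
      simp only [hAB, hA, map_sub, map_smul, map_add, (g3 _ a1).1, (g3 _ a2).2] at this a4
      simp only [LinearMap.flip_flip]
      linear_combination (norm := module) this + a4)
    obtain ⟨t, ht⟩ := Submodule.mem_span_singleton.1 (mem_span_of_pure_mem h s0
      (neg (τ s (y - B y)) (by rw [hAB]; simp [hA, p1]) (by
        rw [pc_apply, eta_pure, map_smul]; exact U.smul_mem _ hs')))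
    have p2 := congrArg B ht
    rw [map_smul, hB, map_sub, p1] at p2
    exact smul_right_injective V₂ S.two (by linear_combination (norm := module) ht - p2)
  obtain ⟨w₀, hw₀, w0⟩ := H.exists_ne
  obtain ⟨x₁, rfl⟩ := mem_mem.1 (H.le_W hw₀)
  have sx : f₁.B s x₁ = 0 := by
    obtain ⟨v, hv⟩ := hw₀
    have : eta h f₂ c (Q v) = x₁ := pure_inj h hc hv
    rw [← this, ← S.B_pure, f.alt_symm, S.B_qc O.mem, H.Q0 _ hs']; simp
  obtain ⟨x', p1, p2⟩ := S.nd₁.exists_perp_eq' (H := F ∙ s) (x := x₁) (fun e => by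
    obtain ⟨l, rfl⟩ := Submodule.mem_span_singleton.1 e
    exact w0 (H.disj hw₀ (by simpa using U.smul_mem l hs'))) 1
  have := S.B_eq_zero_of_fix hc hG s0 qs sx (p1 s (Submodule.mem_span_singleton_self s))
    fun y => fix _ (by rw [hAB, hA, B1])
  have p3 : eta h f₂ c (Q (τ x₁ c)) = μ • x₁ := pure_inj h hc (by
    rw [map_smul]; exact e1 _ hw₀)
  simp [(g2 _ hw₀).1, S.B_pure, p3, f₁.quad_symm x₁ x', p2, m0] at this

/-- A conjugate of a member meets it trivially or equals it. -/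
theorem dich_w1 (hc : c ≠ 0) (hm : W1 f₁) (d4 : finrank F V₁ = 4) (d2 : finrank F V₂ = 2)
    {k : V ≃ₗ[F] V} (hk : k ∈ X) (k1 : kp (mem τ c) k ≠ ⊥) : kp (mem τ c) k = mem τ c := by
  have := finiteDimensional h
  by_contra k2
  obtain ⟨g, O⟩ := exists_opt ⟨k, hk, k2⟩
  have hb := O.ne_bot hk k2 k1
  have hb' := O.inv.ne_bot hk k2 k1
  set N := (kp (mem τ c) g⁻¹).comap (τ.flip c)
  have mN : ∀ x, x ∈ N ↔ g⁻¹ (τ x c) ∈ mem τ c := fun x => ⟨fun h => h.2, fun h => ⟨pure_mem x c, h⟩⟩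
  have an : ∀ x ∈ N, f₁.q x = 0 → x = 0 := fun x hx e => by_contra fun x0 =>
    S.core_w1 hc hm O x0 e ((mN x).1 hx)
  have eN : finrank F N = finrank F (kp (mem τ c) g) := by
    rw [← finrank_map_pure h hc, Submodule.map_comap_eq_of_le (f := τ.flip c) (kp_le (mem τ c) _),
      finrank_kp_inv]
  have dN : finrank F N = 2 := by
    have p1 := S.le_of_opt hc O hb
    have p2 : ¬ 3 ≤ finrank F N := fun e => by
      obtain ⟨s, hs, s0, qs⟩ := quad_iso3 f₁ _ e
      exact s0 (an s hs qs)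
    omega
  have H := S.pf_w1 hc hm O hb'
  set P := pc h f₂ c
  set Q := qc h f₂ c g
  obtain ⟨n, hn, n0, -⟩ := exists_perp_mem f₁ dN.ge 0
  obtain ⟨n', hn', n0', nn⟩ := exists_perp_mem f₁ dN.ge n
  obtain ⟨h3, μ, m0, e1, -⟩ := H.three S.two (pure_mem n c) ((mN n).1 hn) (pure_ne_zero h n0 hc)
  have qn : f₁.q n ≠ 0 := fun e => n0 (an n hn e)
  have qn' : f₁.q n' = f₁.q n := (mul_self_eq_mul_self_iff.1 (by
    rw [h3 _ qn, h3 _ fun e => n0' (an n' hn' e)])).resolve_right fun e => by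
      have := congrArg (f₁.B n) (an _ (N.add_mem hn hn') (by simp [quad_q_add, e, nn]))
      simp [nn, quad_B_self, S.two, qn] at this
  obtain ⟨a, ha, w, hw, aw, qa, qw⟩ := hm.exists_hw S.two h3 (H := f₁.perp N) (by
    have := S.nd₁.finrank_add_finrank_perp N
    omega) nn qn qn' (fun x hx => hx n hn) fun x hx => hx n' hn'
  have na : f₁.B n a = 0 := ha n hn
  have nw : f₁.B n w = 0 := hw n hn
  have vn : f₁.B (n + a) n = 2 * f₁.q n := by simp [quad_B_self, f₁.B_eq_zero_symm na]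
  have qv : f₁.q (n + a) = 2 * f₁.q n := by rw [quad_q_add, na, qa]; ring
  have ew : eta h f₂ c (Q (τ w c)) = μ • w := by
    obtain ⟨w₁, a1, a2, a3⟩ := H.decW (pure_mem w c)
    obtain ⟨x₁, rfl⟩ := mem_mem.1 (H.le_W a1)
    have m : w - x₁ ∈ N := (mN _).2 (by rw [map_sub, LinearMap.sub_apply]; exact a3)
    have sx : f₁.B (w - x₁) x₁ = 0 := by
      obtain ⟨v, hv⟩ := a1
      have : eta h f₂ c (Q v) = x₁ := pure_inj h hc hv
      conv_lhs => rw [← this]
      rw [this, ← this, ← S.B_pure, this, f.alt_symm, S.B_qc O.mem, H.Q0 _ ((mN _).1 m)]; simp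
    obtain rfl : w = x₁ := sub_eq_zero.1 (an _ m (mul_left_cancel₀ S.two (by
      rw [← quad_B_self, map_sub, sx, hw _ m]; simp)))
    exact pure_inj h hc (by rw [map_smul]; exact e1 _ a1)
  have hz := S.zc_mem O.mem c 1
  set z := g * ec h f₂ c 0 1 * g⁻¹
  have ez : ∀ v, z v = v + Q v := fun v => by rw [zc_apply, one_smul]
  have ez' : ∀ v, z⁻¹ v = v - Q v := fun v => inv_app_eq (by simp [ez, H.Q0 _ (H.QU v)])
  have zN : ∀ x ∈ N, z (τ x c) = τ x c := fun x hx => by rw [ez, H.Q0 _ ((mN x).1 hx), add_zero]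
  have hg₁ := X.mul_mem (X.mul_mem (X.inv_mem hz) (S.L _ (rf_mem_O (n + a)))) hz
  set g₁ := z⁻¹ * kr h (f₁.rf (n + a)) 1 * z
  let φ : V₁ →ₗ[F] V₂ := cl h (f₁.B (n + a)) ∘ₗ (z : V →ₗ[F] V) ∘ₗ τ.flip c
  have eφ : ∀ x, φ x = cl h (f₁.B (n + a)) (z (τ x c)) := fun _ => rfl
  have fx : ∀ x, φ x = 0 → g₁ (τ x c) = τ x c := fun x hx => by
    rw [mul_app, mul_app, rf_apply', ← eφ, hx]; simp [inv_app]
  have O₁ : Opt X (mem τ c) g₁ := by
    refine ⟨hg₁, fun e => ?_, fun k hk hne => (O.max k hk hne).trans ?_⟩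
    · have p1 := mem_of_kp_eq e (pure_mem n c)
      rw [mul_app, mul_app, zN n hn, rf_apply', cl_apply, vn, qv, map_smul, map_sub, ez' (τ n c),
        H.Q0 _ ((mN n).1 hn), smul_smul, inv_mul_cancel₀ (mul_ne_zero S.two qn), one_smul,
        ez'] at p1
      have p2 : Q (τ (n + a) c) ∈ mem τ c := by
        convert add_mem (sub_mem p1 (pure_mem n c)) (pure_mem (n + a) c) using 1
        abel
      have p3 : a ∈ N := by
        simpa using N.sub_mem ((mN _).2 (H.i1 _ (pure_mem _ c) p2)) hn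
      have := ha a p3
      rw [quad_B_self, qa] at this
      exact mul_ne_zero S.two qn this
    · have p1 := φ.finrank_range_add_finrank_ker
      have p2 := (LinearMap.range φ).finrank_le
      have p3 : finrank F ((LinearMap.ker φ).map (τ.flip c)) ≤ finrank F (kp (mem τ c) g₁) :=
        Submodule.finrank_mono (by
          rintro _ ⟨x, hx, rfl⟩
          exact mem_kp.2 ⟨pure_mem _ _, by
            rw [LinearMap.flip_apply, fx x hx]; exact pure_mem x c⟩)
      rw [finrank_map_pure h hc] at p3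
      omega
  have fin : ∀ s, f₁.B w s ≠ 0 → f₁.q s = 0 → φ s = 0 → False := fun s s0 qs e =>
    S.core_w1 hc hm O₁ (by rintro rfl; simp at s0) qs (by
      rw [inv_app_eq (fx s e)]; exact pure_mem s c)
  have φN : ∀ x ∈ N, φ x = f₁.B (n + a) x • c := fun x hx => by rw [eφ, zN x hx, cl_apply]
  obtain ⟨t, ht⟩ := Submodule.mem_span_singleton.1 (CL.WrS.perp_two S.nd₂ d2 hc (d := φ w) (by
    rw [eφ, ← S.B_pure', S.B_pure, ez, map_add (eta h f₂ c), ew]
    simp [nw, aw]))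
  have ww : f₁.B w w ≠ 0 := by simp [quad_B_self, qw, S.two, qn]
  have wn := f₁.B_eq_zero_symm nw
  have wn' := f₁.B_eq_zero_symm (hw n' hn')
  by_cases t0 : t = 0
  · refine fin (w + n') (by simpa [wn'] using ww) (by simp [quad_q_add, qw, qn', wn']) ?_
    rw [map_add, ← ht, t0, φN n' hn']
    simp [nn, f₁.B_eq_zero_symm (ha n' hn')]
  · have l0 : -t / (2 * f₁.q n) ≠ 0 := by simp [t0, S.two, qn]
    refine fin (w + (-t / (2 * f₁.q n)) • n) (by simpa [wn] using ww) ?_ ?_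
    · rw [quad_q_add, quad_q_smul, map_smul, wn, qw, pow_two, h3 _ l0]; simp
    · rw [map_add, map_smul, ← ht, φN n hn, vn, smul_smul,
        div_mul_cancel₀ _ (mul_ne_zero S.two qn)]
      simp

theorem le_kron_w1 (hc : c ≠ 0) (hm : W1 f₁) (d4 : finrank F V₁ = 4) (d2 : finrank F V₂ = 2) :
    X ≤ Kron τ := fun _ hg =>
  S.kron_of_mb hc hg (S.mb_of_big hc (fun k hk e => S.dich_w1 hc hm d4 d2 hk fun e' => by
    rw [e', finrank_bot] at e; omega) hg)

end SO

section Matrices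

open Matrix Cfsg Cfsg.Geo CL.Tv

/-- The stabilizer of a decomposition `Sp₂ ⊗ O₄⁻` is maximal in `Sp₈`. -/
theorem sp_tensor_minus [Fintype F] {m : ℕ} (hodd : Odd (Fintype.card F))
    (e : (Fin m ⊕ Fin m) ≃ Fin 2 × Fin 4)
    (P : GL (Fin m ⊕ Fin m) F) {f₁ : (Fin 2 → F) → (Fin 2 → F) → F}
    {f₂ : (Fin 4 → F) → (Fin 4 → F) → F} (hf₁ : IsSymplecticForm f₁) (hf₂ : IsSymmetricForm f₂)
    (hp : ¬ IsPlusTypeOn (fun v : Fin 4 → F => f₂ v v) ⊤)
    (hT : IsTensorFormStructure id (sympForm m F) f₁ f₂ e P) :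
    IsMaximalIn (spGL m F) (tensorProductSubgroup 2 4 e P ⊓ spGL m F) := by
  have h2 := two_ne_zero_of_odd hodd
  obtain ⟨c, hc, H⟩ := tensor_form_pure hf₁.bilinear hf₂.bilinear hT
  let g₁ := ofSymm h2 (c • bilin hf₂.bilinear) fun x y => by simp [bilin_apply, hf₂.symm x y]
  let g₂ := Form.ofAlt (bilin hf₁.bilinear) hf₁.alternating
  have hT' : TF (flip (isTensorProduct_pt e P)) (CL.Sp.spForm m F) g₁ g₂ :=
    ⟨fun _ => rfl, fun _ => rfl, fun x hx => by_contra fun x0 => by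
      obtain ⟨y, hy⟩ := (hf₂.nondegenerate x x0).2
      exact mul_ne_zero hc hy (hx y), fun x hx => by_contra fun x0 => by
      obtain ⟨y, hy⟩ := (hf₁.nondegenerate x x0).2
      exact hy (hx y), fun x y x' y' => by
      rw [CL.Sp.spForm_B, LinearMap.flip_apply, LinearMap.flip_apply, H]
      change _ = c * f₂ x x' * f₁ y y'
      ring⟩
  have hm : W1 g₁ := fun x y hx hy hxy x0 => by_contra fun hn => hp
    ⟨Submodule.span F {x, y}, le_top, fun v hv => by
      obtain ⟨s, t, rfl⟩ := Submodule.mem_span_pair.1 hv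
      have : g₁.B (s • x + t • y) (s • x + t • y) = 0 := by
        rw [quad_B_self, quad_q_add, quad_q_smul, quad_q_smul, hx, hy]; simp [hxy]
      exact (mul_eq_zero.1 this).resolve_left hc, by
      rw [Set.pair_comm, finrank_span_pair_of x0 hn]; simp⟩
  obtain ⟨d, hd⟩ := exists_ne (0 : Fin 2 → F)
  refine isMaximalIn_of_act mem_spGL_iff_O (mem_tensor_iff e P) (fun hle => ?_)
    fun K h3 h4 ⟨g, hg, hg'⟩ => ?_
  · obtain ⟨x, hx⟩ := exists_ne (0 : Fin 4 → F)
    exact not_mem_kron hT'.nd (by simp) (by simp) (flip (isTensorProduct_pt e P)) hx hd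
      (fun v => by rw [alt_tv_apply, one_mul]) (by rw [kron_flip]; exact hle (ei_mem_O _ 0 1))
  · rw [← kron_flip] at h3 hg'
    exact (hT'.so_main h2 (by simp) (Or.inl (by simp)) h4 h3 fun S =>
      S.le_kron_w1 hd hm (by simp) (by simp)).resolve_left fun H => hg' (H hg)

end Matrices

end CL.Tens

namespace CL.WrS

open Module CL.ExtF CL.Tens CL.Wr CL.Witt CL.Witt.Form CL.Root Function Matrix Cfsg Cfsg.Geo CL.Tv

/-- The stabilizer of a decomposition `Sp₂ ⊗ ⋯ ⊗ Sp₂` is maximal in `Sp` for `q ≥ 5`. -/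
theorem wreath_sp_two {F : Type*} [Field F] [Fintype F] {m : ℕ} (hm : 3 ≤ m)
    (hodd : Odd (Fintype.card F)) (h5 : 5 ≤ Fintype.card F) {t : ℕ} (ht : 2 ≤ t)
    (e : (Fin m ⊕ Fin m) ≃ (Fin t → Fin 2)) (P : GL (Fin m ⊕ Fin m) F)
    {f₁ : (Fin 2 → F) → (Fin 2 → F) → F} (hf₁ : IsSymplecticForm f₁)
    (hT : IsTensorPowerFormStructure id (sympForm m F) f₁ e P) :
    IsMaximalIn (spGL m F) (tensorWreathSubgroup 2 t e P ⊓ spGL m F) := by
  obtain ⟨c₀, -, H⟩ := form_pure (σ := RingHom.id F) (bilin_eq_gram hf₁.bilinear) hT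
  have nd : (ofAlt (bilin hf₁.bilinear) hf₁.alternating).Nondeg := fun x hx => by_contra fun x0 => by
    obtain ⟨y, hy⟩ := (hf₁.nondegenerate x x0).2
    exact hy (hx y)
  have S : PS (ofAlt (bilin hf₁.bilinear) hf₁.alternating) (rhoT e P) (crd e P ∘ pi0)
      (CL.Sp.spForm m F) c₀ :=
    ⟨ptT e P, fun _ => rfl, CL.Sp.spForm_nondeg m F, nd,
      fun xs ys => (CL.Sp.spForm_B m F _ _).trans (H xs ys),
      Or.inl ⟨by simp, FGL.two_ne_zero_of_odd hodd, by
        by_contra! h4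
        have := FGL.card_le_three_of_sq h4
        omega⟩, by simp; omega⟩
  have : Nonempty (Fin m) := ⟨⟨0, by omega⟩⟩
  have : Nonempty (Fin t) := ⟨⟨0, by omega⟩⟩
  have := S.main le_rfl fun i U τ hτ => S.exists_sp (FGL.two_ne_zero_of_odd hodd) hτ
  exact isMaximalIn_of_act mem_spGL_iff_O (mem_wreath_iff le_rfl (by omega) e P) this.1 this.2

end CL.WrS
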