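import Mathlib
import Cfsg.Agent.CLAS.SuFr6

/-!
Maximality of the stabiliser of an orthonormal frame in `SU₈(q)`.
-/

set_option autoImplicit false
set_option maxHeartbeats 200000
set_option linter.unusedSectionVars false

namespace CL.Asch

open Module CL.Witt CL.Witt.Form

variable {F : Type*} [Field F] [Finite F] {σ : F →+* F} {hσ2 : ∀ a, σ (σ a) = a} {V : Type*}
  [AddCommGroup V] [Module F V] [FiniteDimensional F V] {f : Form (FormType.herm σ hσ2) V}
  {ι : Type*} [Fintype ι] {e : ι → V} {M : Subgroup (V ≃ₗ[F] V)}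

variable (f e M) in
/-- An overgroup of the frame stabiliser whose point stabilisers are monomial. -/
structure S8 : Prop extends f.Fr e 1 where
  N : NF σ
  N4 : ∀ l : List F, l.length < 4 → ∃ a, σ a * a = 1 ∧ a ∉ l
  le : dstab (ln F e) ⊓ f.E ≤ M
  hO : M ≤ f.O
  six : 6 ≤ Fintype.card ι
  ev : Even (Fintype.card ι)
  hs : ∀ m ∈ M, ∀ i j, ∀ a : F, m (e i) = a • e j → m ∈ dstab (ln F e)

namespace S8

variable (h : S8 f e M)
include h

theorem ex (l : List ι) (hl : l.length < 6) : ∃ a, a ∉ l :=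
  exists_notMem_of_lt l (by rw [Nat.card_eq_fintype_card]; exact hl.trans_le h.six)

theorem zero_of_two {g : V ≃ₗ[F] V} (hg : g ∈ M) {α β k l m : ι} (hkl : k ≠ l) (hmk : m ≠ k)
    (hml : m ≠ l) (h1 : f.B (e k) (g (e α)) = 0) (h2 : f.B (e l) (g (e α)) = 0)
    (h3 : f.B (e k) (g (e β)) ≠ 0) : f.B (e m) (g (e β)) = 0 := by
  by_contra h4
  have hy := h.toFr.map (h.hO hg)
  obtain ⟨y, hy'⟩ : ∃ y, y = g (e β) := ⟨_, rfl⟩
  have yy : f.B y y = 1 := hy' ▸ hy.self β
  have key : ∀ s : F, σ s * s = 1 → s ≠ 1 →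
      s + (s - 1) * s * (σ (f.B (e k) y) * f.B (e k) y) +
        (1 - s) * (σ (f.B (e l) y) * f.B (e l) y) = 0 := fun s hs hs1 => by
    obtain ⟨t, ht, et⟩ := sf_d2 h.toFr h.N.ne_id hkl hs
    obtain ⟨γ, d, e1⟩ := h.mem_dstab_iff.1 (h.hs (g⁻¹ * t * g)
      (M.mul_mem (M.mul_mem (M.inv_mem hg) (h.le ht)) hg) α α 1 (by
        rw [LinearEquiv.mul_apply, LinearEquiv.mul_apply, et, h1, h2]; simp)) β
    have e2 : t y = d • g (e γ) := by
      rw [← map_smul, ← e1, hy', ← LinearEquiv.mul_apply, ← LinearEquiv.mul_apply]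
      congr 1; group
    by_cases hγ : β = γ
    · rw [← hγ, ← hy', et] at e2
      have e3 := congrArg (f.B (e m)) e2
      have e4 := congrArg (f.B (e k)) e2
      rw [← hy'] at h3 h4
      simp only [map_add, map_smul, h.ne _ _ hmk, h.ne _ _ hml, h.ne _ _ hkl, h.self,
        smul_eq_mul] at e3 e4
      have : (s - 1) * f.B (e k) y * f.B (e m) y = 0 := by
        linear_combination f.B (e m) y * e4 - f.B (e k) y * e3
      exact absurd this (mul_ne_zero (mul_ne_zero (sub_ne_zero.2 hs1) h3) h4)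
    · have e3 := congrArg (f.B y) e2
      rw [map_smul, hy', hy.ne _ _ hγ, ← hy', et] at e3
      simp only [map_add, map_smul, yy, ← hσ_B (e k) y, ← hσ_B (e l) y, smul_eq_mul] at e3
      linear_combination s * e3 - σ (f.B (e l) y) * f.B (e l) y * hs
  generalize σ (f.B (e k) y) * f.B (e k) y = A, σ (f.B (e l) y) * f.B (e l) y = B at key
  obtain ⟨r, r1, hr⟩ := h.N4 [1] (by simp)
  obtain ⟨s, s1, hs⟩ := h.N4 [1, r] (by simp)
  obtain ⟨t, t1, ht⟩ := h.N4 [1, r, s] (by simp)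
  simp only [List.mem_cons, List.not_mem_nil, or_false, not_or] at hr hs ht
  have e1 := key r r1 hr
  have e2 := key s s1 hs.1
  have e3 := key t t1 ht.1
  have e4 : A * (r + s) + (1 - A - B) = 0 :=
    mul_left_cancel₀ (sub_ne_zero.2 hs.2) (by linear_combination e2 - e1)
  have e5 : A * (r + t) + (1 - A - B) = 0 :=
    mul_left_cancel₀ (sub_ne_zero.2 ht.2.1) (by linear_combination e3 - e1)
  have e6 : A = 0 := mul_left_cancel₀ (sub_ne_zero.2 ht.2.2) (by linear_combination e5 - e4)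
  exact one_ne_zero (α := F) (by linear_combination e1 + (1 - r) * e4 + (1 - r) * (1 - s) * e6)

theorem mono_of_two {g : V ≃ₗ[F] V} (hg : g ∈ M) {α k l : ι} (hkl : k ≠ l)
    (h1 : f.B (e k) (g (e α)) = 0) (h2 : f.B (e l) (g (e α)) = 0) : g ∈ dstab (ln F e) := by
  have ex : ∀ k, ∃ β, f.B (e k) (g (e β)) ≠ 0 := fun k => by
    obtain ⟨β, hβ⟩ := (h.toFr.map (h.hO hg)).exists_B (h.ne_zero k)
    exact ⟨β, fun e0 => hβ (f.B_eq_zero_symm e0)⟩
  obtain ⟨β, hβ⟩ := ex k
  obtain ⟨k', hk'⟩ := h.ex [k, l] (by simp)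
  obtain ⟨l', hl'⟩ := h.ex [k, l, k'] (by simp)
  obtain ⟨m', hm'⟩ := h.ex [k, l, k', l'] (by simp)
  simp only [List.mem_cons, List.not_mem_nil, or_false, not_or] at hk' hl' hm'
  have z1 := h.zero_of_two hg hkl hk'.1 hk'.2 h1 h2 hβ
  have z2 := h.zero_of_two hg hkl hl'.1 hl'.2.1 h1 h2 hβ
  have z3 := h.zero_of_two hg hkl hm'.1 hm'.2.1 h1 h2 hβ
  obtain ⟨γ, hγ⟩ := ex k'
  refine h.hs g hg γ k' _ (h.mem_ln fun j hj => ?_)
  by_cases h3 : j = l'
  · exact h.zero_of_two hg (Ne.symm hm'.2.2.1) hj (h3 ▸ Ne.symm hm'.2.2.2) z1 z3 hγ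
  · exact h.zero_of_two hg (Ne.symm hl'.2.2) hj h3 z1 z2 hγ

theorem mono_of_conj (h2 : (2 : F) ≠ 0) {m τ : V ≃ₗ[F] V} (hm : m ∈ M) {i j : ι} (hij : i ≠ j)
    (hτ : f.IsT 1 τ (e i) (e j)) (h0 : m * τ * m⁻¹ ∈ dstab (ln F e)) : m ∈ dstab (ln F e) := by
  classical
  have h1 := hτ.conj (h.hO hm)
  have h3 := h.card_le_fixed h0 Finset.univ (m (e i)) (m (e j))
    fun s _ => ⟨_, h1.sub_mem (e s), fun _ _ => rfl⟩
  rw [Finset.card_univ] at h3
  have h6 := h.six
  obtain ⟨s, hs'⟩ := Finset.card_pos.1 (show 0 < (Finset.univ.filter fun s =>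
    (m * τ * m⁻¹) (e s) = e s).card by omega)
  have hy := h.toFr.map (h.hO hm)
  have h4 := congrArg (f.B (m (e i))) (Finset.mem_filter.1 hs').2
  have h5 := congrArg (f.B (m (e j))) (Finset.mem_filter.1 hs').2
  rw [h1] at h4 h5
  simp only [map_sub, map_smul, map_add, hy.self, hy.ne _ _ hij, hy.ne _ _ hij.symm, co_one,
    smul_eq_mul, mul_one, mul_zero, add_zero, zero_add, sub_eq_self, mul_eq_zero, h2,
    false_or] at h4 h5
  rw [B_apply_left (h.hO hm)] at h4 h5
  exact (dstab _).inv_mem_iff.1 (h.mono_of_two (M.inv_mem hm) hij h4 h5)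

theorem le_odd (h2 : (2 : F) ≠ 0) : M ≤ dstab (ln F e) := by
  classical
  have : Finite V := Module.finite_of_finite F
  have : Finite (V ≃ₗ[F] V) := Finite.of_injective (fun g : V ≃ₗ[F] V => (g : V → V))
    DFunLike.coe_injective
  have G := h.herm_fGen h.N.ne_id h.le
  choose! t t1 t2 t3 using G.t
  have uq : ∀ {τ τ' : V ≃ₗ[F] V} {x y : V}, f.IsT 1 τ x y → f.IsT 1 τ' x y → τ = τ' :=
    fun h1 h3 => LinearEquiv.ext fun v => (h1 v).trans (h3 v).symm
  have sy : ∀ i j, i ≠ j → t i j = t j i := fun i j hij =>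
    uq (t3 i j hij) fun v => by rw [t3 j i hij.symm, add_comm]
  have val : ∀ i j, i ≠ j → ∀ s, t i j (e s) = if s = i ∨ s = j then -e s else e s :=
    fun i j hij s => by
      rw [t3 i j hij, co_one, co_one]
      by_cases h3 : s = i
      · subst h3; rw [h.self, h.ne _ _ hij.symm, if_pos (Or.inl rfl)]; module
      by_cases h4 : s = j
      · subst h4; rw [h.self, h.ne _ _ hij, if_pos (Or.inr rfl)]; module
      · rw [h.ne _ _ (Ne.symm h3), h.ne _ _ (Ne.symm h4), if_neg (not_or.2 ⟨h3, h4⟩)]; module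
  have ext : ∀ {a b : V ≃ₗ[F] V}, (∀ s, a (e s) = b (e s)) → a = b := fun H =>
    LinearEquiv.toLinearMap_injective (LinearMap.ext_on_range h.top H)
  have M1 : ∀ m ∈ M, ∀ i j, i ≠ j → m * t i j * m⁻¹ ∈ dstab (ln F e) → m ∈ dstab (ln F e) :=
    fun m hm i j hij => h.mono_of_conj h2 hm hij (t3 i j hij)
  have hinj : ∀ i j k l, i ≠ j → k ≠ l → t i j = t k l → i = k ∧ j = l ∨ i = l ∧ j = k := by
    intro i j k l hij hkl e0
    have k1 : ∀ s, s = i ∨ s = j → s = k ∨ s = l := fun s hs => by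
      by_contra h3
      have := val i j hij s
      rw [e0, val k l hkl, if_pos hs, if_neg h3] at this
      have h4 := congrArg (f.B (e s)) this
      rw [map_neg, h.self] at h4
      exact h2 (by linear_combination h4)
    have := k1 i (Or.inl rfl)
    have := k1 j (Or.inr rfl)
    grind
  have hc : ∀ ν ∈ M, ν ∈ dstab (ln F e) → ∃ π : ι → ι, Function.Injective π ∧
      (∀ i, ∃ a : F, ν (e i) = a • e (π i)) ∧
      ∀ i j, i ≠ j → ν * t i j * ν⁻¹ = t (π i) (π j) := fun ν hν hν' => by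
    choose π a ha using h.mem_dstab_iff.1 hν'
    have a1 : ∀ i, σ (a i) * a i = 1 := fun i => by
      have := mem_O_B (h.hO hν) (e i) (e i)
      rwa [ha, hB_smul, B_smul_right, h.self, h.self, mul_one] at this
    have hπ : Function.Injective π := fun i j e0 => by
      by_contra hij
      have := mem_O_B (h.hO hν) (e i) (e j)
      rw [ha, ha, hB_smul, B_smul_right, e0, h.self, h.ne _ _ hij, mul_one] at this
      exact mul_ne_zero (left_ne_zero_of_mul_eq_one (a1 i)) (right_ne_zero_of_mul_eq_one (a1 j)) this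
    refine ⟨π, hπ, fun i => ⟨_, ha i⟩, fun i j hij => uq ((t3 i j hij).conj (h.hO hν)) fun v => ?_⟩
    rw [t3 _ _ (hπ.ne hij), ha, ha]
    simp only [co_one, hB_smul, smul_smul]
    rw [mul_right_comm, a1, mul_right_comm, a1, one_mul, one_mul]
  refine sf_le_of_even t1 t2 (fun i j hij => (t3 i j hij).mul_self h.toFr hij) sy
    (fun ν hν hν' => (hc ν hν hν').imp fun _ o => ⟨o.1, o.2.2⟩) hinj M1 (fun m hm i j k l hij hkl hne hh => ?_) (by have := h.six; omega)
    h.ev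
  have hτ := mul_mem (t1 i j hij) (t1 k l hkl)
  have vτ : ∀ s, (t i j * t k l) (e s) =
      if (s = i ∨ s = j) = (s = k ∨ s = l) then e s else -e s := fun s => by
    rw [LinearEquiv.mul_apply, val k l hkl, apply_ite (t i j), map_neg, val i j hij]
    split_ifs <;> first | rfl | exact neg_neg _ | grind
  have sq : t i j * t k l * (t i j * t k l) = 1 := ext fun s => by
    rw [LinearEquiv.mul_apply, vτ, apply_ite (t i j * t k l), map_neg, vτ]
    split_ifs <;> simp
  obtain ⟨α, hα⟩ : ∃ α, ¬ (α = i ∨ α = j) = (α = k ∨ α = l) := by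
    by_contra! H
    exact hne (ext fun s => by simp only [val i j hij, val k l hkl, H s])
  generalize t i j * t k l = τ at hτ vτ sq hh
  obtain ⟨π, p1, p2, p3⟩ := hc _ (mul_mem (mul_mem hm hτ) (inv_mem hm)) hh
  obtain ⟨s, u, hsu, e1⟩ : ∃ s u, s ≠ u ∧ t (π s) (π u) = t s u := by
    by_cases o : ∃ s, π s ≠ s
    · obtain ⟨s, hs⟩ := o
      refine ⟨s, π s, hs.symm, ?_⟩
      obtain ⟨a, ha⟩ := p2 s
      obtain ⟨b, hb⟩ := p2 (π s)
      have e2 : (m * τ * m⁻¹) ((m * τ * m⁻¹) (e s)) = e s := by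
        rw [← LinearEquiv.mul_apply, show m * τ * m⁻¹ * (m * τ * m⁻¹) = m * (τ * τ) * m⁻¹ by group,
          sq]
        simp
      have e3 : π (π s) = s := by
        by_contra o
        have := congrArg (f.B (e s)) e2
        simp [ha, hb, h.self, h.ne _ _ (Ne.symm o)] at this
      rw [e3, sy _ _ hs]
    · push Not at o
      exact ⟨i, j, hij, by rw [o, o]⟩
  have e2 := (p3 s u hsu).trans e1
  have hx := mul_mem (mul_mem (inv_mem hm) (t1 s u hsu)) (inv_mem (inv_mem hm))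
  have e3 : τ * (m⁻¹ * t s u * m⁻¹⁻¹) = m⁻¹ * t s u * m⁻¹⁻¹ * τ := by
    conv_rhs => rw [← e2]
    group
  have z : ∀ r, r ∉ [i, j, k, l] → f.B (e r) ((m⁻¹ * t s u * m⁻¹⁻¹) (e α)) = 0 := fun r hr => by
    have := mem_O_B (h.hO hτ) (e r) ((m⁻¹ * t s u * m⁻¹⁻¹) (e α))
    rw [← LinearEquiv.mul_apply, e3, LinearEquiv.mul_apply, vτ, vτ, if_neg hα,
      if_pos (by simp at hr; simp [hr]), map_neg, map_neg] at this
    exact mul_left_cancel₀ h2 (by linear_combination -this)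
  obtain ⟨r, hr⟩ := h.ex [i, j, k, l] (by simp)
  obtain ⟨r', hr'⟩ := h.ex [r, i, j, k, l] (by simp)
  rw [List.mem_cons, not_or] at hr'
  exact (dstab _).inv_mem_iff.1 (M1 _ (inv_mem hm) s u hsu
    (h.mono_of_two hx hr'.1 (z r' hr'.2) (z r hr)))

end S8

open Matrix Cfsg Cfsg.Geo CL.Orth CL.FGL in
theorem su_frame_eight {F : Type*} [Field F] [Fintype F] {q : ℕ}
    (hF : Fintype.card F = q ^ 2) {D : Fin 8 → Submodule F (Fin 8 → F)}
    (hD : IsNondegenerateMDecomposition (hermForm 8 F q) 1 D) :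
    IsMaximalIn (GU 8 F q ⊓ specialLinear (Fin 8) F)
      (decompositionStabilizer D ⊓ (GU 8 F q ⊓ specialLinear (Fin 8) F)) := by
  classical
  have h := sdec_of _ (uni_B_iff hF) hD
  have hσ := Uni.sig_ne_id hF
  obtain ⟨e, c, h1, rfl⟩ := h.exists_fr rfl hD.decomp.finrank_eq
    (h.herm_isom hσ hD.decomp.finrank_eq)
  obtain ⟨s, hs⟩ := (nf_sig hF).norm c⁻¹ (by rw [map_inv₀]; exact congrArg _ h1.σc)
  have s0 : s ≠ 0 := by rintro rfl; exact inv_ne_zero h1.c0 (by rw [← hs, mul_zero])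
  have h2 : ln F e = ln F fun i => s • e i := funext fun i =>
    (Submodule.span_singleton_smul_eq s0.isUnit _).symm
  have h3 : (Uni.std hF (Fin 8)).Fr (fun i => s • e i) 1 := ⟨rfl, one_ne_zero, map_one _,
    fun i => by rw [hB_smul, B_smul_right, h1.self, ← mul_assoc, hs, inv_mul_cancel₀ h1.c0],
    fun i j hij => by simp [h1.ne i j hij], by
      rw [Submodule.span_range_eq_iSup]; exact (congrArg iSup h2).symm.trans h.top⟩
  have h5 := h.nondeg'.finrank_add_finrank_perp (ln F e 0)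
  rw [hD.decomp.finrank_eq] at h5
  simp only [finrank_fun, Fintype.card_fin] at h5
  obtain ⟨u, hu, hu0, huq⟩ := herm_iso2 hσ _ ((Uni.std hF (Fin 8)).perp (ln F e 0)) (by omega)
  refine decomp_isMaximalIn (fun _ => mem_SU_iff_E hF) (h.not_E_le_dstab
    (Submodule.mem_span_singleton_self _) (h1.ne_zero _) hu hu0 huq) fun M h6 h7 g hg hg' => ?_
  rw [h2] at h6 hg'
  by_contra H
  have hs : ∀ m ∈ M, ∀ i j, ∀ a : F, m (s • e i) = a • s • e j →
      m ∈ dstab (ln F fun i => s • e i) := fun m hm i j a ha => by_contra fun mn =>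
    H (sf_E_le h3 (nf_sig hF) (by simp) h6 (h7.trans E_le_O) hm mn ha)
  by_cases c2 : (2 : F) = 0
  · exact hg' (le_dstab_two h3 (nf_sig hF) c2 h6 (by simp) hs (h7.trans E_le_O) hg)
  have hq : 3 ≤ q := by
    have := Fintype.one_lt_card (α := F)
    by_contra! o
    interval_cases q
    · simp [hF] at this
    · simp [hF] at this
    · exact c2 (two_eq_zero_of_not_odd (by rw [hF]; decide))
  refine hg' (S8.le_odd ⟨h3, nf_sig hF, fun l hl => ?_, h6, h7.trans E_le_O, by simp, by simp; decide,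
    hs⟩ c2 hg)
  have h9 := SqField.card_norm_eq hF one_ne_zero (one_pow q)
  rw [Nat.card_eq_fintype_card, Fintype.card_subtype] at h9
  obtain ⟨a, ha, ha'⟩ := exists_mem_notMem_list
    (s := Finset.univ.filter fun x : F => x ^ (q + 1) = 1) l (by omega)
  exact ⟨a, by simpa [pow_succ, Uni.sig_apply] using ha, ha'⟩

end CL.Asch
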