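/-
Maximality of `Sp ⊗ O` in `Sp`.
-/
import Mathlib
import Cfsg.Agent.CLAS.TFormD
import Cfsg.Agent.CLAS.TFormE
import Cfsg.Agent.CLAS.OrthEich

namespace CL.Tens

open Module CL.ExtF CL.Witt CL.Witt.Form CL.Root

attribute [-simp] LinearEquiv.coe_inv
attribute [local simp] FormType.alt_σ FormType.alt_ε alt_B_self FormType.quad_σ FormType.quad_ε
  FormType.alt_π FormType.quad_π

variable {F : Type*} [Field F] {V₁ V₂ V : Type*} [AddCommGroup V₁] [Module F V₁] [AddCommGroup V₂]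
  [Module F V₂] [AddCommGroup V] [Module F V] {X : Subgroup (V ≃ₗ[F] V)}
  {τ : V₁ →ₗ[F] V₂ →ₗ[F] V} {h : IsTensorProduct τ} {f₂ : Form (FormType.alt F) V₂} {c : V₂}
  {g : V ≃ₗ[F] V} [FiniteDimensional F V₁] [FiniteDimensional F V₂]
  {f : Form (FormType.alt F) V} {f₁ : Form (FormType.quad F) V₁} [Finite F]

namespace SO

variable (S : SO X h f₂ f f₁) (hc : c ≠ 0) (hex : finrank F V₁ ≠ 3 ∨ 4 ≤ Nat.card F)
  (hex' : ¬ (finrank F V₁ = 4 ∧ finrank F V₂ = 2)) (hg : g ∈ X)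
include S hc hex hex' hg

theorem pf' (n : ∀ x y, y ≠ 0 → qc h f₂ c g (τ x y) = 0 → x = 0) {d : V₂} (hd : d ≠ 0) :
    PF X (mem τ d) ((mem τ c).comap ((g⁻¹ : V ≃ₗ[F] V) : V →ₗ[F] V)) (pc h f₂ d) (qc h f₂ c g) := by
  have := finiteDimensional h
  have := S.nt
  obtain ⟨c', h1⟩ := S.exists_partner hc
  obtain ⟨d', h2⟩ := S.exists_partner hd
  have z : ∀ w ∈ mem τ d, qc h f₂ c g w = 0 → w = 0 := by
    rintro _ ⟨x, rfl⟩ e
    simp [n x d hd e]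
  have mx : ∀ k ∈ X, ∀ w ∈ mem τ d, g⁻¹ w ∉ mem τ c → k w ∈ mem τ d → ∀ w ∈ mem τ d,
      k w ∈ mem τ d := fun k hk w hw hw' e _ => mem_of_kp_eq (S.dich hd hex hex' hk
    (kp_ne_bot hw (by rintro rfl; simp at hw') e))
  obtain ⟨e, he, rfl⟩ := S.nd₂.witt_vector hc hd (by simp [alt_q])
  refine ⟨pc_mem _, inv_qc_mem, fun w => pc_of_mem, fun w => qc_of_mem, fun w => pc_surj h2,
    fun w => qc_surj h1, fun w hw e => ?_, fun u hu e' => ?_, fun k hk _ => mx k hk,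
    fun k hk _ w hw hw' e' w' hw'' => ?_, fun k hk e => ?_,
    fun ξ => ⟨_, S.tv_mem _ ξ, ec_zero_apply _ ξ⟩, fun ξ => ⟨_, S.zc_mem hg c ξ, zc_apply ξ⟩, ?_⟩
  · simp [z w hw (z _ e (qc_qc w))]
  · have sj : ∀ u, g⁻¹ u ∈ mem τ c → ∃ w ∈ mem τ (e c), qc h f₂ c g w = u := fun u hu => by
      have p : ((mem τ (e c)).map (qc h f₂ c g)).map ((g⁻¹ : V ≃ₗ[F] V) : V →ₗ[F] V) = mem τ c :=
        Submodule.eq_of_le_of_finrank_eq (by rintro _ ⟨_, ⟨w, -, rfl⟩, rfl⟩; exact inv_qc_mem w) (by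
          rw [LinearEquiv.finrank_map_eq, finrank_mem h hc, mem, ← LinearMap.range_comp]
          exact LinearMap.finrank_range_of_inj ((injective_iff_map_eq_zero _).2 fun x => n x _ hd))
      obtain ⟨_, ⟨w, hw, rfl⟩, e⟩ := p.ge hu
      exact ⟨w, hw, (g⁻¹).injective e⟩
    obtain ⟨w, hw, rfl⟩ := sj u hu
    have p1 : eta h f₂ (e c) (qc h f₂ c g w) = 0 :=
      pure_inj h hd (by simpa [pc_apply] using z _ (pc_mem _ _) (qc_of_mem e'))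
    have p2 : eta h f₂ c (g⁻¹ w) = 0 := S.eta_eq_zero fun x => by
      obtain ⟨w', hw', e⟩ := sj (g (τ x c)) (by rw [inv_app]; exact pure_mem _ _)
      rw [← mem_O_B (S.le hg), app_inv, ← e, S.B_qc hg, S.B_mem' hw' p1]
    simp [qc_apply, pc_apply, p2]
  · have k1 : ∀ v ∈ mem τ c, kr h 1 e v ∈ mem τ (e c) := by
      rintro _ ⟨x, rfl⟩
      simpa using pure_mem _ _
    obtain ⟨x, hx⟩ := mem_mem.1 (mx _ (X.mul_mem (S.R e he) (X.mul_mem (X.inv_mem hg) hk)) w hw hw'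
      (k1 _ e') w' hw'')
    exact ⟨x, (kr h 1 e).injective (by simpa using hx)⟩
  · obtain ⟨β, hβ⟩ := S.exists_level' (S.le hk) hd e
    obtain ⟨s, hs⟩ := S.A _ hd β ⟨k, hk, hβ⟩
    exact ⟨s, fun v => by simp [hβ, hs, pc_apply]⟩
  · obtain ⟨x, hx⟩ := exists_ne (0 : V₁)
    exact ⟨_, pure_mem x _, fun e => hx (n x _ hd (qc_of_mem e))⟩

omit hex' in
theorem mb_of_four (h4 : 4 ≤ finrank F V₂) : Mb τ c g := by
  have := finiteDimensional h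
  have := S.nt
  have hex' : ¬ (finrank F V₁ = 4 ∧ finrank F V₂ = 2) := by omega
  by_contra hM
  have n : ∀ x y, y ≠ 0 → qc h f₂ c g (τ x y) = 0 → x = 0 := fun x y hy e =>
    by_contra fun hx => hM (S.mb_of_fix hc hex hex' hg hx hy e)
  let Ψ : V₂ →ₗ[F] V₂ →ₗ[F] Module.End F V₁ :=
    (LinearMap.llcomp F V₁ V V₁ ∘ₗ (eta h f₂).compl₂ (qc h f₂ c g)).compl₂ τ.flip
  have eΨ : ∀ d x, pc h f₂ d (qc h f₂ c g (τ x d)) = τ (Ψ d d x) d := fun _ _ => rfl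
  have key : ∀ d, d ≠ 0 → (∃ s : F, s ≠ 0 ∧ Ψ d d = s • 1) ∨
      (∀ t : F, t ≠ 0 → t * t = 1) ∧ Ψ d d * Ψ d d = -1 := fun d hd => by
    have H := S.pf' hc hex hex' hg n hd
    have h0 : ∀ w ∈ mem τ d, w ∈ (mem τ c).comap ((g⁻¹ : V ≃ₗ[F] V) : V →ₗ[F] V) → w = 0 := by
      rintro _ ⟨x, rfl⟩ e
      simp [n x d hd (qc_of_mem e)]
    refine (H.dickson h0 S.two).imp (fun ⟨μ, e⟩ => ⟨μ, ?_, LinearMap.ext fun x => ?_⟩)
      fun ⟨a, e⟩ => ⟨a, LinearMap.ext fun x => ?_⟩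
    · rintro rfl
      obtain ⟨x, hx⟩ := exists_ne (0 : V₁)
      exact pure_ne_zero h hx hd (H.inj0 h0 (pure_mem x d) (by simpa using e _ (pure_mem x d)))
    · exact pure_inj h hd (by simpa [eΨ] using e _ (pure_mem x d))
    · exact pure_inj h hd (by simpa [eΨ] using e _ (pure_mem x d))
  by_cases h3 : ∀ t : F, t ≠ 0 → t * t = 1
  · exact no_quad_map Ψ S.two h3 h4 fun d hd => (key d hd).imp_right And.right
  obtain ⟨x, hx⟩ := exists_ne (0 : V₁)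
  obtain ⟨α, hα⟩ := Module.Projective.exists_dual_eq_one F hx
  obtain ⟨d, -, hd, e⟩ := CL.OrthE.exists_singular
    (LinearMap.BilinMap.toQuadraticMap (Ψ.compr₂ (α ∘ₗ LinearMap.applyₗ x))) ⊤
    (by rw [finrank_top]; omega)
  obtain ⟨s, s0, hs⟩ := (key d hd).resolve_right fun a => h3 a.1
  simp [hs, hα, s0] at e

end SO

open Matrix Cfsg Cfsg.Geo in
/-- The stabilizer of a decomposition `Sp_{n₁} ⊗ O_{n₂}` is maximal in `Sp`. -/
theorem sp_tensor_maximal [Fintype F] {m n₁ n₂ : ℕ} (hodd : Odd (Fintype.card F)) (h1 : n₁ ≠ 0)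
    (hn₂ : 3 ≤ n₂) (hex : ¬ (Fintype.card F = 3 ∧ n₂ = 3)) (h24 : ¬ (n₁ = 2 ∧ n₂ = 4))
    (h33 : ¬ (n₁ = 3 ∧ n₂ = 3)) (e : (Fin m ⊕ Fin m) ≃ Fin n₁ × Fin n₂)
    (P : GL (Fin m ⊕ Fin m) F) {f₁ : (Fin n₁ → F) → (Fin n₁ → F) → F}
    {f₂ : (Fin n₂ → F) → (Fin n₂ → F) → F} (hf₁ : IsSymplecticForm f₁) (hf₂ : IsSymmetricForm f₂)
    (hT : IsTensorFormStructure id (sympForm m F) f₁ f₂ e P) :
    IsMaximalIn (spGL m F) (tensorProductSubgroup n₁ n₂ e P ⊓ spGL m F) :=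
  sp_tensor_maximal_of hodd h1 hn₂ hex e P hf₁ hf₂ hT fun _ _ _ S _ hc hex' =>
    S.le_kron hc hex' (by simp; omega) fun e g hg => S.mb_of_four hc hex' hg (by simp at e ⊢; omega)

end CL.Tens
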