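/-
Tensor products of hermitian forms: if the central levels are scalar, the overgroup stabilizes the
tensor decomposition.
-/
import Mathlib
import Cfsg.Agent.CLAS.TensU2
import Cfsg.Agent.CLAS.TensP
import Cfsg.Agent.CLAS.LowUni

namespace CL.Tens

open Module CL.ExtF CL.Witt CL.Witt.Form CL.Root CL.Uniq

attribute [-simp] LinearEquiv.coe_inv
attribute [local simp] FormType.herm_σ FormType.herm_ε FormType.herm_π

theorem comm_conj_of_sq {G R : Type*} [Group G] [Ring R] (ρ : G →* R) (hρ : Function.Injective ρ)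
    {t z : G} (ht : (ρ t - 1) ^ 2 = 0) (hz : (ρ z - 1) ^ 2 = 0) (htz : (ρ (t * z) - 1) ^ 2 = 0) :
    t * z * t⁻¹ * z = z * (t * z * t⁻¹) := by
  obtain ⟨φ, hφ⟩ : ∃ φ, ρ t = 1 + φ := ⟨ρ t - 1, by abel⟩
  obtain ⟨ψ, hψ⟩ : ∃ ψ, ρ z = 1 + ψ := ⟨ρ z - 1, by abel⟩
  rw [map_mul] at htz
  simp only [hφ, hψ, add_sub_cancel_left, sq] at ht hz htz
  have ht' : ∀ a, φ * (φ * a) = 0 := fun a => by rw [← mul_assoc, ht, zero_mul]
  have hz' : ∀ a, ψ * (ψ * a) = 0 := fun a => by rw [← mul_assoc, hz, zero_mul]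
  have e0 : φ * ψ + ψ * φ + ψ * (φ * ψ) + φ * (ψ * φ) + φ * (ψ * (φ * ψ)) = 0 := by
    rw [← htz]; simp only [mul_add, add_mul, mul_sub, sub_mul, mul_one, one_mul, mul_assoc, ht, hz,
      ht', mul_zero]; abel
  have e1 : φ * (ψ * φ) = 0 := by
    have := congrArg (fun a => φ * a * (1 - ψ)) e0
    simpa [mul_add, add_mul, mul_sub, mul_assoc, ht', hz] using this
  have e2 : ψ * (φ * ψ) = 0 := by
    have e3 : φ * (ψ * (φ * ψ)) = 0 := by
      rw [← mul_assoc ψ, ← mul_assoc, e1, zero_mul]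
    have := congrArg (fun a => ψ * a) e0
    simpa [mul_add, hz', e1, e3] using this
  have e2' : ∀ a, ψ * (φ * (ψ * a)) = 0 := fun a => by
    rw [← mul_assoc φ, ← mul_assoc, e2, zero_mul]
  have hi : ρ t⁻¹ = 1 - φ := by
    rw [← mul_one (ρ t⁻¹), show (1 : R) = ρ t * (1 - φ) by
      simp [hφ, mul_sub, add_mul, ht], ← mul_assoc, ← map_mul]
    simp [hφ, mul_sub, add_mul, ht]
  refine hρ ?_
  simp only [map_mul, hi, hφ, hψ, mul_add, add_mul, mul_sub, sub_mul, mul_one, one_mul, mul_assoc,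
    ht, hz, ht', hz', e2, e2', mul_zero]
  abel

variable {F : Type*} [Field F] {V₁ V₂ V : Type*} [AddCommGroup V₁] [Module F V₁] [AddCommGroup V₂]
  [Module F V₂] [AddCommGroup V] [Module F V] {τ : V₁ →ₗ[F] V₂ →ₗ[F] V}
  {X : Subgroup (V ≃ₗ[F] V)}

theorem comm_conj_of_fix {t z : V ≃ₗ[F] V} (ht : ∀ v, t (t v - v) = t v - v)
    (hz : ∀ v, z (z v - v) = z v - v) (htz : ∀ v, (t * z) ((t * z) v - v) = (t * z) v - v) :
    t * z * t⁻¹ * z = z * (t * z * t⁻¹) := by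
  have : ∀ g : V ≃ₗ[F] V, (∀ v, g (g v - v) = g v - v) →
      (LinearEquiv.automorphismGroup.toLinearMapMonoidHom g - 1) ^ 2 = 0 := fun g H => by
    ext v
    simpa [sq, sub_eq_zero] using H v
  exact comm_conj_of_sq _ LinearEquiv.toLinearMap_injective (this _ ht) (this _ hz) (this _ htz)

theorem pow_ringChar {t : V ≃ₗ[F] V} (ht : ∀ v, t (t v - v) = t v - v) : t ^ ringChar F = 1 := by
  have : ∀ (k : ℕ) v, (t ^ k) v = v + (k : F) • (t v - v) := fun k v => by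
    induction k with
    | zero => simp
    | succ k ih => rw [pow_succ', mul_app, ih, map_add, map_smul, ht, Nat.cast_succ]; module
  ext v
  simp [this]

theorem conj_fix {t : V ≃ₗ[F] V} (ht : ∀ v, t (t v - v) = t v - v) (g : V ≃ₗ[F] V) (v : V) :
    (g * t * g⁻¹) ((g * t * g⁻¹) v - v) = (g * t * g⁻¹) v - v := by
  have := congrArg g (ht (g⁻¹ v))
  simpa [inv_app, app_inv] using this

variable (X) in
/-- The elements of `X` acting trivially modulo `G`. -/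
def cm (G : Submodule F V) : Subgroup (V ≃ₗ[F] V) where
  carrier := {g | g ∈ X ∧ ∀ v, g v - v ∈ G}
  one_mem' := ⟨X.one_mem, by simp⟩
  mul_mem' {a b} ha hb := ⟨X.mul_mem ha.1 hb.1, fun v => by
    simpa using G.add_mem (ha.2 (b v)) (hb.2 v)⟩
  inv_mem' {a} ha := ⟨X.inv_mem ha.1, fun v => by
    simpa [app_inv] using G.neg_mem (ha.2 (a⁻¹ v))⟩

theorem exists_eigen_of_three [FiniteDimensional F V] (h3 : finrank F V = 3) {A : V →ₗ[F] V}
    (H : ∀ v, A (A v) ∈ Submodule.span F {v, A v}) : ∃ v, v ≠ 0 ∧ ∃ l : F, A v = l • v := by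
  have : Nontrivial V := Module.nontrivial_of_finrank_pos (R := F) (by omega)
  obtain ⟨x, hx⟩ := exists_ne (0 : V)
  by_contra! hn
  obtain ⟨φ, φ0, h1, h2⟩ := exists_dual_two h3.ge x (A x)
  have e1 : Submodule.span F {x, A x} = LinearMap.ker φ := by
    refine Submodule.eq_of_le_of_finrank_eq (by simp [Submodule.span_le, Set.insert_subset_iff, *]) ?_
    have := finrank_span_eq_card ((LinearIndependent.pair_iff' hx).2 fun a e => hn x hx a e.symm)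
    have e := Module.Dual.finrank_ker_add_one_of_ne_zero φ0
    rw [Matrix.range_cons, Matrix.range_cons, Matrix.range_empty, Set.union_empty,
      Set.singleton_union, Fintype.card_fin] at this
    omega
  have e2 : ∀ k, φ k = 0 → φ (A k) = 0 := fun k hk => by
    obtain ⟨a, b, rfl⟩ := Submodule.mem_span_pair.1 (e1.ge hk)
    simp [h2, show φ (A (A x)) = 0 from e1.le (H x)]
  obtain ⟨u, hu⟩ := LinearMap.surjective_of_ne_zero φ0 1
  obtain ⟨v, hv⟩ := LinearMap.injective_iff_surjective.1 ((injective_iff_map_eq_zero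
    (A - φ (A u) • LinearMap.id)).2 fun v hv => by_contra fun v0 =>
      hn v v0 _ (sub_eq_zero.1 hv)) u
  have := e2 (v - φ v • u) (by simp [hu])
  have e3 := congrArg φ hv
  simp [hu] at this e3
  exact one_ne_zero (α := F) (by linear_combination this - e3)

/-- If `V₁ ⊗ e` lies in `V₁ ⊗ c + U` with `U` small, then `U` lies in `V₁ ⊗ ⟨c, e⟩`. -/
theorem sup_eq_of_mem_le (h : IsTensorProduct τ) [FiniteDimensional F V] {c e : V₂} (c0 : c ≠ 0)
    (he : e ∉ F ∙ c) {G : Submodule F V} (h1 : mem τ c ≤ G) (h2 : mem τ e ≤ G) :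
    finrank F (mem τ c ⊔ mem τ e : Submodule F V) = 2 * finrank F V₁ ∧
      2 * finrank F V₁ ≤ finrank F G := by
  have e1 := Submodule.finrank_sup_add_finrank_inf_eq (mem τ c) (mem τ e)
  rw [finrank_mem h c0, finrank_mem h (by rintro rfl; simp at he), show mem τ c ⊓ mem τ e = ⊥ from
    eq_bot_iff.2 fun w ⟨hw, x, hx⟩ => by
      by_contra w0
      exact he (mem_span_of_pure_mem h (x := x) (by rintro rfl; exact w0 (by simp [← hx]))
        (by rwa [← hx] at hw)), finrank_bot] at e1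
  have := Submodule.finrank_mono (sup_le h1 h2)
  omega

variable {σ : F →+* F} {hσ2 : ∀ a, σ (σ a) = a} {h : IsTensorProduct τ}
  {f : Form (FormType.herm σ hσ2) V} {f₁ : Form (FormType.herm σ hσ2) V₁}
  {f₂ : Form (FormType.herm σ hσ2) V₂}

theorem exists_iso_perp [Finite F] (hσ : σ ≠ RingHom.id F) (h4 : 4 ≤ finrank F V₂) (c d : V₂) :
    ∃ u, u ≠ 0 ∧ f₂.q u = 0 ∧ f₂.B c u = 0 ∧ f₂.B d u = 0 := by
  have : FiniteDimensional F V₂ := Module.finite_of_finrank_pos (by omega)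
  obtain ⟨u, hu, u0, hu'⟩ := sing2_herm hσ f₂ (LinearMap.ker ((f₂.B c).prod (f₂.B d))) (by
    have := LinearMap.finrank_range_add_finrank_ker ((f₂.B c).prod (f₂.B d))
    have e := Submodule.finrank_le (LinearMap.range ((f₂.B c).prod (f₂.B d)))
    rw [Module.finrank_prod, finrank_self] at e
    omega)
  exact ⟨u, u0, hu', Prod.ext_iff.1 hu⟩

variable (X h f f₁ f₂) in
/-- All central levels are scalar. -/
structure SC : Prop extends SU X h f f₁ f₂ where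
  two : 2 ≤ finrank F V₁
  lt : finrank F V₁ < finrank F V₂
  sc : ∀ c, f₂.q c = 0 → c ≠ 0 → Sc X h f₂ c

namespace SC

variable (S : SC X h f f₁ f₂) [FiniteDimensional F V₁] [FiniteDimensional F V₂] [Finite F]
  {c c' : V₂} {g z r : V ≃ₗ[F] V}
include S

omit [FiniteDimensional F V₁] [FiniteDimensional F V₂] [Finite F] in
theorem nt : Nontrivial V₁ :=
  Module.nontrivial_of_finrank_pos (R := F) (by have := S.two; omega)

theorem kron_of_map (hc : f₂.q c = 0) (c0 : c ≠ 0) (hc' : f₂.q c' = 0) (c0' : c' ≠ 0) (hz : z ∈ X)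
    (hW : ∀ w ∈ mem τ c, z w ∈ mem τ c') : z ∈ Kron τ := by
  have := S.nt
  obtain ⟨e, he, s, -, e1⟩ := S.nd₂.exists_mem_E_apply_eq_smul (CL.Uni.herm_big S.hσ 0) hc' c0' hc c0
  simpa using (Kron τ).mul_mem ((Kron τ).inv_mem (Tens.kr_mem h 1 e))
    (S.stab_kron hc c0 (S.sc c hc c0) (X.mul_mem (S.R e he) hz) fun w hw => by
      obtain ⟨x, hx⟩ := mem_mem.1 (hW w hw)
      rw [mul_app, ← hx, kr_apply, e1, map_smul]
      exact Submodule.smul_mem _ _ (pure_mem _ _))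

omit [Finite F] in
theorem exists_map (hc : f₂.q c = 0) (c0 : c ≠ 0) (r1 : r ≠ 1) (hW : ∀ v, r v - v ∈ mem τ c)
    (hg : g ∈ X) (e : g * r * g⁻¹ ∈ Kron τ) :
    ∃ d, d ≠ 0 ∧ f₂.q d = 0 ∧ (mem τ c).map (g : V →ₗ[F] V) = mem τ d := by
  have := finiteDimensional h
  have := S.nt
  obtain ⟨d, d0, hd⟩ := eq_mem_of_small h e (by simpa using r1)
    (U := (mem τ c).map (g : V →ₗ[F] V)) (fun v => ⟨_, hW (g⁻¹ v), by simp [app_inv]⟩)
    (by rw [LinearEquiv.finrank_map_eq, finrank_mem h c0]) S.lt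
  refine ⟨d, d0, ?_, hd⟩
  obtain ⟨x, hx⟩ := exists_ne (0 : V₁)
  obtain ⟨x', hx'⟩ := S.nd₁.exists_B_eq hx 1
  obtain ⟨_, ⟨a, rfl⟩, ha⟩ := hd.ge (pure_mem x d)
  obtain ⟨_, ⟨b, rfl⟩, hb⟩ := hd.ge (pure_mem x' d)
  have := mem_O_B (S.le hg) (τ a c) (τ b c)
  simp only [LinearMap.flip_apply, LinearEquiv.coe_coe] at ha hb
  simpa [ha, hb, S.mul, hx', f₂.B_self_eq_zero hc, ← herm_q] using this

theorem nrm (hc : f₂.q c = 0) (c0 : c ≠ 0) (hr : r ∈ X) (r1 : r ≠ 1)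
    (hW : ∀ v, r v - v ∈ mem τ c) : Nrm X (Kron τ) r := by
  have := S.nt
  obtain ⟨κ, hκ⟩ := S.sc c hc c0 r hr hW
  refine ⟨hr, S.tv_kron hc c0 hr hκ, fun g hg e => ?_⟩
  obtain ⟨d, d0, hd, H⟩ := S.exists_map hc c0 r1 hW hg e
  exact S.kron_of_map hc c0 hd d0 hg fun w hw => H.le ⟨w, hw, rfl⟩

omit [FiniteDimensional F V₁] [Finite F] in
theorem fix_of (hc : f₂.q c = 0) (hr : r ∈ X) (hW : ∀ v, r v - v ∈ mem τ c) (v : V) :
    r (r v - v) = r v - v :=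
  S.fix_of_mem (S.le hr) hW (et_mem (f₂.B_self_eq_zero hc) (hW v))

omit [FiniteDimensional F V₁] [FiniteDimensional F V₂] [Finite F] in
theorem exists_lv (hc : f₂.q c = 0) {κ : F} (hκ : κ + σ κ = 0) :
    ∃ r ∈ X, (∀ v, r v - v ∈ mem τ c) ∧ (∀ v, et h f₂ c v = 0 → r v = v) ∧
      ∀ x d, r (τ x d) = τ x d + (κ * f₂.B c d) • τ x c :=
  ⟨_, S.R _ (ei_mem_E c 0 (-κ)), fun v => by
    simpa [kr_tv hc hκ] using Submodule.smul_mem _ _ (pure_mem _ _),
    fun v hv => by simp [kr_tv hc hκ, hv], fun x d => by rw [kr_tv hc hκ]; simp [mul_smul]⟩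

omit [FiniteDimensional F V₁] [Finite F] in
theorem exists_lv' (hc : f₂.q c = 0) (c0 : c ≠ 0) :
    ∃ r ∈ X, r ≠ 1 ∧ (∀ v, r v - v ∈ mem τ c) ∧ ∀ v, et h f₂ c v = 0 → r v = v := by
  have := S.nt
  obtain ⟨η, η0, hη⟩ := FormType.exists_add_σ_eq_zero S.hσ hσ2
  obtain ⟨r, hr, h1, h2, h3⟩ := S.exists_lv hc hη
  obtain ⟨x, hx⟩ := exists_ne (0 : V₁)
  obtain ⟨d, hd⟩ := S.nd₂.exists_B_eq c0 1
  refine ⟨r, hr, fun e => pure_ne_zero h hx c0 ?_, h1, h2⟩
  simpa [e, hd, η0] using h3 x d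

/-- An element moving a member to the perp of a member lies in the Kronecker subgroup. -/
theorem kron_of_perp (hc : f₂.q c = 0) (c0 : c ≠ 0) (hc' : f₂.q c' = 0) (c0' : c' ≠ 0) (hz : z ∈ X)
    (H : ∀ w ∈ mem τ c, et h f₂ c' (z w) = 0) : z ∈ Kron τ := by
  obtain ⟨r, hr, r1, h1, h2⟩ := S.exists_lv' hc c0
  obtain ⟨s, hs, s1, k1, k2⟩ := S.exists_lv' hc' c0'
  refine (S.nrm hc c0 hr r1 h1).of_conj z hz ((S.nrm hc' c0' hs s1 k1).of_comm
    (X.mul_mem (X.mul_mem hz hr) (X.inv_mem hz)) (LinearEquiv.ext fun v => ?_))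
  have e1 := k2 _ (H _ (h1 (z⁻¹ v)))
  have e2 := congrArg z (h2 (z⁻¹ (s v - v)) (S.et_eq_zero fun x => by
    rw [← B_apply_left (S.le hz)]
    exact f.B_eq_zero_symm (S.B_mem (k1 v) (H _ (pure_mem _ _)))))
  simp only [map_sub, app_inv, mul_app] at e1 e2 ⊢
  linear_combination (norm := module) e2 - e1

section Big

variable (h4 : 4 ≤ finrank F V₂) {c₀ : V₂} (hc₀ : f₂.q c₀ = 0) (c00 : c₀ ≠ 0) (hg : g ∈ X)
  (hn : g ∉ Kron τ)
include h4 hc₀ c00 hg hn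

theorem exists_cm (hc : f₂.q c = 0) (c0 : c ≠ 0) :
    ∃ k ∈ cm X (mem τ c ⊔ (mem τ c₀).map (g : V →ₗ[F] V)),
      (mem τ c).map (k : V →ₗ[F] V) = (mem τ c₀).map (g : V →ₗ[F] V) := by
  have := finiteDimensional h
  have := Module.finite_of_finite F (M := V)
  have : Finite (V ≃ₗ[F] V) := Finite.of_injective _ DFunLike.coe_injective
  obtain ⟨r, hr, r1, h1, -⟩ := S.exists_lv' hc₀ c00
  obtain ⟨s, hs, s1, k1, -⟩ := S.exists_lv' hc c0
  obtain ⟨k, hk, e⟩ := (S.nrm hc c0 hs s1 k1).exists_conj_mem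
    (Y := cm X (mem τ c ⊔ (mem τ c₀).map (g : V →ₗ[F] V))) (t := g * r * g⁻¹) (fun _ a => a.1)
    ⟨hs, fun v => Submodule.mem_sup_left (k1 v)⟩
    ⟨X.mul_mem (X.mul_mem hg hr) (X.inv_mem hg), fun v =>
      Submodule.mem_sup_right ⟨_, h1 (g⁻¹ v), by simp [app_inv]⟩⟩
    (CharP.char_is_prime F (ringChar F)) (pow_ringChar (S.fix_of hc hs k1))
    (pow_ringChar (conj_fix (S.fix_of hc₀ hr h1) g))
  obtain ⟨d, d0, hd, H⟩ := S.exists_map hc₀ c00 r1 h1 (X.mul_mem (X.inv_mem hk.1) hg)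
    (by simpa [mul_assoc] using e)
  have hle : mem τ d ≤ mem τ c ⊔ (mem τ c₀).map (g : V →ₗ[F] V) := fun w hw => by
    obtain ⟨u, hu, rfl⟩ := H.ge hw
    simpa using Submodule.add_mem _ (((cm X _).inv_mem hk).2 (g u))
      (Submodule.mem_sup_right ⟨u, hu, rfl⟩)
  by_cases hdc : d ∈ F ∙ c
  · obtain ⟨a, rfl⟩ := Submodule.mem_span_singleton.1 hdc
    rw [mem_smul (by rintro rfl; simp at d0)] at H
    refine ⟨k, hk, ?_⟩
    rw [← H, ← Submodule.map_comp]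
    congr 1
    ext v; simp [app_inv]
  obtain ⟨e1, e2⟩ := sup_eq_of_mem_le h c0 hdc le_sup_left hle
  have e3 := Submodule.eq_of_le_of_finrank_le (sup_le le_sup_left hle) (by
    have := Submodule.finrank_add_le_finrank_add_finrank (mem τ c) ((mem τ c₀).map (g : V →ₗ[F] V))
    rw [LinearEquiv.finrank_map_eq, finrank_mem h c0, finrank_mem h c00] at this
    omega)
  obtain ⟨u, u0, hu', hu⟩ := exists_iso_perp (f₂ := f₂) S.hσ h4 c d
  refine (hn (S.kron_of_perp hc₀ c00 hu' u0 hg fun w hw => ?_)).elim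
  obtain ⟨a, ha, b, hb, e4⟩ := Submodule.mem_sup.1 (e3.ge (Submodule.mem_sup_right ⟨w, hw, rfl⟩))
  rw [← show a + b = g w from e4, map_add, et_mem (f₂.B_eq_zero_symm hu.1) ha,
    et_mem (f₂.B_eq_zero_symm hu.2) hb, add_zero]

theorem exists_pair (hc : f₂.q c = 0) (c0 : c ≠ 0) :
    ∃ (c' y : V₂) (A : V₁ ≃ₗ[F] V₁) (B : V₂ ≃ₗ[F] V₂), f₂.q c' = 0 ∧ f₂.B c c' = 0 ∧ c' ∉ F ∙ c ∧
      f₂.B c y = 0 ∧ f₂.B c' y = 1 ∧ f₂.B c (B y) ≠ 0 ∧ ∀ v d, ∃ w ∈ mem τ c₀,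
        τ (A v) (B d) - τ v d - g w ∈ mem τ c ⊔ mem τ c' := by
  have := S.nt
  have cc := f₂.B_self_eq_zero hc
  obtain ⟨p, -, hp⟩ := S.nd₂.exists_partner' hc c0
  obtain ⟨c', c0', hc', hu⟩ := exists_iso_perp (f₂ := f₂) S.hσ h4 c p
  have hcc : c' ∉ F ∙ c := fun e => by
    obtain ⟨a, rfl⟩ := Submodule.mem_span_singleton.1 e
    exact c0' (by rw [show a = 0 by simpa [f₂.herm_symm c p, hp] using hu.2, zero_smul])
  obtain ⟨y, y1, y2⟩ := S.nd₂.exists_perp_eq' hcc 1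
  replace y1 := y1 c (Submodule.mem_span_singleton_self c)
  obtain ⟨k, hk, e⟩ := S.exists_cm h4 hc₀ c00 hg hn hc c0
  obtain ⟨k', hk', e'⟩ := S.exists_cm h4 hc₀ c00 hg hn hc' c0'
  have hz := X.mul_mem (X.inv_mem hk.1) hk'.1
  have hW : ∀ w ∈ mem τ c', (k⁻¹ * k') w ∈ mem τ c := fun w hw => by
    obtain ⟨u, hu, e1⟩ := e.ge (e'.le ⟨w, hw, rfl⟩)
    rwa [mul_app, inv_app_eq (show k u = k' w from e1)]
  obtain ⟨A, B, H⟩ := S.kron_of_map hc' c0' hc c0 hz hW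
  obtain ⟨x, hx⟩ := exists_ne (0 : V₁)
  obtain ⟨x', hx'⟩ := S.nd₁.exists_B_eq hx 1
  refine ⟨c', y, A, B, hc', hu.1, hcc, y1, y2, fun e1 => ?_, fun v d => ?_⟩
  · obtain ⟨s, hs⟩ := Submodule.mem_span_singleton.1 (mem_span_of_pure_mem h (x := A x)
      (by simpa using hx) (H x c' ▸ hW _ (pure_mem x c')))
    have := mem_O_B (S.le hz) (τ x c') (τ x' y)
    simp [H, S.mul, ← hs, e1, hx', y2] at this
  · obtain ⟨a, ha, _, ⟨w, hw, rfl⟩, e1⟩ := Submodule.mem_sup.1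
      (((cm X _).inv_mem hk).2 (k' (τ v d)))
    obtain ⟨a', ha', _, ⟨w', hw', rfl⟩, e2⟩ := Submodule.mem_sup.1 (hk'.2 (τ v d))
    refine ⟨w + w', Submodule.add_mem _ hw hw', ?_⟩
    convert Submodule.add_mem_sup ha ha' using 1
    rw [← H, mul_app, map_add]
    simp only [LinearEquiv.coe_coe] at e1 e2
    linear_combination (norm := module) -e1 - e2

theorem et_inj (hc : f₂.q c = 0) (c0 : c ≠ 0) {w : V} (hw : w ∈ mem τ c₀)
    (e : et h f₂ c (g w) = 0) : w = 0 := by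
  obtain ⟨c', y, A, B, -, h1, -, h2, -, h3, H⟩ := S.exists_pair h4 hc₀ c00 hg hn hc c0
  obtain ⟨x, rfl⟩ := mem_mem.1 hw
  rw [(injective_iff_map_eq_zero _).1 ((LinearMap.injective_iff_surjective (f :=
    et h f₂ c ∘ₗ (g : V →ₗ[F] V) ∘ₗ τ.flip c₀)).2 fun v => ?_) x e, map_zero, LinearMap.zero_apply]
  obtain ⟨_, ⟨u, rfl⟩, e1⟩ := H (A⁻¹ ((f₂.B c (B y))⁻¹ • v)) y
  obtain ⟨a, ha, b, hb, e2⟩ := Submodule.mem_sup.1 e1
  have := congrArg (et h f₂ c) e2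
  simp [et_mem (f₂.B_self_eq_zero hc) ha, et_mem h1 hb, h2, app_inv, h3] at this
  exact ⟨u, (sub_eq_zero.1 this.symm).symm⟩

theorem big_false (hm : finrank F V₁ = 3 ∨ 5 ≤ finrank F V₂) : False := by
  have := S.nt
  have cc := f₂.B_self_eq_zero hc₀
  obtain ⟨c', y, A, B, hc', h1, h0, h2, h2', h3, H⟩ := S.exists_pair h4 hc₀ c00 hg hn hc₀ c00
  have hE : ∀ u, f₂.B c₀ u ≠ 0 → ∃ e, e ≠ 0 ∧ f₂.q e = 0 ∧ f₂.B e u = 0 ∧ f₂.B e y = 1 ∧
      ∀ a ∈ mem τ c₀ ⊔ mem τ c', et h f₂ e a = 0 := fun u hu => by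
    refine ⟨c' + (-σ (f₂.B c' u / f₂.B c₀ u)) • c₀, fun e => h0 ?_, by
      simp [-neg_smul, q_add_smul, hc', hc₀, f₂.B_eq_zero_symm h1], by simp [hσ2, hu],
      by simp [h2, h2'], fun a ha => ?_⟩
    · rw [eq_neg_of_add_eq_zero_left e]
      exact Submodule.neg_mem _ (Submodule.smul_mem _ _ (Submodule.mem_span_singleton_self _))
    · obtain ⟨a, k1, b, k2, rfl⟩ := Submodule.mem_sup.1 ha
      rw [map_add, et_mem (c := c₀) (by simp [cc, f₂.B_eq_zero_symm h1]) k1,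
        et_mem (c := c') (by simp [h1, f₂.B_self_eq_zero hc']) k2, add_zero]
  have hc : ∀ a ∈ mem τ c₀ ⊔ mem τ c', et h f₂ c₀ a = 0 := fun a ha => by
    obtain ⟨a, k1, b, k2, rfl⟩ := Submodule.mem_sup.1 ha
    rw [map_add, et_mem cc k1, et_mem h1 k2, add_zero]
  have k1 : ∀ v, v ≠ 0 → ∀ l : F, A v ≠ l • v := fun v v0 l e => by
    have l0 : l ≠ 0 := by rintro rfl; simp [v0] at e
    obtain ⟨d, d0, hd, d1, d2, d3⟩ := hE (l • B y - y) (by simp [h2, h3, l0])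
    obtain ⟨w, hw, e1⟩ := H v y
    have e2 := d3 _ e1
    have e3 := hc _ e1
    simp only [map_sub, map_smul, smul_eq_mul] at d1
    simp only [map_sub, et_pure] at e2 e3
    simp only [e, smul_smul] at e2 e3
    rw [← sub_smul, mul_comm, d1, zero_smul, zero_sub, neg_eq_zero] at e2
    simp [S.et_inj h4 hc₀ c00 hg hn hd d0 hw e2, h2, h3, l0, v0] at e3
  have k2 : ∀ v d, ∃ v', τ (A v) (B d) - τ v d - (τ (A v') (B y) - τ v' y) ∈
      mem τ c₀ ⊔ mem τ c' := fun v d => by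
    obtain ⟨w, hw, e1⟩ := H v d
    obtain ⟨w', hw', e2⟩ := H (A⁻¹ ((f₂.B c₀ (B y))⁻¹ • et h f₂ c₀ (g w))) y
    have := hc _ e2
    simp only [map_sub, et_pure, app_inv, smul_inv_smul₀ h3, h2, zero_smul, sub_zero] at this
    have e3 := S.et_inj h4 hc₀ c00 hg hn hc₀ c00 (Submodule.sub_mem _ hw hw') (by simpa using this)
    rw [← sub_eq_zero.1 e3] at e2
    exact ⟨_, by simpa only [sub_sub_sub_cancel_right] using Submodule.sub_mem _ e1 e2⟩
  rcases hm with hm | hm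
  · obtain ⟨d, -, -, d1, d2, d3⟩ := hE (B y) h3
    obtain ⟨v, v0, l, e⟩ := exists_eigen_of_three hm (A := (A : V₁ →ₗ[F] V₁)) fun v => by
      obtain ⟨v', e⟩ := k2 v (B y)
      have e2 := d3 _ e
      have e3 := hc _ e
      simp [d1, d2, h2] at e2 e3
      rw [← neg_eq_of_add_eq_zero_right e2] at e3
      rcases eq_or_ne (f₂.B d (B (B y))) 0 with e4 | e4
      · rcases eq_or_ne v 0 with rfl | v0
        · simp
        simp only [e4, zero_smul, neg_zero, map_zero, smul_zero, sub_zero, sub_eq_zero] at e3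
        refine (k1 v v0 ((f₂.B c₀ (B (B y)))⁻¹ * f₂.B c₀ (B y)) ?_).elim
        rw [mul_smul, eq_inv_smul_iff₀ fun e5 => smul_ne_zero h3 v0 (by rw [← e3, e5, zero_smul]), e3]
      · refine Submodule.mem_span_pair.2 ⟨(f₂.B d (B (B y)))⁻¹, -(f₂.B c₀ (B (B y)) /
          (f₂.B c₀ (B y) * f₂.B d (B (B y)))), smul_right_injective V₁ (mul_ne_zero h3 e4) ?_⟩
        simp only [map_neg, map_smul, LinearEquiv.coe_coe, smul_add, smul_smul, mul_neg,
          mul_div_cancel₀ _ (mul_ne_zero h3 e4), mul_inv_cancel_right₀ e4] at e3 ⊢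
        linear_combination (norm := module) -e3
    exact k1 v v0 l e
  · obtain ⟨u, hu, u0⟩ := Submodule.exists_mem_ne_zero_of_ne_bot (LinearMap.ker_ne_bot_of_finrank_lt
      (f := ((f₂.B c₀).prod (f₂.B c')).prod ((f₂.B y).prod (f₂.B (B y)))) (by simp; omega))
    obtain ⟨⟨u1, u2⟩, u3, u4⟩ : (f₂.B c₀ u = 0 ∧ f₂.B c' u = 0) ∧ f₂.B y u = 0 ∧
      f₂.B (B y) u = 0 := by simpa [Prod.ext_iff] using hu
    obtain ⟨d, hd⟩ := S.nd₂.exists_B_eq u0 1
    obtain ⟨v, v0⟩ := exists_ne (0 : V₁)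
    obtain ⟨v', e⟩ := k2 v d
    obtain ⟨a, a1, b, b1, e1⟩ := Submodule.mem_sup.1 e
    have := congrArg (et h f₂ u) e1
    simp [et_mem (f₂.B_eq_zero_symm u1) a1, et_mem (f₂.B_eq_zero_symm u2) b1, hd,
      f₂.B_eq_zero_symm u3, f₂.B_eq_zero_symm u4] at this
    refine k1 v v0 (f₂.B u (B d))⁻¹ ((eq_inv_smul_iff₀ fun e2 => v0 ?_).2
      (sub_eq_zero.1 this.symm))
    simpa [e2] using this

end Big

section Two

variable (h2 : finrank F V₁ = 2) {c₀ : V₂} (hc₀ : f₂.q c₀ = 0) (c00 : c₀ ≠ 0) (hg : g ∈ X)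
  (hn : g ∉ Kron τ)
include h2 hc₀ c00 hg hn

omit [Finite F] h2 hc₀ c00 hg hn in
theorem cm_le {G : Submodule F V} (h1 : mem τ c ≤ G)
    (OP : ∀ v ∈ G, et h f₂ c v = 0 → v ∈ mem τ c) (NB : ∀ e, mem τ e ≤ G → e ∈ F ∙ c)
    (hz : z ∈ cm X G) (hk : z ∈ Kron τ) (v : V) : z v - v ∈ mem τ c := by
  have := S.nt
  have := finiteDimensional h
  obtain ⟨A, B, H⟩ := hk
  obtain ⟨s, hs⟩ := Submodule.mem_span_singleton.1 (NB (B c) fun w hw => by
    obtain ⟨x, rfl⟩ := mem_mem.1 hw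
    simpa [H, app_inv] using G.add_mem (hz.2 (τ (A⁻¹ x) c)) (h1 (pure_mem (A⁻¹ x) c)))
  have hW : ∀ w ∈ mem τ c, z⁻¹ w ∈ mem τ c := inv_mem_of_stab fun w hw => by
    obtain ⟨x, rfl⟩ := mem_mem.1 hw
    simpa [H, ← hs] using Submodule.smul_mem _ _ (pure_mem _ _)
  obtain ⟨y, y1, y2⟩ := exists_ker_notMem (by have := S.two; have := S.lt; omega) (f₂.B c) c
  obtain ⟨ψ, p1, p2⟩ := CL.Tv.exists_dual_one_zero y2
  have e1 : ∀ x, ψ (B y) • A x = x := fun x => by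
    have := ct_mem h p2 (OP _ (hz.2 (τ x y)) (S.et_eq_zero fun x' => by
      rw [map_sub, ← app_inv z (τ x' c), mem_O_B (S.le hz.1), S.B_mem (hW _ (pure_mem _ _))
        (by simp [y1]), app_inv, S.mul, y1]; simp))
    simpa [H, p1, sub_eq_zero] using this
  refine h.inductionOn v (by simp) (fun x d => ?_) fun a b ha hb => by
    convert Submodule.add_mem _ ha hb using 1; rw [map_add]; abel
  have e2 : ∀ x, z (τ x d) - τ x d = τ (A x) (B d - ψ (B y) • d) := fun x => by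
    rw [H, map_sub, map_smul, ← LinearMap.smul_apply, ← map_smul, e1]
  obtain ⟨a, ha⟩ := Submodule.mem_span_singleton.1 (NB (B d - ψ (B y) • d) fun w hw => by
    obtain ⟨x, rfl⟩ := mem_mem.1 hw
    simpa [e2, app_inv, -map_sub] using hz.2 (τ (A⁻¹ x) d))
  simpa [e2, ← ha] using Submodule.smul_mem _ _ (pure_mem _ _)

theorem exists_good : ∃ k ∈ X, k ∉ Kron τ ∧ ∃ c, f₂.q c = 0 ∧ c ≠ 0 ∧
    (∀ w ∈ mem τ c₀, et h f₂ c (k w) = 0 → k w ∈ mem τ c) ∧
    ∀ e, mem τ e ≤ mem τ c ⊔ (mem τ c₀).map (k : V →ₗ[F] V) → e ∈ F ∙ c := by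
  have := finiteDimensional h
  by_cases H : ∃ c, f₂.q c = 0 ∧ c ≠ 0 ∧ ∃ w ∈ mem τ c₀, w ≠ 0 ∧ et h f₂ c (g w) = 0
  · obtain ⟨c, hc, c0, w, hw, w0, e⟩ := H
    obtain ⟨s, hs, s1, k1, k2⟩ := S.exists_lv' hc c0
    have hk := X.mul_mem (X.mul_mem (X.inv_mem hg) hs) hg
    have hk' := (S.nrm hc c0 hs s1 k1).conj_notMem hg hn
    have e1 : (g⁻¹ * s * g) w = w := by simp [k2 _ e, inv_app]
    generalize g⁻¹ * s * g = k at hk hk' e1
    refine ⟨k, hk, hk', c₀, hc₀, c00, fun u hu e2 => ?_, fun d hd => by_contra fun hd' => ?_⟩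
    · by_cases hu' : u ∈ F ∙ w
      · obtain ⟨a, rfl⟩ := Submodule.mem_span_singleton.1 hu'
        rwa [map_smul, e1]
      refine (hk' (S.kron_of_perp hc₀ c00 hc₀ c00 hk fun v hv => ?_)).elim
      have e3 : Submodule.span F {w, u} = mem τ c₀ := by
        refine Submodule.eq_of_le_of_finrank_eq
          (by simp [Submodule.span_le, Set.insert_subset_iff, *]) ?_
        have := finrank_span_eq_card ((LinearIndependent.pair_iff' w0).2 fun a e =>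
          hu' (Submodule.mem_span_singleton.2 ⟨a, e⟩))
        rw [Matrix.range_cons, Matrix.range_cons, Matrix.range_empty, Set.union_empty,
          Set.singleton_union, Fintype.card_fin] at this
        rw [this, finrank_mem h c00, h2]
      obtain ⟨a, b, rfl⟩ := Submodule.mem_span_pair.1 (e3.ge hv)
      simp [e1, e2, et_mem (f₂.B_self_eq_zero hc₀) hw]
    · have := (sup_eq_of_mem_le h c00 hd' le_sup_left hd).2
      have e2 := Submodule.finrank_sup_add_finrank_inf_eq (mem τ c₀) ((mem τ c₀).map (k : V →ₗ[F] V))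
      have e3 : 0 < finrank F (mem τ c₀ ⊓ (mem τ c₀).map (k : V →ₗ[F] V) : Submodule F V) :=
        Module.finrank_pos_iff_exists_ne_zero.2 ⟨⟨w, hw, w, hw, e1⟩, fun e => w0 (congrArg Subtype.val e)⟩
      rw [LinearEquiv.finrank_map_eq, finrank_mem h c00] at e2
      omega
  push Not at H
  have hZ : ∀ d, f₂.q d = 0 → (∀ w ∈ mem τ c₀, et h f₂ d (g w) = 0) → d = 0 := fun d hd e =>
    by_contra fun d0 => hn (S.kron_of_perp hc₀ c00 hd d0 hg e)
  obtain ⟨c, hc, c0, e⟩ : ∃ c, f₂.q c = 0 ∧ c ≠ 0 ∧ ∀ d, (∀ w ∈ mem τ c₀, et h f₂ d (g w) = 0) →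
      f₂.B c d = 0 → d = 0 := by
    by_cases H' : ∃ d, d ≠ 0 ∧ ∀ w ∈ mem τ c₀, et h f₂ d (g w) = 0
    · obtain ⟨d, d0, hd⟩ := H'
      obtain ⟨c, hc, e⟩ : ∃ c, f₂.q c = 0 ∧ f₂.B c d ≠ 0 := by
        by_contra! H1
        obtain ⟨p, hp, e⟩ := S.nd₂.exists_partner' hc₀ c00
        obtain ⟨s, hs⟩ := f₂.exists_q_add_smul_eq_zero (y := d + p) hc₀ (by simp [H1 _ hc₀, e])
        have := H1 _ hs
        simp [H1 _ hc₀, H1 _ hp, ← herm_q] at this
        exact d0 (hZ d this hd)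
      refine ⟨c, hc, by rintro rfl; simp at e, fun d' hd' e' => by_contra fun d0' => ?_⟩
      obtain ⟨u, hu, u0, hu'⟩ := sing2_herm S.hσ f₂ (Submodule.span F {d', d}) (by
        have := finrank_span_eq_card ((LinearIndependent.pair_iff' (K := F) (y := d) d0').2
          fun a e1 => e (by simp [← e1, e']))
        rw [Matrix.range_cons, Matrix.range_cons, Matrix.range_empty, Set.union_empty,
          Set.singleton_union, Fintype.card_fin] at this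
        rw [this])
      obtain ⟨a, b, rfl⟩ := Submodule.mem_span_pair.1 hu
      exact u0 (hZ _ hu' fun w hw => by
        simpa [et] using congrArg₂ (σ a • · + σ b • ·) (hd' w hw) (hd w hw))
    · push Not at H'
      exact ⟨c₀, hc₀, c00, fun d hd _ => by_contra fun d0 => by
        obtain ⟨w, hw, e⟩ := H' d d0
        exact e (hd w hw)⟩
  refine ⟨g, hg, hn, c, hc, c0, fun w hw e1 => ?_, fun d hd => by_contra fun hd' => ?_⟩
  · rw [show w = 0 from by_contra fun w0 => H c hc c0 w hw w0 e1, map_zero]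
    exact Submodule.zero_mem _
  obtain ⟨e1, e2⟩ := sup_eq_of_mem_le h c0 hd' le_sup_left hd
  have e3 := Submodule.eq_of_le_of_finrank_le (sup_le le_sup_left hd) (by
    have := Submodule.finrank_add_le_finrank_add_finrank (mem τ c) ((mem τ c₀).map (g : V →ₗ[F] V))
    rw [LinearEquiv.finrank_map_eq, finrank_mem h c0, finrank_mem h c00] at this
    omega)
  obtain ⟨u, hu, u0⟩ := Submodule.exists_mem_ne_zero_of_ne_bot (LinearMap.ker_ne_bot_of_finrank_lt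
    (f := (f₂.B c).prod (f₂.B d)) (by have := S.lt; simp; omega))
  replace hu := Prod.ext_iff.1 hu
  refine u0 (e u (fun w hw => ?_) hu.1)
  obtain ⟨a, ha, b, hb, e4⟩ := Submodule.mem_sup.1 (e3.ge (Submodule.mem_sup_right ⟨w, hw, rfl⟩))
  rw [← show a + b = g w from e4, map_add, et_mem (f₂.B_eq_zero_symm hu.1) ha,
    et_mem (f₂.B_eq_zero_symm hu.2) hb, add_zero]

theorem two_false {t : F} (t1 : σ t = t) (t0 : t ≠ 0) (t2 : t ≠ 1) : False := by
  have := S.nt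
  have := finiteDimensional h
  have := Module.finite_of_finite F (M := V)
  have : Finite (V ≃ₗ[F] V) := Finite.of_injective _ DFunLike.coe_injective
  obtain ⟨k, hk, hk', c, hc, c0, OP, NB⟩ := S.exists_good h2 hc₀ c00 hg hn
  obtain ⟨η, η0, hη⟩ := FormType.exists_add_σ_eq_zero S.hσ hσ2
  obtain ⟨r₁, hr₁, a1, -, a2⟩ := S.exists_lv hc hη
  obtain ⟨r₂, hr₂, b1, -, b2⟩ := S.exists_lv hc (κ := t * η) (by
    rw [map_mul, t1, ← mul_add, hη, mul_zero])
  obtain ⟨x, hx⟩ := exists_ne (0 : V₁)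
  obtain ⟨d, hd⟩ := S.nd₂.exists_B_eq c0 1
  have p0 := pure_ne_zero h hx c0
  have n1 := S.nrm hc c0 hr₁ (fun e => p0 (by simpa [e, hd, η0] using a2 x d)) a1
  have n2 := S.nrm hc c0 hr₂ (fun e => p0 (by simpa [e, hd, η0, t0] using b2 x d)) b1
  obtain ⟨r, hr, r1, h1, -⟩ := S.exists_lv' hc₀ c00
  obtain ⟨a, ha, b, hb, s, hs, s', hs', ha', ne, e⟩ := exists_two
    (Y := cm X (mem τ c ⊔ (mem τ c₀).map (k : V →ₗ[F] V))) (g := k * r * k⁻¹) (fun _ a => a.1) n1 n2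
    ⟨hr₁, fun v => Submodule.mem_sup_left (a1 v)⟩ ⟨hr₂, fun v => Submodule.mem_sup_left (b1 v)⟩
    (fun e => t2 (mul_right_cancel₀ η0 (smul_left_injective F p0 (by
      simpa [e, hd, b2] using a2 x d))))
    ⟨X.mul_mem (X.mul_mem hk hr) (X.inv_mem hk), fun v =>
      Submodule.mem_sup_right ⟨_, h1 (k⁻¹ v), by simp [app_inv]⟩⟩
    fun e => hk' ((S.nrm hc₀ c00 hr r1 h1).of_conj k hk e)
  have key : ∀ s ∈ ({r₁, r₂} : Set _), Nrm X (Kron τ) s ∧ ∀ v, s v - v ∈ mem τ c := by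
    rintro _ (rfl | rfl)
    exacts [⟨n1, a1⟩, ⟨n2, b1⟩]
  have key' : ∀ a ∈ cm X (mem τ c ⊔ (mem τ c₀).map (k : V →ₗ[F] V)), ∀ s ∈ ({r₁, r₂} : Set _),
      a * s * a⁻¹ ∈ cm X (mem τ c ⊔ (mem τ c₀).map (k : V →ₗ[F] V)) := fun a ha s hs =>
    Subgroup.mul_mem _ (Subgroup.mul_mem _ ha ⟨(key s hs).1.memX, fun v =>
      Submodule.mem_sup_left ((key s hs).2 v)⟩) (Subgroup.inv_mem _ ha)
  have hz := Subgroup.mul_mem _ (Subgroup.inv_mem _ (key' a ha s hs)) (key' b hb s' hs')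
  have hW := S.cm_le le_sup_left (fun v hv e => by
    obtain ⟨a, ha, _, ⟨w, hw, rfl⟩, rfl⟩ := Submodule.mem_sup.1 hv
    exact Submodule.add_mem _ ha (OP w hw (by
      simpa [et_mem (f₂.B_self_eq_zero hc) ha] using e))) NB hz e
  refine ha' ((key s hs).1.of_conj a ha.1 ((S.nrm hc c0 hz.1 (by rwa [Ne, inv_mul_eq_one]) hW).of_comm_conj
    (key' a ha s hs).1 (comm_conj_of_fix (conj_fix (S.fix_of hc (key s hs).1.memX (key s hs).2) a)
      (S.fix_of hc hz.1 hW) ?_)))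
  rw [mul_inv_cancel_left]
  exact conj_fix (S.fix_of hc (key s' hs').1.memX (key s' hs').2) b

end Two

end SC

/-- Overgroups in the special unitary group of the stabilizer of a tensor decomposition. -/
theorem SU.main [FiniteDimensional F V₁] [FiniteDimensional F V₂] [Finite F] (S : SU X h f f₁ f₂)
    (h2 : 2 ≤ finrank F V₁) (hlt : finrank F V₁ < finrank F V₂)
    (hex : 3 ≤ finrank F V₁ ∨ ∃ t : F, σ t = t ∧ t ≠ 0 ∧ t ≠ 1) : X ≤ Kron τ ∨ f.E ≤ X := by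
  obtain ⟨x, -, x0, hx⟩ := sing2_herm S.hσ f₁ ⊤ (by simpa using h2)
  obtain ⟨c, -, c0, hc⟩ := sing2_herm S.hσ f₂ ⊤ (by simp; omega)
  by_cases H : ∀ c, f₂.q c = 0 → c ≠ 0 → Sc X h f₂ c
  · refine Or.inl fun g hg => by_contra fun hn => ?_
    have S' : SC X h f f₁ f₂ := ⟨S, h2, hlt, H⟩
    rcases hex with h3 | ⟨t, t1, t0, t2⟩
    · exact S'.big_false (by omega) hc c0 hg hn (by omega)
    by_cases e : finrank F V₁ = 2
    · exact S'.two_false e hc c0 hg hn t1 t0 t2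
    · exact S'.big_false (by omega) hc c0 hg hn (by omega)
  push Not at H
  obtain ⟨d, hd, d0, H⟩ := H
  exact Or.inr (S.E_le (S.cen_of_not_sc (by omega) hex hd d0 H hx x0) hx hc c0 (by omega) x0)

end CL.Tens
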