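/-
The stabilizer of a tensor decomposition `U_{n₁} ⊗ U_{n₂}` with `n₁ < n₂` is maximal in `SU`.
-/
import Mathlib
import Cfsg.Agent.CLAS.TensU3
import Cfsg.Agent.CLAS.RootGeo

namespace CL.Tens

open Module CL.ExtF CL.Witt CL.Witt.Form CL.Root

attribute [-simp] LinearEquiv.coe_inv
attribute [local simp] FormType.herm_σ FormType.herm_ε FormType.herm_π

variable {F : Type*} [Field F] {V₁ V₂ V : Type*} [AddCommGroup V₁] [Module F V₁] [AddCommGroup V₂]
  [Module F V₂] [AddCommGroup V] [Module F V] {τ : V₁ →ₗ[F] V₂ →ₗ[F] V}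
  {X : Subgroup (V ≃ₗ[F] V)} [FiniteDimensional F V₁] [FiniteDimensional F V₂]

theorem det_kr (h : IsTensorProduct τ) (A : V₁ ≃ₗ[F] V₁) (B : V₂ ≃ₗ[F] V₂) :
    LinearMap.det (kr h A B : V →ₗ[F] V) = LinearMap.det (A : V₁ →ₗ[F] V₁) ^ finrank F V₂ *
      LinearMap.det (B : V₂ →ₗ[F] V₂) ^ finrank F V₁ := by
  have := LinearMap.det_conj (TensorProduct.map (A : V₁ →ₗ[F] V₁) (B : V₂ →ₗ[F] V₂)) h.equiv
  rw [← LinearMap.det_toMatrix ((finBasis F V₁).tensorProduct (finBasis F V₂))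
    (TensorProduct.map _ _), TensorProduct.toMatrix_map, Matrix.det_kronecker,
    LinearMap.det_toMatrix, LinearMap.det_toMatrix, Fintype.card_fin, Fintype.card_fin] at this
  exact this

theorem not_mem_kron' {T : FormType F} {f : Form T V} (hf : f.Nondeg) (h1 : 2 ≤ finrank F V₁)
    (h2 : 2 ≤ finrank F V₂) (h : IsTensorProduct τ) {p : V} (p0 : p ≠ 0) {κ : F} (κ0 : κ ≠ 0)
    {t : V ≃ₗ[F] V} (e : ∀ v, t v = v + (κ * f.B p v) • p) : t ∉ Kron τ := fun ht => by
  have := finiteDimensional h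
  obtain ⟨N, hN⟩ := exists_right_of_small h ht (U := F ∙ p)
    (fun v => by simp [e, Submodule.smul_mem _ _ (Submodule.mem_span_singleton_self _)])
    (by rw [finrank_span_singleton p0]; omega)
  have : ∀ y, N y = 0 := fun y => by_contra fun y0 => by
    have := Submodule.finrank_mono (show mem τ (N y) ≤ F ∙ p from fun w hw => by
      obtain ⟨x, rfl⟩ := mem_mem.1 hw
      simp [← hN, e, Submodule.smul_mem _ _ (Submodule.mem_span_singleton_self _)])
    rw [finrank_mem h y0, finrank_span_singleton p0] at this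
    omega
  refine p0 (hf _ fun v => ?_)
  have : f.B p = 0 := ext_of h fun a b => by simpa [e, this, p0, κ0] using hN a b
  simp [this]

variable {σ : F →+* F} {hσ2 : ∀ a, σ (σ a) = a} {h : IsTensorProduct τ}
  {f : Form (FormType.herm σ hσ2) V} {f₁ : Form (FormType.herm σ hσ2) V₁}
  {f₂ : Form (FormType.herm σ hσ2) V₂}

theorem TU.su_main [Finite F] (hT : TU h f f₁ f₂) (hσ : σ ≠ RingHom.id F) (h2 : 2 ≤ finrank F V₁)
    (hlt : finrank F V₁ < finrank F V₂) (hex : 3 ≤ finrank F V₁ ∨ ∃ t : F, σ t = t ∧ t ≠ 0 ∧ t ≠ 1) :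
    ¬ f.E ≤ Kron τ ∧ ∀ K, Kron τ ⊓ f.E ≤ K → K ≤ f.E → (∃ g ∈ K, g ∉ Kron τ) → f.E ≤ K := by
  have := finiteDimensional h
  obtain ⟨p, -, p0, hp⟩ := sing2_herm hσ f ⊤ (by rw [finrank_top, finrank_eq h]; nlinarith)
  obtain ⟨η, η0, hη⟩ := FormType.exists_add_σ_eq_zero hσ hσ2
  refine ⟨fun hle => not_mem_kron' hT.nd h2 (by omega) h p0 η0 (herm_tv_apply hp hη)
    (hle (ei_mem_E _ _ _)), fun K h3 h4 ⟨g, hg, hg'⟩ => ?_⟩
  have key : ∀ A ∈ f₁.O, ∀ B ∈ f₂.O, LinearMap.det (kr h A B : V →ₗ[F] V) = 1 → kr h A B ∈ K :=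
    fun A hA B hB e => h3 ⟨kr_mem h A B, (hT.nd.herm_mem_E_iff hσ hp p0).2
      ⟨(herm_isIsom_iff _ _ _).2 (hT.kr_B hA hB), e⟩⟩
  exact (SU.main ⟨hT, hσ, h4.trans E_le_O, fun g hg => det_of_mem_E (h4 hg), key,
    fun e he => key 1 f₁.O.one_mem e (E_le_O he) (by simp [det_kr, det_of_mem_E he]),
    fun e he => key e (E_le_O he) 1 f₂.O.one_mem (by simp [det_kr, det_of_mem_E he])⟩
    h2 hlt hex).resolve_left fun H => hg' (H hg)

section Matrices

open Cfsg Cfsg.Geo Matrix Kronecker CL.Tv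

variable [Fintype F] {q : ℕ} (hF : Fintype.card F = q ^ 2)

theorem isUnitaryForm_of_pow {ι : Type} [Fintype ι] [DecidableEq ι] {f : (ι → F) → (ι → F) → F}
    (hf : IsUnitaryFormPow q f) {c : F} (c0 : c ≠ 0) (hc : c ^ q = c) :
    IsUnitaryForm (CL.SqField.conj hF) fun x y => c * f x y where
  ne_refl := CL.SqField.conj_ne_refl hF
  involutive := CL.SqField.conj_conj hF
  add_left x y v := by rw [hf.add_left, mul_add]
  smul_left a x v := by rw [hf.smul_left, mul_left_comm]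
  herm v w := by rw [CL.SqField.conj_apply, mul_pow, hc, ← hf.herm]
  nondegenerate v hv := by
    obtain ⟨⟨a, ha⟩, b, hb⟩ := hf.nondegenerate v hv
    exact ⟨⟨a, mul_ne_zero c0 ha⟩, b, mul_ne_zero c0 hb⟩

include hF in
theorem unitary_eq_gram {n : ℕ} {f : (Fin n → F) → (Fin n → F) → F} (hf : IsUnitaryFormPow q f)
    (x y : Fin n → F) : f x y = ∑ a, ∑ b, x a * gramMatrix f a b * y b ^ q := by
  have := hermOfUnitary_B (isUnitaryForm_of_pow hF hf one_ne_zero (one_pow q))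
  simp only [one_mul] at this
  conv_lhs => rw [← this, pi_eq_sum_univ' x, pi_eq_sum_univ' y]
  simp only [map_sum, map_smulₛₗ, LinearMap.sum_apply, LinearMap.smul_apply, smul_eq_mul,
    Finset.mul_sum, this, gramMatrix]
  exact Finset.sum_congr rfl fun a _ => Finset.sum_congr rfl fun b _ => by
    change x a * (y b ^ q * _) = _; ring

include hF in
/-- The stabilizer of a decomposition `U_{n₁} ⊗ U_{n₂}` with `n₁ < n₂` is maximal in `SU`. -/
theorem su_tensor_maximal {n n₁ n₂ : ℕ} (h1 : 2 ≤ n₁) (h12 : n₁ < n₂) (hex : ¬ (n₁ = 2 ∧ q = 2))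
    (e : Fin n ≃ Fin n₁ × Fin n₂) (P : GL (Fin n) F) {f₁ : (Fin n₁ → F) → (Fin n₁ → F) → F}
    {f₂ : (Fin n₂ → F) → (Fin n₂ → F) → F} (hf₁ : IsUnitaryFormPow q f₁)
    (hf₂ : IsUnitaryFormPow q f₂)
    (hT : IsTensorFormStructure (fun x : F => x ^ q) (hermForm n F q) f₁ f₂ e P) :
    IsMaximalIn (GU n F q ⊓ specialLinear (Fin n) F)
      (tensorProductSubgroup n₁ n₂ e P ⊓ (GU n F q ⊓ specialLinear (Fin n) F)) := by
  obtain ⟨c, c0, H⟩ := hT
  replace H : ∀ x y x' y', hermForm n F q (pt e P x y) (pt e P x' y') = c * f₁ x x' * f₂ y y' := by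
    intro x y x' y'
    rw [pt_apply, pt_apply, H, unitary_eq_gram hF hf₁, unitary_eq_gram hF hf₂, formOfGram, mul_assoc]
    simp only [Fintype.sum_prod_type, Finset.sum_mul_sum, kroneckerMap_apply, mul_pow]
    congr 1
    refine Finset.sum_congr rfl fun a _ => Finset.sum_congr rfl fun b _ => ?_
    exact Finset.sum_congr rfl fun a' _ => Finset.sum_congr rfl fun b' _ => by ring
  have hc : c ^ q = c := by
    have : Nonempty (Fin n₁) := ⟨⟨0, by omega⟩⟩
    have : Nonempty (Fin n₂) := ⟨⟨0, by omega⟩⟩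
    obtain ⟨x, hx⟩ := exists_ne (0 : Fin n₁ → F)
    obtain ⟨y, hy⟩ := exists_ne (0 : Fin n₂ → F)
    obtain ⟨x', hx'⟩ := (hf₁.nondegenerate x hx).1
    obtain ⟨y', hy'⟩ := (hf₂.nondegenerate y hy).1
    have := (isUnitaryForm_hermForm hF n).herm (pt e P x' y') (pt e P x y)
    rw [H, H, CL.SqField.conj_apply, mul_pow, mul_pow, ← hf₁.herm, ← hf₂.herm] at this
    exact (mul_right_cancel₀ hx' (mul_right_cancel₀ hy' this)).symm
  have hn : n = n₁ * n₂ := by simpa using Fintype.card_congr e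
  obtain ⟨k1, k2⟩ := TU.su_main (h := isTensorProduct_pt e P) (f := hermStd hF n)
    (f₁ := hermOfUnitary (isUnitaryForm_of_pow hF hf₁ c0 hc))
    (f₂ := hermOfUnitary (isUnitaryForm_of_pow hF hf₂ one_ne_zero (one_pow q)))
    ⟨hermOfUnitary_nondeg _, hermOfUnitary_nondeg _, fun x y x' y' => by
      rw [hermStd_B, H, ← one_mul (f₂ _ _)]; rfl⟩ (hermStd_ne_id hF)
    (by simpa using h1) (by simpa using h12) (by
      rcases eq_or_ne q 2 with e | e
      · exact Or.inl (by simp; omega)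
      · exact Or.inr (CL.Uni.exists_fixed_ne hF e))
  exact isMaximalIn_of_act (mem_SU_iff_E hF (by nlinarith)) (mem_tensor_iff e P) k1 k2

end Matrices

end CL.Tens
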