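/-
Spaces of operators on a quadratic space that are invariant under the elementary group.
-/
import Mathlib
import Cfsg.Agent.CLAS.TFormT
import Cfsg.Agent.CLAS.TensU4
import Cfsg.Agent.CLAS.LowRat3

namespace CL.Tens

open Module CL.ExtF CL.Witt CL.Witt.Form CL.Root

attribute [-simp] LinearEquiv.coe_inv
attribute [local simp] FormType.quad_σ FormType.quad_ε FormType.quad_π

variable {F : Type*} [Field F] {V : Type*} [AddCommGroup V] [Module F V]
  {f : Form (FormType.quad F) V} {s v : V}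

/-- Conjugation of operators. -/
def cj (A : V ≃ₗ[F] V) : (V →ₗ[F] V) →ₗ[F] V →ₗ[F] V := A.conj

theorem cj_apply (A : V ≃ₗ[F] V) (S : V →ₗ[F] V) (x : V) : cj A S x = A (S (A⁻¹ x)) := rfl

variable (f) in
/-- The skew operator `a ∧ b`. -/
def wd : V →ₗ[F] V →ₗ[F] V →ₗ[F] V :=
  LinearMap.mk₂ F (fun a b => (f.B a).smulRight b - (f.B b).smulRight a)
    (fun a b c => by ext x; simp [add_smul]; abel) (fun s a b => by ext x; simp [smul_smul, smul_sub, mul_comm])
    (fun a b c => by ext x; simp [add_smul]; abel) (fun s a b => by ext x; simp [smul_smul, smul_sub, mul_comm])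

theorem wd_apply (a b x : V) : wd f a b x = f.B a x • b - f.B b x • a := rfl

theorem wd_self (a : V) : wd f a a = 0 := by ext x; simp [wd_apply]

theorem wd_swap (a b : V) : wd f b a = -wd f a b := by ext x; simp [wd_apply]

theorem cj_wd {A : V ≃ₗ[F] V} (hA : A ∈ f.O) (a b : V) : cj A (wd f a b) = wd f (A a) (A b) := by
  ext x; simp [wd_apply, cj_apply, B_apply_left hA]

theorem quad_ei_inv (hs : f.q s = 0) (hv : f.B s v = 0) :
    (f.ei s v (f.q v))⁻¹ = f.ei s (-v) (f.q v) := by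
  simpa using (qok hs hv).ei_inv

theorem quad_ei_neg (hs : f.q s = 0) (hv : f.B s v = 0) (x : V) :
    f.ei s (-v) (f.q v) x = x - f.B s x • v + (f.B v x - f.q v * f.B s x) • s := by
  rw [← f.q_neg v, quad_ei hs (by simp [hv])]
  simp only [map_neg, LinearMap.neg_apply]
  module

variable (f s v) in
/-- The even part of conjugation by an Eichler element. -/
noncomputable def dd : (V →ₗ[F] V) →ₗ[F] V →ₗ[F] V :=
  cj (f.ei s v (f.q v)) + cj (f.ei s v (f.q v))⁻¹ - (2 : F) • LinearMap.id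

theorem dd_apply (hs : f.q s = 0) (hv : f.B s v = 0) (S : V →ₗ[F] V) (x : V) :
    dd f s v S x = (2 : F) • ((f.q v ^ 2 * f.B s x * f.B s (S s)) • s - wd f s v (S (wd f s v x)) -
      f.q v • (f.B s (S x) • s + f.B s x • S s)) := by
  simp only [dd, LinearMap.sub_apply, LinearMap.add_apply, cj_apply, inv_inv]
  simp only [quad_ei_inv hs hv, quad_ei hs hv, quad_ei_neg hs hv, wd_apply, map_add, map_sub,
    map_smul, LinearMap.smul_apply, LinearMap.id_apply, smul_eq_mul]
  module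

theorem dd_mem {L : Type*} [AddCommGroup L] [Module F L] {M : Submodule F (L →ₗ[F] V →ₗ[F] V)}
    (hM : ∀ A ∈ f.E, ∀ θ ∈ M, cj A ∘ₗ θ ∈ M) {θ : L →ₗ[F] V →ₗ[F] V} (hθ : θ ∈ M) :
    dd f s v ∘ₗ θ ∈ M := by
  rw [dd, LinearMap.sub_comp, LinearMap.add_comp, LinearMap.smul_comp, LinearMap.id_comp]
  exact M.sub_mem (M.add_mem (hM _ (ei_mem_E _ _ _) _ hθ)
    (hM _ (f.E.inv_mem (ei_mem_E _ _ _)) _ hθ)) (M.smul_mem _ hθ)

variable [FiniteDimensional F V] (hf : f.Nondeg)
include hf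

theorem exists_nonsing_hyp (h3 : 3 ≤ finrank F V) (hs : f.q s = 0) {s' : V} (hs' : f.q s' = 0)
    (h1 : f.B s s' = 1) : ∃ v, f.B s v = 0 ∧ f.B s' v = 0 ∧ f.q v ≠ 0 := by
  obtain ⟨v, a, e1, e2, ha, a0⟩ := hf.exists_ne_zero_hyp (big_of_three h3) hs hs' (by simp [h1])
  exact ⟨v, e1, e2, by rwa [← ha]⟩

theorem exists_nonsing_two (h2 : (2 : F) ≠ 0) (h4 : 4 ≤ finrank F V) (hv : f.q v ≠ 0)
    (h0 : f.B s v = 0) : ∃ w, f.B s w = 0 ∧ f.B v w = 0 ∧ f.q w ≠ 0 := by
  obtain ⟨w, w0, w1, w2⟩ := exists_perp_two_notMem (h := f) h4 s v s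
  by_cases hw : f.q w ≠ 0
  · exact ⟨w, w1, w2, hw⟩
  push Not at hw
  obtain ⟨t, t1, t2⟩ := hf.exists_perp_eq' w0 1
  replace t1 := t1 s (Submodule.mem_span_singleton_self s)
  set t' := t - (f.B v t / (2 * f.q v)) • v with ht'
  refine ⟨t' + (1 - f.q t') • w, by simp [ht', t1, h0, w1], ?_, ?_⟩
  · simp [ht', w2, quad_B_self]; field_simp; ring
  · have : f.B t' w = 1 := by simp [ht', w2, f.quad_symm w t, t2]
    simp [quad_q_add_smul, hw, this]

theorem torus (h3 : 3 ≤ finrank F V) (hs : f.q s = 0) (s0 : s ≠ 0) {l : F} (hl : l ≠ 0) :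
    ∃ e ∈ f.E, e s = l ^ 2 • s ∧ ∀ y, f.B s y = 0 → e y - y ∈ F ∙ s := by
  obtain ⟨w, hw, h1⟩ := hf.exists_partner' hs s0
  obtain ⟨v, v1, v2, v3⟩ := exists_nonsing_hyp hf h3 hs hw h1
  have k : ∀ v, f.B s v = 0 → f.B w v = 0 → f.q v ≠ 0 → f.rf (f.q v • s + w) * f.rf v ∈ f.E :=
    fun v a b c => by
      rw [rf_mul_rf_eq_ei hs hw h1 a b c]
      exact f.E.mul_mem (f.E.mul_mem (ei_mem_E _ _ _) (ei_mem_E _ _ _)) (ei_mem_E _ _ _)
  have := f.E.mul_mem (k (l • v) (by simp [v1]) (by simp [v2]) (by simp [quad_q_smul, hl, v3]))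
    (f.E.inv_mem (k v v1 v2 v3))
  rw [rf_smul hl, mul_inv_rev, ← mul_assoc, mul_inv_cancel_right, rf_inv, quad_q_smul] at this
  have hq : ∀ c : F, f.q (c • s + w) = c := fun c => by simp [quad_q_add, quad_q_smul, hs, hw, h1]
  have ss := f.B_self_eq_zero hs
  have ww := f.B_self_eq_zero hw
  have ws : f.B w s = 1 := by rw [f.quad_symm, h1]
  refine ⟨_, this, ?_, fun y hy => Submodule.mem_span_singleton.2
    ⟨(l ^ 2 - 1) * f.B w y, ?_⟩⟩ <;>
  · simp only [mul_app, rf_apply, map_add, map_sub, map_smul, LinearMap.add_apply,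
      f.B_smul_left, FormType.quad_σ, *]
    match_scalars <;> field_simp <;> ring

/-- The highest weight component of an operator. -/
theorem exists_extract (h2 : (2 : F) ≠ 0) (h3 : 3 ≤ finrank F V)
    (hex : 4 ≤ finrank F V ∨ ∃ t : F, t ≠ 0 ∧ t ^ 2 ≠ 1) (hs : f.q s = 0) (s0 : s ≠ 0)
    {L : Type*} [AddCommGroup L] [Module F L] {M : Submodule F (L →ₗ[F] V →ₗ[F] V)}
    (hM : ∀ A ∈ f.E, ∀ θ ∈ M, cj A ∘ₗ θ ∈ M) {θ : L →ₗ[F] V →ₗ[F] V} (hθ : θ ∈ M) :
    ∃ θ' ∈ M, ∀ y x, θ' y x = (f.B s (θ y s) * f.B s x) • s := by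
  obtain ⟨w, hw, h1⟩ := hf.exists_partner' hs s0
  obtain ⟨v, v1, -, v3⟩ := exists_nonsing_hyp hf h3 hs hw h1
  have ss := f.B_self_eq_zero hs
  have vs := f.B_eq_zero_symm v1
  rcases hex with h4 | ⟨t, t0, t1⟩
  · obtain ⟨u, u1, u2, u3⟩ := exists_nonsing_two hf h2 h4 v3 v1
    refine ⟨_, M.smul_mem (8 * f.q u * f.q v)⁻¹ (dd_mem (s := s) (v := u) hM
      (dd_mem (s := s) (v := v) hM hθ)), fun y x => ?_⟩
    have h8 : (8 : F) ≠ 0 := by rw [show (8 : F) = 2 ^ 3 by norm_num]; exact pow_ne_zero _ h2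
    simp only [LinearMap.smul_apply, LinearMap.comp_apply, dd_apply hs u1, dd_apply hs v1, wd_apply,
      map_sub, map_add, map_smul, smul_eq_mul, ss, vs, v1, u1, u2, f.B_eq_zero_symm u1,
      f.B_eq_zero_symm u2]
    match_scalars <;> field_simp <;> ring
  · have := sub_ne_zero.2 t1
    refine ⟨_, M.smul_mem (2 * t ^ 2 * (t ^ 2 - 1) * f.q v ^ 2)⁻¹ (M.sub_mem
      (dd_mem (s := s) (v := t • v) hM hθ) (M.smul_mem (t ^ 2) (dd_mem (s := s) (v := v) hM hθ))),
      fun y x => ?_⟩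
    simp only [LinearMap.smul_apply, LinearMap.comp_apply, LinearMap.sub_apply, dd_apply hs v1,
      dd_apply hs (show f.B s (t • v) = 0 by simp [v1]), quad_q_smul, map_smul]
    match_scalars <;> field_simp <;> ring

/-- A symmetric operator whose quadratic form vanishes on singular vectors is scalar. -/
theorem sym_scalar (h2 : (2 : F) ≠ 0) (hex : 4 ≤ finrank F V ∨ ∃ t : F, t ≠ 0 ∧ t ^ 2 ≠ 1)
    (hs : f.q s = 0) (s0 : s ≠ 0) {S : V →ₗ[F] V} (hS : ∀ x y, f.B (S x) y = f.B x (S y))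
    (H : ∀ x, f.q x = 0 → f.B x (S x) = 0) : ∃ l : F, ∀ x, S x = l • x := by
  have sy : ∀ x y, f.B x (S y) = f.B y (S x) := fun x y => by rw [← hS, f.quad_symm]
  obtain ⟨w, hw, h1⟩ := hf.exists_partner' hs s0
  have k1 : ∀ v, f.B s v = 0 → f.B w v = 0 → f.B v (S v) = 2 * f.q v * f.B s (S w) ∧
      f.B w (S v) = f.q v * f.B s (S v) := fun v a b => by
    have k : ∀ v, f.B s v = 0 → f.B w v = 0 → 2 * f.B w (S v) + f.B v (S v) -
        2 * f.q v * (f.B s (S w) + f.B s (S v)) = 0 := fun v a b => by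
      have := H (w + v - f.q v • s) (by
        simp [q_sub, quad_q_add, quad_q_smul, hs, hw, b, f.quad_symm s, h1, a])
      simp [H s hs, H w hw, sy v w, sy w s, sy v s] at this
      linear_combination this
    have e1 := k v a b
    have e2 := k (-v) (by simp [a]) (by simp [b])
    simp [q_neg] at e2
    exact ⟨mul_left_cancel₀ h2 (by linear_combination e1 + e2),
      mul_left_cancel₀ (mul_ne_zero h2 h2) (by linear_combination e1 - e2)⟩
  have k2 : ∀ v, f.B s v = 0 → f.B w v = 0 → f.q v ≠ 0 → f.B s (S v) = 0 := fun v a b c => by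
    rcases hex with h4 | ⟨t, t0, t1⟩
    · obtain ⟨u, u1, u2, u3⟩ := exists_nonsing_two hf h2 h4 c a
      set u' := u - f.B w u • s with hu'
      have p1 : f.B s u' = 0 := by simp [hu', u1, f.B_self_eq_zero hs]
      have p2 : f.B w u' = 0 := by simp [hu', f.quad_symm s w, h1]
      have p3 : f.q u' = f.q u := by simp [hu', q_sub, quad_q_smul, hs, f.B_eq_zero_symm u1]
      have p4 : f.B v u' = 0 := by simp [hu', u2, f.B_eq_zero_symm a]
      have e1 := (k1 (v + u') (by simp [a, p1]) (by simp [b, p2])).2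
      have e2 := (k1 (v - u') (by simp [a, p1]) (by simp [b, p2])).2
      simp only [map_add, map_sub, quad_q_add, q_sub, p3, p4, FormType.quad_π, (k1 v a b).2] at e1 e2
      exact mul_left_cancel₀ (mul_ne_zero h2 u3) (by linear_combination -e1 - e2)
    · have e1 := (k1 (t • v) (by simp [a]) (by simp [b])).2
      simp only [map_smul, smul_eq_mul, quad_q_smul, (k1 v a b).2] at e1
      exact mul_left_cancel₀ (mul_ne_zero (mul_ne_zero t0 (sub_ne_zero.2 t1)) c)
        (by linear_combination -e1)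
  have k3 : ∀ v, f.B s v = 0 → f.B w v = 0 → f.B s (S v) = 0 := fun v a b => by
    by_cases c : f.q v ≠ 0
    · exact k2 v a b c
    push Not at c
    have := H (v + s) (by simp [quad_q_add, c, hs, f.B_eq_zero_symm a])
    simp [H s hs, H v c, sy v s] at this
    exact mul_left_cancel₀ h2 (by linear_combination this)
  have k4 : ∀ x, f.B x (S x) = f.B s (S w) * f.B x x := fun x => by
    obtain ⟨v, a, b, p, q, rfl⟩ : ∃ v, ∃ a b : F, f.B s v = 0 ∧ f.B w v = 0 ∧
        x = v + a • s + b • w := ⟨x - f.B w x • s - f.B s x • w, f.B w x, f.B s x, by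
          simp [h1, f.B_self_eq_zero hs], by simp [f.quad_symm s w, h1, f.B_self_eq_zero hw],
          by abel⟩
    simp [H s hs, H w hw, sy v w, sy w s, sy v s, k1 v p q, k3 v p q, f.quad_symm s, f.quad_symm w v,
      p, q, h1, quad_B_self, hs, hw]
    ring
  refine ⟨f.B s (S w), fun x => hf.ext_right fun y => mul_left_cancel₀ h2 ?_⟩
  have := k4 (x + y)
  simp only [map_add, LinearMap.add_apply, k4, sy x y, f.quad_symm x y, map_smul, smul_eq_mul]
    at this ⊢
  linear_combination this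

theorem idx1_of_three (h3 : finrank F V = 3) : Idx1 f := fun u w hu hw e u0 => by
  by_contra hn
  have := ((f.quad_totSing_iff (Submodule.span F {u, w})).2 fun x hx => by
    obtain ⟨a, b, rfl⟩ := Submodule.mem_span_pair.1 hx
    simp [quad_q_add, quad_q_smul, hu, hw, e]).two_mul_finrank_le hf
  have e := finrank_span_eq_card (li_of_nmem u0 hn)
  rw [Matrix.range_cons, Matrix.range_cons, Matrix.range_empty, Set.union_empty,
    Set.singleton_union, Fintype.card_fin] at e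
  omega

variable [Finite F]

/-- An invariant space of operators containing a non-zero skew operator contains all of them. -/
theorem skew_all (h2 : (2 : F) ≠ 0) (h3 : 3 ≤ finrank F V) (hex : 5 ≤ finrank F V ∨ Idx1 f)
    {R : Submodule F (V →ₗ[F] V)} (hR : ∀ A ∈ f.E, ∀ β ∈ R, cj A β ∈ R) {β : V →ₗ[F] V}
    (hβ : β ∈ R) (hs : ∀ x y, f.B (β x) y = -f.B x (β y)) (β0 : β ≠ 0) (x y : V) :
    wd f x y ∈ R := by
  have odd : ∀ s v, ∀ γ ∈ R, (2 : F)⁻¹ • (cj (f.ei s v (f.q v)) γ - cj (f.ei s (-v) (f.q v)) γ) ∈ R :=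
    fun s v γ H => R.smul_mem _ (R.sub_mem (hR _ (ei_mem_E _ _ _) _ H) (hR _ (ei_mem_E _ _ _) _ H))
  have step : ∀ s w u, f.q s = 0 → s ≠ 0 → f.B s w = 0 → w ∉ F ∙ s → wd f s w ∈ R → f.B s u = 0 →
      f.B u w = 0 → wd f s u ∈ R := fun s w u hs s0 hw w0 H u1 u2 => by
    obtain ⟨s', hs', h1⟩ := hf.exists_partner' hs s0
    have ss := f.B_self_eq_zero hs
    have h1' : f.B s' s = 1 := by rw [f.quad_symm, h1]
    obtain ⟨v, v1, v2⟩ := hf.exists_perp_eq' w0 1
    replace v1 := v1 s (Submodule.mem_span_singleton_self s)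
    obtain ⟨v, v1, v2, v3⟩ : ∃ v, f.B s v = 0 ∧ f.B s' v = 0 ∧ f.B v w = 1 :=
      ⟨v - f.B s' v • s, by simp [v1, ss], by simp [h1'], by simp [hw, f.quad_symm w v, v2]⟩
    obtain ⟨w, hw, hw', H, u2, v3⟩ : ∃ w, f.B s w = 0 ∧ f.B s' w = 0 ∧ wd f s w ∈ R ∧ f.B u w = 0 ∧
        f.B v w = 1 := ⟨w - f.B s' w • s, by simp [hw, ss], by simp [h1'], by simpa [wd_self] using H,
      by simp [u2, f.B_eq_zero_symm u1], by simp [v3, f.B_eq_zero_symm v1]⟩
    have e1 : wd f v w - wd f s s' ∈ R := by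
      convert odd s' v _ H using 1
      simp only [cj_wd (ei_mem_O _ _ _), quad_ei hs' v2, quad_ei_neg hs' v2, map_add, map_sub,
        map_smul, LinearMap.add_apply, LinearMap.sub_apply, LinearMap.smul_apply, h1', v3, hw',
        f.B_eq_zero_symm v1, wd_self]
      match_scalars <;> field_simp <;> ring
    convert R.neg_mem (R.add_mem (odd s u _ e1) (R.smul_mem (f.B u v) H)) using 1
    simp only [cj_wd (ei_mem_O _ _ _), quad_ei hs u1, quad_ei_neg hs u1, map_add, map_sub,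
      map_smul, LinearMap.add_apply, LinearMap.sub_apply, LinearMap.smul_apply, h1, v1, hw, u2, ss,
      f.B_eq_zero_symm u1, wd_self]
    match_scalars <;> field_simp <;> ring
  have bb : ∀ x, f.B x (β x) = 0 := fun x => mul_left_cancel₀ h2 (by
    linear_combination hs x x - f.quad_symm x (β x))
  obtain ⟨s, hs0, hn⟩ : ∃ s, f.q s = 0 ∧ β s ∉ F ∙ s := by
    by_contra! H
    obtain ⟨p, -, p0, hp⟩ := f.quad_iso3 ⊤ (by simpa using h3)
    refine β0 (LinearMap.ext fun x => hf.mem_of_singular hp p0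
      (A := (LinearMap.ker β).toAddSubgroup) (fun s hs0 => ?_) x)
    rcases eq_or_ne s 0 with rfl | s0
    · simp
    obtain ⟨s', hs', h1⟩ := hf.exists_partner' hs0 s0
    obtain ⟨v, v1, v2, v3⟩ := exists_nonsing_hyp hf h3 hs0 hs' h1
    obtain ⟨a, ha⟩ := Submodule.mem_span_singleton.1 (H s hs0)
    obtain ⟨b, hb⟩ := Submodule.mem_span_singleton.1 (H s' hs')
    obtain ⟨c, hc⟩ := Submodule.mem_span_singleton.1 (H (s' + v - f.q v • s) (by
      simp [q_sub, quad_q_add, quad_q_smul, hs0, hs', v2, f.quad_symm s, h1, v1]))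
    have e1 := congrArg (f.B v) hc
    have e2 := congrArg (f.B s') hc
    have e3 := hs s' v
    simp [← ha, ← hb, bb, f.quad_symm s, f.quad_symm s' v, v1, v2, h1, quad_B_self, h2, v3, hs'] at e1 e2 e3
    simp [e1, e3, v3] at e2
    simp [← ha, e2]
  have s0 : s ≠ 0 := by rintro rfl; simp at hn
  have ss := f.B_self_eq_zero hs0
  obtain ⟨w, w1, w2, w3⟩ : ∃ w, f.B s w = 0 ∧ f.q w ≠ 0 ∧ wd f s w ∈ R := by
    obtain ⟨s', hs', h1⟩ := hf.exists_partner' hs0 s0
    obtain ⟨v, v1, -, v3⟩ := exists_nonsing_hyp hf h3 hs0 hs' h1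
    set w := f.q v • β s - f.B v (β s) • v with hw
    have w1 : f.B s w = 0 := by simp [hw, bb, v1]
    have w2 : w ∉ F ∙ s := fun e => hn (by
      obtain ⟨a, ha⟩ := Submodule.mem_span_singleton.1 e
      have := congrArg (f.B v) ha
      simp [hw, f.B_eq_zero_symm v1, quad_B_self] at this
      have e0 : f.B v (β s) = 0 := mul_left_cancel₀ v3 (by linear_combination this)
      refine (Submodule.smul_mem_iff _ v3).1 ?_
      simpa [hw, e0] using e)
    have w3 : wd f s w ∈ R := by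
      convert R.smul_mem (-(2 : F)⁻¹) (R.sub_mem (R.add_mem (hR _ (ei_mem_E s v (f.q v)) _ hβ)
        (hR _ (f.E.inv_mem (ei_mem_E s v (f.q v))) _ hβ)) (R.smul_mem 2 hβ)) using 1
      ext x
      have := dd_apply hs0 v1 β x
      simp only [dd, LinearMap.sub_apply, LinearMap.add_apply, LinearMap.smul_apply,
        LinearMap.id_apply] at this ⊢
      rw [this]
      have e1 : f.B s (β x) = -f.B (β s) x := by rw [hs, neg_neg]
      have e2 : f.B s (β v) = -f.B v (β s) := by rw [← hs, f.quad_symm]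
      simp only [wd_apply, hw, map_sub, map_smul, bb, e1, e2, LinearMap.sub_apply,
        LinearMap.smul_apply]
      match_scalars <;> field_simp <;> ring
    by_cases hq : f.q w = 0
    · obtain ⟨u, hu, u0⟩ := exists_nonsing_perp hf (Submodule.span F {s, w}) (by
        have := CL.Tv.finrank_span_pair_le (F := F) s w
        have := hex.resolve_right fun H => w2 (H s w hs0 hq w1 s0)
        omega)
      rw [mem_perp_span_pair] at hu
      exact ⟨u, hu.1, u0, step s w u hs0 s0 w1 w2 w3 hu.1 (f.B_eq_zero_symm hu.2)⟩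
    · exact ⟨w, w1, hq, w3⟩
  have k1 : ∀ u, f.B s u = 0 → wd f s u ∈ R := fun u hu => by
    have := R.add_mem (step s w (u - (f.B u w / (2 * f.q w)) • w) hs0 s0 w1 (fun e => by
      obtain ⟨a, rfl⟩ := Submodule.mem_span_singleton.1 e
      exact w2 (f.q_smul_eq_zero hs0 a)) w3 (by simp [hu, w1])
      (by simp [quad_B_self]; field_simp; ring)) (R.smul_mem (f.B u w / (2 * f.q w)) w3)
    simpa using this
  have k2 : ∀ p u, f.q p = 0 → f.B p u = 0 → wd f p u ∈ R := fun p u hp hu => by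
    rcases eq_or_ne p 0 with rfl | p0
    · simp
    obtain ⟨g, hg, c, c0, e⟩ := hf.exists_mem_E_apply_eq_smul (big_of_three h3) hs0 s0 hp p0
    have := hR g hg _ (k1 (c⁻¹ • g⁻¹ u) (by simp [← B_apply_left (E_le_O hg), e, hu]))
    simpa [cj_wd (E_le_O hg), e, app_inv, smul_smul, c0] using this
  refine hf.mem_of_singular hs0 s0 (A := (R.comap ((wd f).flip y)).toAddSubgroup)
    (fun p hp => ?_) x
  rcases eq_or_ne p 0 with rfl | p0
  · simp
  obtain ⟨p', hp', h1⟩ := hf.exists_partner' hp p0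
  obtain ⟨v, v1, v2, v3⟩ := exists_nonsing_hyp hf h3 hp hp' h1
  have e1 := k2 (p' + v - f.q v • p) (v - (2 * f.q v) • p) (by
    simp [q_sub, quad_q_add, quad_q_smul, hp, hp', v2, f.quad_symm p, h1, v1]) (by
    simp [v1, v2, quad_B_self, f.quad_symm p, h1, hp])
  change wd f p y ∈ R
  convert R.add_mem (k2 p (y - f.B p y • p') hp (by simp [h1])) (R.smul_mem (f.B p y / (2 * f.q v))
    (R.sub_mem (R.sub_mem e1 (k2 p' v hp' v2)) (R.smul_mem (f.q v) (k2 p v hp v1)))) using 1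
  simp only [map_add, map_sub, map_smul, LinearMap.add_apply, LinearMap.sub_apply,
    LinearMap.smul_apply, wd_self, wd_swap p v, wd_swap p p']
  match_scalars <;> field_simp <;> ring

end CL.Tens
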