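/-
Tensor products of orthogonal spaces: the stabilizer of a member in a proper overgroup.
-/
import Mathlib
import Cfsg.Agent.CLAS.TensO

namespace CL.Tens

open Module CL.ExtF CL.Witt CL.Witt.Form CL.Root

attribute [-simp] LinearEquiv.coe_inv
attribute [local simp] FormType.quad_σ FormType.quad_ε FormType.quad_π

variable {F : Type*} [Field F] {V₁ V₂ V : Type*} [AddCommGroup V₁] [Module F V₁] [AddCommGroup V₂]
  [Module F V₂] [AddCommGroup V] [Module F V] {τ : V₁ →ₗ[F] V₂ →ₗ[F] V}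
  {X : Subgroup (V ≃ₗ[F] V)} {h : IsTensorProduct τ} {f : Form (FormType.quad F) V}
  {f₁ : Form (FormType.quad F) V₁} {f₂ : Form (FormType.quad F) V₂} {c c' : V₂}
  {u z : V ≃ₗ[F] V}

theorem mem_O_of_B (h2 : (2 : F) ≠ 0) (e : ∀ v w, f.B (z v) (z w) = f.B v w) : z ∈ f.O :=
  ⟨e, fun v => mul_left_cancel₀ h2 (by rw [← quad_B_self, ← quad_B_self]; exact e v v)⟩

variable (h f₂ c u) in
/-- The unipotent radical of the stabilizer of `V₁ ⊗ c`. -/
def QO : Prop := (∀ x, u (τ x c) = τ x c) ∧ ∀ v, et h f₂ c v = 0 → u v - v ∈ mem τ c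

variable (h f f₁ f₂) in
/-- A tensor product of orthogonal spaces in odd characteristic. -/
structure TQ : Prop extends TU h f f₁ f₂ where
  h2 : (2 : F) ≠ 0

namespace TQ

variable (S : TQ h f f₁ f₂)
include S

theorem flip : TQ (flip h) f f₂ f₁ := ⟨S.toTU.flip, S.h2⟩

theorem q_pure (x : V₁) (y : V₂) : f.q (τ x y) = 2 * f₁.q x * f₂.q y :=
  mul_left_cancel₀ S.h2 (by rw [← quad_B_self, S.mul, quad_B_self, quad_B_self]; ring)

theorem q0 (x : V₁) (hc : f₂.q c = 0) : f.q (τ x c) = 0 := by simp [S.q_pure, hc]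

variable [FiniteDimensional F V₁] [FiniteDimensional F V₂]

theorem mem_E_of_QO (hc : f₂.q c = 0) (hu : u ∈ f.O) (H : QO h f₂ c u) : u ∈ f.E :=
  have := finiteDimensional h
  mem_E_of_rad S.nd (mem τ c) (by rintro _ ⟨x, rfl⟩; exact S.q0 x hc) hu
    (by rintro _ ⟨x, rfl⟩; exact H.1 x) fun v hv => H.2 v (S.et_eq_zero fun x => hv _ (pure_mem x c))

theorem right_mem_E {e : V₂ ≃ₗ[F] V₂} (he : e ∈ f₂.E) : kr h 1 e ∈ f.E := by
  refine (E_le_iff'.2 fun c y μ ok => ?_ : f₂.E ≤ rightGrp h f.E) he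
  refine S.mem_E_of_QO (c := c) (u := kr h 1 _) ok.hu (mem_O_of_B S.h2
    (S.kr_B f₁.O.one_mem (ei_mem_O _ _ _))) ⟨fun x => by simp [ok.ei_apply_u], fun v hv => ?_⟩
  change kr h 1 (f₂.ei c y μ) v - v ∈ _
  rw [kr_ei_apply ok, hv]
  simpa using pure_mem _ _

theorem left_mem_E {A : V₁ ≃ₗ[F] V₁} (hA : A ∈ f₁.E) : kr h A 1 ∈ f.E := by
  rw [← kr_flip]; exact S.flip.right_mem_E hA

theorem E_le_of_rad (h3 : 3 ≤ finrank F V₁) (hc : f₂.q c = 0) (c0 : c ≠ 0)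
    (G : ∀ x y c, f₂.q c = 0 → Rad f X (τ x c) (τ y c)) : f.E ≤ X := by
  have := finiteDimensional h
  have k1 : ∀ x c a d, f₂.q c = 0 → f₂.q d = 0 → f₁.B x a = 0 → f₂.B d c ≠ 0 →
      Rad f X (τ x c) (τ a d) := fun x c a d hc hd ha e => by
    obtain ⟨b, b1, b2⟩ := exists_ker_notMem h3 (f₁.B x) a
    obtain ⟨y, y1, y2⟩ := S.nd₁.exists_perp_eq' b2 (f₂.B d c)⁻¹
    simpa [S.mul, y2, y1 a (Submodule.mem_span_singleton_self a), e] using
      Rad.step (G x y c hc) (G b a d hd) (S.q0 _ hd) (by simp [S.mul, f₁.B_eq_zero_symm b1])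
        (by simp [S.mul, f₁.B_eq_zero_symm ha])
  have k2 : ∀ x c a d, f₂.q c = 0 → c ≠ 0 → f₁.B x a = 0 → Rad f X (τ x c) (τ a d) :=
    fun x c a d hc c0 ha => by
    have k : ∀ d, f₂.B c d ≠ 0 → Rad f X (τ x c) (τ a d) := fun d hd => by
      obtain ⟨s, hs⟩ := f₂.exists_q_add_smul_eq_zero (y := d) hc hd
      simpa using (k1 x c a _ hc hs ha (by
        simpa [f₂.B_self_eq_zero hc, f₂.quad_symm c d] using hd)).sub (G x (s • a) c hc)
    by_cases hd : f₂.B c d = 0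
    · obtain ⟨c', -, h1⟩ := S.nd₂.exists_partner' hc c0
      simpa using (k (d + c') (by simp [hd, h1])).sub (k c' (by simp [h1]))
    · exact k d hd
  have key : ∀ x c, f₂.q c = 0 → c ≠ 0 → f.U (τ x c) ≤ X := fun x c hc c0 => by
    obtain ⟨c', hc', h1⟩ := S.nd₂.exists_partner' hc c0
    have k3 : ∀ b y, f₂.B c y = 0 → Rad f X (τ x c) (τ b y) := fun b y hy => by
      obtain ⟨a, a0, a1, a2⟩ := exists_perp_two (h := f₁) h3 x b
      obtain ⟨a', e⟩ := S.nd₁.exists_B_eq a0 1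
      obtain ⟨μ, ok, hk⟩ := k2 a c' b y hc' (by rintro rfl; simp at h1) (f₁.B_eq_zero_symm a2)
      simpa [ok.ei_apply, S.mul, e, f₂.quad_symm c c', h1, f₂.B_eq_zero_symm hy,
        add_sub_right_comm] using ((G x a' c hc).sub_fix hk (ei_mem_O _ _ _) (ok.ei_apply_fix
        (by simp [S.mul, f₁.B_eq_zero_symm a1]) (by simp [S.mul, f₂.B_eq_zero_symm hy]))).add
        (k2 x c (μ • a) c' hc c0 (by simp [a1]))
    refine U_le_of_rad (cen_quad _) fun w hw => ?_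
    simpa using (mem_of_perp_pure' (h := h) (g := AddMonoidHom.id V) (S := radGrp f X (S.q0 x hc))
      h1 k3 (v := w - τ (et h f₂ c w) c') (by simp [h1])).add
      (k2 x c (et h f₂ c w) c' hc c0 (by rwa [← S.B_pure]))
  have : Nontrivial V₁ := Module.nontrivial_of_finrank_pos (R := F) (by omega)
  obtain ⟨a, a0⟩ := exists_ne (0 : V₁)
  obtain ⟨a', e1⟩ := S.nd₁.exists_B_eq a0 1
  obtain ⟨c', hc', e2⟩ := S.nd₂.exists_partner' hc c0
  exact S.nd.E_le_of_B_ne (S.q0 a hc) (S.q0 a' hc') (by simp [S.mul, e1, e2]) (key a c hc c0)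
    (key a' c' hc' (by rintro rfl; simp at e2))

theorem not_E_le (h3 : 3 ≤ finrank F V₁) (h3' : 3 ≤ finrank F V₂) (hc : f₂.q c = 0) (c0 : c ≠ 0) :
    ¬ f.E ≤ Kron τ := fun H => by
  have := finiteDimensional h
  obtain ⟨x, x0, -⟩ := exists_perp_two (h := f₁) h3 0 0
  obtain ⟨x', -, x1⟩ := exists_ker_notMem h3 (0 : Dual F V₁) x
  obtain ⟨a, a0, a1, a2⟩ := exists_perp_two (h := f₁) h3 x x'
  obtain ⟨b, b1, b2⟩ := S.nd₁.exists_perp_eq' x1 1
  obtain ⟨c', h1⟩ := S.nd₂.exists_B_eq c0 1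
  have ok : f.EichOK (τ x c) (τ x' c) 0 :=
    ⟨S.q0 _ hc, by simp [S.mul, f₂.B_self_eq_zero hc], by simp [S.q0 _ hc]⟩
  obtain ⟨N, hN⟩ := exists_right_of_small h (H (ei_mem_E (τ x c) (τ x' c) 0))
    (U := Submodule.span F {τ x c, τ x' c}) (fun v => Submodule.mem_span_pair.2
      ⟨-f.B (τ x' c) v, f.B (τ x c) v, by simp [ok.ei_apply]; abel⟩)
    (by have := CL.Tv.finrank_span_pair_le (F := F) (τ x c) (τ x' c); omega)
  have n1 : N c' = 0 := pure_inj (Tens.flip h) a0 (by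
    simpa [ok.ei_apply, S.mul, a1, a2] using (hN a c').symm)
  refine pure_ne_zero h x0 c0 ?_
  simpa [ok.ei_apply, S.mul, n1, h1, b2, b1 x (Submodule.mem_span_singleton_self x)] using hN b c'

end TQ

variable (X h f₂) in
/-- The central level. -/
def lvO [Finite F] : Submodule F (V₁ →ₗ[F] V₁) where
  carrier := {β | ∀ c, f₂.q c = 0 → Has X fun v => τ (β (et h f₂ c v)) c}
  zero_mem' c _ := Has.zero.congr fun v => by simp
  add_mem' ha hb c hc := ((ha c hc).add (hb c hc) fun v => by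
    simp [f₂.B_self_eq_zero hc]).congr fun v => by simp
  smul_mem' s β hβ c hc := by
    obtain ⟨a, b, rfl⟩ := exists_eq_sq_sub_sq s
    have k : ∀ a : F, Has X fun v => a ^ 2 • τ (β (et h f₂ c v)) c := fun a =>
      (hβ (a • c) (f₂.q_smul_eq_zero hc a)).congr fun v => by simp [et_smul, smul_smul, sq]
    exact ((k a).sub (k b) (fun v w => by simp [f₂.B_self_eq_zero hc]) fun v w => by
      simp [f₂.B_self_eq_zero hc]).congr fun v => by simp [sub_smul]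

variable (X τ f₂ c u) in
/-- The action of an element of the radical on `V₁ ⊗ c^⊥`. -/
structure Th (θ : V₂ →ₗ[F] V₁ →ₗ[F] V₁) : Prop where
  mem : u ∈ X
  fix : ∀ x, u (τ x c) = τ x c
  app : ∀ y, f₂.B c y = 0 → ∀ x, u (τ x y) = τ x y + τ (θ y x) c

theorem Th.inv {θ : V₂ →ₗ[F] V₁ →ₗ[F] V₁} (H : Th τ X f₂ c u θ) : Th τ X f₂ c u⁻¹ (-θ) :=
  ⟨X.inv_mem H.mem, fun x => inv_app_eq (H.fix x), fun y hy x =>
    inv_app_eq (by simp [H.app y hy, H.fix])⟩

theorem Th.conj {θ : V₂ →ₗ[F] V₁ →ₗ[F] V₁} (H : Th τ X f₂ c u θ) {A : V₁ ≃ₗ[F] V₁}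
    {e : V₂ ≃ₗ[F] V₂} (he : e ∈ f₂.O) (hk : kr h A e ∈ X) {l : F} (l0 : l ≠ 0) (hl : e c = l • c) :
    Th τ X f₂ c (kr h A e * u * (kr h A e)⁻¹) (l • cj A ∘ₗ θ ∘ₗ (e⁻¹ : V₂ ≃ₗ[F] V₂)) := by
  have hl' : e⁻¹ c = l⁻¹ • c := inv_app_eq (by simp [hl, smul_smul, l0])
  refine ⟨X.mul_mem (X.mul_mem hk H.mem) (X.inv_mem hk), fun x => ?_, fun y hy x => ?_⟩
  · simp [kr_inv_apply, hl', H.fix, hl, app_inv, smul_smul, l0]
  · simp [kr_inv_apply, H.app (e⁻¹ y) (by simp [← B_apply_left he, hl, hy]), hl, app_inv, cj_apply]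

theorem Th.theta_self (h : IsTensorProduct τ) {θ : V₂ →ₗ[F] V₁ →ₗ[F] V₁} (H : Th τ X f₂ c u θ)
    (hc : f₂.q c = 0) (c0 : c ≠ 0) : θ c = 0 := LinearMap.ext fun x => pure_inj h c0 (by
  simpa [H.fix] using H.app c (f₂.B_self_eq_zero hc) x)

theorem th_ei {y : V₂} (hc : f₂.q c = 0) (hy : f₂.B c y = 0)
    (hm : kr h 1 (f₂.ei c y (f₂.q y)) ∈ X) :
    Th τ X f₂ c (kr h 1 (f₂.ei c y (f₂.q y))) ((f₂.B (-y)).smulRight LinearMap.id) :=
  ⟨hm, fun x => by simp [(qok hc hy).ei_apply_u], fun d hd x => by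
    simp [quad_ei_perp hc hy hd, sub_eq_add_neg]⟩

variable (X h f f₁ f₂) in
/-- A proper overgroup of `O ⊗ O` in `Ω`. -/
structure SQ : Prop extends TQ h f f₁ f₂ where
  le : X ≤ f.E
  ge : Kron τ ⊓ f.E ≤ X
  ne : ¬ f.E ≤ X
  three : 3 ≤ finrank F V₁
  i₁ : 5 ≤ finrank F V₁ ∨ Idx1 f₁
  ex : 4 ≤ finrank F V₁ ∨ ∃ t : F, t ≠ 0 ∧ t ^ 2 ≠ 1
  four : 4 ≤ finrank F V₂
  i₂ : 5 ≤ finrank F V₂ ∨ Idx1 f₂

namespace SQ

variable (S : SQ X h f f₁ f₂)
include S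

theorem leO : X ≤ f.O := S.le.trans E_le_O

theorem nt : Nontrivial V₁ := Module.nontrivial_of_finrank_pos (R := F) (by have := S.three; omega)

theorem fd₁ : FiniteDimensional F V₁ := Module.finite_of_finrank_pos (by have := S.three; omega)

theorem fd₂ : FiniteDimensional F V₂ := Module.finite_of_finrank_pos (by have := S.four; omega)

theorem fd : FiniteDimensional F V := have := S.fd₁; have := S.fd₂; finiteDimensional h

theorem R {e : V₂ ≃ₗ[F] V₂} (he : e ∈ f₂.E) : kr h 1 e ∈ X :=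
  have := S.fd₁; have := S.fd₂; S.ge ⟨kr_mem h _ _, S.right_mem_E he⟩

theorem L {A : V₁ ≃ₗ[F] V₁} (hA : A ∈ f₁.E) : kr h A 1 ∈ X :=
  have := S.fd₁; have := S.fd₂; S.ge ⟨kr_mem h _ _, S.left_mem_E hA⟩

variable [Finite F] (hc : f₂.q c = 0) (c0 : c ≠ 0)
include hc c0

/-- The central level is trivial. -/
theorem cen (hz : z ∈ X) (hW : ∀ v, z v - v ∈ mem τ c) : z = 1 := by
  have := S.fd₁
  have := S.fd₂
  have cc := f₂.B_self_eq_zero hc
  obtain ⟨c', -, h1⟩ := S.nd₂.exists_partner' hc c0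
  have h1' : f₂.B c' c = 1 := by rw [f₂.quad_symm, h1]
  let β := et h f₂ c' ∘ₗ ((z : V →ₗ[F] V) - LinearMap.id) ∘ₗ τ.flip c'
  have e1 : ∀ v, z v = v + τ (β (et h f₂ c v)) c := fun v => by
    obtain ⟨a, ha⟩ := mem_mem.1 (hW (τ (et h f₂ c v) c'))
    have := S.fix_of_mem (S.leO hz) hW (w := v - τ (et h f₂ c v) c') (by simp [h1])
    simp only [β, LinearMap.comp_apply, LinearMap.flip_apply, LinearMap.sub_apply,
      LinearEquiv.coe_coe, LinearMap.id_apply, ← ha, et_pure, h1', one_smul]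
    rw [map_sub] at this
    linear_combination (norm := module) this - ha
  have hβ : β ∈ lvO X h f₂ := fun d hd => by
    rcases eq_or_ne d 0 with rfl | d0
    · exact Has.zero.congr fun v => by simp
    obtain ⟨e, he, rfl⟩ := exists_trans S.h2 S.nd₂ S.four S.i₂ hc c0 hd d0
    exact (Has.conj ⟨z, hz, e1⟩ (S.R he)).congr fun v => by
      rw [et_kr_inv _ (E_le_O he), kr_apply]; rfl
  by_contra z1
  refine S.ne (S.E_le_of_rad S.three hc c0 fun x y d hd => ?_)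
  obtain ⟨t, ht, e⟩ := skew_all S.nd₁ S.h2 S.three S.i₁ (R := lvO X h f₂)
    (fun A hA γ hγ c hc => ((hγ c hc).conj (S.L hA)).congr fun v => by
      rw [et_kr_inv _ f₂.O.one_mem, kr_apply]; rfl) hβ (fun x y => by
    have := mem_O_B (S.leO hz) (τ x c') (τ y c')
    simp [e1, h1, h1', S.mul, cc] at this
    linear_combination this) (fun e => z1 (LinearEquiv.ext fun v => by simp [e1, e])) x y d hd
  have ok : f.EichOK (τ x d) (τ y d) 0 :=
    ⟨S.q0 _ hd, by simp [S.mul, f₂.B_self_eq_zero hd], by simp [S.q0 _ hd]⟩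
  refine ⟨0, ok, ?_⟩
  convert ht using 1
  ext v
  simp [ok.ei_apply, e, wd_apply, S.B_pure, add_sub_assoc]

theorem comm {θ θ' : V₂ →ₗ[F] V₁ →ₗ[F] V₁} (H : Th τ X f₂ c u θ) (H' : Th τ X f₂ c z θ') {y : V₂}
    (hy : f₂.B c y = 0) {P : V₁ →ₗ[F] V₁} (hP : ∀ x x', f₁.B (P x) x' = f₁.B x (P x'))
    (e : ∀ d, f₂.B c d = 0 → θ' d = f₂.B y d • P) (x x' : V₁) :
    f₁.B x (θ y (P x')) = f₁.B (θ y (P x)) x' := by
  have := S.fd₂
  have cc := f₂.B_self_eq_zero hc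
  obtain ⟨c', -, h1⟩ := S.nd₂.exists_partner' hc c0
  have h1' : f₂.B c' c = 1 := by rw [f₂.quad_symm, h1]
  have k0 : ∀ w, et h f₂ c w = 0 → z w = w + τ (P (et h f₂ y w)) c := fun w hw =>
    sub_eq_zero.1 (mem_of_perp_pure' (h := h) (S := ⊥)
      (g := ((z : V →ₗ[F] V) - (LinearMap.id + τ.flip c ∘ₗ P ∘ₗ et h f₂ y)).toAddMonoidHom) h1
      (fun x d hd => by simp [H'.app d hd, e d hd]) hw)
  have k1 : ∀ v, z v - v + τ (P (et h f₂ c v)) y ∈ mem τ c := fun v =>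
    S.mem_of_et fun d hd => S.et_eq_zero fun x => by
      have hd' := f₂.B_eq_zero_symm hd
      have := mem_O_B (S.leO H'.mem) (τ x d) v
      rw [H'.app d hd', e d hd'] at this
      simp [S.B_pure (P x) c, S.et_of_fix (S.leO H'.mem) H'.fix] at this
      simp [S.mul, ← this, hP, f₂.quad_symm y d, mul_comm]
  have k2 : ∀ v, ∃ b, z v = v - τ (P (et h f₂ c v)) y + τ b c := fun v =>
    (mem_mem.1 (k1 v)).imp fun b hb => by rw [hb]; abel
  have k3 : ∀ v, et h f₂ c (u v - v) = 0 := fun v => by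
    simp [S.et_of_fix (S.leO H.mem) H.fix]
  have k4 : ∀ v, u (z v) - z (u v) =
      τ (-θ y (P (et h f₂ c v)) - P (et h f₂ y (u v - v))) c := fun v => by
    obtain ⟨b, hb⟩ := k2 v
    have := k0 _ (k3 v)
    rw [map_sub, sub_eq_iff_eq_add] at this
    rw [this, hb]
    generalize et h f₂ y (u v - v) = a
    simp [H.app y hy, H.fix]
    abel
  have k5 := S.cen hc c0 (X.mul_mem (X.inv_mem (X.mul_mem H'.mem H.mem)) (X.mul_mem H.mem H'.mem))
    fun v => by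
      have : ((z * u)⁻¹ * (u * z)) v - v = (z * u)⁻¹ (u (z v) - z (u v)) := by
        rw [map_sub, ← mul_app z u, inv_app]; rfl
      rw [this, k4, inv_app_eq (show (z * u) (τ _ c) = τ _ c by rw [mul_app, H.fix, H'.fix])]
      exact pure_mem _ _
  have k6 := k4 (τ x' c')
  rw [← mul_app u, ← mul_app z, ← inv_mul_eq_one.1 k5, sub_self] at k6
  have k7 := congrArg (fun v => f₁.B x (et h f₂ c' v)) k6
  have k8 := B_apply_left (f.O.inv_mem (S.leO H.mem)) (τ (P x) y) (τ x' c')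
  rw [H.inv.app y hy, inv_inv, S.B_pure (P x) y (u _)] at k8
  simp [h1, h1', S.mul, ← hP] at k7 k8
  linear_combination k7 + k8

/-- The space of actions of the radical. -/
def rad : Submodule F (V₂ →ₗ[F] V₁ →ₗ[F] V₁) where
  carrier := {θ | ∃ u, Th τ X f₂ c u θ}
  zero_mem' := ⟨1, X.one_mem, fun _ => rfl, by simp⟩
  add_mem' := by
    rintro θ θ' ⟨u, H⟩ ⟨u', H'⟩
    exact ⟨u * u', X.mul_mem H.mem H'.mem, fun x => by simp [H.fix, H'.fix], fun y hy x => by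
      simp [H.app y hy, H'.app y hy, H.fix, add_assoc]⟩
  smul_mem' := by
    have := S.fd₂
    rintro s θ ⟨u, H⟩
    obtain ⟨a, b, rfl⟩ := exists_eq_sq_sub_sq s
    have k : ∀ a : F, ∃ u, Th τ X f₂ c u (a ^ 2 • θ) := fun a => by
      rcases eq_or_ne a 0 with rfl | a0
      · exact ⟨1, X.one_mem, fun _ => rfl, by simp⟩
      obtain ⟨e, he, e1, e2⟩ := torus S.nd₂ (by have := S.four; omega) hc c0 a0
      have H' := H.conj (E_le_O he) (S.R he) (pow_ne_zero 2 a0) e1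
      refine ⟨_, H'.mem, H'.fix, fun y hy x => ?_⟩
      obtain ⟨t, ht⟩ := Submodule.mem_span_singleton.1 (e2 (e⁻¹ y) (by
        simp [← B_apply_left (E_le_O he), e1, hy]))
      rw [app_inv, eq_sub_iff_add_eq, ← eq_sub_iff_add_eq'] at ht
      simp [H'.app y hy, ht, H.theta_self h hc c0, cj_apply]
    obtain ⟨u, H⟩ := k a
    obtain ⟨u', H'⟩ := k b
    exact ⟨u * u'⁻¹, X.mul_mem H.mem H'.inv.mem, fun x => by simp [H.fix, H'.inv.fix],
      fun y hy x => by simp [H.app y hy, H'.inv.app y hy, H.fix, sub_smul]; abel⟩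

theorem th_scalar {θ : V₂ →ₗ[F] V₁ →ₗ[F] V₁} (H : Th τ X f₂ c u θ) {y : V₂} (hy : f₂.B c y = 0) :
    ∃ l : F, ∀ x, θ y x = l • x := by
  have := S.fd₁
  have := S.fd₂
  have cc := f₂.B_self_eq_zero hc
  obtain ⟨p, -, p0, hp⟩ := f₁.quad_iso3 ⊤ (by simpa using S.three)
  refine sym_scalar S.nd₁ S.h2 S.ex hp p0 (fun x x' => ?_) fun s hs => by_contra fun hn => ?_
  · simpa using (S.comm hc c0 H (th_ei hc (y := -y) (by simp [hy]) (S.R (ei_mem_E _ _ _))) hy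
      (P := LinearMap.id) (fun _ _ => rfl) (fun d _ => by ext; simp) x x').symm
  have s0 : s ≠ 0 := by rintro rfl; simp at hn
  obtain ⟨θ', ⟨z, H'⟩, e⟩ := exists_extract S.nd₁ S.h2 S.three S.ex hs s0 (M := S.rad hc c0)
    (fun A hA θ ⟨u, H⟩ => ⟨_, by simpa using H.conj f₂.O.one_mem (S.L hA) one_ne_zero (by simp)⟩)
    ⟨u, H⟩
  obtain ⟨y₀, hy₀⟩ := S.nd₂.exists_rep (f₁.B s ∘ₗ θ.flip s)
  simp only [LinearMap.comp_apply, LinearMap.flip_apply] at hy₀
  have y1 : f₂.B c y₀ = 0 := f₂.B_eq_zero_symm (by simp [hy₀, H.theta_self h hc c0])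
  have y2 : y₀ ∉ F ∙ c := fun e => by
    obtain ⟨a, rfl⟩ := Submodule.mem_span_singleton.1 e
    simp [← hy₀, hy] at hn
  obtain ⟨e₂, he, e1, e2⟩ : ∃ e ∈ f₂.E, e c = c ∧ f₂.B y₀ (e⁻¹ y₀) ≠ 0 := by
    by_cases hq : f₂.q y₀ = 0
    swap
    · exact ⟨1, f₂.E.one_mem, rfl, by simp [quad_B_self, hq, S.h2]⟩
    have h5 := S.i₂.resolve_right fun H => y2 (H c y₀ hc hq y1 c0)
    obtain ⟨p, p1, hp, p2⟩ := S.nd₂.exists_partner hq y2 (f₂.mem_perp_span_singleton.2 y1)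
    rw [mem_perp_span_singleton] at p1
    obtain ⟨v, hv, v0⟩ := exists_nonsing_perp S.nd₂ (Submodule.span F {c, y₀}) (by
      have := CL.Tv.finrank_span_pair_le (F := F) c y₀
      omega)
    rw [mem_perp_span_pair] at hv
    have p3 : f₂.B p y₀ = 1 := by rw [f₂.quad_symm, p2]
    have ok := qok (v := v - f₂.B p v • y₀) hp (by simp [p3])
    refine ⟨_, f₂.E.inv_mem (ei_mem_E _ _ _), inv_app_eq (ok.ei_apply_fix (f₂.B_eq_zero_symm p1)
      (by simp [f₂.quad_symm c, hv.1, y1])), ?_⟩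
    rw [inv_inv, ok.ei_apply]
    simp [p3, p2, hv.2, f₂.quad_symm y₀ v, f₂.B_self_eq_zero hq, q_sub, quad_q_smul, hq, v0]
  obtain ⟨s', hs', h1⟩ := S.nd₁.exists_partner' hs s0
  obtain ⟨v, v1, v2, v3⟩ := exists_nonsing_hyp S.nd₁ S.three hs hs' h1
  have hA := ei_mem_E (f := f₁) s' v (f₁.q v)
  have hk := X.mul_mem (S.L hA) (S.R he)
  rw [show kr h (f₁.ei s' v (f₁.q v)) 1 * kr h 1 e₂ = kr h (f₁.ei s' v (f₁.q v)) e₂ from
    equiv_ext h fun x y => by simp] at hk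
  have := S.comm hc c0 (H'.conj (E_le_O he) hk one_ne_zero (by simp [e1])) H' y1
    (P := (f₁.B s).smulRight s) (fun x x' => by simp [f₁.quad_symm s x, mul_comm])
    (fun d _ => by ext x; simp [e, hy₀, smul_smul]) s s'
  simp [cj_apply, e, ← hy₀, f₁.B_self_eq_zero hs, h1, e2, ← B_apply_left (E_le_O hA),
    quad_ei hs' v2, f₁.quad_symm s, v1, v3] at this

/-- The radical is the obvious one. -/
theorem of_QO (hu : u ∈ X) (hq : QO h f₂ c u) :
    ∃ t, f₂.B c t = 0 ∧ u = kr h 1 (f₂.ei c t (f₂.q t)) := by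
  have := S.fd₁
  have := S.fd₂
  have := S.nt
  obtain ⟨c', -, h1⟩ := S.nd₂.exists_partner' hc c0
  have h1' : f₂.B c' c = 1 := by rw [f₂.quad_symm, h1]
  let θ : V₂ →ₗ[F] V₁ →ₗ[F] V₁ := τ.flip.compr₂ (et h f₂ c' ∘ₗ ((u : V →ₗ[F] V) - LinearMap.id))
  have H : Th τ X f₂ c u θ := ⟨hu, hq.1, fun y hy x => by
    obtain ⟨a, ha⟩ := mem_mem.1 (hq.2 (τ x y) (by simp [hy]))
    simp [θ, ← ha, h1', ← sub_eq_iff_eq_add']⟩
  obtain ⟨x0, hx0⟩ := exists_ne (0 : V₁)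
  obtain ⟨α, hα⟩ := Module.Projective.exists_dual_eq_one F hx0
  obtain ⟨t, ht⟩ := S.nd₂.exists_rep (-(α ∘ₗ θ.flip x0))
  have e2 : f₂.B c t = 0 := f₂.B_eq_zero_symm (by simp [ht, H.theta_self h hc c0])
  have hm := S.R (ei_mem_E (f := f₂) c t (f₂.q t))
  have hr := X.mul_mem (X.inv_mem hm) hu
  have e3 : ∀ v, et h f₂ c v = 0 → ((kr h 1 (f₂.ei c t (f₂.q t)))⁻¹ * u) v = v := fun v hv =>
    inv_app_eq (sub_eq_zero.1 (mem_of_perp_pure' (h := h) (S := ⊥) (g := ((u : V →ₗ[F] V) -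
      (kr h 1 (f₂.ei c t (f₂.q t)) : V →ₗ[F] V)).toAddMonoidHom) h1 (fun x y hy => by
        obtain ⟨l, hl⟩ := S.th_scalar hc c0 H hy
        simp [H.app y hy, quad_ei_perp hc e2 hy, ht, hl, hα]) hv)).symm
  exact ⟨t, e2, (inv_mul_eq_one.1 (S.cen hc c0 hr fun v => S.mem_of_perp fun w hw => by
    rw [map_sub, ← e3 w hw, mem_O_B (S.leO hr), e3 w hw, sub_self])).symm⟩

/-- The stabilizer of a member lies in the Kronecker subgroup. -/
theorem stab_kron (hz : z ∈ X) (hW : ∀ w ∈ mem τ c, z w ∈ mem τ c) : z ∈ Kron τ := by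
  have := S.fd₁
  have := S.fd₂
  have := S.fd
  have := S.nt
  have cc := f₂.B_self_eq_zero hc
  have zO := S.leO hz
  obtain ⟨D, hD⟩ := exists_left_of_stab h c0 hW
  obtain ⟨c', hc', h1⟩ := S.nd₂.exists_partner' hc c0
  have h1' : f₂.B c' c = 1 := by rw [f₂.quad_symm, h1]
  have cc' := f₂.B_self_eq_zero hc'
  let D' : V₁ →ₗ[F] V₁ := et h f₂ c ∘ₗ (z : V →ₗ[F] V) ∘ₗ τ.flip c'
  have hD' : ∀ x x', f₁.B (D x) (D' x') = f₁.B x x' := fun x x' => by
    change f₁.B (D x) (et h f₂ c (z (τ x' c'))) = _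
    rw [← S.B_pure, ← hD, mem_O_B zO, S.mul, h1, mul_one]
  have e3 : ∀ y, f₂.B c y = 0 → ∃ t, f₂.B c t = 0 ∧ ∀ x, z (τ x y) - τ (D' x) t ∈ mem τ c := by
    intro y hy
    have ok := qok hc hy
    obtain ⟨t, ht, e⟩ := S.of_QO hc c0
      (X.mul_mem (X.mul_mem hz (S.R (ei_mem_E c y (f₂.q y)))) (X.inv_mem hz))
      ⟨fun x => by
        rw [mul_app, mul_app, ← app_inv D x, inv_app_eq (hD _), kr_apply, ok.ei_apply_u, hD]; rfl,
      fun v hv => by
        have : et h f₂ c (z⁻¹ v) = 0 := S.et_eq_zero fun x => by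
          rw [← B_apply_left zO, hD, S.B_pure, hv, map_zero]
        simpa [kr_ei_apply ok, this, app_inv] using hW _ (pure_mem _ _)⟩
    refine ⟨t, ht, fun x => ?_⟩
    have := congrArg (fun k : V ≃ₗ[F] V => k (z (τ x c'))) e
    simp only [mul_app, inv_app, kr_ei_apply ok, kr_ei_apply (qok hc ht), map_sub, map_add, map_smul,
      et_pure, h1, one_smul, FormType.quad_ε] at this
    refine ⟨D (f₂.B y c' • x + f₂.q y • x) - (et h f₂ t (z (τ x c')) + f₂.q t • D' x), ?_⟩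
    simp only [D', LinearMap.flip_apply, map_sub, map_add, map_smul, LinearMap.add_apply,
      LinearMap.smul_apply, LinearMap.comp_apply, LinearEquiv.coe_coe, hD] at this ⊢
    linear_combination (norm := module) -this
  obtain ⟨x0, hx0⟩ := exists_ne (0 : V₁)
  obtain ⟨x1, hx1⟩ := S.nd₁.exists_B_eq hx0 1
  have e4 : ∀ y y' t t' x x', f₂.B c t = 0 → f₂.B c t' = 0 → z (τ x y) - τ (D' x) t ∈ mem τ c →
      z (τ x' y') - τ (D' x') t' ∈ mem τ c →
      f₁.B (D' x) (D' x') * f₂.B t t' = f₁.B x x' * f₂.B y y' := by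
    rintro y y' t t' x x' ht ht' ⟨a, ha⟩ ⟨b, hb⟩
    have := mem_O_B zO (τ x y) (τ x' y')
    rw [← sub_add_cancel (z (τ x y)), ← ha, ← sub_add_cancel (z (τ x' y')), ← hb] at this
    simpa [S.mul, ht', f₂.B_eq_zero_symm ht, cc] using this
  obtain ⟨m, m0, hm⟩ : ∃ m : F, m ≠ 0 ∧ ∀ x, D' x = m • D x := by
    obtain ⟨y, y1, -, y3⟩ := exists_nonsing_hyp S.nd₂ (by have := S.four; omega) hc hc' h1
    obtain ⟨t, ht, e⟩ := e3 y y1
    have k := fun x x' => e4 y y t t x x' ht ht (e x) (e x')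
    have y4 : f₂.B y y ≠ 0 := by simp [quad_B_self, y3, S.h2]
    have t0 : f₂.B t t ≠ 0 := fun e => y4 (by simpa [e, hx1] using (k x0 x1).symm)
    refine ⟨f₂.B y y / f₂.B t t, div_ne_zero y4 t0, fun x => S.nd₁.ext_left fun w => ?_⟩
    obtain ⟨w, rfl⟩ := LinearMap.injective_iff_surjective.1 ((injective_iff_map_eq_zero D').2
      fun x e => S.nd₁.right x fun x' => by rw [← hD', e, map_zero]) w
    simp only [B_smul_left, FormType.quad_σ, hD']
    field_simp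
    linear_combination k x w
  have hDm : ∀ x y, f₁.B (D x) (D y) = m⁻¹ * f₁.B x y := fun x y => by
    simp [← hD' x y, hm, m0]
  obtain ⟨α, hα⟩ := Module.Projective.exists_dual_eq_one F (show D x0 ≠ 0 by simpa using hx0)
  let B0 : V₂ →ₗ[F] V₂ := cl h α ∘ₗ (z : V →ₗ[F] V) ∘ₗ τ x0
  have hB0 : B0 c = c := by simp [B0, hD, hα]
  have hB : ∀ y, f₂.B c y = 0 → f₂.B c (B0 y) = 0 ∧ ∀ x, z (τ x y) - τ (D x) (B0 y) ∈ mem τ c := by
    intro y hy
    obtain ⟨t, ht, e⟩ := e3 y hy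
    obtain ⟨a, ha⟩ := mem_mem.1 (e x0)
    have e4 : B0 y = m • t + α a • c := by
      have := congrArg (cl h α) ha
      simp only [map_sub, cl_apply, hm, map_smul] at this
      rw [this]; simp [B0, hα]
    refine ⟨by simp [e4, ht, cc], fun x => ?_⟩
    convert Submodule.sub_mem _ (e x) (pure_mem (τ := τ) (α a • D x) c) using 1
    simp [e4, hm]; abel
  have hBm : ∀ y y', f₂.B c y = 0 → f₂.B c y' = 0 → f₂.B (B0 y) (B0 y') = m * f₂.B y y' := by
    intro y y' hy hy'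
    have := e4 y y' (m⁻¹ • B0 y) (m⁻¹ • B0 y') x0 x1 (by simp [(hB y hy).1]) (by simp [(hB y' hy').1])
      (by simpa [hm, smul_smul, m0] using (hB y hy).2 x0)
      (by simpa [hm, smul_smul, m0] using (hB y' hy').2 x1)
    simp [hm, hDm, hx1, m0] at this
    rw [← this]; field_simp
  let π : V₂ →ₗ[F] V₂ := LinearMap.id - (f₂.B c').smulRight c - (f₂.B c).smulRight c'
  have hπ : ∀ y, π y = y - f₂.B c' y • c - f₂.B c y • c' := fun _ => rfl
  have π1 : ∀ y, f₂.B c (π y) = 0 := fun y => by simp [hπ, h1, cc]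
  let B1 : V₂ →ₗ[F] V₂ := π ∘ₗ B0 ∘ₗ π + (f₂.B c').smulRight c + m • (f₂.B c).smulRight c'
  have hB1 : ∀ y, B1 y = B0 (π y) + (f₂.B c' y - f₂.B c' (B0 (π y))) • c +
      (m * f₂.B c y) • c' := fun y => by
    simp only [B1, LinearMap.add_apply, LinearMap.comp_apply, hπ (B0 _),
      (hB _ (π1 y)).1, LinearMap.smul_apply, LinearMap.smulRight_apply]
    module
  have hB2 : ∀ y y', f₂.B (B1 y) (B1 y') = m * f₂.B y y' := fun y y' => by
    have p1 := (hB _ (π1 y)).1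
    have p2 := (hB _ (π1 y')).1
    have p3 := hBm _ _ (π1 y) (π1 y')
    rw [hB1, hB1]
    generalize B0 (π y) = u at *
    generalize B0 (π y') = u' at *
    simp [hπ, h1, h1', p2, f₂.quad_symm c u, f₂.quad_symm c' u, p1, f₂.quad_symm c y,
      f₂.quad_symm c' y, cc, cc'] at p3 ⊢
    linear_combination p3
  let B : V₂ ≃ₗ[F] V₂ := LinearEquiv.ofInjectiveEndo B1 (by
    rw [← LinearMap.ker_eq_bot, eq_bot_iff]
    intro d hd
    refine S.nd₂ d fun y => ?_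
    simpa [LinearMap.mem_ker.1 hd, m0] using hB2 d y)
  have Ba : ∀ d, B d = B1 d := fun _ => rfl
  have Bc : B c = c := by simp [Ba, hB1, hπ, h1', cc]
  have hk : ∀ w ∈ mem τ c, (kr h D B)⁻¹ w ∈ mem τ c := inv_mem_of_stab fun w hw => by
    obtain ⟨x, rfl⟩ := mem_mem.1 hw
    rw [kr_apply, Bc]; exact pure_mem _ _
  have hq : QO h f₂ c ((kr h D B)⁻¹ * z) := by
    refine ⟨fun x => by rw [mul_app, hD]; exact inv_app_eq (by rw [kr_apply, Bc]), fun v hv => ?_⟩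
    refine mem_of_perp_pure' (S := (mem τ c).toAddSubgroup) (g := ((((kr h D B)⁻¹ * z :
      V ≃ₗ[F] V) : V →ₗ[F] V) - LinearMap.id).toAddMonoidHom) h1 (fun x y hy => ?_) hv
    have := hk _ (Submodule.add_mem _ ((hB y hy).2 x)
      (pure_mem (τ := τ) ((f₂.B c' (B0 (π y))) • D x) c))
    have e5 : τ (D x) (B0 y) - τ (f₂.B c' (B0 (π y)) • D x) c = kr h D B (τ x y) := by
      rw [kr_apply, Ba, hB1]; simp [hπ y, hy, hB0, sub_smul]
    rwa [sub_add, e5, map_sub, inv_app] at this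
  have kO : kr h D B ∈ f.O := mem_O_of_B S.h2 fun v w => by
    refine h.inductionOn v (by simp) (fun x d => ?_) fun a b ha hb => by simp [ha, hb]
    refine h.inductionOn w (by simp) (fun x' d' => ?_) fun a b ha hb => by
      simp only [map_add, ha, hb]
    simp only [kr_apply, S.mul, hDm, Ba, hB2]
    field_simp
  have hkX := S.ge ⟨kr_mem h D B, by simpa using f.E.mul_mem (S.le hz) (f.E.inv_mem
    (S.mem_E_of_QO hc (f.O.mul_mem (f.O.inv_mem kO) zO) hq))⟩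
  obtain ⟨t, -, e⟩ := S.of_QO hc c0 (X.mul_mem (X.inv_mem hkX) hz) hq
  have h5 := (Kron τ).mul_mem (kr_mem h D B) (kr_mem h 1 (f₂.ei c t (f₂.q t)))
  rwa [← e, mul_inv_cancel_left] at h5

theorem kron_of_map (hc' : f₂.q c' = 0) (c0' : c' ≠ 0) (hz : z ∈ X)
    (hW : ∀ w ∈ mem τ c, z w ∈ mem τ c') : z ∈ Kron τ := by
  have := S.fd₂
  obtain ⟨e, he, e1⟩ := exists_trans S.h2 S.nd₂ S.four S.i₂ hc' c0' hc c0
  simpa using (Kron τ).mul_mem ((Kron τ).inv_mem (Tens.kr_mem h 1 e))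
    (S.stab_kron hc c0 (X.mul_mem (S.R he) hz) fun w hw => by
      obtain ⟨x, hx⟩ := mem_mem.1 (hW w hw)
      rw [mul_app, ← hx, kr_apply, e1]
      exact pure_mem _ _)

end SQ

end CL.Tens
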