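/-
Tensor products of orthogonal spaces: recognition of the root elements of the larger factor.
-/
import Mathlib
import Cfsg.Agent.CLAS.TensO2

namespace CL.Tens

open Module CL.ExtF CL.Witt CL.Witt.Form CL.Root CL.Uniq

attribute [-simp] LinearEquiv.coe_inv
attribute [local simp] FormType.quad_σ FormType.quad_ε FormType.quad_π

variable {F : Type*} [Field F] {V₁ V₂ V : Type*} [AddCommGroup V₁] [Module F V₁] [AddCommGroup V₂]
  [Module F V₂] [AddCommGroup V] [Module F V] {τ : V₁ →ₗ[F] V₂ →ₗ[F] V}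
  {X : Subgroup (V ≃ₗ[F] V)} {h : IsTensorProduct τ} {f : Form (FormType.quad F) V}
  {f₁ : Form (FormType.quad F) V₁} {f₂ : Form (FormType.quad F) V₂} {c c' y : V₂}
  {g z : V ≃ₗ[F] V}

theorem sub_pow_card [Fintype F] [Nontrivial V] (A : Module.End F V) (l : F) :
    (A - l • 1) ^ Fintype.card F = A ^ Fintype.card F - l • 1 := by
  obtain ⟨n, hp, hq⟩ := FiniteField.card F (ringChar F)
  have : Fact (ringChar F).Prime := ⟨hp⟩
  have := charP_of_injective_algebraMap (algebraMap F (Module.End F V)).injective (ringChar F)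
  rw [hq, sub_pow_char_pow_of_commute _ _ ((Commute.one_right A).smul_right l), smul_pow, one_pow,
    ← hq, FiniteField.pow_card]

/-- The displacement of a linear automorphism. -/
def dl (z : V ≃ₗ[F] V) : Module.End F V := (z : V →ₗ[F] V) - 1

theorem dl_apply (v : V) : dl z v = z v - v := rfl

theorem dl_conj (v : V) : dl (g * z * g⁻¹) v = g (dl z (g⁻¹ v)) := by simp [dl_apply, app_inv]

theorem dl_conj_cube (H : dl z ^ 3 = 0) : dl (g * z * g⁻¹) ^ 3 = 0 := by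
  ext v
  simpa [pow_succ, dl_conj, inv_app] using congrArg (fun N : Module.End F V => N (g⁻¹ v)) H

theorem fix_of_perp {T : FormType F} {f : Form T V} (hf : f.Nondeg) (hz : z ∈ f.O)
    {W : Submodule F V} (H : ∀ v, z v - v ∈ W) {w : V} (hw : ∀ v ∈ W, f.B v w = 0) : z w = w :=
  hf.ext_right fun v => by
    obtain ⟨v, rfl⟩ := z.surjective v
    have := hw _ (H v)
    rw [map_sub, LinearMap.sub_apply, sub_eq_zero] at this
    rw [mem_O_B hz, this]

theorem kr_ei_sub_mem {a : F} (ok : f₂.EichOK c y a) (v : V) :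
    kr h 1 (f₂.ei c y a) v - v ∈ mem τ c ⊔ mem τ y := by
  convert Submodule.add_mem_sup (pure_mem (τ := τ) (-(et h f₂ y v + a • et h f₂ c v)) c)
    (pure_mem (τ := τ) (et h f₂ c v) y) using 1
  simp [kr_ei_apply ok]
  abel

theorem kr_ei_ne_one [FiniteDimensional F V₂] [Nontrivial V₁] (hf : f₂.Nondeg) {a : F}
    (ok : f₂.EichOK c y a) (c0 : c ≠ 0) (hy : y ∉ F ∙ c) : kr h 1 (f₂.ei c y a) ≠ 1 := fun e => by
  obtain ⟨x, hx⟩ := exists_ne (0 : V₁)
  obtain ⟨d, d1, d2⟩ := hf.exists_perp_eq' hy 1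
  refine pure_ne_zero h hx c0 ?_
  simpa [ok.ei_apply_of_perp (d1 c (Submodule.mem_span_singleton_self c)), d2] using
    congrArg (fun k : V ≃ₗ[F] V => k (τ x d)) e

theorem kr_ei_cube (hc : f₂.q c = 0) (hy : f₂.B c y = 0) :
    dl (kr h 1 (f₂.ei c y (f₂.q y))) ^ 3 = 0 := ext_of h fun x d => by
  simp [pow_succ, dl_apply, quad_ei hc hy, hy, f₂.B_self_eq_zero hc, f₂.B_eq_zero_symm hy,
    quad_B_self]
  module

/-- A similarity that is a scalar on a hyperplane and has a single eigenvalue is a scalar. -/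
theorem scalar_of_ker [FiniteDimensional F V] (hf : f.Nondeg) (h2 : (2 : F) ≠ 0)
    (h3 : 3 ≤ finrank F V) {A : Module.End F V} {ν l : F} (l0 : l ≠ 0)
    (hA : ∀ x y, f.B (A x) (A y) = ν * f.B x y) {k : ℕ} (hN : (A - l • 1) ^ k = 0)
    (hK : finrank F V ≤ finrank F (LinearMap.ker (A - l • 1)) + 1) (x : V) : A x = l • x := by
  obtain ⟨N, rfl⟩ : ∃ N, A = N + l • 1 := ⟨A - l • 1, by simp⟩
  rw [add_sub_cancel_right] at hN hK
  by_contra hx
  replace hx : x ∉ LinearMap.ker N := fun e => hx (by simp [LinearMap.mem_ker.1 e])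
  have hd : ∀ v, ∃ k ∈ LinearMap.ker N, ∃ t : F, k + t • x = v := fun v => by
    have := Submodule.finrank_lt_finrank_of_lt (s := LinearMap.ker N)
      (t := LinearMap.ker N ⊔ F ∙ x) (lt_of_le_of_ne le_sup_left fun e => hx (e.ge
        (Submodule.mem_sup_right (Submodule.mem_span_singleton_self x))))
    obtain ⟨k, hk, _, hw, e⟩ := Submodule.mem_sup.1 ((Submodule.eq_top_of_finrank_eq
      (S := LinearMap.ker N ⊔ F ∙ x) (le_antisymm (Submodule.finrank_le _) (by omega))).ge (Submodule.mem_top (x := v)))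
    obtain ⟨t, rfl⟩ := Submodule.mem_span_singleton.1 hw
    exact ⟨k, hk, t, e⟩
  obtain ⟨a, ha, a0⟩ : ∃ a ∈ LinearMap.ker N, f.q a ≠ 0 := by
    by_contra! H
    have := ((f.quad_totSing_iff _).2 H).two_mul_finrank_le hf
    omega
  have hν : ν = l * l := by
    have := hA a a
    simp [LinearMap.mem_ker.1 ha, quad_B_self, a0, h2, ← mul_assoc] at this
    exact this.symm
  have k1 : ∀ k ∈ LinearMap.ker N, f.B k (N x) = 0 := fun k hk => by
    have := hA k x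
    simpa [LinearMap.mem_ker.1 hk, hν, mul_add, mul_assoc, l0] using this
  obtain ⟨k, hk, t, e⟩ := hd (N x)
  have k2 : N x ∈ LinearMap.ker N := by
    by_contra hn
    have e1 : N (N x) = t • N x := by
      conv_lhs => rw [← e, map_add, LinearMap.mem_ker.1 hk, zero_add, map_smul]
    refine hx (eq_zero_of_pow_inj (S := F ∙ N x) (fun w hw => ?_) (fun w hw e2 => ?_) hN
      (Submodule.mem_span_singleton_self _)) <;>
    obtain ⟨s, rfl⟩ := Submodule.mem_span_singleton.1 hw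
    · rw [map_smul, e1]
      exact Submodule.smul_mem _ _ (Submodule.smul_mem _ _ (Submodule.mem_span_singleton_self _))
    · rw [map_smul, smul_eq_zero] at e2
      rw [e2.resolve_right hn, zero_smul]
  have k3 : f.B x (N x) = 0 := by
    have := hA x x
    simp [k1 _ k2, hν, f.quad_symm x (N x)] at this
    exact mul_left_cancel₀ (mul_ne_zero h2 l0) (by linear_combination this)
  refine hx (hf.right _ fun v => ?_)
  obtain ⟨k, hk, t, rfl⟩ := hd v
  simp [k1 k hk, k3]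

/-- A unipotent element of the Kronecker subgroup of small rank acts on the second factor only. -/
theorem TQ.rec_right [Finite F] [FiniteDimensional F V₁] [FiniteDimensional F V₂]
    (S : TQ h f f₁ f₂) (h3 : 3 ≤ finrank F V₁) (hz : z ∈ Kron τ) (zO : z ∈ f.O) (hp : dl z ^ 3 = 0)
    {G : Submodule F V} (hG : ∀ v, z v - v ∈ G) (hlt : finrank F G < 2 * finrank F V₂) :
    ∃ N : V₂ →ₗ[F] V₂, ∀ x y, dl z (τ x y) = τ x (N y) := by
  have := finiteDimensional h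
  have := Fintype.ofFinite F
  have : Nontrivial V₁ := Module.nontrivial_of_finrank_pos (R := F) (by omega)
  have : Nontrivial V₂ := Module.nontrivial_of_finrank_pos (R := F) (by omega)
  obtain ⟨x0, hx0⟩ := exists_ne (0 : V₁)
  obtain ⟨y0, hy0⟩ := exists_ne (0 : V₂)
  have : Nontrivial V := ⟨_, _, pure_ne_zero h hx0 hy0⟩
  obtain ⟨A, B, H⟩ := hz
  have hq : (z : Module.End F V) ^ Fintype.card F = 1 := by
    have := sub_pow_card (z : Module.End F V) 1
    rw [one_smul, eq_comm, ← dl, pow_eq_zero_of_le (by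
      have := Fintype.one_lt_card (α := F)
      have : Fintype.card F ≠ 2 := fun e => S.h2 (by
        simpa [e] using FiniteField.cast_card_eq_zero F)
      omega) hp] at this
    exact sub_eq_zero.1 this
  have Hn : ∀ (n : ℕ) x y, ((z : Module.End F V) ^ n) (τ x y) =
      τ (((A : Module.End F V₁) ^ n) x) (((B : Module.End F V₂) ^ n) y) := fun n x y => by
    induction n with
    | zero => simp
    | succ n ih => simp [pow_succ', ih, H]
  obtain ⟨ψ, hψ⟩ := Module.Projective.exists_dual_eq_one F hy0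
  have e1 : ∀ x, ψ (((B : Module.End F V₂) ^ Fintype.card F) y0) •
      ((A : Module.End F V₁) ^ Fintype.card F) x = x := fun x => by
    simpa [hq, hψ] using congrArg (ct h ψ) (Hn (Fintype.card F) x y0).symm
  generalize ψ (((B : Module.End F V₂) ^ Fintype.card F) y0) = l at e1
  have l0 : l ≠ 0 := by rintro rfl; exact hx0 (by simpa using (e1 x0).symm)
  have hN : ((A : Module.End F V₁) - l⁻¹ • 1) ^ Fintype.card F = 0 := by
    rw [sub_pow_card, sub_eq_zero]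
    ext x
    exact (eq_inv_smul_iff₀ l0).2 (e1 x)
  obtain ⟨y1, hy1⟩ := S.nd₂.exists_B_eq hy0 1
  have hA : ∀ x x', f₁.B (A x) (A x') = (f₂.B (B y0) (B y1))⁻¹ * f₁.B x x' := by
    have k : ∀ x x', f₁.B (A x) (A x') * f₂.B (B y0) (B y1) = f₁.B x x' := fun x x' => by
      simpa [H, S.mul, hy1] using mem_O_B zO (τ x y0) (τ x' y1)
    obtain ⟨x1, hx1⟩ := S.nd₁.exists_B_eq hx0 1
    have : f₂.B (B y0) (B y1) ≠ 0 := fun e => by simpa [e, hx1] using k x0 x1
    intro x x'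
    rw [← k x x']; field_simp
  have := scalar_of_ker S.nd₁ S.h2 h3 (inv_ne_zero l0) hA hN (by
    by_contra hK
    obtain ⟨C, hC⟩ := Submodule.exists_isCompl (LinearMap.ker ((A : Module.End F V₁) - l⁻¹ • 1))
    have d1 := Submodule.finrank_add_eq_of_isCompl hC
    let U : Submodule F V := ⨅ ψ, C.comap (ct h ψ)
    have d2 := mul_finrank_le h C (U := U) fun x hx y => (Submodule.mem_iInf _).2 fun ψ => by
      simpa using C.smul_mem _ hx
    have d3 := LinearMap.finrank_le_finrank_of_injective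
      (f := (dl z ∘ₗ U.subtype).codRestrict G fun v => hG v) (by
        rw [injective_iff_map_eq_zero]
        rintro ⟨v, hv⟩ e
        replace e : z v = v := sub_eq_zero.1 (congrArg Subtype.val e)
        refine Subtype.ext (eq_zero_of_ct h fun ψ => eq_zero_of_pow_inj
          (S := LinearMap.range ((ct h).flip v)) ?_ ?_ hN ⟨ψ, rfl⟩)
        · rintro _ ⟨φ, rfl⟩
          refine ⟨φ ∘ₗ (B⁻¹ : V₂ ≃ₗ[F] V₂) - l⁻¹ • φ, ?_⟩
          have := ct_of_kron h H (φ ∘ₗ (B⁻¹ : V₂ ≃ₗ[F] V₂)) v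
          rw [e, show (φ ∘ₗ (B⁻¹ : V₂ ≃ₗ[F] V₂)) ∘ₗ (B : V₂ →ₗ[F] V₂) = φ by
            ext y; simp [inv_app]] at this
          simp [this]
        · rintro _ ⟨φ, rfl⟩ e
          exact (Submodule.disjoint_def.1 hC.disjoint) _ e ((Submodule.mem_iInf _).1 hv φ))
    have : 2 * finrank F V₂ ≤ finrank F C * finrank F V₂ := Nat.mul_le_mul_right _ (by omega)
    omega)
  simp only [LinearEquiv.coe_coe] at this
  exact ⟨l⁻¹ • (B : V₂ →ₗ[F] V₂) - LinearMap.id, fun x y => by simp [dl_apply, H, this]⟩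

theorem finrank_sup_mem_le [FiniteDimensional F V₁] [FiniteDimensional F V]
    (c d : V₂) : finrank F (mem τ c ⊔ mem τ d : Submodule F V) ≤ 2 * finrank F V₁ := by
  have := Submodule.finrank_add_le_finrank_add_finrank (mem τ c) (mem τ d)
  have := LinearMap.finrank_range_le (τ.flip c)
  have := LinearMap.finrank_range_le (τ.flip d)
  unfold mem at *
  omega

namespace SQ

variable (S : SQ X h f f₁ f₂) [Finite F] (lt : finrank F V₁ < finrank F V₂) (hc : f₂.q c = 0)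
include S

omit [Finite F] in
theorem q_eq_zero_of_mem {W : Submodule F V} (hW : ∀ w ∈ W, f.q w = 0) (hg : g ∈ X) {e : V₂}
    (H : ∀ x, g⁻¹ (τ x e) ∈ W) : f₂.q e = 0 := by
  have := S.nt
  obtain ⟨x, hx⟩ := exists_q_ne S.nd₁
  simpa [mem_O_q (f.O.inv_mem (S.leO hg)), S.q_pure, S.h2, hx] using hW _ (H x)

include lt in
theorem rec_conj (hg : g ∈ X) (hz : z ∈ X) (hp : dl z ^ 3 = 0) {d d' : V₂}
    (hW : ∀ v, z v - v ∈ mem τ d ⊔ mem τ d') (e : g * z * g⁻¹ ∈ Kron τ) :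
    ∃ N : V₂ →ₗ[F] V₂, ∀ x y, g⁻¹ (τ x (N y)) = dl z (g⁻¹ (τ x y)) := by
  have := S.fd₁
  have := S.fd₂
  have := S.fd
  refine (S.rec_right S.three e (S.leO (X.mul_mem (X.mul_mem hg hz) (X.inv_mem hg)))
    (dl_conj_cube hp) (G := (mem τ d ⊔ mem τ d').map (g : V →ₗ[F] V))
    (fun v => ⟨_, hW (g⁻¹ v), (dl_conj v).symm⟩) (by
      have := finrank_sup_mem_le (τ := τ) d d'
      rw [LinearEquiv.finrank_map_eq]; omega)).imp fun N hN x y => ?_
  rw [← hN, dl_conj, inv_app]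

include lt hc

theorem nrmA (c0 : c ≠ 0) (hy : f₂.B c y = 0) (y0 : f₂.q y ≠ 0) :
    Nrm X (Kron τ) (kr h 1 (f₂.ei c y (f₂.q y))) := by
  have := S.fd₂
  have := S.nt
  have ok := qok hc hy
  have cc := f₂.B_self_eq_zero hc
  have hm := S.R (ei_mem_E (f := f₂) c y (f₂.q y))
  refine ⟨hm, kr_mem h _ _, fun g hg e => ?_⟩
  obtain ⟨N, hN⟩ := S.rec_conj lt hg hm (kr_ei_cube hc hy) (d := c) (d' := y) 
    (kr_ei_sub_mem ok) e
  have k : ∀ v, dl (kr h 1 (f₂.ei c y (f₂.q y))) (dl (kr h 1 (f₂.ei c y (f₂.q y))) v) =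
      τ (-(2 * f₂.q y) • et h f₂ c v) c := fun v => by
    simp [dl_apply, kr_ei_apply ok, hy, cc, ok.hvu, quad_B_self]
  obtain ⟨d, hd⟩ : ∃ d, N (N d) ≠ 0 := by
    by_contra! H
    obtain ⟨x, hx⟩ := exists_ne (0 : V₁)
    obtain ⟨c', h1⟩ := S.nd₂.exists_B_eq c0 1
    have := LinearMap.congr_fun (ext_of h (f := et h f₂ c ∘ₗ (g⁻¹ : V ≃ₗ[F] V)) (g := 0)
      fun x d => smul_right_injective _ (neg_ne_zero.2 (mul_ne_zero S.h2 y0)) (pure_inj h c0 (by
        simpa [← hN, H] using (k (g⁻¹ (τ x d))).symm))) (g (τ x c'))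
    simp [inv_app, h1, hx] at this
  have H : ∀ x, g⁻¹ (τ x (N (N d))) ∈ mem τ c := fun x => by
    rw [hN, hN, k]; exact pure_mem _ _
  simpa using (Kron τ).inv_mem (S.kron_of_map (S.q_eq_zero_of_mem (by
    rintro _ ⟨x, rfl⟩; exact S.q0 x hc) hg H) hd hc c0 (X.inv_mem hg) (by
      rintro _ ⟨x, rfl⟩; exact H x))

variable (h5 : 5 ≤ finrank F V₂) (c0 : c ≠ 0) (hc' : f₂.q c' = 0) (e0 : f₂.B c c' = 0)
include h5 c0 hc' e0

theorem kron_of_le (hg : g ∈ X) {e : V₂} (he : e ≠ 0) (H : ∀ x, g⁻¹ (τ x e) ∈ mem τ c ⊔ mem τ c') :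
    g ∈ Kron τ := by
  have := S.fd₂
  obtain ⟨y, hy, y0⟩ := exists_nonsing_perp S.nd₂ (Submodule.span F {c, c'}) (by
    have := CL.Tv.finrank_span_pair_le (F := F) c c'
    omega)
  rw [mem_perp_span_pair] at hy
  have n := S.nrmA lt hc c0 hy.1 y0
  refine n.of_conj g hg (S.stab_kron (S.q_eq_zero_of_mem (fun w hw => ?_) hg H) he
    (X.mul_mem (X.mul_mem hg n.memX) (X.inv_mem hg)) ?_)
  · obtain ⟨_, ⟨a, rfl⟩, _, ⟨b, rfl⟩, rfl⟩ := Submodule.mem_sup.1 hw
    simp [quad_q_add, S.q0 _ hc, S.q0 _ hc', S.mul, e0]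
  · rintro _ ⟨x, rfl⟩
    obtain ⟨_, ⟨a, rfl⟩, _, ⟨b, rfl⟩, e⟩ := Submodule.mem_sup.1 (H x)
    have ok := qok hc hy.1
    simp only [LinearMap.flip_apply, mul_app] at e ⊢
    rw [← e, map_add, kr_apply, kr_apply, ok.ei_apply_u, ok.ei_apply_fix e0
      (f₂.B_eq_zero_symm hy.2), LinearEquiv.coe_one, id, id, e, app_inv]
    exact pure_mem _ _

omit lt h5 c0 [Finite F] in
theorem fix_of_le (hz : z ∈ X) (hW : ∀ v, z v - v ∈ mem τ c ⊔ mem τ c') {w : V}
    (hw : w ∈ mem τ c ⊔ mem τ c') : z w = w := by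
  have := S.fd₂
  refine fix_of_perp S.nd (S.leO hz) hW fun v hv => ?_
  obtain ⟨_, ⟨a, rfl⟩, _, ⟨b, rfl⟩, rfl⟩ := Submodule.mem_sup.1 hw
  obtain ⟨_, ⟨a', rfl⟩, _, ⟨b', rfl⟩, rfl⟩ := Submodule.mem_sup.1 hv
  simp [S.mul, e0, f₂.B_eq_zero_symm e0, f₂.B_self_eq_zero hc, f₂.B_self_eq_zero hc']

theorem nrmB (hz : z ∈ X) (z1 : z ≠ 1) (hW : ∀ v, z v - v ∈ mem τ c ⊔ mem τ c') :
    Nrm X (Kron τ) z := by
  have fx := fun w => S.fix_of_le hc hc' e0 hz hW (w := w)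
  refine ⟨hz, S.stab_kron hc c0 hz fun w hw => by rwa [fx w (Submodule.mem_sup_left hw)],
    fun g hg e => ?_⟩
  obtain ⟨N, hN⟩ := S.rec_conj lt hg hz (by
    ext v; simp [pow_succ, dl_apply, -map_sub, fx _ (hW v)]) hW e
  obtain ⟨d, hd⟩ : ∃ d, N d ≠ 0 := by
    by_contra! H
    refine z1 (LinearEquiv.ext fun v => sub_eq_zero.1 ?_)
    simpa [inv_app, dl_apply] using LinearMap.congr_fun (ext_of h (f := dl z ∘ₗ (g⁻¹ : V ≃ₗ[F] V)) (g := 0)
      fun x d => by simp [← hN, H]) (g v)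
  exact S.kron_of_le lt hc h5 c0 hc' e0 hg hd fun x => hN x d ▸ hW _

omit h5 hc' e0 c0 hc in
theorem nrm (h5 : 5 ≤ finrank F V₂) (hc : f₂.q c = 0) (c0 : c ≠ 0) (hy : f₂.B c y = 0)
    (y0 : y ∉ F ∙ c) : Nrm X (Kron τ) (kr h 1 (f₂.ei c y (f₂.q y))) := by
  have := S.fd₂
  have := S.nt
  by_cases hq : f₂.q y = 0
  · exact S.nrmB lt hc h5 c0 hq hy (S.R (ei_mem_E _ _ _)) (kr_ei_ne_one S.nd₂ (qok hc hy) c0 y0)
      (kr_ei_sub_mem (qok hc hy))
  · exact S.nrmA lt hc c0 hy hq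

omit [Finite F] lt c0 hc hc' e0 in
theorem cm_le {G : Submodule F V} (h1 : mem τ c ⊔ mem τ c' ≤ G)
    (OP : ∀ v ∈ G, et h f₂ c v = 0 → et h f₂ c' v = 0 → v ∈ mem τ c ⊔ mem τ c')
    (NB : ∀ e, mem τ e ≤ G → e ∈ Submodule.span F {c, c'}) (hz : z ∈ cm X G) (hk : z ∈ Kron τ)
    (v : V) : z v - v ∈ mem τ c ⊔ mem τ c' := by
  have := S.fd₂
  have := S.fd
  obtain ⟨A, B, H⟩ := hk
  have pm : ∀ x, ∀ e ∈ Submodule.span F {c, c'}, τ x e ∈ mem τ c ⊔ mem τ c' := fun x e he => by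
    obtain ⟨a, b, rfl⟩ := Submodule.mem_span_pair.1 he
    simpa using Submodule.add_mem_sup (pure_mem (τ := τ) (a • x) c) (pure_mem (τ := τ) (b • x) c')
  have k : ∀ d, mem τ d ≤ G → ∀ x, z (τ x d) ∈ mem τ c ⊔ mem τ c' := fun d hd x => by
    rw [H]
    refine pm _ _ (NB _ ?_)
    rintro _ ⟨x, rfl⟩
    simpa [H, app_inv] using G.add_mem (hz.2 (τ (A⁻¹ x) d)) (hd (pure_mem (A⁻¹ x) d))
  have hW : ∀ w ∈ mem τ c ⊔ mem τ c', z⁻¹ w ∈ mem τ c ⊔ mem τ c' := inv_mem_of_stab fun w hw => by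
    obtain ⟨_, ⟨a, rfl⟩, _, ⟨b, rfl⟩, rfl⟩ := Submodule.mem_sup.1 hw
    rw [map_add]
    exact Submodule.add_mem _ (k c (le_sup_left.trans h1) a) (k c' (le_sup_right.trans h1) b)
  obtain ⟨y, hy, y2⟩ : ∃ y ∈ f₂.perp (Submodule.span F {c, c'}), y ∉ Submodule.span F {c, c'} := by
    by_contra! H
    have h1 := Submodule.finrank_mono (show f₂.perp _ ≤ _ from H)
    have h2 := S.nd₂.finrank_add_finrank_perp (Submodule.span F {c, c'})
    have h3 := CL.Tv.finrank_span_pair_le (F := F) c c'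
    omega
  rw [mem_perp_span_pair] at hy
  obtain ⟨t, p2, p1⟩ := S.nd₂.exists_perp_eq' y2 1
  have k2 : ∀ x, ∀ w ∈ mem τ c ⊔ mem τ c', f.B w (z (τ x y) - τ x y) = 0 := fun x w hw => by
    have k3 : ∀ w ∈ mem τ c ⊔ mem τ c', f.B w (τ x y) = 0 := fun w hw => by
      obtain ⟨_, ⟨a, rfl⟩, _, ⟨b, rfl⟩, rfl⟩ := Submodule.mem_sup.1 hw
      simp [S.mul, hy]
    rw [map_sub, k3 w hw, ← app_inv z w, mem_O_B (S.leO hz.1), k3 _ (hW w hw), sub_self]
  have e1 : ∀ x, f₂.B t (B y) • A x = x := fun x => by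
    obtain ⟨_, ⟨a, rfl⟩, _, ⟨b, rfl⟩, e⟩ := Submodule.mem_sup.1 (OP _ (hz.2 (τ x y))
      (S.et_eq_zero fun x' => k2 x _ (Submodule.mem_sup_left (pure_mem _ _)))
      (S.et_eq_zero fun x' => k2 x _ (Submodule.mem_sup_right (pure_mem _ _))))
    have := congrArg (et h f₂ t) e
    simp [H, f₂.quad_symm y t, p1, f₂.B_eq_zero_symm (p2 c (Submodule.subset_span (by simp))),
      f₂.B_eq_zero_symm (p2 c' (Submodule.subset_span (by simp)))] at this
    exact sub_eq_zero.1 this.symm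
  refine h.inductionOn v (by simp) (fun x d => ?_) fun a b ha hb => by
    convert Submodule.add_mem _ ha hb using 1; rw [map_add]; abel
  have e2 : ∀ x, z (τ x d) - τ x d = τ (A x) (B d - f₂.B t (B y) • d) := fun x => by
    rw [H, map_sub, map_smul, ← LinearMap.smul_apply, ← map_smul, e1]
  rw [e2]
  refine pm _ _ (NB _ ?_)
  rintro _ ⟨x, rfl⟩
  simpa [e2, app_inv, -map_sub] using hz.2 (τ (A⁻¹ x) d)

omit hc c0 hc' e0 in
theorem le_kron : X ≤ Kron τ := fun g₀ hg₀ => by_contra fun hn₀ => by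
  have := S.nt
  have := S.fd₁
  have := S.fd₂
  have := S.fd
  have := Module.finite_of_finite F (M := V)
  have : Finite (V ≃ₗ[F] V) := Finite.of_injective _ DFunLike.coe_injective
  obtain ⟨c, -, c0, hc⟩ := f₂.quad_iso3 ⊤ (by simp; omega)
  obtain ⟨c', p1, p2, hc'⟩ := exists_sing_perp S.nd₂ (sing3_quad f₂) (F ∙ c) (by
    rw [finrank_span_singleton c0]; omega)
  have e0 := f₂.mem_perp_span_singleton.1 p1
  set W := mem τ c ⊔ mem τ c' with hW
  have dW : finrank F W = 2 * finrank F V₁ := (sup_eq_of_mem_le h c0 p2 le_sup_left le_sup_right).1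
  have : Nonempty {g // g ∈ X ∧ g ∉ Kron τ} := ⟨⟨g₀, hg₀, hn₀⟩⟩
  obtain ⟨⟨g, hg, hn⟩, mx⟩ := Finite.exists_max fun g : {g // g ∈ X ∧ g ∉ Kron τ} =>
    finrank F (W ⊓ W.map (g.1 : V →ₗ[F] V) : Submodule F V)
  set U := W.map (g : V →ₗ[F] V) with hU
  have key : ∀ s, Nrm X (Kron τ) s → ∀ Z : Submodule F V, (∀ w ∈ Z, s w = w) →
      finrank F (Z ⊓ U : Submodule F V) ≤ finrank F (W ⊓ U : Submodule F V) := fun s n Z hZ => by
    refine le_trans ?_ (mx ⟨g⁻¹ * s * g, X.mul_mem (X.mul_mem (X.inv_mem hg) n.memX) hg,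
      n.conj_notMem hg hn⟩)
    rw [← LinearEquiv.finrank_map_eq g⁻¹]
    refine Submodule.finrank_mono ?_
    rintro _ ⟨_, ⟨h1, w, hw, rfl⟩, rfl⟩
    simp only [LinearEquiv.coe_coe, inv_app] at h1 ⊢
    exact ⟨hw, w, hw, by simp [hZ _ h1, inv_app]⟩
  have n1 := S.nrm lt h5 hc c0 e0 p2
  have n2 := S.nrm lt h5 hc c0 (y := -c') (by simp [e0]) (by simpa using p2)
  have ok1 := qok hc e0
  have ok2 := qok (v := -c') hc (by simp [e0])
  have a1 := kr_ei_sub_mem (h := h) ok1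
  have a2 : ∀ v, kr h 1 (f₂.ei c (-c') (f₂.q (-c'))) v - v ∈ W := fun v => by
    rw [hW, ← mem_smul (c := c') (neg_ne_zero.2 (one_ne_zero (α := F))), neg_one_smul]
    exact kr_ei_sub_mem ok2 v
  have hP : ∀ w ∈ W, et h f₂ c w = 0 ∧ et h f₂ c' w = 0 := fun w hw => by
    obtain ⟨_, ⟨a, rfl⟩, _, ⟨b, rfl⟩, rfl⟩ := Submodule.mem_sup.1 hw
    simp [e0, f₂.B_eq_zero_symm e0, f₂.B_self_eq_zero hc, f₂.B_self_eq_zero hc']
  have OP : ∀ v ∈ W ⊔ U, et h f₂ c v = 0 → et h f₂ c' v = 0 → v ∈ W := fun v hv e1 e2 => by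
    obtain ⟨a, ha, b, hb, rfl⟩ := Submodule.mem_sup.1 hv
    refine W.add_mem ha ((Submodule.eq_of_le_of_finrank_le (inf_le_inf_right U
      (show W ≤ LinearMap.ker (et h f₂ c) ⊓ LinearMap.ker (et h f₂ c') from hP))
      (key _ n1 _ fun w hw => by simp [kr_ei_apply ok1, LinearMap.mem_ker.1 hw.1,
        LinearMap.mem_ker.1 hw.2])).ge ⟨⟨?_, ?_⟩, hb⟩).1
    · simpa [hP a ha] using e1
    · simpa [hP a ha] using e2
  have NB : ∀ e, mem τ e ≤ W ⊔ U → e ∈ Submodule.span F {c, c'} := fun e he => by_contra fun he' => by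
    obtain ⟨d, d0, d1, d2⟩ : ∃ d, d ≠ 0 ∧ d ∈ Submodule.span F {c, c'} ∧ f₂.B d e = 0 := by
      by_cases H : f₂.B c e = 0
      · exact ⟨c, c0, Submodule.subset_span (by simp), H⟩
      · refine ⟨c' - (f₂.B c' e / f₂.B c e) • c, fun e => p2 ?_, Submodule.mem_span_pair.2
          ⟨-(f₂.B c' e / f₂.B c e), 1, by module⟩, by simp [H]⟩
        rw [sub_eq_zero.1 e]
        exact Submodule.smul_mem _ _ (Submodule.mem_span_singleton_self c)
    obtain ⟨y, y1, y2⟩ : ∃ y ∈ f₂.perp (Submodule.span F {c, c'} ⊔ F ∙ e), y ∉ F ∙ d := by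
      by_contra! H
      have h1 := Submodule.finrank_mono (show f₂.perp _ ≤ _ from H)
      have h2 := S.nd₂.finrank_add_finrank_perp (Submodule.span F {c, c'} ⊔ F ∙ e)
      have h3 := CL.Tv.finrank_span_pair_le (F := F) c c'
      have h4 := finrank_sup_span_le (Submodule.span F {c, c'}) e
      rw [finrank_span_singleton d0] at h1
      omega
    have y3 := y1 d (Submodule.mem_sup_left d1)
    obtain ⟨a, b, rfl⟩ := Submodule.mem_span_pair.1 d1
    have hd : f₂.q (a • c + b • c') = 0 := by simp [quad_q_add, quad_q_smul, hc, hc', e0]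
    have ok := qok hd y3
    have fx : ∀ x, ∀ d ∈ Submodule.span F {c, c'} ⊔ F ∙ e, f₂.B (a • c + b • c') d = 0 →
        kr h 1 (f₂.ei (a • c + b • c') y (f₂.q y)) (τ x d) = τ x d := fun x d h1 h2 => by
      simp [ok.ei_apply_fix h2 (f₂.B_eq_zero_symm (y1 d h1))]
    have := key _ (S.nrm lt h5 hd d0 y3 y2) (W ⊔ mem τ e) fun w hw => by
      obtain ⟨w', hw', _, ⟨x, rfl⟩, rfl⟩ := Submodule.mem_sup.1 hw
      obtain ⟨_, ⟨x', rfl⟩, _, ⟨x'', rfl⟩, rfl⟩ := Submodule.mem_sup.1 (hW ▸ hw')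
      simp only [LinearMap.flip_apply]
      rw [map_add, map_add, fx _ e (Submodule.mem_sup_right (Submodule.mem_span_singleton_self e)) d2,
        fx _ c (Submodule.mem_sup_left (Submodule.subset_span (by simp)))
          (by simp [f₂.B_self_eq_zero hc, f₂.B_eq_zero_symm e0]),
        fx _ c' (Submodule.mem_sup_left (Submodule.subset_span (by simp)))
          (by simp [f₂.B_self_eq_zero hc', e0])]
    have e1 := Submodule.finrank_sup_add_finrank_inf_eq W (mem τ e)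
    rw [finrank_mem h (by rintro rfl; simp at he'), show W ⊓ mem τ e = ⊥ from
      eq_bot_iff.2 fun w ⟨hw, x, hx⟩ => by
        obtain ⟨t, t1, t2⟩ := S.nd₂.exists_perp_eq' he' 1
        obtain ⟨_, ⟨x', rfl⟩, _, ⟨x'', rfl⟩, e'⟩ := Submodule.mem_sup.1 hw
        have := congrArg (et h f₂ t) (e'.trans hx.symm)
        simp [f₂.quad_symm e t, t2, f₂.B_eq_zero_symm (t1 c (Submodule.subset_span (by simp))),
          f₂.B_eq_zero_symm (t1 c' (Submodule.subset_span (by simp)))] at this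
        simp [← hx, ← this], finrank_bot] at e1
    have e2 := Submodule.finrank_sup_add_finrank_inf_eq (W ⊔ mem τ e) U
    have e3 := Submodule.finrank_sup_add_finrank_inf_eq W U
    have e4 := Submodule.finrank_mono (show (W ⊔ mem τ e) ⊔ U ≤ W ⊔ U from
      sup_le (sup_le le_sup_left he) le_sup_right)
    have := S.three
    omega
  obtain ⟨a, ha, b, hb, s, hs, s', hs', ha', ne, e⟩ := exists_two (Y := cm X (W ⊔ U))
    (g := g * kr h 1 (f₂.ei c c' (f₂.q c')) * g⁻¹) (fun _ a => a.1) n1 n2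
    ⟨n1.memX, fun v => Submodule.mem_sup_left (a1 v)⟩ ⟨n2.memX, fun v => Submodule.mem_sup_left (a2 v)⟩
    (fun e => by
      obtain ⟨x, hx⟩ := exists_ne (0 : V₁)
      obtain ⟨d, d1, d2⟩ := S.nd₂.exists_perp_eq' p2 1
      replace d1 := d1 c (Submodule.mem_span_singleton_self c)
      have := congrArg (fun k : V ≃ₗ[F] V => k (τ x d)) e
      simp [ok1.ei_apply_of_perp d1, ok2.ei_apply_of_perp d1, d2, sub_eq_add_neg] at this
      exact smul_ne_zero S.h2 (pure_ne_zero h hx c0) (by linear_combination (norm := module) -this))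
    ⟨X.mul_mem (X.mul_mem hg n1.memX) (X.inv_mem hg), fun v =>
      Submodule.mem_sup_right ⟨_, a1 (g⁻¹ v), (dl_conj v).symm⟩⟩
    fun e => hn (n1.of_conj g hg e)
  have k1 : ∀ s ∈ ({kr h 1 (f₂.ei c c' (f₂.q c')), kr h 1 (f₂.ei c (-c') (f₂.q (-c')))} : Set _),
      Nrm X (Kron τ) s ∧ ∀ v, s v - v ∈ W := by
    rintro _ (rfl | rfl)
    exacts [⟨n1, a1⟩, ⟨n2, a2⟩]
  have k2 : ∀ a ∈ cm X (W ⊔ U), ∀ s, (Nrm X (Kron τ) s ∧ ∀ v, s v - v ∈ W) →
      a * s * a⁻¹ ∈ cm X (W ⊔ U) := fun a ha s hs => Subgroup.mul_mem _ (Subgroup.mul_mem _ ha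
    ⟨hs.1.memX, fun v => Submodule.mem_sup_left (hs.2 v)⟩) (Subgroup.inv_mem _ ha)
  have k3 : ∀ s ∈ X, (∀ v, s v - v ∈ W) → ∀ v, s (s v - v) = s v - v := fun s hs H v =>
    S.fix_of_le hc hc' e0 hs H (H v)
  have hz := Subgroup.mul_mem _ (Subgroup.inv_mem _ (k2 a ha s (k1 s hs))) (k2 b hb s' (k1 s' hs'))
  have hW := S.cm_le h5 le_sup_left OP NB hz e
  refine ha' ((k1 s hs).1.of_conj a ha.1 ((S.nrmB lt hc h5 c0 hc' e0 hz.1
    (by rwa [Ne, inv_mul_eq_one]) hW).of_comm_conj (k2 a ha s (k1 s hs)).1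
    (comm_conj_of_fix (conj_fix (k3 _ (k1 s hs).1.memX (k1 s hs).2) a) (k3 _ hz.1 hW) ?_)))
  rw [mul_inv_cancel_left]
  exact conj_fix (k3 _ (k1 s' hs').1.memX (k1 s' hs').2) b

end SQ

end CL.Tens
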