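/-
Maximality of `O ⊗ O` in `Ω`.
-/
import Mathlib
import Cfsg.Agent.CLAS.TensO3

namespace CL.Tens

open Module CL.ExtF CL.Witt CL.Witt.Form CL.Root Matrix Cfsg Cfsg.Geo CL.Tv

variable {F : Type*} [Field F] [Fintype F] {ι : Type} [Fintype ι] [DecidableEq ι]

omit [Fintype F] in
theorem idx_of_minus {n : ℕ} (h3 : 3 ≤ n) {g : Form (FormType.quad F) (Fin n → F)} (hg : g.Nondeg)
    {Q : (Fin n → F) → F} (e : ∀ x, g.q x = 0 → Q x = 0) (hm : n = 4 → ¬ IsPlusTypeOn Q ⊤) :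
    5 ≤ finrank F (Fin n → F) ∨ Idx1 g := by
  rcases (by omega : 5 ≤ n ∨ n = 3 ∨ n = 4) with h | h | h
  · exact Or.inl (by simpa using h)
  · exact Or.inr (idx1_of_three hg (by simpa using h))
  refine Or.inr fun u w hu hw e0 u0 => by_contra fun hn => hm h
    ⟨Submodule.span F {w, u}, le_top, fun x hx => e x ?_, ?_⟩
  · obtain ⟨a, b, rfl⟩ := Submodule.mem_span_pair.1 hx
    simp [quad_q_add, quad_q_smul, hu, hw, g.B_eq_zero_symm e0]
  · simp [finrank_span_pair_of u0 hn, h]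

theorem exists_sq_ne_one (hodd : Odd (Fintype.card F)) (h3 : Fintype.card F ≠ 3) :
    ∃ t : F, t ≠ 0 ∧ t ^ 2 ≠ 1 := by
  classical
  by_contra! H
  have := Finset.card_le_card (show (Finset.univ : Finset F) ⊆ {0, 1, -1} from fun t _ => by
    by_cases h : t = 0
    · simp [h]
    · simpa [h] using H t h)
  have := Finset.card_le_three (a := (0 : F)) (b := 1) (c := -1)
  have := Fintype.one_lt_card (α := F)
  obtain ⟨k, hk⟩ := hodd
  simp only [Finset.card_univ] at *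
  omega

omit [Fintype F] in
theorem exists_TQ (h2 : (2 : F) ≠ 0) (f : Form (FormType.quad F) (ι → F)) {n₁ n₂ : ℕ}
    {e : ι ≃ Fin n₁ × Fin n₂} {P : GL ι F} {f₁ : (Fin n₁ → F) → (Fin n₁ → F) → F}
    {f₂ : (Fin n₂ → F) → (Fin n₂ → F) → F} (hf₁ : IsSymmetricForm f₁) (hf₂ : IsSymmetricForm f₂)
    (hT : IsTensorFormStructure id (fun u v => f.B u v) f₁ f₂ e P) :
    ∃ g₁ g₂, TQ (isTensorProduct_pt e P) f g₁ g₂ ∧ (∀ x, g₁.q x = 0 → f₁ x x = 0) ∧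
      ∀ x, g₂.q x = 0 → f₂ x x = 0 := by
  obtain ⟨c, hc, H⟩ := tensor_form_pure hf₁.bilinear hf₂.bilinear hT
  refine ⟨ofSymm h2 (c • bilin hf₁.bilinear) fun x y => by simp [bilin_apply, hf₁.symm x y],
    ofSymm h2 (bilin hf₂.bilinear) fun x y => by simp [bilin_apply, hf₂.symm x y],
    ⟨⟨fun x hx => by_contra fun x0 => ?_, fun x hx => by_contra fun x0 => ?_, fun x y x' y' => ?_⟩,
      h2⟩, fun x hx => ?_, fun x hx => ?_⟩
  · obtain ⟨y, hy⟩ := (hf₁.nondegenerate x x0).2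
    exact mul_ne_zero hc hy (hx y)
  · obtain ⟨y, hy⟩ := (hf₂.nondegenerate x x0).2
    exact hy (hx y)
  · rw [H, ← mul_assoc]; rfl
  · exact (mul_eq_zero.1 ((div_eq_zero_iff.1 hx).resolve_right h2)).resolve_left hc
  · exact (div_eq_zero_iff.1 hx).resolve_right h2

theorem oo_maximal_of {V₁ V₂ : Type*} [AddCommGroup V₁] [Module F V₁] [AddCommGroup V₂]
    [Module F V₂] {τ : V₁ →ₗ[F] V₂ →ₗ[F] ι → F} {h : IsTensorProduct τ}
    {f : Form (FormType.quad F) (ι → F)} {f₁ : Form (FormType.quad F) V₁}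
    {f₂ : Form (FormType.quad F) V₂} (S : TQ h f f₁ f₂) (h3 : 3 ≤ finrank F V₁)
    (i₁ : 5 ≤ finrank F V₁ ∨ Idx1 f₁) (ex : 4 ≤ finrank F V₁ ∨ ∃ t : F, t ≠ 0 ∧ t ^ 2 ≠ 1)
    (h4 : 4 ≤ finrank F V₂) (i₂ : 5 ≤ finrank F V₂ ∨ Idx1 f₂)
    (hD : ∀ X, SQ X h f f₁ f₂ → X ≤ Kron τ) {H : Subgroup (GL ι F)}
    (hH : ∀ g, g ∈ H ↔ act g ∈ Kron τ) : IsMaximalIn (omegaGL f.q) (H ⊓ omegaGL f.q) := by
  have : FiniteDimensional F V₁ := Module.finite_of_finrank_pos (by omega)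
  have : FiniteDimensional F V₂ := Module.finite_of_finrank_pos (by omega)
  obtain ⟨c, -, c0, hc⟩ := f₂.quad_iso3 ⊤ (by simp; omega)
  refine isMaximalIn_of_act (mem_omegaGL_iff_E S.nd (by
    have := finrank_eq h
    rw [Module.finrank_fintype_fun_eq_card] at this
    nlinarith)) hH (S.not_E_le h3 (by omega) hc c0) fun K k1 k2 ⟨g, hg, hg'⟩ =>
      by_contra fun hn => hg' (hD K ⟨S, k2, k1, hn, h3, i₁, ex, h4, i₂⟩ hg)

/-- The stabilizer of a decomposition `O_{n₁} ⊗ O_{n₂}` with `n₁ ≠ n₂` is maximal in `Ω`. -/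
theorem oo_tensor_maximal (hodd : Odd (Fintype.card F)) (f : Form (FormType.quad F) (ι → F))
    {n₁ n₂ : ℕ} (h1 : 3 ≤ n₁) (h2 : 3 ≤ n₂) (hne : n₁ ≠ n₂) (h5 : 5 ≤ n₁ ∨ 5 ≤ n₂)
    (hex : Fintype.card F = 3 → n₁ ≠ 3 ∧ n₂ ≠ 3) (e : ι ≃ Fin n₁ × Fin n₂) (P : GL ι F)
    {f₁ : (Fin n₁ → F) → (Fin n₁ → F) → F} {f₂ : (Fin n₂ → F) → (Fin n₂ → F) → F}
    (hf₁ : IsSymmetricForm f₁) (hf₂ : IsSymmetricForm f₂)
    (m₁ : n₁ = 4 → ¬ IsPlusTypeOn (fun v => f₁ v v) ⊤)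
    (m₂ : n₂ = 4 → ¬ IsPlusTypeOn (fun v => f₂ v v) ⊤)
    (hT : IsTensorFormStructure id (fun u v => f.B u v) f₁ f₂ e P) :
    IsMaximalIn (omegaGL f.q) (tensorProductSubgroup n₁ n₂ e P ⊓ omegaGL f.q) := by
  obtain ⟨g₁, g₂, S, e₁, e₂⟩ := exists_TQ (CL.FGL.two_ne_zero_of_odd hodd) f hf₁ hf₂ hT
  have i₁ := idx_of_minus h1 S.nd₁ e₁ m₁
  have i₂ := idx_of_minus h2 S.nd₂ e₂ m₂
  have ex : ∀ n, 3 ≤ n → (Fintype.card F = 3 → n ≠ 3) →
      4 ≤ finrank F (Fin n → F) ∨ ∃ t : F, t ≠ 0 ∧ t ^ 2 ≠ 1 := fun n h3 H => by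
    by_cases e : Fintype.card F = 3
    · exact Or.inl (by have := H e; simp; omega)
    · exact Or.inr (exists_sq_ne_one hodd e)
  rcases lt_or_gt_of_ne hne with hlt | hlt
  · exact oo_maximal_of S (by simpa using h1) i₁ (ex _ h1 fun e => (hex e).1) (by simp; omega) i₂
      (fun X H => H.le_kron (by simpa using hlt) (by simp; omega)) (mem_tensor_iff e P)
  · exact oo_maximal_of S.flip (by simpa using h2) i₂ (ex _ h2 fun e => (hex e).2) (by simp; omega) i₁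
      (fun X H => H.le_kron (by simpa using hlt) (by simp; omega))
      fun g => by rw [kron_flip]; exact mem_tensor_iff e P g

end CL.Tens
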