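import Cfsg.Agent.CLAS.Ref3
import Cfsg.Agent.CLAS.UniGen

/-!
# The stabiliser of a non-degenerate point of a unitary space is maximal (dimension three included)
-/

set_option autoImplicit false

namespace CL.Witt.Form

open Module

variable {F : Type*} [Field F] [Finite F] {V : Type*} [AddCommGroup V] [Module F V] [FiniteDimensional F V]
  {σ : F →+* F} {hσ2 : ∀ a, σ (σ a) = a} {f : Form (FormType.herm σ hσ2) V} (hσ : σ ≠ RingHom.id F)
  (hf : f.Nondeg)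

include hσ hf

theorem herm_exists_SO_map (h2 : 2 ≤ finrank F V) {x y : V} (hx : f.q x ≠ 0) (h : f.q x = f.q y) :
    ∃ g ∈ f.SO, g x = y := by
  have x0 : x ≠ 0 := by rintro rfl; exact hx f.q_zero
  obtain ⟨g, hg, e, -⟩ := hf.witt_step (H := ⊥) (x := x) (y := y) x0
    (by rintro rfl; exact hx (h.trans f.q_zero)) (by simp) h
  obtain ⟨p, hp, hq⟩ := Uni.exists_perp_q_eq hσ hf (restrict_nondeg_span_singleton (t := x) (by rwa [← herm_q]))
    (by rw [finrank_span_singleton x0]; omega) (map_one σ)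
  obtain ⟨r, hr, -, h1, h3⟩ := Uni.exists_quasiRefl (f := f) (p := p) (by rwa [← herm_q])
    (d := (LinearMap.det (g : V →ₗ[F] V))⁻¹) (by rw [map_inv₀, ← mul_inv]; exact inv_eq_one.2 (hf.σ_det_mul_det hg))
  exact ⟨g * r, f.mem_SO.2 ⟨mul_mem hg hr, by rw [det_mul_equiv, h3, mul_inv_cancel₀ (det_equiv_ne_zero g)]⟩, by
    rw [LinearEquiv.mul_apply, h1 x (f.B_eq_zero_symm (f.mem_perp_span_singleton.1 hp)), e]⟩

theorem herm_E_le_of_point (h3 : 3 ≤ finrank F V) (hc : 4 ≤ finrank F V ∨ ∃ c : F, σ c = c ∧ c ≠ 0 ∧ c ≠ 1)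
    {w : V} (hw : f.q w ≠ 0) {K : Subgroup (V ≃ₗ[F] V)} (hK : Witt.stab (f.perp (F ∙ w)) ⊓ f.E ≤ K)
    {g : V ≃ₗ[F] V} (hg : g ∈ f.O) (hgK : g ∈ K) (h1 : g ∉ Witt.stab (f.perp (F ∙ w))) : f.E ≤ K := by
  have w0 : w ≠ 0 := by rintro rfl; exact hw f.q_zero
  have hW := restrict_nondeg_span_singleton (f := f) (t := w) (by rwa [← herm_q])
  have hZ := hf.restrict_perp hW
  have hd := hf.finrank_add_finrank_perp (F ∙ w)
  rw [finrank_span_singleton w0] at hd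
  have hF := full_of_stab hK
  have dec : ∀ y, f.q y = 0 → y ∉ f.perp (F ∙ w) → ∃ c : F, c ≠ 0 ∧ ∃ z ∈ f.perp (F ∙ w),
      y = c • (w + z) ∧ f.q z = -f.q w := fun y hy hy' => by
    obtain ⟨t, ht, z, hz, rfl⟩ := exists_add_perp hW y
    obtain ⟨c, rfl⟩ := Submodule.mem_span_singleton.1 ht
    have c0 : c ≠ 0 := by rintro rfl; exact hy' (by simpa using hz)
    have e : c • w + z = c • (w + c⁻¹ • z) := by rw [smul_add, smul_inv_smul₀ c0]
    have hz' := Submodule.smul_mem _ c⁻¹ hz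
    refine ⟨c, c0, _, hz', e, ?_⟩
    rw [e, f.q_smul, f.q_add_of_B_eq_zero (f.mem_perp_span_singleton.1 hz')] at hy
    exact eq_neg_of_add_eq_zero_right ((mul_eq_zero.1 hy).resolve_left (by simpa using c0))
  have sm : ∀ (c : F) y, f.Tr K y → f.Tr K (c • y) := fun c y h => ⟨f.q_smul_eq_zero h.1 c, fun a ha => by
    rw [(eichOK_zero h.1 ha).ei_smul_left, smul_zero]
    exact h.2 _ (by rw [FormType.π_norm, ha, mul_zero])⟩
  obtain ⟨u, hu, hu0, huq⟩ := herm_iso2 hσ f (f.perp (F ∙ w)) (by omega)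
  obtain ⟨v, hv, hq, h4⟩ : ∃ v ∈ f.perp (F ∙ w), f.q v = 0 ∧ g v ∉ f.perp (F ∙ w) := by
    by_contra! H
    refine ((conn_singular hZ (Or.inl (herm_pi hσ)) hu huq hu0).map_le (Z := f.perp (F ∙ w)) hg
      fun v a b => .inl (H v a b)).elim (fun h => h1 (mem_stab_of_le h)) ?_
    rw [hf.perp_perp]
    exact FGL.not_map_le_of_lt (by rw [finrank_span_singleton w0]; omega) g
  have h5 := (hF.tr hv hq).map hgK hg
  obtain ⟨c, c0, z, hz, e, hzq⟩ := dec _ h5.1 h4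
  replace h5 := sm c⁻¹ _ h5
  rw [e, inv_smul_smul₀ c0] at h5
  rw [← Uni.Tv_eq_E hσ hf h3 hc, Tv_le_iff]
  intro y a hy
  by_cases hy' : y ∈ f.perp (F ∙ w)
  · exact (hF.tr hy' hy).2 a
  obtain ⟨d, -, z', hz', rfl, hzq'⟩ := dec _ hy hy'
  obtain ⟨k, hk, ek⟩ := herm_exists_SO_map hσ hZ (by omega) (x := ⟨z, hz⟩) (y := ⟨z', hz'⟩)
    (fun e => hw (neg_eq_zero.1 (hzq.symm.trans e))) (hzq.trans hzq'.symm)
  have hi := hf.isCompl_perp ((f.restrict_nondeg_iff _).1 hW)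
  have hs := extR_mem_SO f hi le_rfl hk
  have h6 := h5.map (hK ⟨mem_stab_of_le fun v hv => (extR_right hi k ⟨v, hv⟩).symm ▸ (k _).2,
    Uni.E_eq_SO hσ hf ▸ hs⟩) hs.1
  rw [extR_add hi k ⟨w, Submodule.mem_span_singleton_self w⟩ ⟨z, hz⟩, ek] at h6
  exact (sm d _ h6).2 a

end CL.Witt.Form

namespace CL.FGL

open Module Cfsg Cfsg.Geo CL.Witt CL.Witt.Form

theorem su_point_isMaximalIn {F : Type*} [Field F] [Fintype F] {n q : ℕ} (hF : Fintype.card F = q ^ 2) (hn : 3 ≤ n)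
    (hq : ¬ (n = 3 ∧ q = 2)) {W : Submodule F (Fin n → F)} (hW : IsNondegenerateOn (hermForm n F q) W)
    (h1 : finrank F W = 1) : IsMaximalIn (GU n F q ⊓ specialLinear (Fin n) F)
      (subspaceStabilizer W ⊓ (GU n F q ⊓ specialLinear (Fin n) F)) := by
  have hf := Uni.std_nondeg hF (Fin n)
  have hσ := Uni.sig_ne_id hF
  obtain ⟨⟨w, hw⟩, w0, e⟩ := finrank_eq_one_iff'.1 h1
  obtain rfl : W = F ∙ w := le_antisymm (fun v hv => by
    obtain ⟨c, hc⟩ := e ⟨v, hv⟩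
    exact Submodule.mem_span_singleton.2 ⟨c, congrArg Subtype.val hc⟩) ((Submodule.span_singleton_le_iff_mem _ _).2 hw)
  replace w0 : w ≠ 0 := fun e => w0 (Subtype.ext e)
  have hq' : (Uni.std hF (Fin n)).q w ≠ 0 := fun e => by
    obtain ⟨x, hx, h⟩ := (hW w hw w0).2
    obtain ⟨c, rfl⟩ := Submodule.mem_span_singleton.1 hx
    rw [herm_q] at e
    exact h ((uni_B_iff hF _ _).2 (by rw [map_smul, e, smul_zero]))
  obtain ⟨u, -, hu0, hu⟩ := herm_iso2 hσ (Uni.std hF (Fin n)) ⊤ (by simp; omega)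
  have hd := hf.finrank_add_finrank_perp (F ∙ w)
  rw [h1, finrank_fun, Fintype.card_fin] at hd
  exact nondeg_isMaximalIn' hf (fun _ => mem_SU_iff_E hF) (.inr (hf.perp_perp _).symm) (herm_big hσ _ _) hu hu0
    (fun e => by rw [e, finrank_bot] at hd; omega) (hf.perp_ne_top (by simpa using w0)) fun M h2 h3 g hg hg' =>
      herm_E_le_of_point hσ hf (by simpa using hn) (by simpa using Uni.good_of_ne hF hn hq) hq' h2
        (E_le_O (h3 hg)) hg hg'

end CL.FGL
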