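/-
The hermitian norm as a quadratic form over the fixed field; `GU_m(q) ≤ O^±_{2m}(q)`.
-/
import Cfsg.Agent.CLAS.UniTwo
import Cfsg.Agent.KSG.OrthClassify

set_option autoImplicit false

namespace CL.Uni

open Module CL.Witt Cfsg QuadraticMap CL.Orth

variable {K : Type*} [Field K] [Fintype K] {q : ℕ} {hK : Fintype.card K = q ^ 2}
  {F : Type*} [Field F] [Algebra F K]
  {V : Type*} [AddCommGroup V] [Module K V] [Module F V] [IsScalarTower F K V]

/-- The hermitian norm is a quadratic form over the fixed field. -/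
theorem exists_quad (hι : ∀ x : K, x ^ q = x ↔ x ∈ (algebraMap F K).range) (f : Form (HT hK) V) :
    ∃ Q : QuadraticForm F V, (∀ v, algebraMap F K (Q v) = f.q v) ∧
      ∀ u v, algebraMap F K (polar Q u v) = f.B u v + f.B u v ^ q := by
  obtain ⟨ρ, hρ⟩ := (Algebra.linearMap F K).exists_leftInverse_of_injective
    (LinearMap.ker_eq_bot.2 (algebraMap F K).injective)
  have hρ' : ∀ x : K, x ^ q = x → algebraMap F K (ρ x) = x := fun x hx => by
    obtain ⟨y, rfl⟩ := (hι x).1 hx
    exact congrArg _ (congrArg (fun g : F →ₗ[F] F => g y) hρ)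
  have hfix : ∀ c : F, algebraMap F K c ^ q = algebraMap F K c := fun c => (hι _).2 ⟨c, rfl⟩
  let B : LinearMap.BilinForm F V := LinearMap.mk₂ F (fun u v => ρ (f.B u v))
    (fun u u' v => by simp) (fun c u v => by
      rw [← algebraMap_smul K c u, f.B_smul_left, HT_σ, hfix, ← Algebra.smul_def, map_smul])
    (fun u v v' => by simp) (fun c u v => by
      rw [← algebraMap_smul K c v, f.B_smul_right, ← Algebra.smul_def, map_smul])
  have h1 : ∀ v, algebraMap F K (B.toQuadraticMap v) = f.q v := fun v => by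
    rw [f.herm_q]
    exact hρ' _ (by simpa [HT_ε, HT_σ] using (f.symm v v).symm)
  refine ⟨B.toQuadraticMap, h1, fun u v => ?_⟩
  rw [polar, map_sub, map_sub, h1, h1, h1, f.q_add, HT_π]
  ring

omit [IsScalarTower F K V] in
theorem nondeg_of_quad {f : Form (HT hK) V} (hf : f.Nondeg) {Q : QuadraticForm F V}
    (hQ : ∀ u v, algebraMap F K (polar Q u v) = f.B u v + f.B u v ^ q) :
    (polarBilin Q).Nondegenerate := by
  refine nondeg_iff.2 fun x hx => hf x fun y => ?_
  by_contra h
  obtain ⟨c, hc⟩ := SqField.exists_trace_eq hK (one_pow q)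
  have := hQ x ((c * (f.B x y)⁻¹) • y)
  rw [hx, map_zero, f.B_smul_right, inv_mul_cancel_right₀ h, hc] at this
  exact zero_ne_one this

variable [Fintype F]

theorem finrank_eq_two (hK : Fintype.card K = q ^ 2) (hF : Fintype.card F = q) :
    finrank F K = 2 := by
  have := Module.card_eq_pow_finrank (K := F) (V := K)
  rw [hK, hF] at this
  exact (Nat.pow_right_injective (SqField.two_le hK) this).symm

variable [FiniteDimensional K V]

theorem finrank_eq_two_mul (hK : Fintype.card K = q ^ 2) (hF : Fintype.card F = q) :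
    finrank F V = 2 * finrank K V := by
  rw [← finrank_eq_two hK hF, Module.finrank_mul_finrank]

theorem isPlus_iff_even (hF : Fintype.card F = q) {f : Form (HT hK) V} (hf : f.Nondeg)
    {Q : QuadraticForm F V} (hQ : ∀ v, algebraMap F K (Q v) = f.q v)
    (hQ' : (polarBilin Q).Nondegenerate) : IsPlus Q ↔ Even (finrank K V) := by
  classical
  have : FiniteDimensional F V := Module.Finite.trans K V
  have hd := finrank_eq_two_mul (V := V) hK hF
  have hc : Nat.card {v // Q v = 0} = Nat.card {v // f.q v = 0} :=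
    Nat.card_congr (Equiv.subtypeEquivRight fun v => by rw [← hQ, map_eq_zero (algebraMap F K)])
  generalize hm : finrank K V = m at hd
  rw [card_q_eq hf hm, FormCount.card_hermForm_eq_zero hK] at hc
  have h2 := SqField.two_le hK
  constructor
  · intro h
    obtain ⟨φ, hφ⟩ := exists_isometry_QPlus hQ' hd h
    have h1 : Nat.card {v // quadFormPlus m F v = 0} = Nat.card {v // Q v = 0} :=
      Nat.card_congr (φ.toEquiv.subtypeEquiv fun v => by
        rw [LinearEquiv.coe_toEquiv, hφ, coe_QPlus])
    rw [FormCount.card_quadFormPlus_eq hF, if_pos rfl, hc] at h1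
    by_contra hm'
    rw [if_neg hm'] at h1
    obtain ⟨k, rfl⟩ : ∃ k, m = k + 1 := ⟨m - 1, by
      rcases m with _ | m
      · simp at hm'
      · rfl⟩
    have p1 : 1 ≤ q ^ k := Nat.one_le_pow _ _ (by omega)
    have p2 : 1 ≤ q ^ (k + 1) := Nat.one_le_pow _ _ (by omega)
    rw [Nat.add_sub_cancel] at h1
    zify [p1, p2] at h1 h2
    rw [pow_succ] at h1
    have : (0 : ℤ) < q ^ k * (q - 1) := by
      have : (0 : ℤ) < q - 1 := by omega
      positivity
    nlinarith
  · intro hm'
    by_contra h
    obtain ⟨b, hb⟩ := QuadExt.exists_aniso (F := F)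
    rcases m with _ | m
    · exact h ⟨⊥, by simp, by simp [hd]⟩
    obtain ⟨φ, hφ⟩ := exists_isometry_QMinus hQ' hd h hb
    have h1 : Nat.card {v // quadFormMinus m F 1 b v = 0} = Nat.card {v // Q v = 0} :=
      Nat.card_congr (φ.toEquiv.subtypeEquiv fun v => by
        rw [LinearEquiv.coe_toEquiv, hφ, coe_QMinus])
    rw [FormCount.card_quadFormMinus_eq hF _ hb, if_pos rfl, hc, if_pos hm'] at h1
    obtain ⟨k, rfl⟩ : ∃ k, m = k + 1 := ⟨m - 1, by
      rcases m with _ | m
      · simp at hm'
      · rfl⟩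
    have p1 : 1 ≤ q ^ k := Nat.one_le_pow _ _ (by omega)
    have p2 : 1 ≤ q ^ (k + 1) := Nat.one_le_pow _ _ (by omega)
    have p3 : 1 ≤ q ^ (k + 1 + 1) := Nat.one_le_pow _ _ (by omega)
    rw [Nat.add_sub_cancel, Nat.add_sub_cancel] at h1
    zify [p2, p3] at h1 p1 h2
    simp only [pow_succ, pow_zero] at h1
    have : (0 : ℤ) < q ^ k * q * (q - 1) := by
      have : (0 : ℤ) < q - 1 := by omega
      positivity
    nlinarith

omit [Fintype F] [FiniteDimensional K V] in
/-- Unitary isometries are isometries of the quadratic form over the fixed field. -/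
def resO {f : Form (HT hK) V} {Q : QuadraticForm F V} (hQ : ∀ v, algebraMap F K (Q v) = f.q v) :
    f.O →* O Q where
  toFun g := ⟨g.1.restrictScalars F, fun v => (algebraMap F K).injective (by
    rw [hQ, hQ]; exact f.O_q g v)⟩
  map_one' := rfl
  map_mul' _ _ := rfl

omit [Fintype F] [FiniteDimensional K V] in
theorem resO_injective {f : Form (HT hK) V} {Q : QuadraticForm F V}
    (hQ : ∀ v, algebraMap F K (Q v) = f.q v) : Function.Injective (resO hQ) := fun _ _ h =>
  Subtype.ext (LinearEquiv.ext fun v => congrArg (fun g : O Q => g.1 v) h)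

end CL.Uni
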