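/-
Stabilisers of flags of totally singular subspaces.
-/
import Cfsg.Agent.CLAS.WittCount

set_option autoImplicit false

namespace CL.Witt

open Module

variable {F : Type*} [Field F] {T : FormType F} {V : Type*} [AddCommGroup V] [Module F V]

theorem card_mem_notMem [Finite F] [FiniteDimensional F V] {U W : Submodule F V} (h : U ≤ W) :
    Nat.card {v // v ∈ W ∧ v ∉ U} = Nat.card F ^ finrank F W - Nat.card F ^ finrank F U := by
  have : Finite V := Module.finite_of_finite F
  rw [← card_submodule_eq_pow, ← card_submodule_eq_pow]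
  exact Set.ncard_sdiff (s := (U : Set V)) (t := (W : Set V)) h

theorem linearIndependent_of_notMem_span_Iio {ι : Type*} [LinearOrder ι] {y : ι → V}
    (h : ∀ j, y j ∉ Submodule.span F (y '' Set.Iio j)) : LinearIndependent F y := by
  classical
  rw [linearIndependent_iff']
  intro s c hc
  by_contra! H
  obtain ⟨j, hj, hmax⟩ := (s.filter fun i => c i ≠ 0).exists_max_image id
    (by obtain ⟨i, hi, hi'⟩ := H; exact ⟨i, Finset.mem_filter.mpr ⟨hi, hi'⟩⟩)
  obtain ⟨hjs, hj⟩ := Finset.mem_filter.mp hj
  refine h j ?_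
  rw [← Finset.add_sum_erase s _ hjs] at hc
  rw [← Submodule.smul_mem_iff _ hj, eq_neg_of_add_eq_zero_left hc]
  refine Submodule.neg_mem _ (Submodule.sum_mem _ fun i hi => ?_)
  by_cases hi0 : c i = 0
  · simp [hi0]
  obtain ⟨hij, hi⟩ := Finset.mem_erase.mp hi
  exact Submodule.smul_mem _ _ (Submodule.subset_span
    ⟨i, lt_of_le_of_ne (hmax i (Finset.mem_filter.mpr ⟨hi, hi0⟩)) hij, rfl⟩)

theorem finrank_span_image_finset {ι : Type*} {e : ι → V} (he : LinearIndependent F e)
    (s : Finset ι) : finrank F (Submodule.span F (e '' s)) = s.card := by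
  have := finrank_span_eq_card (he.comp (Subtype.val : s → ι) Subtype.val_injective)
  rw [Set.range_comp, Subtype.range_coe_subtype] at this
  simpa using this

namespace Form

variable {f : Form T V}

/-- The order of the stabiliser of a full flag in a totally singular subspace. -/
theorem Nondeg.card_flag_stab [Finite F] [FiniteDimensional F V] (hf : f.Nondeg) {k : ℕ}
    {e : Fin k → V} (he : LinearIndependent F e) (hs : f.TotSing (Submodule.span F (Set.range e))) :
    Nat.card ↥(f.O ⊓ ⨅ j : Fin k, f.stab (Submodule.span F (e '' Set.Iic j))) =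
      (∏ j : Fin k, (Nat.card F ^ (j + 1 : ℕ) - Nat.card F ^ (j : ℕ))) *
        Nat.card (f.fix (Submodule.span F (Set.range e))) := by
  set B := f.O ⊓ ⨅ j : Fin k, f.stab (Submodule.span F (e '' Set.Iic j)) with hB
  have hmem : ∀ g, g ∈ B ↔ g ∈ f.O ∧ ∀ j, g (e j) ∈ Submodule.span F (e '' Set.Iic j) := fun g => by
    rw [hB, Subgroup.mem_inf, Subgroup.mem_iInf]
    refine and_congr_right fun hg => ⟨fun h j => ((h j).2 _).mp
      (Submodule.subset_span ⟨j, Set.self_mem_Iic, rfl⟩), fun h j => ?_⟩
    rw [mem_stab_iff_le]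
    refine ⟨hg, fun v hv => ?_⟩
    refine (Submodule.span_le (p := (Submodule.span F (e '' Set.Iic j)).comap
      (g : V →ₗ[F] V))).mpr ?_ hv
    rintro _ ⟨i, hi, rfl⟩
    exact Submodule.span_mono (Set.image_mono (Set.Iic_subset_Iic.mpr hi)) (h i)
  have hle : f.fix (Submodule.span F (Set.range e)) ≤ B := fun g hg => (hmem g).mpr ⟨hg.1, fun j => by
    rw [hg.2 _ (Submodule.subset_span ⟨j, rfl⟩)]
    exact Submodule.subset_span ⟨j, Set.self_mem_Iic, rfl⟩⟩
  have hsub : ∀ (y : Fin k → V), (∀ j, y j ∈ Submodule.span F (e '' Set.Iic j)) → ∀ j,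
      Submodule.span F (y '' Set.Iio j) ≤ Submodule.span F (e '' Set.Iio j) := fun y hy j => by
    rw [Submodule.span_le]
    rintro _ ⟨i, hi, rfl⟩
    exact Submodule.span_mono (Set.image_mono (Set.Iic_subset_Iio.mpr hi)) (hy i)
  rw [← Nat.card_congr (MulAction.orbitProdStabilizerEquivGroup B e), Nat.card_prod]
  congr 1
  · have : MulAction.orbit B e = {y | ∀ j, y j ∈ Submodule.span F (e '' Set.Iic j) ∧
        y j ∉ Submodule.span F (e '' Set.Iio j)} := by
      ext y
      constructor
      · rintro ⟨g, rfl⟩ j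
        refine ⟨((hmem g).mp g.2).2 j, fun h => ?_⟩
        have h1 : Submodule.span F ((g.1 ∘ e) '' Set.Iio j) = Submodule.span F (e '' Set.Iio j) := by
          refine Submodule.eq_of_le_of_finrank_eq (hsub _ ((hmem g).mp g.2).2 j) ?_
          rw [Set.image_comp]
          erw [← Submodule.map_span (g.1 : V →ₗ[F] V)]
          exact LinearEquiv.finrank_map_eq _ _
        rw [← h1] at h
        exact (he.map' (g.1 : V →ₗ[F] V) g.1.ker).notMem_span_image (by simp) h
      · intro hy
        have hy' : ∀ j, y j ∈ Submodule.span F (Set.range e) := fun j =>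
          Submodule.span_mono (Set.image_subset_range _ _) (hy j).1
        have he' : ∀ j, e j ∈ Submodule.span F (Set.range e) := fun j =>
          Submodule.subset_span ⟨j, rfl⟩
        obtain ⟨g, hg, h⟩ := hf.witt_family he (linearIndependent_of_notMem_span_Iio
          fun j h => (hy j).2 (hsub y (fun j => (hy j).1) j h))
          (fun i j => (hs.2 _ (hy' i) _ (hy' j)).trans (hs.2 _ (he' i) _ (he' j)).symm)
          (fun i => (hs.1 _ (hy' i)).trans (hs.1 _ (he' i)).symm)
        exact ⟨⟨g, (hmem g).mpr ⟨hg, fun j => h j ▸ (hy j).1⟩⟩, funext h⟩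
    rw [this]
    erw [Nat.card_congr (Equiv.subtypePiEquivPi (p := fun j v =>
      v ∈ Submodule.span F (e '' Set.Iic j) ∧ v ∉ Submodule.span F (e '' Set.Iio j)))]
    rw [Nat.card_pi]
    refine Finset.prod_congr rfl fun j _ => ?_
    rw [card_mem_notMem (Submodule.span_mono (Set.image_mono Set.Iio_subset_Iic_self)),
      ← Finset.coe_Iic, ← Finset.coe_Iio, finrank_span_image_finset he,
      finrank_span_image_finset he]
    simp
  · have : MulAction.stabilizer B e = (f.fix (Submodule.span F (Set.range e))).subgroupOf B := by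
      ext g
      rw [Subgroup.mem_subgroupOf, mem_fix_span, MulAction.mem_stabilizer_iff, funext_iff,
        Set.forall_mem_range]
      exact (and_iff_right g.2.1).symm
    rw [this, Nat.card_congr (Subgroup.subgroupOfEquivOfLe hle).toEquiv]

end Form

end CL.Witt
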