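/-
Tensor powers in the unitary group: root data and invariant algebras.
-/
import Mathlib
import Cfsg.Agent.CLAS.Wr6
import Cfsg.Agent.CLAS.TensU4
import Cfsg.Agent.CLAS.TForm

set_option autoImplicit false
set_option linter.unusedSectionVars false

namespace CL.Wr

open Module CL.ExtF CL.Tens CL.Witt CL.Witt.Form Function

attribute [-simp] LinearEquiv.coe_inv
attribute [local simp] FormType.herm_ε FormType.herm_σ FormType.herm_π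

variable {F : Type*} [Field F] {V₁ V : Type*} [AddCommGroup V₁] [Module F V₁] [AddCommGroup V]
  [Module F V] [FiniteDimensional F V₁] {r : Rep F V₁ V} {ξ : End F V}

theorem comm_of_comp [Nontrivial V₁] [FiniteDimensional F V] (H : ∀ g : End F V₁,
    (∀ φ x, cmp r φ x ξ = 0 → φ (g x) = 0) → (∀ A, Commute ξ (r A) → Commute g A) →
      ∃ s : F, ∀ x, g x = s • x) (A : End F V₁) : Commute ξ (r A) := by
  obtain ⟨U, τ, h⟩ := exists_tn r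
  obtain ⟨x, hx⟩ := exists_ne (0 : V₁)
  obtain ⟨χ, hχ⟩ := Module.Projective.exists_dual_eq_one F hx
  refine h.comm_of_left (B := ct h.tp χ ∘ₗ ξ ∘ₗ τ.flip x) (fun u y => ?_) A
  refine sub_eq_zero.1 (eq_zero_of_ct (flip h.tp) fun α => ?_)
  obtain ⟨s, hs⟩ := H (cl h.tp α ∘ₗ ξ ∘ₗ τ u) (fun φ y h0 => by
    have := LinearMap.congr_fun (cmp_spec r φ χ y x ξ) (τ u x)
    simp only [h0, mul_zero, End.mul_apply, h.app, LinearMap.smulRight_apply, hχ, one_smul, h.rk,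
      LinearMap.zero_apply] at this
    simp [ct_comm, show ct h.tp φ _ = 0 from pure_inj h.tp hx (by simpa using this.symm)])
    fun A hA => LinearMap.ext fun y => by
      have : cl h.tp α ∘ₗ r A = A ∘ₗ cl h.tp α := ext_of h.tp fun u x => by simp [h.app]
      simpa [← h.app, ← End.mul_apply ξ, hA.eq] using LinearMap.congr_fun this (ξ (τ u y))
  change cl h.tp α _ = 0
  simp only [LinearMap.comp_apply] at hs
  simp [hs, ← ct_comm, hχ]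

variable {σ : F →+* F} {hσ2 : ∀ a, σ (σ a) = a} {f₁ : Form (FormType.herm σ hσ2) V₁} {c x y : V₁}

/-- The maps of rank one. -/
abbrev pp (f₁ : Form (FormType.herm σ hσ2) V₁) (x y : V₁) : End F V₁ := (f₁.B x).smulRight y

variable (f₁) in
/-- The root data of `SU`. -/
def suD : RD F V₁ :=
  ⟨fun c ψ => c ≠ 0 ∧ f₁.q c = 0 ∧ ∃ a, a ≠ 0 ∧ a + σ a = 0 ∧ ψ = a • f₁.B c,
    ∀ t, σ t = t → t = 0 ∨ t = 1, False⟩

theorem tv_coe (hc : f₁.q c = 0) {a : F} (ha : a + σ a = 0) :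
    (f₁.ei c 0 (-a) : End F V₁) = 1 + a • pp f₁ c c :=
  LinearMap.ext fun v => by simp [herm_tv_apply hc ha, mul_smul]

theorem ei_coe {a : F} (ok : f₁.EichOK c y a) :
    (f₁.ei c y a : End F V₁) = 1 + pp f₁ c y - pp f₁ y c - a • pp f₁ c c :=
  LinearMap.ext fun v => by simp [ok.ei_apply, add_smul, mul_smul, sub_sub]

variable (hσ : σ ≠ RingHom.id F) (nd : f₁.Nondeg) (h3 : 3 ≤ finrank F V₁) [Finite F]
include hσ nd h3

theorem span_iso (W : Submodule F V₁) (hc : f₁.q c = 0) (c0 : c ≠ 0) (h : c ∈ W)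
    (H : ∀ y, f₁.q y = 0 → f₁.B c y ≠ 0 → y ∈ W) (y : V₁) : y ∈ W := by
  have key : ∀ y, f₁.B c y ≠ 0 → y ∈ W := fun y hy => by
    obtain ⟨s, hs⟩ := f₁.exists_q_add_smul_eq_zero hc hy
    simpa using W.sub_mem (H _ hs (by simpa [f₁.B_self_eq_zero hc] using hy)) (W.smul_mem s h)
  obtain ⟨c', -, h1⟩ := nd.exists_partner' hc c0
  by_cases hy : f₁.B c y = 0
  · simpa using W.sub_mem (key (y + c') (by simp [hy, h1])) (key c' (by simp [h1]))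
  · exact key y hy

theorem gen_su (S : Subalgebra F (End F V₁)) (H : ∀ c, f₁.q c = 0 → pp f₁ c c ∈ S) : S = ⊤ := by
  obtain ⟨c, c0, hc⟩ := (herm_iso3 hσ f₁).exists_singular h3
  have h1 : ∀ d, f₁.q d = 0 → ∀ y, pp f₁ d y ∈ S := fun d hd y => by
    rcases eq_or_ne d 0 with rfl | d0
    · simp [pp]
    refine span_iso hσ nd h3 (S.toSubmodule.comap ((LinearMap.smulRightₗ (f₁.B d)))) hd d0 (H d hd)
      (fun y hy h => ?_) y
    have := S.smul_mem (S.mul_mem (H y hy) (H d hd)) (f₁.B y d)⁻¹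
    rwa [rk_mul, inv_smul_smul₀ fun e => h (f₁.B_eq_zero_symm e)] at this
  refine eq_top_iff.2 fun A _ => sum_rk' A ▸ S.sum_mem fun i _ => ?_
  obtain ⟨d, hd⟩ := nd.exists_rep ((finBasis F V₁).coord i)
  rw [← LinearMap.ext hd]
  exact span_iso hσ nd h3
    { carrier := {d | ∀ y, pp f₁ d y ∈ S}
      add_mem' := fun ha hb y => by
        convert S.add_mem (ha y) (hb y) using 1; ext; simp [add_smul]
      zero_mem' := by simp [pp]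
      smul_mem' := fun s d h y => by simpa [pp, smul_rk] using S.smul_mem (h y) (σ s) }
    hc c0 (h1 c hc) (fun y hy _ => h1 y hy) d _

variable (hex : 4 ≤ finrank F V₁ ∨ ∃ t : F, σ t = t ∧ t ≠ 0 ∧ t ≠ 1)
include hex

theorem suRS : RS (suD f₁) where
  c0 h := h.1
  ψ0 := fun ⟨c0, _, a, a0, _, e⟩ h0 => c0 (nd _ fun y => by
    simpa [a0] using LinearMap.congr_fun (e.symm.trans h0) y)
  fl := fun ⟨_, hc, a, _, _, e⟩ => by simp [e, f₁.B_self_eq_zero hc]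
  gen S H := gen_su hσ nd h3 S fun c hc => by
    obtain ⟨η, η0, hη⟩ := FormType.exists_add_σ_eq_zero hσ hσ2
    rcases eq_or_ne c 0 with rfl | c0
    · simp
    simpa [smul_rk, η0] using S.smul_mem (H c _ ⟨c0, hc, η, η0, hη, rfl⟩) η⁻¹
  dim := Or.inl h3
  sw _ h := Or.inr (by
    obtain ⟨t, t1, t0, t2⟩ := hex.resolve_left (by omega)
    obtain ⟨c, c0, hc⟩ := (herm_iso3 hσ f₁).exists_singular h3
    obtain ⟨η, η0, hη⟩ := FormType.exists_add_σ_eq_zero hσ hσ2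
    exact ⟨c, _, t, ⟨c0, hc, η, η0, hη, rfl⟩, ⟨c0, hc, t * η, mul_ne_zero t0 η0,
      by rw [map_mul, t1, ← mul_add, hη, mul_zero], smul_smul _ _ _⟩, t2⟩)

theorem suBC : BC (suD f₁) := by
  obtain ⟨η, η0, hη⟩ := FormType.exists_add_σ_eq_zero hσ hσ2
  have rl : ∀ {L : Submodule F V₁}, (∀ x ∈ L, ∀ y ∈ L, f₁.B x y = 0) → ∀ d ∈ L, d ≠ 0 →
      RL (suD f₁) L d (η • f₁.B d) := fun hL d hd d0 =>
    ⟨⟨d0, by rw [herm_q, hL d hd d hd], η, η0, hη, rfl⟩, hd, fun x hx => by simp [hL d hd x hx]⟩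
  have sc : ∀ {L : Submodule F V₁}, (∀ x ∈ L, ∀ y ∈ L, f₁.B x y = 0) → ∀ c ∈ L, c ≠ 0 →
      ∀ x ∈ f₁.perp L, ∀ A : V₁ ≃ₗ[F] V₁, (∀ x ∈ L, A x ∈ L) →
      (∀ c ψ, (suD f₁).R c ψ → (suD f₁).R (A c) (ψ ∘ₗ (A⁻¹ : V₁ ≃ₗ[F] V₁))) →
      ∃ c ψ, RL (suD f₁) L c ψ ∧ ψ x = 0 ∧ ψ (A x) = 0 := fun hL c hc c0 x hx A h1 h2 => by
    obtain ⟨c1, -, a, a0, -, e⟩ := h2 _ _ (rl hL c hc c0).1
    refine ⟨_, _, rl hL _ (h1 c hc) c1, by simp [hx _ (h1 c hc)], ?_⟩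
    simpa [inv_app, hx c hc, a0, η0] using LinearMap.congr_fun e (A x)
  by_cases ht : ∃ t : F, σ t = t ∧ t ≠ 0 ∧ t ≠ 1
  · refine Or.inr ⟨h3, fun c ψ ⟨c0, hc, _⟩ => ?_⟩
    have m := Submodule.mem_span_singleton_self (R := F) c
    have hL : ∀ x ∈ F ∙ c, ∀ y ∈ F ∙ c, f₁.B x y = 0 := by
      simp only [Submodule.mem_span_singleton]
      rintro _ ⟨a, rfl⟩ _ ⟨b, rfl⟩; simp [f₁.B_self_eq_zero hc]
    obtain ⟨x, x1, x2⟩ := exists_ker_notMem h3 (f₁.B c) c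
    obtain ⟨t, t1, t0, t2⟩ := ht
    obtain ⟨c', -, h1⟩ := nd.exists_partner' hc c0
    refine ⟨fun d hd d0 => ⟨_, rl hL d hd d0⟩, ⟨c, _, c, (-t * η) • f₁.B c, rl hL c m c0,
      ⟨⟨c0, hc, _, by simp [t0, η0], by simp [t1, eq_neg_of_add_eq_zero_right hη], rfl⟩, m,
        fun x hx => by simp [hL c m x hx]⟩, fun e => ?_⟩, ⟨c, _, rl hL c m c0, x, x2, by simp [x1]⟩,
      fun A h1 h2 => Or.inl ⟨x, x2, sc hL c m c0 x (f₁.mem_perp_span_singleton.2 x1) A h1 h2⟩⟩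
    have : ((1 - t) * η) • c = 0 := by
      have := LinearMap.congr_fun e c'
      simp [h1] at this
      linear_combination (norm := module) this
    simp [c0, η0, sub_eq_zero, t2.symm] at this
  have h4 := hex.resolve_right ht
  refine Or.inl fun c ψ ⟨c0, hc, _⟩ => ?_
  obtain ⟨c', -, h1⟩ := nd.exists_partner' hc c0
  obtain ⟨u, u0, hu, u1, u2⟩ := exists_iso_perp (f₂ := f₁) hσ h4 c c'
  have h2 : u ∉ F ∙ c := fun h => by
    obtain ⟨s, rfl⟩ := Submodule.mem_span_singleton.1 h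
    simp [f₁.herm_symm c c', h1] at u2; simp [u2] at u0
  let L := (F ∙ c) ⊔ F ∙ u
  have m1 : c ∈ L := Submodule.mem_sup_left (Submodule.mem_span_singleton_self c)
  have m2 : u ∈ L := Submodule.mem_sup_right (Submodule.mem_span_singleton_self u)
  have d2 : finrank F L = 2 := by
    rw [Submodule.finrank_sup_span_singleton h2, finrank_span_singleton c0]
  have hL : ∀ x ∈ L, ∀ y ∈ L, f₁.B x y = 0 := by
    simp only [L, Submodule.mem_sup, Submodule.mem_span_singleton]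
    rintro _ ⟨_, ⟨a, rfl⟩, _, ⟨b, rfl⟩, rfl⟩ _ ⟨_, ⟨a', rfl⟩, _, ⟨b', rfl⟩, rfl⟩
    simp [f₁.B_self_eq_zero hc, f₁.B_self_eq_zero hu, u1, f₁.B_eq_zero_symm u1]
  have al : ∀ x, ∃ c ψ, RL (suD f₁) L c ψ ∧ ψ x = 0 := fun x => by
    obtain ⟨d, hd, d0⟩ := Submodule.exists_mem_ne_zero_of_ne_bot (LinearMap.ker_ne_bot_of_finrank_lt
      (f := f₁.B x ∘ₗ L.subtype) (by simp [d2]))
    exact ⟨_, _, rl hL d d.2 (by simpa using d0), by simp [f₁.B_eq_zero_symm (show f₁.B x d = 0 from hd)]⟩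
  refine ⟨L, m1, ⟨fun d hd d0 => ⟨_, rl hL d hd d0⟩, ⟨c, _, u, _, rl hL c m1 c0, rl hL u m2 u0,
    fun e => by simpa [h1, f₁.B_eq_zero_symm u2, η0, c0] using LinearMap.congr_fun e c'⟩,
    ⟨c, _, rl hL c m1 c0, ?_⟩, fun A h1 h2 => ?_⟩, al⟩
  · by_contra! H
    have h5 := Submodule.finrank_mono (show LinearMap.ker (f₁.B c) ≤ L from fun x hx =>
      by_contra fun h => H x h (by simp [show f₁.B c x = 0 from hx]))
    have := Module.Dual.finrank_ker_add_one_of_ne_zero (f := f₁.B c) fun e => by simp [e] at h1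
    omega
  by_cases h5 : f₁.perp L ≤ L
  · have := Submodule.finrank_mono h5
    rw [nd.finrank_perp] at this
    exact Or.inr ⟨fun t h => by_contra fun e => ht ⟨t, h, not_or.1 e⟩, by omega, al⟩
  · obtain ⟨x, x1, x2⟩ := SetLike.not_le_iff_exists.1 h5
    exact Or.inl ⟨x, x2, sc hL c m1 c0 x x1 A h1 h2⟩

omit hex

theorem herm_scalar {g : End F V₁} (H : ∀ x, f₁.q x = 0 → f₁.B x (g x) = 0) :
    ∃ s : F, ∀ x, g x = s • x := by
  obtain ⟨c, c0, hc⟩ := (herm_iso3 hσ f₁).exists_singular h3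
  obtain ⟨g', hg⟩ := exists_adjL nd g
  have hg' : ∀ x y, f₁.B (g' x) y = f₁.B x (g y) := fun x y => by
    rw [f₁.herm_symm, ← hg, ← f₁.herm_symm]
  have key : ∀ ω, ∃ s : F, ∀ x, (ω • g - σ ω • g') x = s • x := fun ω =>
    herm_scalar_of_iso hσ nd hc c0 (fun x y => by simp [hg, hg', hσ2]) fun x hx => by
      simp [H x hx, ← hg, f₁.B_eq_zero_symm (H x hx)]
  obtain ⟨ω, hω⟩ : ∃ ω, σ ω ≠ ω := by
    by_contra! H; exact hσ (RingHom.ext H)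
  obtain ⟨s, hs⟩ := key ω
  obtain ⟨s', hs'⟩ := key 1
  refine ⟨(ω - σ ω)⁻¹ * (s - σ ω * s'), fun x => ?_⟩
  rw [mul_smul, eq_inv_smul_iff₀ (sub_ne_zero.2 hω.symm)]
  have h1 := hs x
  have h2 := hs' x
  simp only [LinearMap.sub_apply, LinearMap.smul_apply, map_one, one_smul] at h1 h2
  linear_combination (norm := module) h1 - σ ω • h2

theorem exists_perp_eq (hc : f₁.q c = 0) (c0 : c ≠ 0) (ω : F) : ∃ c' y y', f₁.q c' = 0 ∧
    f₁.B c c' = 1 ∧ f₁.B c y = 0 ∧ f₁.B c' y = 0 ∧ f₁.B c y' = 0 ∧ f₁.B c' y' = 0 ∧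
      f₁.B y y' = ω := by
  obtain ⟨c', hc', h1⟩ := nd.exists_partner' hc c0
  obtain ⟨y, y1, y2, y3⟩ := CL.Uni.exists_perp_pair_q_eq hσ nd h3 hc hc' h1 (b := 1) (by simp)
  exact ⟨c', y, ω • y, hc', h1, y1, y2, by simp [y1], by simp [y2], by simp [← herm_q, y3]⟩

theorem ex0 {Λ : AddSubgroup (End F V)} (hΛ : ∀ e ∈ f₁.E, ∀ ξ ∈ Λ, (un r e).conjAlgEquiv F ξ ∈ Λ)
    (hξ : ξ ∈ Λ) (hx : f₁.q x = 0) (x0 : x ≠ 0) :
    ∃ s : F, s ≠ 0 ∧ s • (r (pp f₁ x x) * ξ * r (pp f₁ x x)) ∈ Λ := by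
  obtain ⟨η, η0, hη⟩ := FormType.exists_add_σ_eq_zero hσ hσ2
  obtain ⟨ω, hω⟩ : ∃ ω, σ ω ≠ ω := by
    by_contra! H; exact hσ (RingHom.ext H)
  obtain ⟨-, y, y', -, -, y1, -, y2, -, y3⟩ := exists_perp_eq hσ nd h3 hx x0 ω
  have xx := f₁.B_self_eq_zero hx
  have δ : ∀ y a, f₁.EichOK x y a → ∀ ξ ∈ Λ, r (1 + pp f₁ x y - pp f₁ y x - a • pp f₁ x x) * ξ *
      r (1 - pp f₁ x y + pp f₁ y x - σ a • pp f₁ x x) - ξ ∈ Λ := fun y a ok ξ hξ => by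
    convert Λ.sub_mem (hΛ _ (ei_mem_E x y a) ξ hξ) hξ using 2
    change _ = r _ * ξ * r _
    rw [ok.ei_inv, ei_coe ok, ei_coe ok.neg]
    congr 2
    ext; simp [sub_eq_add_neg]
  obtain ⟨a, ok⟩ := exists_eichOK hx y1
  obtain ⟨a', ok'⟩ := exists_eichOK hx y2
  refine ⟨η * (σ ω - ω), mul_ne_zero η0 (sub_ne_zero.2 hω), ?_⟩
  convert δ y a ok _ (δ y' a' ok' _ (δ 0 η (eichOK_zero hx hη) ξ hξ)) using 1
  rw [show pp f₁ 0 x = 0 by ext; simp]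
  simp only [map_add, map_sub, map_one, map_smul, map_zero,
    LinearMap.smulRight_zero, eq_neg_of_add_eq_zero_right hη, add_mul, sub_mul, mul_add, mul_sub,
    one_mul, mul_one, smul_mul_assoc, mul_smul_comm, ← mul_assoc, ← map_mul, rk_mul, xx, y2, y3,
    f₁.B_eq_zero_symm y1, f₁.B_eq_zero_symm y2, zero_smul, smul_zero, add_zero, sub_zero]
  simp only [mul_assoc, ← map_mul, rk_mul, xx, y1, y2, f₁.herm_symm y y', y3,
    f₁.B_eq_zero_symm y2, zero_smul, map_zero, mul_zero, smul_zero, map_smul, mul_smul_comm,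
    zero_mul]
  module

variable [FiniteDimensional F V]

theorem exists_cmp (hc : ¬ ∀ A, Commute ξ (r A)) :
    ∃ x, f₁.q x = 0 ∧ x ≠ 0 ∧ cmp r (f₁.B x) x ξ ≠ 0 := by
  have : Nontrivial V₁ := Module.nontrivial_of_finrank_pos (R := F) (by omega)
  by_contra! H
  refine hc (comm_of_comp fun g h _ => herm_scalar hσ nd h3 fun x hx => ?_)
  rcases eq_or_ne x 0 with rfl | x0
  · simp
  · exact h _ _ (H x hx x0)

theorem ex_flag {Λ : Submodule F (End F V)}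
    (hΛ : ∀ e ∈ f₁.E, ∀ ξ ∈ Λ, (un r e).conjAlgEquiv F ξ ∈ Λ) (hξ : ξ ∈ Λ)
    (hc : ¬ ∀ A, Commute ξ (r A)) : ∃ φ x, cmp r φ x ξ ≠ 0 ∧
      ∀ c (ψ : Dual F V₁), ψ c = 0 → r (ψ.smulRight c) * cmp r φ x ξ ∈ Λ := by
  obtain ⟨x, hx, x0, h⟩ := exists_cmp hσ nd h3 hc
  obtain ⟨s, s0, hs⟩ := ex0 hσ nd h3 (Λ := Λ.toAddSubgroup) hΛ hξ hx x0
  refine ⟨_, x, h, fun c ψ h0 => by_contra fun hn => ?_⟩
  obtain ⟨l, l1, l2⟩ := CL.Tv.exists_dual_one (Λ.comap (LinearMap.mulRight F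
    (cmp r (f₁.B x) x ξ) ∘ₗ r.toLinearMap)) hn
  let g : End F V₁ := (evalEquiv F V₁).symm.toLinearMap ∘ₗ (LinearMap.smulRightₗ.compr₂ l).flip
  have hg : ∀ (φ : Dual F V₁) x, φ (g x) = l (φ.smulRight x) := fun φ x => by simp [g]
  obtain ⟨t, ht⟩ := herm_scalar hσ nd h3 (g := g) fun d hd => by
    rcases eq_or_ne d 0 with rfl | d0
    · simp
    obtain ⟨e, he, rfl⟩ := herm_E_trans hσ nd h3 hx x0 hd d0
    have := hΛ e he _ ((Λ.smul_mem_iff s0).1 hs)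
    rw [← cmp_spec, un_rk r e _ _ cmp_comm] at this
    rw [hg]
    refine l2 _ ?_
    rwa [show f₁.B (e x) = f₁.B x ∘ₗ (e⁻¹ : V₁ ≃ₗ[F] V₁) from
      LinearMap.ext (B_apply_left (E_le_O he) x)]
  simp [← hg, ht, h0] at l1

variable [Nontrivial V] {I : Type*} [DecidableEq I] {ρ : I → Rep F V₁ V} {s : Finset I}
  {𝒜 Λ : Subalgebra F (End F V)} {Z : Subgroup (V ≃ₗ[F] V)}

/-- An invariant non-scalar algebra contains a factor. -/
theorem Fam.algU (Φ : Fam ρ s 𝒜) (hΛ : Λ ≤ 𝒜) (K : ∀ j ∈ s, ∀ e ∈ f₁.E, un (ρ j) e ∈ Z)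
    (hA : ∀ z ∈ Z, ∀ ξ ∈ 𝒜, z.conjAlgEquiv F ξ ∈ 𝒜) (hZ : ∀ z ∈ Z, ∀ ξ ∈ Λ, z.conjAlgEquiv F ξ ∈ Λ)
    (hn : ¬ ∀ ξ ∈ Λ, ∃ μ : F, ξ = μ • 1) : ∃ j ∈ s, ∀ A, ρ j A ∈ Λ := by
  induction s using Finset.strongInduction generalizing 𝒜 Λ Z with
  | H s ih =>
  obtain ⟨ξ, hξ, j, hj, hc⟩ : ∃ ξ ∈ Λ, ∃ j ∈ s, ¬ ∀ A, Commute ξ (ρ j A) := by
    by_contra! h
    exact hn fun ξ hξ => Φ.cent ξ (hΛ hξ) (h ξ hξ)
  let 𝒜' := 𝒜 ⊓ Subalgebra.centralizer F (Set.range (ρ j))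
  have cm : ∀ ξ ∈ 𝒜', ∀ A, Commute ξ (ρ j A) := fun ξ hξ A => (hξ.2 _ ⟨A, rfl⟩).symm
  let J : NonUnitalSubalgebra F (End F V) :=
    { carrier := {η | η ∈ 𝒜' ∧ ∀ c (ψ : Dual F V₁), ψ c = 0 → ρ j (ψ.smulRight c) * η ∈ Λ}
      add_mem' := fun ha hb => ⟨𝒜'.add_mem ha.1 hb.1, fun c ψ h =>
        mul_add (ρ j _) _ _ ▸ Λ.add_mem (ha.2 c ψ h) (hb.2 c ψ h)⟩
      zero_mem' := ⟨𝒜'.zero_mem, by simp⟩
      smul_mem' := fun s _ ha => ⟨𝒜'.smul_mem ha.1 s, fun c ψ h =>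
        mul_smul_comm s (ρ j _) _ ▸ Λ.smul_mem (ha.2 c ψ h) s⟩
      mul_mem' := fun {a b} ha hb => ⟨𝒜'.mul_mem ha.1 hb.1, fun c φ h0 => by
        obtain ⟨d, d1, d2⟩ := exists_ker_notMem h3 φ c
        obtain ⟨ψ, p1, p2⟩ := CL.Tv.exists_dual_one_zero d2
        have := Λ.mul_mem (ha.2 c ψ p2) (hb.2 d φ d1)
        rwa [mul_assoc, ← mul_assoc a, (cm a ha.1 _).eq, mul_assoc, ← mul_assoc, ← map_mul, rk_mul,
          p1, one_smul] at this⟩ }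
  obtain ⟨φ, x, η0, hη⟩ := ex_flag hσ nd h3 (Λ := Λ.toSubmodule)
    (fun e he => hZ _ (K j hj e he)) hξ hc
  replace hη : cmp (ρ j) φ x ξ ∈ J := ⟨⟨cmp_mem (Φ.mem j hj) (hΛ hξ), by
    rintro _ ⟨B, rfl⟩; exact (cmp_comm B).symm⟩, hη⟩
  have h1 : (1 : End F V) ∈ J := by
    by_cases hs : ∀ ξ ∈ adj1 J, ∃ μ : F, ξ = μ • 1
    · obtain ⟨μ, e⟩ := hs _ ⟨0, by simpa using hη⟩
      rw [e] at hη η0
      simpa [smul_smul, show μ ≠ 0 by rintro rfl; simp at η0] using J.smul_mem μ⁻¹ hη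
    have hA' : ∀ z ∈ Z ⊓ cen (ρ j), ∀ ξ ∈ 𝒜', z.conjAlgEquiv F ξ ∈ 𝒜' := fun z hz ξ hξ =>
      ⟨hA z hz.1 ξ hξ.1, by
        rintro _ ⟨B, rfl⟩
        exact cen_conj hz.2 B ▸ ((cm ξ hξ B).map (z.conjAlgEquiv F)).symm⟩
    obtain ⟨k, -, hk⟩ := ih _ (Finset.erase_ssubset hj) (Λ := adj1 J) (Z := Z ⊓ cen (ρ j))
      (Φ.erase hj)
      (fun ξ ⟨μ, h⟩ => sub_add_cancel ξ (μ • 1) ▸ 𝒜'.add_mem h.1 (𝒜'.smul_mem 𝒜'.one_mem μ))
      (fun k hk e he => ⟨K k (Finset.mem_of_mem_erase hk) e he,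
        Φ.comm k (Finset.mem_of_mem_erase hk) j hj (Finset.ne_of_mem_erase hk) _⟩) hA'
      (fun z hz ξ ⟨μ, h⟩ => ⟨μ, by
        rw [← map_one (z.conjAlgEquiv F), ← map_smul, ← map_sub]
        exact ⟨hA' z hz _ h.1, fun c ψ h0 => by
          simpa only [map_mul, cen_conj hz.2] using hZ z hz.1 _ (h.2 c ψ h0)⟩⟩) hs
    exact one_mem_of_adj1 h3 hk
  exact ⟨j, hj, fun A => (gen_flag (by omega) (Λ.comap (ρ j)) fun c ψ h => by
    simpa using h1.2 c ψ h).ge trivial⟩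

end CL.Wr
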