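/-
Tensor powers in the unitary group: if the central levels are scalar, the factors are rigid.
-/
import Mathlib
import Cfsg.Agent.CLAS.Wr7

set_option autoImplicit false
set_option linter.unusedSectionVars false

namespace CL.Wr

open Module CL.ExtF CL.Tens CL.Witt CL.Witt.Form Function

attribute [-simp] LinearEquiv.coe_inv
attribute [local simp] FormType.herm_ε FormType.herm_σ FormType.herm_π

variable {F : Type*} [Field F] {V₁ V : Type*} [AddCommGroup V₁] [Module F V₁] [AddCommGroup V]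
  [Module F V] [FiniteDimensional F V₁] {r r' : Rep F V₁ V} {ξ : End F V}
  {σ : F →+* F} {hσ2 : ∀ a, σ (σ a) = a} {f₁ : Form (FormType.herm σ hσ2) V₁}
  {f : Form (FormType.herm σ hσ2) V} {c c' x y : V₁} {X : Subgroup (V ≃ₗ[F] V)} {u z : V ≃ₗ[F] V}

theorem cmp_smul_left (s : F) (φ : Dual F V₁) : cmp r (s • φ) x ξ = s • cmp r φ x ξ := by
  simp [cmp, smul_rk, Finset.smul_sum]

theorem cmp_smul_right (s : F) (φ : Dual F V₁) : cmp r φ (s • x) ξ = s • cmp r φ x ξ := by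
  simp [cmp, Finset.smul_sum, show ∀ ψ : Dual F V₁, ψ.smulRight (s • x) = s • ψ.smulRight x from
    fun ψ => by ext; simp [smul_comm s]]

theorem exists_vec (r : Rep F V₁ V) (l : Dual F V) (c : V₁) :
    ∃ t : V →ₗ[F] V₁, ∀ (φ : Dual F V₁) v, φ (t v) = l (r (φ.smulRight c) v) :=
  ⟨(evalEquiv F V₁).symm.toLinearMap ∘ₗ
    ((r.toLinearMap ∘ₗ LinearMap.smulRightₗ.flip c).compr₂ l).flip, fun φ v => by simp⟩

/-- Adjoint maps. -/
def Adj (f : Form (FormType.herm σ hσ2) V) (A A' : End F V) : Prop :=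
  ∀ v w, f.B (A v) w = f.B v (A' w)

theorem adj_pp (x y : V₁) : Adj f₁ (pp f₁ x y) (pp f₁ y x) := fun v w => by
  simp [f₁.herm_symm x v, mul_comm]

/-- `X` is a group of isometries containing the special unitary group of the factor. -/
structure UX (X : Subgroup (V ≃ₗ[F] V)) (f : Form (FormType.herm σ hσ2) V)
    (f₁ : Form (FormType.herm σ hσ2) V₁) (r : Rep F V₁ V) : Prop where
  hσ : σ ≠ RingHom.id F
  nd : f.Nondeg
  nd₁ : f₁.Nondeg
  h3 : 3 ≤ finrank F V₁
  adj : ∀ A A', Adj f₁ A A' → Adj f (r A) (r A')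
  le : X ≤ f.O
  det : ∀ g ∈ X, LinearMap.det (g : End F V) = 1
  mem : ∀ B ∈ f₁.O, LinearMap.det (un r B : End F V) = 1 → un r B ∈ X
  E : ∀ e ∈ f₁.E, un r e ∈ X

/-- The central level at `c` is scalar. -/
def USc (X : Subgroup (V ≃ₗ[F] V)) (f₁ : Form (FormType.herm σ hσ2) V₁) (r : Rep F V₁ V)
    (c : V₁) : Prop :=
  ∀ u ∈ X, (∀ v, u v - v ∈ T r (F ∙ c)) → ∃ κ : F, ∀ v, u v = v + κ • r (pp f₁ c c) v

theorem un_cj (z : V ≃ₗ[F] V) (B : V₁ ≃ₗ[F] V₁) : un (cj z r) B = z * un r B * z⁻¹ := rfl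

theorem un_ei {a : F} (ok : f₁.EichOK c y a) (v : V) : un r (f₁.ei c y a) v =
    v + r (pp f₁ c y) v - r (pp f₁ y c) v - a • r (pp f₁ c c) v := by simp [un_apply, ei_coe ok]

theorem rk_T' {φ : Dual F V₁} (h : φ c = 0) (y : V₁) {w : V} (hw : w ∈ T r (F ∙ c)) :
    r (φ.smulRight y) w = 0 :=
  rk_T ((Submodule.span_singleton_le_iff_mem _ (LinearMap.ker φ)).2 h) y hw

theorem rk_mem (φ : Dual F V₁) (v : V) : r (φ.smulRight c) v ∈ T r (F ∙ c) :=
  rk_mem_T (Submodule.mem_span_singleton_self c) φ v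

namespace UX

variable (S : UX X f f₁ r)
include S

theorem cj (hz : z ∈ X) : UX X f f₁ (cj z r) where
  hσ := S.hσ
  nd := S.nd
  nd₁ := S.nd₁
  h3 := S.h3
  adj A A' h v w := by
    rw [cj_apply, cj_apply, B_apply_left (S.le hz), S.adj A A' h, ← mem_O_B (S.le hz), app_inv]
  le := S.le
  det := S.det
  mem B hB h := X.mul_mem (X.mul_mem hz (S.mem B hB (by
    simpa [un_cj, det_mul_equiv, det_inv_equiv, S.det z hz] using h))) (X.inv_mem hz)
  E e he := X.mul_mem (X.mul_mem hz (S.E e he)) (X.inv_mem hz)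

theorem B_pp (x y : V₁) (v w : V) : f.B (r (pp f₁ x y) v) w = f.B v (r (pp f₁ y x) w) :=
  S.adj _ _ (adj_pp x y) v w

theorem un_O {B : V₁ ≃ₗ[F] V₁} (hB : B ∈ f₁.O) : un r B ∈ f.O :=
  (herm_isIsom_iff _ _ _).2 fun v w => (S.adj _ _ (B_apply_left hB) v _).trans
    (congrArg (f.B v) (inv_app (un r B) w))

theorem has {a : F} (hc : f₁.q c = 0) (ha : a + σ a = 0) : Has X (a • r (pp f₁ c c) : End F V) :=
  ⟨_, S.E _ (ei_mem_E c 0 (-a)), fun v => by simp [un_apply, tv_coe hc ha]⟩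

theorem pz (hz : z ∈ f.O) {l : F} (h : ∀ w ∈ T r (F ∙ c), z w = l • w) (x : V₁) (v : V) :
    σ l • r (pp f₁ c x) (z v) = r (pp f₁ c x) v := S.nd.ext_right fun w => by
  rw [map_smul, ← S.B_pp, ← S.B_pp, ← mem_O_B hz _ v, h _ (rk_mem _ _)]; simp

variable [FiniteDimensional F V] [Nontrivial V]

theorem mem_W (c0 : c ≠ 0) {v : V} (H : ∀ y, f₁.B c y = 0 → r (pp f₁ y c) v = 0) :
    v ∈ T r (F ∙ c) := mem_T_of_rk c0 fun ψ hψ => by
  obtain ⟨y, hy⟩ := S.nd₁.exists_rep ψ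
  rw [← LinearMap.ext hy]
  exact H y (f₁.B_eq_zero_symm ((hy c).trans (hψ c (Submodule.mem_span_singleton_self c))))

theorem pp_ne (c0 : c ≠ 0) (x0 : x ≠ 0) : pp f₁ c x ≠ 0 := fun h => by
  obtain ⟨y, hy⟩ := S.nd₁.exists_B_eq c0 1
  simpa [hy, x0] using LinearMap.congr_fun h y

theorem exists_B_pp (c0 : c ≠ 0) : ∃ v w, f.B v (r (pp f₁ c c) w) ≠ 0 := by
  by_contra! H
  exact S.pp_ne c0 c0 (rho_inj r (LinearMap.ext fun w => by simpa using S.nd.right _ (H · w)))

variable [Finite F] (hc : f₁.q c = 0) (c0 : c ≠ 0) (hA : USc X f₁ r c)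
include hc c0 hA

theorem ofQ (hu : u ∈ X) (h1 : ∀ w ∈ T r (F ∙ c), u w = w)
    (h2 : ∀ v, r (pp f₁ c c) v = 0 → u v - v ∈ T r (F ∙ c)) : ∃ A, (u : End F V) = r A := by
  have cc := f₁.B_self_eq_zero hc
  obtain ⟨c', -, p1⟩ := S.nd₁.exists_partner' hc c0
  have p2 : f₁.B c' c = 1 := by simp [f₁.herm_symm c c', p1]
  have pu : ∀ x v, r (pp f₁ c x) (u v) = r (pp f₁ c x) v := fun x v => by
    simpa using S.pz (S.le hu) (l := 1) (by simpa using h1) x v
  let η : End F V := u - 1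
  have e1 : ∀ y, f₁.B c y = 0 → η * r (pp f₁ c y) = r (pp f₁ c c) * cmp r (f₁.B c') y η :=
    fun y hy => by
      rw [cmp_spec]
      exact LinearMap.ext fun v => (rk_self p2 (h2 _ (by simp [rho_mul, rk_mul, hy]))).symm
  have e2 : ∀ y, f₁.B c y = 0 → r (pp f₁ y c) * η = r (pp f₁ c c) * cmp r (f₁.B y) c' η :=
    fun y hy => by
      rw [cmp_spec]
      ext v
      have := rk_T' (f₁.B_eq_zero_symm hy) c (h2 (v - r (pp f₁ c c') v) (by simp [rho_mul, rk_mul, p1]))
      simp only [η, End.mul_apply, LinearMap.sub_apply, LinearEquiv.coe_coe, End.one_apply,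
        map_sub] at this ⊢
      linear_combination (norm := module) this
  have k1 : ∀ y, f₁.B c y = 0 → ∃ κ : F, cmp r (f₁.B c') y η + cmp r (f₁.B y) c' η = κ • 1 := by
    intro y hy
    obtain ⟨a, ok⟩ := exists_eichOK hc hy
    have he := S.E _ (ei_mem_E c y a)
    have e3 : ∀ v, u (un r (f₁.ei c y a) v) - un r (f₁.ei c y a) (u v) =
        r (pp f₁ c c) (cmp r (f₁.B c') y η v + cmp r (f₁.B y) c' η v) := fun v => by
      have h3 := LinearMap.congr_fun (e1 y hy) v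
      have h4 := LinearMap.congr_fun (e2 y hy) v
      simp only [η, End.mul_apply, LinearMap.sub_apply, LinearEquiv.coe_coe, End.one_apply,
        map_sub] at h3 h4
      simp only [un_ei ok, map_add, map_sub, map_smul, h1 _ (rk_mem _ _), pu, η]
      linear_combination (norm := module) h3 + h4
    obtain ⟨κ, hκ⟩ := hA _ (X.mul_mem (X.mul_mem hu he) (X.inv_mem (X.mul_mem he hu))) fun v => by
      obtain ⟨v, rfl⟩ := (un r (f₁.ei c y a) * u).surjective v
      rw [mul_app, inv_app, mul_app, mul_app, e3]; exact rk_mem _ _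
    refine ⟨κ, sub_eq_zero.1 (eq_zero_of_mul (S.pp_ne c0 c0) (fun A => (cmp_comm A).add_left
      (cmp_comm A) |>.sub_left ((Commute.one_left _).smul_left κ)) (LinearMap.ext fun v => ?_))⟩
    have := hκ ((un r (f₁.ei c y a) * u) v)
    rw [mul_app, inv_app, mul_app, mul_app, ← sub_eq_iff_eq_add', e3, un_ei ok] at this
    simp only [map_add, map_sub, map_smul, rho_mul, rk_mul, cc, hy, pu] at this
    simpa [sub_eq_zero] using this
  obtain ⟨ω, hω⟩ : ∃ ω, σ ω ≠ ω := by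
    by_contra! H; exact S.hσ (RingHom.ext H)
  obtain ⟨v₀, hv₀⟩ := DFunLike.ne_iff.1 (fun h => S.pp_ne c0 c0 (rho_inj r (h.trans (map_zero r).symm)))
  obtain ⟨l, hl⟩ := Module.Projective.exists_dual_eq_one F (show r (pp f₁ c c) v₀ ≠ 0 from hv₀)
  obtain ⟨t, ht⟩ := exists_vec r l c
  have k2 : ∀ y, f₁.B c y = 0 → ∀ v, r (pp f₁ y c) (η v) = f₁.B y (t (η v₀)) • r (pp f₁ c c) v := by
    intro y hy
    obtain ⟨κ, hκ⟩ := k1 y hy
    obtain ⟨κ', hκ'⟩ := k1 (ω • y) (by simp [hy])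
    rw [map_smulₛₗ, cmp_smul_left, cmp_smul_right, FormType.herm_σ] at hκ'
    have : cmp r (f₁.B y) c' η = ((σ ω - ω)⁻¹ * (κ' - ω * κ)) • 1 := by
      rw [mul_smul, eq_inv_smul_iff₀ (sub_ne_zero.2 hω)]
      linear_combination (norm := module) hκ' - ω • hκ
    have h3 := LinearMap.congr_fun (e2 y hy)
    simp only [this, End.mul_apply, LinearMap.smul_apply, End.one_apply, map_smul] at h3
    simp [ht, h3, hl]
  have t0 : f₁.B c (t (η v₀)) = 0 := by simp [ht, η, pu]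
  generalize t (η v₀) = d at k2 t0
  obtain ⟨a, ok⟩ := exists_eichOK hc t0
  have he := S.E _ (ei_mem_E c d a)
  obtain ⟨κ, hκ⟩ := hA _ (X.mul_mem (X.inv_mem he) hu) fun v => by
    have h3 : u v - un r (f₁.ei c d a) v ∈ T r (F ∙ c) := S.mem_W c0 fun y hy => by
      have := k2 y hy v
      simp only [η, LinearMap.sub_apply, LinearEquiv.coe_coe, End.one_apply, map_sub] at this
      simp only [un_ei ok, map_add, map_sub, map_smul, rho_mul, rk_mul, f₁.B_eq_zero_symm hy,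
        LinearMap.smul_apply]
      linear_combination (norm := module) this
    have := inv_mem_of_stab (g := un r (f₁.ei c d a)) (fun w hw => by
      simpa [un_ei ok, rk_T' cc _ hw, rk_T' ok.hvu _ hw] using hw) _ h3
    rwa [map_sub, inv_app] at this
  exact ⟨f₁.ei c d a * (1 + κ • pp f₁ c c), LinearMap.ext fun v => by
    simpa [app_inv, un_apply] using congrArg (un r (f₁.ei c d a)) (hκ v)⟩

theorem st (hz : z ∈ X) {l : F} (h : ∀ w ∈ T r (F ∙ c), z w = l • w) :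
    ∃ A, (z : End F V) = r A := by
  have cc := f₁.B_self_eq_zero hc
  obtain ⟨c', -, p1⟩ := S.nd₁.exists_partner' hc c0
  have p2 : f₁.B c' c = 1 := by simp [f₁.herm_symm c c', p1]
  have c0' : c' ≠ 0 := by rintro rfl; simp at p1
  obtain ⟨w₀, hw₀, w0⟩ := exists_mem_T r c0
  have l0 : l ≠ 0 := by rintro rfl; exact w0 (z.injective (by simp [h _ hw₀]))
  have l0' : σ l ≠ 0 := by simpa using l0
  have hW : ∀ w ∈ T r (F ∙ c), z w ∈ T r (F ∙ c) := fun w hw => h w hw ▸ Submodule.smul_mem _ _ hw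
  have pz := S.pz (S.le hz) h
  have k1 : ∀ y, f₁.B c y = 0 → ∃ t, ∀ (φ : Dual F V₁) v,
      z (r (φ.smulRight y) v) - r (φ.smulRight t) v ∈ T r (F ∙ c) := by
    intro y hy
    obtain ⟨a, ok⟩ := exists_eichOK hc hy
    have h2 : ∀ v, r (pp f₁ c c) v = 0 → (z * un r (f₁.ei c y a) * z⁻¹) v - v ∈ T r (F ∙ c) :=
      fun v hv => by
        obtain ⟨v, rfl⟩ := z.surjective v
        have h3 : ∀ x, r (pp f₁ c x) v = 0 := fun x => by
          rw [← one_smul F (pp f₁ c x), ← p2, ← rk_mul, ← rho_mul, ← pz, hv]; simp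
        simpa [mul_app, inv_app, un_ei ok, h3] using hW _ (rk_mem _ _)
    obtain ⟨A, hA⟩ := S.ofQ hc c0 hA (X.mul_mem (X.mul_mem hz (S.E _ (ei_mem_E c y a)))
      (X.inv_mem hz)) (fun w hw => by
        have := inv_mem_of_stab hW w hw
        simp [un_ei ok, rk_T' cc _ this, rk_T' ok.hvu _ this, app_inv]) h2
    refine ⟨(σ l)⁻¹ • (A c' - c'), fun φ v => ?_⟩
    have h3 := h2 (z (r (φ.smulRight c') v) - (σ l)⁻¹ • r (φ.smulRight c') v) (by
      rw [map_sub, map_smul, ← pz c (r _ v), inv_smul_smul₀ l0', sub_self])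
    have h4 := LinearMap.congr_fun hA (r (φ.smulRight c') v)
    simp only [LinearEquiv.coe_coe, rho_mul, show A * φ.smulRight c' = φ.smulRight (A c') by
      ext; simp] at h4
    rw [map_sub, map_smul, h4, mul_app, mul_app, inv_app, un_ei ok] at h3
    simp only [map_sub, map_smul, map_add, rho_mul, rk_mul, p1, LinearMap.smul_apply,
      one_smul] at h3
    convert Submodule.add_mem _ h3 (Submodule.smul_mem _ (f₁.B y c' + a) (hW _ (rk_mem φ v))) using 1
    rw [show φ.smulRight ((σ l)⁻¹ • (A c' - c')) = (σ l)⁻¹ • (φ.smulRight (A c') - φ.smulRight c') by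
      ext; simp [smul_sub, smul_comm (φ _)]]
    simp only [map_smul, map_sub, LinearMap.smul_apply, LinearMap.sub_apply]
    module
  obtain ⟨α, hα⟩ := Module.Projective.exists_dual_eq_one F w0
  obtain ⟨t, ht⟩ := exists_vec r α c
  let B₀ : End F V₁ := t ∘ₗ z ∘ₗ LinearMap.applyₗ w₀ ∘ₗ r.toLinearMap ∘ₗ LinearMap.smulRightₗ (f₁.B c')
  have eB : ∀ (φ : Dual F V₁) y, φ (B₀ y) = α (r (φ.smulRight c) (z (r (pp f₁ c' y) w₀))) :=
    fun φ y => ht φ _
  have rw' : ∀ (φ : Dual F V₁), ∀ w ∈ T r (F ∙ c), r (φ.smulRight c) w = φ c • w := fun φ w hw => by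
    rw [← rk_self p2 hw, rho_mul, rk_mul]; simp
  have Bc : B₀ c = l • c := (Module.forall_dual_apply_eq_zero_iff F _).1 (fun φ => by
    simp [eB, rk_self p2 hw₀, h _ hw₀, rw' φ _ hw₀, hα]) |> sub_eq_zero.1
  have hB : ∀ y, f₁.B c y = 0 → ∀ (φ : Dual F V₁) v,
      z (r (φ.smulRight y) v) - r (φ.smulRight (B₀ y)) v ∈ T r (F ∙ c) := fun y hy φ v => by
    obtain ⟨s, hs⟩ := k1 y hy
    have : B₀ y = s + α (z (r (pp f₁ c' y) w₀) - r (pp f₁ c' s) w₀) • c :=
      (Module.forall_dual_apply_eq_zero_iff F _).1 (fun φ => by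
        have := congrArg α (rw' φ _ (hs (f₁.B c') w₀))
        simp only [map_sub, rho_mul, rk_mul, map_smul, LinearMap.smul_apply, rk_self p2 hw₀, hα,
          smul_eq_mul] at this
        simp only [map_sub, map_add, eB, map_smul, smul_eq_mul]
        linear_combination this) |> sub_eq_zero.1
    rw [this, show ∀ a : F, φ.smulRight (s + a • c) = φ.smulRight s + (a • φ).smulRight c from
      fun a => by ext; simp [smul_smul, mul_comm], map_add, LinearMap.add_apply, ← sub_sub]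
    exact Submodule.sub_mem _ (hs φ v) (rk_mem _ _)
  have hB' : ∀ y, f₁.B c y = 0 → f₁.B c (B₀ y) = 0 := fun y hy => by
    have := pz c (r (pp f₁ c' y) w₀)
    simp only [rho_mul, rk_mul, hy, zero_smul, map_zero, LinearMap.zero_apply, smul_eq_zero, l0',
      false_or] at this
    simp [eB, this]
  have hBm : ∀ y y', f₁.B c y = 0 → f₁.B c y' = 0 → f₁.B (B₀ y) (B₀ y') = f₁.B y y' := by
    intro y y' hy hy'
    obtain ⟨v, w, hv⟩ := S.exists_B_pp c0'
    have := mem_O_B (S.le hz) (r (pp f₁ c' y) v) (r (pp f₁ c' y') w)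
    rw [← sub_add_cancel (z (r _ v)), ← rk_self p2 (hB y hy _ v), ← sub_add_cancel (z (r _ w)),
      ← rk_self p2 (hB y' hy' _ w)] at this
    simp only [map_add, LinearMap.add_apply, S.B_pp, rho_mul, rk_mul, cc, hB' y' hy',
      f₁.B_eq_zero_symm (hB' y hy), zero_smul, map_zero, LinearMap.zero_apply, zero_add, map_smul,
      LinearMap.smul_apply, smul_eq_mul] at this
    exact mul_right_cancel₀ hv this
  have hp : ∀ y : f₁.perp (F ∙ c), f₁.B c y = 0 := fun y => f₁.mem_perp_span_singleton.1 y.2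
  obtain ⟨B, hBO, hB₁⟩ := S.nd₁.witt (B₀ ∘ₗ (f₁.perp (F ∙ c)).subtype) (by
    rw [injective_iff_map_eq_zero]
    intro y hy
    replace hy : B₀ y = 0 := hy
    have hm : (y : V₁) ∈ f₁.perp (f₁.perp (F ∙ c)) := fun y' hy' => by
      rw [← hBm _ _ (hp ⟨y', hy'⟩) (hp y), hy, map_zero]
    rw [S.nd₁.perp_perp] at hm
    obtain ⟨s, hs⟩ := Submodule.mem_span_singleton.1 hm
    rw [← hs, map_smul, Bc] at hy
    exact Subtype.ext (hs.symm.trans (by simpa [l0, c0] using hy)))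
    ((herm_isIsom_iff _ _ _).2 fun y y' => hBm _ _ (hp y) (hp y'))
  replace hB₁ : ∀ y, f₁.B c y = 0 → B y = B₀ y := fun y hy =>
    hB₁ ⟨y, f₁.mem_perp_span_singleton.2 hy⟩
  have uB : ∀ (φ : Dual F V₁) y v, un r B (r (φ.smulRight y) v) = r (φ.smulRight (B y)) v :=
    fun φ y v => by rw [un_apply, rho_mul]; congr 2; ext; simp
  have kW : ∀ w ∈ T r (F ∙ c), un r B w = l • w := fun w hw => by
    rw [← rk_self p2 hw, uB, hB₁ c cc, Bc, ← LinearMap.smul_apply, ← map_smul]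
    congr 2; ext; simp [smul_comm l]
  have h1 : ∀ w ∈ T r (F ∙ c), ((un r B)⁻¹ * z) w = w := fun w hw =>
    inv_app_eq ((kW w hw).trans (h w hw).symm)
  have h2 : ∀ v, r (pp f₁ c c) v = 0 → ((un r B)⁻¹ * z) v - v ∈ T r (F ∙ c) := fun v hv => by
    have e : v = r (1 - pp f₁ c c') v := by
      rw [← one_smul F (pp f₁ c c'), ← p2, ← rk_mul, map_sub, LinearMap.sub_apply, ← rho_mul, hv]; simp
    rw [show ((un r B)⁻¹ * z) v - v = (un r B)⁻¹ (z v - un r B v) by simp [inv_app]]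
    refine inv_mem_of_stab (fun w hw => kW w hw ▸ Submodule.smul_mem _ _ hw) _ ?_
    rw [e, ← sum_rk' (1 - _), map_sum, LinearMap.sum_apply, map_sum, map_sum, ← Finset.sum_sub_distrib]
    refine Submodule.sum_mem _ fun i _ => ?_
    have : f₁.B c ((1 - pp f₁ c c') (finBasis F V₁ i)) = 0 := by simp [p1]
    rw [uB, hB₁ _ this]; exact hB _ this _ _
  have huO := f.O.mul_mem (f.O.inv_mem (S.un_O hBO)) (S.le hz)
  have hdet := det_eq_one_of_nilp (g := (((un r B)⁻¹ * z : V ≃ₗ[F] V) : End F V)) ⟨3, by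
    ext v
    generalize (un r B)⁻¹ * z = u at h1 h2 huO
    have h0 := S.pz huO (l := 1) (by simpa using h1) c v
    have := h1 _ (h2 (u v - v) (by simpa [sub_eq_zero] using h0))
    simp only [pow_succ, pow_zero, one_mul, End.mul_apply, LinearMap.sub_apply,
      LinearMap.id_apply, LinearEquiv.coe_coe, map_sub, LinearMap.zero_apply] at this ⊢
    linear_combination (norm := module) -this⟩
  rw [det_mul_equiv, det_inv_equiv, S.det z hz, mul_one, inv_eq_one] at hdet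
  obtain ⟨A, hA⟩ := S.ofQ hc c0 hA (X.mul_mem (X.inv_mem (S.mem B hBO hdet)) hz) h1 h2
  exact ⟨B * A, LinearMap.ext fun v => by
    simpa [app_inv, un_apply] using congrArg (un r B) (LinearMap.congr_fun hA v)⟩

end UX

end CL.Wr
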