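/-
Tensor powers in the unitary group: rigid factors, and the levels.
-/
import Mathlib
import Cfsg.Agent.CLAS.Wr8

set_option autoImplicit false
set_option linter.unusedSectionVars false

namespace CL.Wr

open Module CL.ExtF CL.Tens CL.Witt CL.Witt.Form Function

attribute [-simp] LinearEquiv.coe_inv
attribute [local simp] FormType.herm_ε FormType.herm_σ FormType.herm_π

variable {F : Type*} [Field F] {V₁ V : Type*} [AddCommGroup V₁] [Module F V₁] [AddCommGroup V]
  [Module F V] [FiniteDimensional F V₁] {r r' : Rep F V₁ V} {ξ : End F V}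
  {σ : F →+* F} {hσ2 : ∀ a, σ (σ a) = a} {f₁ : Form (FormType.herm σ hσ2) V₁}
  {f : Form (FormType.herm σ hσ2) V} {c c' d x y : V₁} {X : Subgroup (V ≃ₗ[F] V)}
  {u z : V ≃ₗ[F] V}

theorem root_of_two (hσ : σ ≠ RingHom.id F) (hσ2 : ∀ a, σ (σ a) = a)
    (H : ∀ t, σ t = t → t = 0 ∨ t = 1) {s n : F} (h : σ n * n = 1 → σ s = σ n * s) :
    ∃ l : F, l * l - s * l + n = 0 := by
  rcases eq_or_ne n 0 with rfl | n0
  · exact ⟨0, by simp⟩
  have N : ∀ a, a ≠ 0 → σ a * a = 1 := fun a a0 =>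
    (H _ (by simp [hσ2, mul_comm])).resolve_left (by simpa using a0)
  replace h := h (N n n0)
  have h2 : (-1 : F) = 1 := (H (-1) (by simp)).resolve_left (by simp)
  rcases eq_or_ne s 0 with rfl | s0
  · refine ⟨σ n, ?_⟩
    rcases H (n + σ n) (by simp [hσ2, add_comm]) with e | e
    · rcases H n (by linear_combination e + n * h2) with e' | e'
      · exact absurd e' n0
      · rw [e', map_one]; linear_combination -h2
    · linear_combination (σ n) * e - N n n0 + e
  obtain ⟨ω, hω⟩ := FormType.exists_add_σ_eq_one hσ hσ2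
  have h3 := N ω (by rintro rfl; simp at hω)
  refine ⟨s * ω, ?_⟩
  linear_combination (s * s * ω) * hω - s * s * h3 - n * N s s0 + n * s * h + s * s * N n n0

theorem scalar_of_stab [Finite F] (hσ : σ ≠ RingHom.id F) (nd : f₁.Nondeg) (h3 : 3 ≤ finrank F V₁)
    {t : F} (t1 : σ t = t) (t0 : t ≠ 0) (t2 : t ≠ 1) (hc : f₁.q c = 0) (c0 : c ≠ 0) {g : End F V₁}
    (H : ∀ e ∈ f₁.E, ∀ l : F, e c = l • c → ∀ v, g (e v) = e (g v)) : ∃ s : F, ∀ x, g x = s • x := by
  have cc := f₁.B_self_eq_zero hc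
  obtain ⟨c', -, p1⟩ := nd.exists_partner' hc c0
  obtain ⟨η, η0, hη⟩ := FormType.exists_add_σ_eq_zero hσ hσ2
  have h1 : ∀ v, f₁.B c v • g c = f₁.B c (g v) • c := fun v => smul_right_injective V₁ η0 (by
    simpa [herm_tv_apply hc hη, mul_smul] using H _ (ei_mem_E c 0 (-η)) 1
      (by simp [herm_tv_apply hc hη, cc]) v)
  have h2 := h1 c'
  rw [p1, one_smul] at h2
  generalize f₁.B c (g c') = s at h2
  have h4 : ∀ v, f₁.B c (g v) = s * f₁.B c v := fun v => smul_left_injective F c0 (by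
    simp [← h1, h2, smul_smul, mul_comm])
  have h5 : ∀ y, f₁.B c y = 0 → g y - s • y = -f₁.B y (g c' - s • c') • c := fun y hy => by
    obtain ⟨a, ok⟩ := exists_eichOK hc hy
    have := H _ (ei_mem_E c y a) 1 (by simp [ok.ei_apply_u]) c'
    simp only [ok.ei_apply, p1, h4, map_add, map_sub, map_smul, h2, FormType.herm_ε] at this
    simp only [map_sub, map_smul]
    linear_combination (norm := module) this
  obtain ⟨ω, hω⟩ : ∃ ω, σ ω ≠ ω := by
    by_contra! H; exact hσ (RingHom.ext H)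
  have h6 : ∀ y, f₁.B c y = 0 → f₁.B y (g c' - s • c') = 0 := fun y hy => by
    have e1 := h5 (ω • y) (by simp [hy])
    rw [map_smul, smul_comm s, ← smul_sub, h5 y hy, smul_smul, f₁.B_smul_left] at e1
    have := smul_left_injective F c0 e1
    simp only [FormType.herm_σ] at this
    exact mul_left_cancel₀ (sub_ne_zero.2 hω) (by linear_combination this)
  obtain ⟨κ, hκ⟩ : ∃ κ : F, κ • c = g c' - s • c' := Submodule.mem_span_singleton.1 (by
    rw [← nd.perp_perp (F ∙ c)]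
    exact fun y hy => h6 y (f₁.mem_perp_span_singleton.1 hy))
  have h7 : ∀ v, g v = s • v + (κ * f₁.B c v) • c := fun v => by
    have := h5 (v - f₁.B c v • c') (by simp [p1])
    rw [h6 _ (by simp [p1]), map_sub, map_smul] at this
    linear_combination (norm := module) this - f₁.B c v • hκ
  obtain ⟨l, rfl⟩ := CL.Tv.exists_norm_eq_of_involution hσ hσ2 t1
  have l0 : l ≠ 0 := right_ne_zero_of_mul t0
  obtain ⟨e, he, h8⟩ := herm_E_trans hσ nd h3 hc c0 (f₁.q_smul_eq_zero hc l) (smul_ne_zero l0 c0)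
  have h9 := mem_O_B (E_le_O he) c c'
  have := H e he l h8 c'
  simp only [h7, map_add, map_smul, h8, p1, add_right_inj, smul_smul] at this
  rw [h8, f₁.B_smul_left, p1] at h9
  have : κ = 0 := mul_right_cancel₀ (sub_ne_zero.2 t2) (by
    have := smul_left_injective F c0 this
    simp only [FormType.herm_σ] at h9
    linear_combination κ * h9 - σ l * this)
  exact ⟨s, by simp [h7, this]⟩

namespace UX

variable (S : UX X f f₁ r) [FiniteDimensional F V] [Nontrivial V]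
include S

theorem B_T (hc : f₁.q c = 0) (c0 : c ≠ 0) {v w : V} (hv : v ∈ T r (F ∙ c))
    (hw : w ∈ T r (F ∙ c)) : f.B v w = 0 := by
  obtain ⟨c', -, p1⟩ := S.nd₁.exists_partner' hc c0
  rw [← rk_self (φ := f₁.B c') (by simp [f₁.herm_symm c c', p1]) hv, S.B_pp,
    rk_T' (f₁.B_self_eq_zero hc) _ hw, map_zero]

theorem iso_of_T (c0 : c ≠ 0) (H : ∀ v ∈ T r (F ∙ c), ∀ w ∈ T r (F ∙ c), f.B v w = 0) :
    f₁.q c = 0 := by
  obtain ⟨v, w, h⟩ := S.exists_B_pp c0
  have := H _ (rk_mem (f₁.B c) v) _ (rk_mem (f₁.B c) w)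
  rw [S.B_pp, rho_mul, rk_mul] at this
  simpa [h, herm_q] using this

theorem sat {ψ : Dual F V₁} (c0 : c ≠ 0) (ψ0 : ψ ≠ 0) (h0 : ψ c = 0)
    (H : Has X (r (ψ.smulRight c))) : (suD f₁).R c ψ := by
  obtain ⟨t, ht, e⟩ := H
  obtain ⟨d, hd⟩ := S.nd₁.exists_rep ψ
  obtain rfl : f₁.B d = ψ := LinearMap.ext hd
  have h1 : pp f₁ d c + pp f₁ c d + f₁.B c c • pp f₁ d d = 0 :=
    rho_inj r (LinearMap.ext fun w => S.nd.ext_right fun v => by
      have := mem_O_B (S.le ht) v w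
      simp only [e, map_add, LinearMap.add_apply, S.B_pp, rho_mul, rk_mul] at this
      simp only [map_add, LinearMap.add_apply, map_zero, LinearMap.zero_apply]
      linear_combination this)
  obtain ⟨v, hv⟩ := LinearMap.surjective_of_ne_zero ψ0 1
  obtain ⟨μ, rfl⟩ : ∃ μ : F, c = μ • d := ⟨-(f₁.B c v + f₁.B c c), by
    have := LinearMap.congr_fun h1 v
    simp [hv] at this
    linear_combination (norm := module) this⟩
  have μ0 := left_ne_zero_of_smul c0
  have dd : f₁.B d d = 0 := by simpa [μ0] using h0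
  have h2 := LinearMap.congr_fun h1 v
  simp [hv, dd, ← add_smul, right_ne_zero_of_smul c0] at h2
  refine ⟨c0, by simp [herm_q, dd], (σ μ)⁻¹, by simpa using μ0, ?_, by simp [smul_smul, μ0]⟩
  rw [map_inv₀, hσ2, eq_neg_of_add_eq_zero_right h2]; simp

theorem nq (H : ∀ t, σ t = t → t = 0 ∨ t = 1) (hu : u ∈ X) (A : End F V₁) {b : End F V}
    (hb : ∀ C, Commute b (r C)) (e : (u : End F V) = r A * b) (s n : F)
    (hs : ∀ l : F, l * l - s * l + n ≠ 0) : n • (b * b) - s • b + 1 ≠ 0 := fun h => by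
  have hb' : ∀ v, b (s • v - n • b v) = v := fun v => by
    have := LinearMap.congr_fun h v
    simp only [LinearMap.add_apply, LinearMap.sub_apply, LinearMap.smul_apply, End.mul_apply,
      End.one_apply, LinearMap.zero_apply] at this
    simp only [map_sub, map_smul]
    linear_combination (norm := module) -this
  obtain ⟨A', hA⟩ := exists_adjL S.nd₁ A
  have h1 : ∀ v w, f.B (b v) (r (A' * A) (b w)) = f.B v w := fun v w => by
    rw [← rho_mul, ← S.adj A A' hA, ← mem_O_B (S.le hu) v w]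
    exact congrArg₂ (f.B · ·) (LinearMap.congr_fun e v).symm (LinearMap.congr_fun e w).symm
  obtain ⟨v₀, hv₀⟩ := exists_ne (0 : V)
  obtain ⟨w₀, hw₀⟩ := S.nd.exists_B_eq hv₀ 1
  have : Nontrivial V₁ := Module.nontrivial_of_finrank_pos (R := F) (by have := S.h3; omega)
  obtain ⟨x, hx⟩ := exists_ne (0 : V₁)
  obtain ⟨x', hx'⟩ := S.nd₁.exists_B_eq hx 1
  have h2 : A' * A = f₁.B x ((A' * A) x') • 1 := LinearMap.ext fun y => by
    have : A' * A * pp f₁ x y = pp f₁ x y * (A' * A) :=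
      rho_inj r (LinearMap.ext fun w => S.nd.ext_right fun v => by
        rw [← hb' v, ← hb' w, ← rho_mul, ← cm_app hb, h1, ← S.B_pp, ← h1, cm_app hb, S.B_pp, rho_mul])
    simpa [hx'] using LinearMap.congr_fun this x'
  rw [h2] at h1
  generalize f₁.B x ((A' * A) x') = μ at h1
  simp only [map_smul, map_one, LinearMap.smul_apply, End.one_apply, smul_eq_mul] at h1
  have h4 := h1 v₀ w₀
  have h5 := congrArg σ (h1 w₀ v₀)
  rw [map_mul, ← f.herm_symm, ← f.herm_symm, hw₀] at h5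
  rw [hw₀] at h4
  obtain rfl : μ = 1 := (H μ (mul_right_cancel₀ (right_ne_zero_of_mul_eq_one h4)
    (h5.trans h4.symm))).resolve_left (left_ne_zero_of_mul_eq_one h4)
  obtain ⟨l, hl⟩ := root_of_two S.hσ hσ2 H (s := s) (n := n) fun hn => by
    have h6 := h1 (s • v₀ - n • b v₀) w₀
    have h7 := h1 v₀ (s • w₀ - n • b w₀)
    rw [hb'] at h6 h7
    simp [hw₀] at h6 h7
    linear_combination -h6 + σ n * h7 - f.B v₀ (b w₀) * hn
  exact hs l hl

variable [Finite F] (hA : ∀ c, f₁.q c = 0 → c ≠ 0 → USc X f₁ r c)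
include hA

theorem range_of_T (S' : UX X f f₁ r') (hd : f₁.q d = 0) (d0 : d ≠ 0)
    (hW : T r (F ∙ d) ≤ T r' (F ∙ c)) {e : V₁ ≃ₗ[F] V₁} (he : e ∈ f₁.E) {l : F} (h : e c = l • c) :
    ∃ A, r' e = r A := S.st hd d0 (hA d hd d0) (S'.E e he) (l := l) fun w hw =>
  sub_eq_zero.1 (hW hw ((e : End F V₁) - l • 1) (fun x hx => by
    obtain ⟨a, rfl⟩ := Submodule.mem_span_singleton.1 hx
    simp [h]) |> (by simpa [un_apply] using ·))

variable {I : Type*} [DecidableEq I] {ρ : I → Rep F V₁ V} {s : Finset I} {i : I}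

omit S hA in
theorem good (hex : 4 ≤ finrank F V₁ ∨ ∃ t : F, σ t = t ∧ t ≠ 0 ∧ t ≠ 1) (Φ : Fam ρ s ⊤) (hi : i ∈ s)
    (S : UX X f f₁ (ρ i)) (hA : ∀ c, f₁.q c = 0 → c ≠ 0 → USc X f₁ (ρ i) c) :
    Good (suD f₁) X (ρ i) where
  mem := by
    rintro c _ ⟨-, hc, a, -, ha, rfl⟩
    exact smul_rk a _ c ▸ map_smul (ρ i) a _ ▸ S.has hc ha
  sat c ψ h1 h2 h := S.sat h1 h2 (h.resolve_right id)
  nq H y hy A b := S.nq H hy A
  stab := by
    rintro c _ ⟨c0, hc, -⟩ z hz hW A
    have := nontrivial_of_ne c 0 c0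
    have S' := S.cj hz
    have e : T (Wr.cj z (ρ i)) (F ∙ c) = T (ρ i) (F ∙ c) := Submodule.eq_of_le_of_finrank_eq
      (fun w hw => by simpa [app_inv] using hW _ (mem_T_cj.1 hw)) (finrank_T_eq _ _ c0 c0)
    suffices ∃ A', Wr.cj z (ρ i) A = ρ i A' from
      this.imp fun A' e' v => by rw [← e', cj_apply, inv_app]
    generalize Wr.cj z (ρ i) = r' at S' e
    rcases hex with h4 | ⟨t, t1, t0, t2⟩
    · obtain ⟨η, η0, hη⟩ := FormType.exists_add_σ_eq_zero S.hσ hσ2
      have k1 : ∀ {c d u}, f₁.q d = 0 → d ≠ 0 → T (ρ i) (F ∙ d) ≤ T r' (F ∙ c) → f₁.q u = 0 →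
          f₁.B u c = 0 → pp f₁ u u ∈ (ρ i).range.comap r' := fun {c d u} hd d0 hW hu h => by
        have : (f₁.ei u 0 (-η) : End F V₁) ∈ (ρ i).range.comap r' :=
          (S.range_of_T hA S' hd d0 hW (ei_mem_E u 0 (-η)) (l := 1)
            (by simp [herm_tv_apply hu hη, h])).imp fun _ => Eq.symm
        simpa [tv_coe hu hη, η0] using Subalgebra.smul_mem _ (sub_mem this (one_mem _)) η⁻¹
      refine ((gen_su S.hσ S.nd₁ S.h3 ((ρ i).range.comap r') fun d hd => ?_).ge
        (trivial : A ∈ ⊤)).imp fun _ => Eq.symm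
      obtain ⟨u, u0, hu, u1, u2⟩ := exists_iso_perp (f₂ := f₁) S.hσ h4 c d
      obtain ⟨C, hC⟩ := k1 hc c0 e.ge hu (f₁.B_eq_zero_symm u1)
      obtain ⟨x, hx⟩ := DFunLike.ne_iff.1 (show C ≠ 0 by
        rintro rfl; exact S.pp_ne u0 u0 (rho_inj r' (by simpa using hC.symm)))
      obtain ⟨φ, hφ⟩ := Module.Projective.exists_dual_eq_one F (show C x ≠ 0 from hx)
      have h5 : T (ρ i) (F ∙ C x) ≤ T r' (F ∙ u) := fun w hw => by
        rw [← rk_self hφ hw, show φ.smulRight (C x) = C * φ.smulRight x by ext; simp, ← rho_mul,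
          show ρ i C = _ from hC]
        exact rk_mem _ _
      exact k1 (S.iso_of_T hx fun v hv w hw => S'.B_T hu u0 (h5 hv) (h5 hw)) hx h5 hd u2
    refine Φ.mem_range hi trivial fun j hj hji B => (comm_of_comp (fun g _ hg =>
      scalar_of_stab S.hσ S.nd₁ S.h3 t1 t0 t2 hc c0 fun e' he l h => ?_) A).symm
    obtain ⟨C, hC⟩ := S.range_of_T hA S' hc c0 e.ge he h
    exact LinearMap.congr_fun (hg _ (hC ▸ Φ.comm j hj i hi hji B C)).eq

end UX

end CL.Wr
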