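/-
Tensor powers in the unitary group: the central levels, and maximality of the tensor wreath
subgroup in `SU`.
-/
import Mathlib
import Cfsg.Agent.CLAS.Wr9

set_option autoImplicit false
set_option linter.unusedSectionVars false

namespace CL.Wr

open Module CL.ExtF CL.Tens CL.Witt CL.Witt.Form CL.Root Function

attribute [-simp] LinearEquiv.coe_inv
attribute [local simp] FormType.herm_ε FormType.herm_σ FormType.herm_π

variable {F : Type*} [Field F] {V₁ V : Type*} [AddCommGroup V₁] [Module F V₁] [AddCommGroup V]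
  [Module F V] [FiniteDimensional F V₁] {r r' : Rep F V₁ V} {ξ ζ A A' B B' : End F V}
  {σ : F →+* F} {hσ2 : ∀ a, σ (σ a) = a} {f₁ : Form (FormType.herm σ hσ2) V₁}
  {f : Form (FormType.herm σ hσ2) V} {c c' d x y : V₁} {X : Subgroup (V ≃ₗ[F] V)}
  {u z : V ≃ₗ[F] V}

theorem Adj.symm (h : Adj f A A') : Adj f A' A := fun v w => by
  rw [f.herm_symm, ← h, ← f.herm_symm]

theorem Adj.mul (h : Adj f A A') (h' : Adj f B B') : Adj f (A * B) (B' * A') := fun _ _ =>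
  (h _ _).trans (h' _ _)

theorem Adj.smul (h : Adj f A A') (s : F) : Adj f (s • A) (σ s • A') := fun v w => by
  simp [h v w]

theorem Adj.uniq (nd : f.Nondeg) (h : Adj f A A') (h' : Adj f A B') : A' = B' :=
  LinearMap.ext fun w => nd.ext_right fun v => (h v w).symm.trans (h' v w)

theorem has_comm {k e : V ≃ₗ[F] V} (hk : k ∈ X) (he : e ∈ X) (h1 : ∀ v, k (e v) - e (k v) = ζ v)
    (h2 : ∀ v, ζ (e (k v)) = ζ v) : Has X ζ :=
  ⟨_, X.mul_mem (X.mul_mem hk he) (X.inv_mem (X.mul_mem he hk)), fun v => by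
    obtain ⟨v, rfl⟩ := (e * k).surjective v
    rw [mul_app, inv_app, mul_app, mul_app, h2, ← h1, add_sub_cancel]⟩

variable (X f₁ r) in
/-- The central level. -/
def LevU : AddSubgroup (End F V) where
  carrier := {ξ | (∀ A, Commute ξ (r A)) ∧ ∀ c, f₁.q c = 0 → Has X (r (pp f₁ c c) * ξ)}
  zero_mem' := ⟨fun _ => Commute.zero_left _, fun _ _ => Has.zero.congr fun v => by simp⟩
  add_mem' ha hb := ⟨fun A => (ha.1 A).add_left (hb.1 A), fun c hc =>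
    ((ha.2 c hc).add (hb.2 c hc) fun v => by
      simp [cm_app ha.1, rk_rk (f₁.B_self_eq_zero hc)]).congr fun v => by simp⟩
  neg_mem' ha := ⟨fun A => (ha.1 A).neg_left, fun c hc =>
    (Has.zero.sub (ha.2 c hc) (fun _ _ => rfl) fun v w => by
      simp [cm_app ha.1, rk_rk (f₁.B_self_eq_zero hc)]).congr fun v => by simp⟩

theorem LevU.conj (hz : z ∈ X ⊓ cen r) (hξ : ξ ∈ LevU r f₁ X) :
    z.conjAlgEquiv F ξ ∈ LevU r f₁ X :=
  ⟨fun A => cen_conj hz.2 A ▸ (hξ.1 A).map _, fun c hc => ((hξ.2 c hc).conj hz.1).congr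
    (LinearMap.congr_fun ((map_mul (z.conjAlgEquiv F) _ ξ).trans (by rw [cen_conj hz.2])))⟩

variable (X f₁ r c c') in
/-- The actions on `U ⊗ c` of the elements of `X` which are trivial on `U ⊗ ⟨c, c'⟩^⊥`. -/
def DU : Submonoid (End F V) where
  carrier := {g | (∀ A, Commute g (r A)) ∧ ∃ h ∈ X, (∀ w ∈ T r (F ∙ c), h w = g w) ∧
    ∀ y, f₁.B c y = 0 → f₁.B c' y = 0 → ∀ w ∈ T r (F ∙ y), h w = w}
  one_mem' := ⟨fun _ => Commute.one_left _, 1, X.one_mem, fun _ _ => rfl, fun _ _ _ _ _ => rfl⟩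
  mul_mem' := fun ⟨a1, h, h1, h2, h3⟩ ⟨b1, k, k1, k2, k3⟩ => ⟨fun A => (a1 A).mul_left (b1 A), h * k,
    X.mul_mem h1 k1, fun w hw => by rw [mul_app, k2 w hw, h2 _ (T_comm b1 hw)]; rfl,
    fun y y1 y2 w hw => by rw [mul_app, k3 y y1 y2 w hw, h3 y y1 y2 w hw]⟩

theorem DU.conj (hz : z ∈ X ⊓ cen r) (hξ : ξ ∈ DU r f₁ c c' X) :
    z.conjAlgEquiv F ξ ∈ DU r f₁ c c' X := by
  obtain ⟨a1, h, h1, h2, h3⟩ := hξ
  have := fun L w => T_comm (L := L) (v := w) ((cen r).inv_mem hz.2)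
  exact ⟨fun A => cen_conj hz.2 A ▸ (a1 A).map _, _, X.mul_mem (X.mul_mem hz.1 h1) (X.inv_mem hz.1),
    fun w hw => congrArg z (h2 _ (this _ w hw)),
    fun y y1 y2 w hw => (congrArg z (h3 y y1 y2 _ (this _ w hw))).trans (app_inv z w)⟩

namespace UX

variable (S : UX X f f₁ r) [FiniteDimensional F V] [Nontrivial V] [Finite F]
include S

theorem adj_comm (h : Adj f ξ ζ) (hξ : ∀ A, Commute ξ (r A)) (C : End F V₁) : Commute ζ (r C) := by
  obtain ⟨C', hC⟩ := exists_adjL S.nd₁ C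
  replace hC := (S.adj C C' hC).symm
  exact ((hξ C').eq ▸ hC.mul h : Adj f _ _).uniq S.nd (h.mul hC)

theorem mem_LevU (hξ : ∀ A, Commute ξ (r A)) (hc : f₁.q c = 0) (c0 : c ≠ 0)
    (H : Has X (r (pp f₁ c c) * ξ)) : ξ ∈ LevU r f₁ X := ⟨hξ, fun d hd => by
  rcases eq_or_ne d 0 with rfl | d0
  · exact Has.zero.congr fun v => by simp
  obtain ⟨e, he, rfl⟩ := herm_E_trans S.hσ S.nd₁ S.h3 hc c0 hd d0
  rw [pp, show f₁.B (e c) = f₁.B c ∘ₗ (e⁻¹ : V₁ ≃ₗ[F] V₁) from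
    LinearMap.ext (B_apply_left (E_le_O he) c)]
  exact (H.conj (S.E e he)).congr (LinearMap.congr_fun (un_rk r e _ c hξ))⟩

theorem smul_mem (hξ : ξ ∈ LevU r f₁ X) {s : F} (hs : σ s = s) : s • ξ ∈ LevU r f₁ X :=
  ⟨fun A => (hξ.1 A).smul_left s, fun c hc => by
    obtain ⟨l, rfl⟩ := CL.Tv.exists_norm_eq_of_involution S.hσ hσ2 hs
    convert hξ.2 (l • c) (f₁.q_smul_eq_zero hc l) using 2
    rw [show pp f₁ (l • c) (l • c) = (σ l * l) • pp f₁ c c by ext; simp [smul_smul, mul_comm, mul_assoc]]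
    simp⟩

theorem scal_mem {a : F} (ha : a + σ a = 0) : a • (1 : End F V) ∈ LevU r f₁ X :=
  ⟨fun _ => (Commute.one_left _).smul_left a, fun c hc => by simpa using S.has hc ha⟩

theorem exists_lev (hc : f₁.q c = 0) (c0 : c ≠ 0) (hA : ¬ USc X f₁ r c) :
    ∃ ξ ∈ LevU r f₁ X, ¬ ∃ μ : F, ξ = μ • 1 := by
  simp only [USc, not_forall] at hA
  obtain ⟨u, hu, hW, hn⟩ := hA
  obtain ⟨c', -, p1⟩ := S.nd₁.exists_partner' hc c0
  have p2 : f₁.B c' c = 1 := by simp [f₁.herm_symm c c', p1]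
  have e : ∀ v, u v = v + (r (pp f₁ c c) * cmp r (f₁.B c') c' (u - 1)) v := fun v => by
    have h1 : u (v - r (pp f₁ c c') v) = v - r (pp f₁ c c') v := S.nd.ext_right fun w => by
      obtain ⟨w, rfl⟩ := u.surjective w
      rw [mem_O_B (S.le hu), eq_comm, ← sub_eq_zero, ← LinearMap.sub_apply, ← map_sub, map_sub,
        ← S.B_pp, rk_self p2 (hW w), sub_self]
    rw [map_sub] at h1
    simp only [cmp_spec, End.mul_apply, LinearMap.sub_apply, LinearEquiv.coe_coe, End.one_apply,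
      rk_self p2 (hW _)]
    linear_combination (norm := module) h1
  exact ⟨_, S.mem_LevU cmp_comm hc c0 ⟨u, hu, e⟩, fun ⟨μ, h⟩ => hn ⟨μ, by simp [e, h]⟩⟩

variable (hc : f₁.q c = 0) (hc' : f₁.q c' = 0) (p1 : f₁.B c c' = 1)
include hc hc' p1

theorem mem_DU (hξ : ξ ∈ LevU r f₁ X) (h0 : ξ * ξ = 0) {η : F} (hη : η + σ η = 0) :
    1 + η • ξ ∈ DU r f₁ c c' X := by
  have p2 : f₁.B c' c = 1 := by simp [f₁.herm_symm c c', p1]
  obtain ⟨t₁, a1, e1⟩ := S.has hc' hη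
  obtain ⟨t₂, a2, e2⟩ := hξ.2 c hc
  obtain ⟨t₃, a3, e3⟩ := ((LevU r f₁ X).sub_mem (S.smul_mem hξ (s := η * η)
    (by simp [eq_neg_of_add_eq_zero_right hη])) (S.scal_mem hη)).2 c' hc'
  refine ⟨fun A => (Commute.one_left _).add_left ((hξ.1 A).smul_left _), t₃ * t₂ * t₁,
    X.mul_mem (X.mul_mem a3 a2) a1, fun w hw => ?_, fun y y1 y2 w hw => ?_⟩
  · have h1 := LinearMap.congr_fun h0 w
    simp only [End.mul_apply, LinearMap.zero_apply] at h1
    simp [e1, e2, e3, cm_app hξ.1, rho_mul, rk_mul, p1, rk_self p2 (T_comm hξ.1 hw), h1,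
      rk_T' (f₁.B_self_eq_zero hc) _ (T_comm hξ.1 hw), f₁.B_self_eq_zero hc']
    module
  · simp [e1, e2, e3, rk_T' y1 _ (T_comm hξ.1 hw), rk_T' y2 _ (T_comm hξ.1 hw), rk_T' y2 _ hw]

theorem of_DU (hξ : ξ ∈ DU r f₁ c c' X) : ∃ ζ, Adj f ξ ζ ∧ ∀ ω : F, ω • ξ - σ ω • ζ ∈ LevU r f₁ X := by
  obtain ⟨a1, h, h1, h2, h3⟩ := hξ
  obtain ⟨ζ, hζ⟩ := exists_adjL S.nd ξ
  have a2 := S.adj_comm hζ a1
  have c0 : c ≠ 0 := by rintro rfl; simp at p1
  have cc := f₁.B_self_eq_zero hc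
  refine ⟨ζ, hζ, fun ω => S.mem_LevU (fun A => ((a1 A).smul_left _).sub_left ((a2 A).smul_left _))
    hc c0 ?_⟩
  obtain ⟨y, y1, y2, y3⟩ := CL.Uni.exists_perp_pair_q_eq S.hσ S.nd₁ S.h3 hc hc' p1 (b := 1) (by simp)
  rw [herm_q] at y3
  obtain ⟨a, ok⟩ := exists_eichOK hc y1
  obtain ⟨a', ok'⟩ := exists_eichOK (v := -ω • y) hc (by simp [y1])
  have k1 : ∀ x v, r (pp f₁ c x) (h⁻¹ v) = r (pp f₁ c x) (ζ v) := fun x v => S.nd.ext_right fun w => by
    rw [← S.B_pp, ← B_apply_left (S.le h1), h2 _ (rk_mem _ _), hζ, S.B_pp]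
  have k2 : ∀ v, r (pp f₁ y c) (h⁻¹ v) = r (pp f₁ y c) v := fun v => S.nd.ext_right fun w => by
    rw [← S.B_pp, ← B_apply_left (S.le h1), h3 y y1 y2 _ (rk_mem _ _), S.B_pp]
  have k3 : ∀ v, (h * un r (f₁.ei c y a) * h⁻¹) v = v + r (pp f₁ c y) (ζ v) - r (pp f₁ y c) (ξ v) -
      a • r (pp f₁ c c) (ξ (ζ v)) := fun v => by
    simp [un_ei ok, app_inv, k1, k2, h2 _ (rk_mem _ _), h3 y y1 y2 _ (rk_mem _ _), cm_app a1]
  have e : pp f₁ (-ω • y) c = -σ ω • pp f₁ y c ∧ pp f₁ c (-ω • y) = -ω • pp f₁ c y := by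
    constructor <;> ext <;> simp [smul_comm ω, mul_smul]
  refine has_comm (X.mul_mem (X.mul_mem h1 (S.E _ (ei_mem_E c y a))) (X.inv_mem h1))
    (S.E _ (ei_mem_E c (-ω • y) a')) (fun v => ?_) fun v => ?_
  · simp only [k3, un_ei ok', e.1, e.2]
    simp [cm_app a1, cm_app a2, rho_mul, rk_mul, cc, y1, y3, f₁.B_eq_zero_symm y1]
    module
  · simp only [k3, un_ei ok', e.1, e.2]
    simp [cm_app a1, cm_app a2, rho_mul, rk_mul, cc, y1, y3]

omit hc hc' p1 in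
/-- The algebra attached to the central level. -/
theorem exists_alg : ∃ R : Subalgebra F (End F V), (∀ ξ ∈ R, ∀ A, Commute ξ (r A)) ∧
    (∀ z ∈ X ⊓ cen r, ∀ ξ ∈ R, z.conjAlgEquiv F ξ ∈ R) ∧
    (∀ ξ ∈ LevU r f₁ X, ξ * ξ = 0 → ξ ∈ R) ∧ ∀ ξ ∈ R, ∀ c, f₁.q c = 0 →
      Adj f (r (pp f₁ c c) * ξ) (-(r (pp f₁ c c) * ξ)) → Has X (r (pp f₁ c c) * ξ) := by
  obtain ⟨c, c0, hc⟩ := (herm_iso3 S.hσ f₁).exists_singular S.h3
  obtain ⟨c', hc', p1⟩ := S.nd₁.exists_partner' hc c0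
  obtain ⟨η, η0, hη⟩ := FormType.exists_add_σ_eq_zero S.hσ hσ2
  obtain ⟨t, ht⟩ := FormType.exists_add_σ_eq_one S.hσ hσ2
  have cm : ∀ ξ ∈ Algebra.adjoin F (DU r f₁ c c' X : Set (End F V)), ∀ A, Commute ξ (r A) :=
    fun ξ hξ A =>
      (Algebra.commute_of_mem_adjoin_of_forall_mem_commute hξ fun _ h => (h.1 A).symm).symm
  refine ⟨_, cm, fun z hz => Algebra.adjoin_le (S := Subalgebra.comap (z.conjAlgEquiv F).toAlgHom
    (Algebra.adjoin F (DU r f₁ c c' X : Set (End F V))))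
      fun ξ hξ => Algebra.subset_adjoin (DU.conj hz hξ), fun ξ hξ h0 => by
    simpa [η0] using Subalgebra.smul_mem _ (sub_mem (Algebra.subset_adjoin
      (S.mem_DU hc hc' p1 hξ h0 hη)) (one_mem _)) η⁻¹, fun ξ hξ d hd H => ?_⟩
  obtain ⟨ζ, h1, h2⟩ : ∃ ζ, Adj f ξ ζ ∧ ∀ ω : F, ω • ξ - σ ω • ζ ∈ LevU r f₁ X := by
    clear H
    rw [← Subalgebra.mem_toSubmodule, Algebra.adjoin_eq_span, Submonoid.closure_eq] at hξ
    induction hξ using Submodule.span_induction with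
    | mem ξ h => exact S.of_DU hc hc' p1 h
    | zero => exact ⟨0, fun _ _ => by simp, by simp⟩
    | add a b _ _ ha hb =>
      obtain ⟨a', a1, a2⟩ := ha
      obtain ⟨b', b1, b2⟩ := hb
      exact ⟨a' + b', fun v w => by simp [a1 v w, b1 v w], fun ω => by
        convert add_mem (a2 ω) (b2 ω) using 1; module⟩
    | smul s a _ ha =>
      obtain ⟨a', a1, a2⟩ := ha
      exact ⟨_, a1.smul s, fun ω => by simpa [mul_smul] using a2 (ω * s)⟩
  convert (h2 t).2 d hd using 2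
  rw [mul_sub, mul_smul_comm, mul_smul_comm, ← (S.adj_comm h1 (cm ξ hξ) _).eq,
    ((S.adj _ _ (adj_pp d d)).mul h1).uniq S.nd H, smul_neg, sub_neg_eq_add, ← add_smul, ht, one_smul]

omit hc hc' p1 in
theorem cen_q (hc : f₁.q c = 0) (c0 : c ≠ 0) {w : V} (hw : w ∈ T r (F ∙ c)) : f.q w = 0 :=
  (herm_q f w).trans (S.B_T hc c0 hw hw)

variable (H : ∀ c, f₁.q c = 0 → ∀ w ∈ T r (F ∙ c), Cen f X w) {w₀ : V} (h₀ : w₀ ∈ T r (F ∙ c))
include H h₀

theorem rad_T {w : V} (hw : w ∈ T r (F ∙ c)) : Rad f X w₀ w := by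
  have c0 : c ≠ 0 := by rintro rfl; simp at p1
  obtain ⟨η, η0, hη⟩ := FormType.exists_add_σ_eq_zero S.hσ hσ2
  have h1 := Submodule.smul_mem _ (-η⁻¹) hw
  have := ei_eq_tv_mul (S.cen_q hc c0 h₀) (S.cen_q hc c0 h1) (S.B_T hc c0 h₀ h1) hη
  rw [show -((FormType.herm σ hσ2).ε * η) • -η⁻¹ • w = w by simp [η0]] at this
  exact ⟨0, ⟨S.cen_q hc c0 h₀, S.B_T hc c0 h₀ hw, by simp [S.cen_q hc c0 hw]⟩, this ▸ X.mul_mem
    (X.mul_mem (H c hc _ (add_mem h₀ h1) _ hη) (X.inv_mem (H c hc _ h₀ _ hη)))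
    (X.inv_mem (H c hc _ h1 _ hη))⟩

theorem rad_T' (hd : f₁.q d = 0) (h : f₁.B c d ≠ 0) {w : V} (hw : w ∈ T r (F ∙ d))
    (h1 : f.B w₀ w = 0) : Rad f X w₀ w := by
  have d0 : d ≠ 0 := by rintro rfl; simp at h
  rcases eq_or_ne w 0 with rfl | w0
  · exact S.rad_T hc hc' p1 H h₀ (zero_mem _)
  obtain ⟨η, η0, hη⟩ := FormType.exists_add_σ_eq_zero S.hσ hσ2
  obtain ⟨v, hv⟩ := S.nd.exists_B_eq w0 (η * σ (f₁.B c d))⁻¹
  have h2 : r (pp f₁ c d) w = f₁.B c d • w := by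
    have := rk_self (φ := (f₁.B c d)⁻¹ • f₁.B c) (by simp [h]) hw
    rwa [smul_rk, map_smul, LinearMap.smul_apply, inv_smul_eq_iff₀ h] at this
  simpa [← S.B_pp, h2, hv, η0, h] using rad_of_transvection (S.cen_q hd d0 hw) hη (H d hd w hw η hη)
    (S.rad_T hc hc' p1 H h₀ (rk_mem (f₁.B d) v)) h1

theorem rad_perp {w : V} (hw : ∀ A, f.B w₀ (r A w) = 0) : Rad f X w₀ w := by
  have c0 : c ≠ 0 := by rintro rfl; simp at p1
  let G := radGrp f X (S.cen_q hc c0 h₀)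
  have := span_iso S.hσ S.nd₁ S.h3
    { carrier := {y | ∀ φ : Dual F V₁, r (φ.smulRight y) w ∈ G}
      add_mem' := fun ha hb φ => by
        convert G.add_mem (ha φ) (hb φ) using 1
        rw [← LinearMap.add_apply, ← map_add]; congr 2; ext; simp
      zero_mem' := fun φ => by simp
      smul_mem' := fun s y h φ => by
        convert h (s • φ) using 3; ext; simp [smul_smul, mul_comm] } hc c0
    (fun φ => S.rad_T hc hc' p1 H h₀ (rk_mem _ _))
    fun y hy h φ => S.rad_T' hc hc' p1 H h₀ hy h (rk_mem _ _) (hw _)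
  change w ∈ G
  rw [← End.one_apply (R := F) w, ← map_one r, ← sum_rk, map_sum, LinearMap.sum_apply]
  exact G.sum_mem fun i _ => this _ _

theorem U_le (S' : UX X f f₁ r') (H' : ∀ c, f₁.q c = 0 → ∀ w ∈ T r' (F ∙ c), Cen f X w)
    (hr : ∀ A B, Commute (r A) (r' B)) (h₁ : w₀ ∈ T r' (F ∙ c)) : f.U w₀ ≤ X := by
  have p2 : f₁.B c' c = 1 := by simp [f₁.herm_symm c c', p1]
  refine U_le_of_rad (H c hc _ h₀) fun w hw => ?_
  simpa using (S.rad_T' hc hc' p1 H h₀ hc' (by simp [p1]) (rk_mem (f₁.B c) w)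
    (by rwa [← S.B_pp, rk_self p2 h₀])).add (S'.rad_perp hc hc' p1 H' h₁ (w := w - r (pp f₁ c c') w)
      fun A => by rw [map_sub, map_sub, cm_app (hr · A |>.symm), ← S.B_pp, rk_self p2 h₀, sub_self])

omit hc hc' p1 h₀ in
theorem E_le (S' : UX X f f₁ r') (H' : ∀ c, f₁.q c = 0 → ∀ w ∈ T r' (F ∙ c), Cen f X w)
    (hr : ∀ A B, Commute (r A) (r' B)) : f.E ≤ X := by
  obtain ⟨c, c0, hc⟩ := (herm_iso3 S.hσ f₁).exists_singular S.h3
  obtain ⟨c', hc', p1⟩ := S.nd₁.exists_partner' hc c0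
  have p2 : f₁.B c' c = 1 := by simp [f₁.herm_symm c c', p1]
  have c0' : c' ≠ 0 := by rintro rfl; simp at p1
  obtain ⟨w, hw⟩ := DFunLike.ne_iff.1 (show r (pp f₁ c c') * r' (pp f₁ c c') ≠ 0 from fun h =>
    S.pp_ne c0 c0' (rho_inj r' (by
      simpa using eq_zero_of_mul (S.pp_ne c0 c0') (fun A => (hr A _).symm) h)))
  obtain ⟨v, hv⟩ := not_forall.1 fun h => hw (S.nd.right _ h)
  have k : ∀ x y v, r (pp f₁ x y) (r' (pp f₁ x y) v) ∈ T r' (F ∙ y) := fun x y v =>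
    T_comm (hr _) (rk_mem _ _)
  refine S.nd.E_le_of_B_ne (S.cen_q hc c0 (rk_mem _ _)) (S.cen_q hc' c0' (rk_mem _ _)) ?_
    (S.U_le hc hc' p1 H (rk_mem _ _) S' H' hr (k c' c v))
    (S.U_le hc' hc p2 H (rk_mem _ _) S' H' hr (k c c' w))
  rwa [S.B_pp, S'.B_pp, rk_self p1 (rk_mem _ _), rk_self p1 (k c c' w)]

end UX

variable [FiniteDimensional F V] [Nontrivial V] [Finite F] {I : Type*} [DecidableEq I]
  {ρ : I → Rep F V₁ V} {s : Finset I} {i j : I}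

/-- If some central level is not scalar, there are many transvections. -/
theorem Fam.cen_full (Φ : Fam ρ s ⊤) (S : ∀ i, UX X f f₁ (ρ i)) (hi : i ∈ s) (hc : f₁.q c = 0)
    (c0 : c ≠ 0) (hA : ¬ USc X f₁ (ρ i) c)
    (cyc : ∀ i ∈ s, ∀ j ∈ s, ∀ k ∈ s, i ≠ j → i ≠ k → j ≠ k → ∃ g ∈ X,
      (∀ A v, g (ρ i A v) = ρ k A (g v)) ∧ ∀ A v, g (ρ j A v) = ρ i A (g v))
    (hj : j ∈ s) (hd : f₁.q d = 0) {w : V} (hw : w ∈ T (ρ j) (F ∙ d)) : Cen f X w := by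
  let E : I → I → Prop := fun i j => ∀ c d a, f₁.q c = 0 → f₁.q d = 0 → a + σ a = 0 →
    Has X (ρ i (pp f₁ c c) * a • ρ j (pp f₁ d d) : End F V)
  have sy : ∀ i ∈ s, ∀ j ∈ s, i ≠ j → E i j → E j i := fun i hi j hj hij H c d a hc hd ha => by
    simpa [(Φ.comm i hi j hj hij _ _).eq] using H d c a hd hc ha
  have al : ∀ i ∈ s, ∀ j ∈ s, i ≠ j → E i j → ∀ k ∈ s, i ≠ k → E i k :=
    fun i hi j hj hij H k hk hik => by
      rcases eq_or_ne j k with rfl | hjk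
      · exact H
      obtain ⟨g, hg, e1, e2⟩ := cyc i hi j hj k hk hij hik hjk
      exact sy k hk i hi hik.symm fun c d a hc hd ha =>
        ((H c d a hc hd ha).conj hg).congr fun v => by simp [e1, e2, app_inv]
  have K : ∀ k ∈ s.erase i, ∀ e ∈ f₁.E, un (ρ k) e ∈ X ⊓ cen (ρ i) := fun k hk e he =>
    ⟨(S k).E e he, Φ.comm k (Finset.mem_of_mem_erase hk) i hi (Finset.ne_of_mem_erase hk) _⟩
  obtain ⟨hσ, nd, nd₁, h3, -⟩ := S i
  obtain ⟨R, r1, r2, r3, r4⟩ := (S i).exists_alg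
  obtain ⟨k, hk, H⟩ := (Φ.erase hi).algU hσ nd₁ h3 (Λ := R)
    (fun ξ hξ => ⟨trivial, by rintro _ ⟨B, rfl⟩; exact (r1 ξ hξ B).symm⟩) K
    (fun z hz ξ hξ => ⟨trivial, by
      rintro _ ⟨B, rfl⟩
      exact cen_conj hz.2 B ▸ Commute.map (hξ.2 _ ⟨B, rfl⟩) (z.conjAlgEquiv F)⟩) r2 fun hs => by
      obtain ⟨ξ, hξ, hn⟩ := (S i).exists_lev hc c0 hA
      refine hn ((Φ.erase hi).cent ξ ⟨trivial, by rintro _ ⟨B, rfl⟩; exact (hξ.1 B).symm⟩
        fun k hk => by_contra fun h => ?_)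
      obtain ⟨x, hx, x0, h1⟩ := exists_cmp hσ nd₁ h3 h
      obtain ⟨t, t0, ht⟩ := ex0 hσ nd₁ h3 (fun e he _ => LevU.conj (K k hk e he)) hξ hx x0
      rw [← cmp_spec] at ht
      have h2 : ∀ a : End F V, a = t • (ρ k (pp f₁ x x) * cmp (ρ k) (f₁.B x) x ξ) → a * a = 0 := by
        rintro _ rfl
        ext; simp [cm_app cmp_comm, rk_rk (f₁.B_self_eq_zero hx)]
      obtain ⟨μ, e⟩ := hs _ (r3 _ ht (h2 _ rfl))
      have h4 := h2 _ e.symm
      simp only [smul_mul_smul_comm, mul_one, smul_eq_zero, mul_self_eq_zero, one_ne_zero,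
        or_false] at h4
      exact h1 (eq_zero_of_mul ((S i).pp_ne x0 x0) cmp_comm (by simpa [h4, t0] using e))
  have hki := Finset.ne_of_mem_erase hk
  replace hk := Finset.mem_of_mem_erase hk
  replace H := al i hi k hk hki.symm fun c d a hc hd ha => r4 _ (R.smul_mem (H _) a) c hc (by
    convert ((S i).adj _ _ (adj_pp c c)).mul (((S k).adj _ _ (adj_pp d d)).smul a) using 1
    simp [eq_neg_of_add_eq_zero_right ha, (Φ.comm k hk i hi hki _ _).eq])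
  replace H : ∀ l ∈ s, j ≠ l → E j l := by
    rcases eq_or_ne i j with rfl | e
    · exact H
    · exact al j hj i hi e.symm (sy i hi j hj e (H j hj e))
  obtain ⟨η, η0, hη⟩ := FormType.exists_add_σ_eq_zero hσ hσ2
  obtain ⟨R, -, -, r3, r4⟩ := (S j).exists_alg
  rcases eq_or_ne d 0 with rfl | d0
  · obtain rfl := T_bot (by simpa using hw)
    intro a ha
    convert X.one_mem using 1
    ext v; simp [ei_zero_apply f.q_zero ha]
  obtain ⟨d', -, p1⟩ := nd₁.exists_partner' hd d0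
  have p2 : f₁.B d' d = 1 := by simp [f₁.herm_symm d d', p1]
  intro a ha
  have e : ρ j (pp f₁ d d) * cmp (ρ j) (f₁.B d') d' (-a • pp f w w) = -a • pp f w w := by
    ext v
    simp [cmp_spec, -LinearMap.neg_apply, ← (S j).B_pp, rk_self p2 hw]
  obtain ⟨t, ht, e'⟩ := e ▸ r4 (cmp _ (f₁.B d') d' (-a • pp f w w)) ((Φ.erase hj).le_of (fun l hl A => (gen_su hσ nd₁ h3 (R.comap (ρ l))
    fun c hc => by
      have hl' := Finset.mem_of_mem_erase hl
      have hlj := Finset.ne_of_mem_erase hl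
      simpa [η0] using R.smul_mem (r3 (η • ρ l (pp f₁ c c)) ⟨fun A =>
        (Φ.comm l hl' j hj hlj _ A).smul_left η, fun d hd => H l hl' hlj.symm d c η hd hc hη⟩
        (by ext; simp [rk_rk (f₁.B_self_eq_zero hc)])) η⁻¹).ge trivial)
    ⟨trivial, by rintro _ ⟨B, rfl⟩; exact (cmp_comm B).symm⟩) d hd (by
      rw [e]
      simpa [show σ a = -a from eq_neg_of_add_eq_zero_right ha] using
        (adj_pp (f₁ := f) w w).smul (-a))
  convert ht using 1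
  ext v
  simp [e', ei_zero_apply ((S j).cen_q hd d0 hw) ha, mul_smul, sub_eq_add_neg]

omit [Finite F] in
theorem det_un [Nontrivial V₁] (r : Rep F V₁ V) {g : V₁ ≃ₗ[F] V₁}
    (hg : LinearMap.det (g : End F V₁) = 1) : LinearMap.det (un r g : End F V) = 1 := by
  obtain ⟨U, τ, h⟩ := exists_tn r
  have := h.fd
  rw [show un r g = kr h.tp 1 g from equiv_ext h.tp fun u x => by simp [kr_apply, un_apply, h.app],
    det_kr]
  simp [hg]

variable [Fintype I] {π : (I → V₁) → V}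

omit [Finite F] in
theorem PT.B_ext (h : PT ρ π) (H : ∀ xs ys, f.B (A (π xs)) (B (π ys)) = f.B (A' (π xs)) (B' (π ys)))
    (v w : V) : f.B (A v) (B w) = f.B (A' v) (B' w) := by
  refine LinearMap.congr_fun (h.ext (f := f.B (A v) ∘ₗ B) (g := f.B (A' v) ∘ₗ B') fun ys => ?_) w
  rw [LinearMap.comp_apply, LinearMap.comp_apply, f.herm_symm, f.herm_symm (B' _)]
  exact congrArg σ (LinearMap.congr_fun (h.ext (f := f.B (B (π ys)) ∘ₗ A)
    (g := f.B (B' (π ys)) ∘ₗ A') fun xs => by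
      simp [f.herm_symm _ (B _), f.herm_symm _ (B' _), H]) v)

theorem PT.su_main (h : PT ρ π) (hσ : σ ≠ RingHom.id F) (nd : f.Nondeg) (nd₁ : f₁.Nondeg)
    (h3 : 3 ≤ finrank F V₁) (hex : 4 ≤ finrank F V₁ ∨ ∃ t : F, σ t = t ∧ t ≠ 0 ∧ t ≠ 1)
    (hij : i ≠ j) {κ : F} (hB : ∀ xs ys, f.B (π xs) (π ys) = κ * ∏ i, f₁.B (xs i) (ys i)) :
    ¬ f.E ≤ NF ρ Finset.univ ∧ ∀ K, NF ρ Finset.univ ⊓ f.E ≤ K → K ≤ f.E →
      (∃ g ∈ K, g ∉ NF ρ Finset.univ) → f.E ≤ K := by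
  have : Nontrivial V₁ := Module.nontrivial_of_finrank_pos (R := F) (by omega)
  obtain ⟨c, c0, hc⟩ := (herm_iso3 hσ f₁).exists_singular h3
  obtain ⟨c', hc', p1⟩ := nd₁.exists_partner' hc c0
  have p2 : f₁.B c' c = 1 := by simp [f₁.herm_symm c c', p1]
  have cc := f₁.B_self_eq_zero hc
  have hE := fun g => nd.herm_mem_E_iff (g := g) hσ (x := π fun _ => c)
    (by rw [herm_q, hB, Finset.prod_eq_zero (Finset.mem_univ i) cc, mul_zero]) (h.pure_ne fun _ => c0)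
  have adj : ∀ i A A', Adj f₁ A A' → Adj f (ρ i A) (ρ i A') := fun i A A' H =>
    h.B_ext (A' := 1) (B := 1) fun xs ys => by
      simp only [End.one_apply, h.app, hB]
      refine congrArg _ (Finset.prod_congr rfl fun k _ => ?_)
      rcases eq_or_ne k i with rfl | e
      · simp [H _ _]
      · simp [e]
  have S : ∀ K, NF ρ Finset.univ ⊓ f.E ≤ K → K ≤ f.E → ∀ i, UX K f f₁ (ρ i) := fun K h1 h2 i => by
    have : ∀ B ∈ f₁.O, LinearMap.det (un (ρ i) B : End F V) = 1 → un (ρ i) B ∈ K := fun B hB e =>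
      h1 ⟨h.fam.un_mem (Finset.mem_univ i) B, (hE _).2 ⟨(herm_isIsom_iff _ _ _).2 fun v w =>
        (adj i _ _ (B_apply_left hB) v _).trans (congrArg (f.B v) (inv_app (un (ρ i) B) w)), e⟩⟩
    exact ⟨hσ, nd, nd₁, h3, adj i, h2.trans E_le_O, fun g hg => det_of_mem_E (h2 hg), this,
      fun e he => this e (E_le_O he) (det_un _ (det_of_mem_E he))⟩
  refine ⟨fun hle => ?_, fun K h1 h2 ⟨g, hg, hg'⟩ => ?_⟩
  · obtain ⟨η, η0, hη⟩ := FormType.exists_add_σ_eq_zero hσ hσ2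
    have S := S _ inf_le_right le_rfl
    have hc := h.comm hij.symm (pp f₁ c c)
    let g : V ≃ₗ[F] V := LinearEquiv.ofLinearMap
      (1 + ρ i (pp f₁ c c) * η • ρ j (pp f₁ c c)) (1 - ρ i (pp f₁ c c) * η • ρ j (pp f₁ c c))
      (LinearMap.ext fun v => by simp [cm_app hc, rk_rk cc])
      (LinearMap.ext fun v => by simp [cm_app hc, rk_rk cc])
    refine not_mem_NF h3 (g := g) h.fam (Finset.mem_univ _) (Finset.mem_univ _) hij c0
      (by intro e; simp [e] at p1) cc (fun A => (hc A).smul_left η) (B := pp f₁ c' c)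
      (fun h' => (S j).pp_ne c0 c0 (rho_inj (ρ j) (by
        simpa [← map_mul, rk_mul, cc, p2, η0] using h'.eq.symm))) (fun _ => rfl)
      (hle ((hE _).2 ⟨(herm_isIsom_iff _ _ _).2 fun v w => ?_, det_eq_one_of_sq_zero
        (W := T (ρ i) (F ∙ c)) (fun w hw => add_eq_left.2 (rk_T' cc c
          (T_comm (fun A => (hc A).smul_left η) hw))) fun v => by
          simpa [g] using Submodule.smul_mem _ η (rk_mem (r := ρ i) _ _)⟩))
    simp [g, (S i).B_pp, (S j).B_pp, cm_app hc, rk_rk cc, eq_neg_of_add_eq_zero_right hη]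
  by_cases hA : ∀ i c, f₁.q c = 0 → c ≠ 0 → USc K f₁ (ρ i) c
  · exact absurd (h.fam.le_NF (suRS hσ nd₁ h3 hex) (fun _ _ _ _ _ N => N.le (suRS hσ nd₁ h3 hex)
      (suBC hσ nd₁ h3 hex)) (fun _ _ => trivial)
      (fun i hi => UX.good hex h.fam hi (S K h1 h2 i) (hA i)) hg) hg'
  push Not at hA
  obtain ⟨k, d, hd, d0, hA⟩ := hA
  have H := fun j c hc w => h.fam.cen_full (S K h1 h2) (Finset.mem_univ k) hd d0 hA
    (fun i _ j _ k _ a1 a2 a3 => by
      obtain ⟨g, g1, g2, ⟨τ, g3⟩, g4⟩ := h.exists_cyc a1 a2 a3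
      exact ⟨g, h1 ⟨g1, (hE _).2 ⟨(herm_isIsom_iff _ _ _).2 (h.B_ext (A := g) (B := g) (A' := 1)
        (B' := 1) fun xs ys => by
          simpa [g3, hB] using Or.inl (Equiv.prod_comp τ fun i => f₁.B (xs i) (ys i))), g2⟩⟩, g4⟩)
    (Finset.mem_univ j) (d := c) hc (w := w)
  exact (S K h1 h2 i).E_le (H i) (S K h1 h2 j) (H j) (h.comm hij)

open Cfsg Cfsg.Geo CL.Tv in
/-- The stabilizer in `SU` of a decomposition as a tensor power is maximal. -/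
theorem wreath_SU_maximal {F : Type*} [Field F] [Fintype F] {n q : ℕ} (hF : Fintype.card F = q ^ 2)
    {k t : ℕ} (hk : 3 ≤ k) (ht : 2 ≤ t) (hex : ¬ (q = 2 ∧ k = 3)) (e : Fin n ≃ (Fin t → Fin k))
    (P : GL (Fin n) F) {f₁ : (Fin k → F) → (Fin k → F) → F} (hf₁ : IsUnitaryFormPow q f₁)
    (hT : IsTensorPowerFormStructure (fun x : F => x ^ q) (hermForm n F q) f₁ e P) :
    IsMaximalIn (GU n F q ⊓ specialLinear (Fin n) F)
      (tensorWreathSubgroup k t e P ⊓ (GU n F q ⊓ specialLinear (Fin n) F)) := by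
  obtain ⟨c, -, H⟩ := form_pure (σ := conjHom hF) (unitary_eq_gram hF hf₁) hT
  obtain ⟨i, j, hij⟩ := Fin.nontrivial_iff_two_le.2 ht
  have hn : 3 ≤ n := by
    simpa using (hk.trans (Nat.le_self_pow (n := t) (by omega) k)).trans_eq (by
      simpa using (Fintype.card_congr e).symm)
  have : Nonempty (Fin n) := ⟨⟨0, by omega⟩⟩
  obtain ⟨k1, k2⟩ := (ptT e P).su_main (f := hermStd hF n)
    (f₁ := hermOfUnitary (isUnitaryForm_of_pow hF hf₁ one_ne_zero (one_pow q))) (hermStd_ne_id hF)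
    (hermStd_nondeg hF n) (hermOfUnitary_nondeg _) (by simpa using hk) (by
      rcases eq_or_ne q 2 with e | e
      · exact Or.inl (by simp; omega)
      · exact Or.inr (CL.Uni.exists_fixed_ne hF e)) hij (κ := c) fun xs ys => by
      simp only [hermOfUnitary_B, one_mul]; exact H ys xs
  exact isMaximalIn_of_act (CL.Root.mem_SU_iff_E hF hn) (mem_wreath_iff (by omega) (by omega) e P) k1 k2

end CL.Wr
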