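/-
Half-turns and root groups of orthogonal spaces; centralizers of half-turns in overgroups.
-/
import Mathlib
import Cfsg.Agent.CLAS.WrO1
import Cfsg.Agent.CLAS.TensO4
import Cfsg.Agent.CLAS.WrS5

set_option autoImplicit false
set_option linter.unusedSectionVars false

namespace CL.WrO

open Module CL.ExtF CL.Tens CL.Witt CL.Witt.Form CL.Uniq

attribute [-simp] LinearEquiv.coe_inv
attribute [local simp] FormType.quad_σ FormType.quad_ε FormType.quad_π

variable {F V : Type*} [Field F] [AddCommGroup V] [Module F V] {f : Form (FormType.quad F) V}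
  {b b' s v : V}

variable (f) in
/-- The half-turn with axis `b`. -/
noncomputable def ht (b : V) : V ≃ₗ[F] V := LinearEquiv.neg F * f.rf b

theorem ht_apply (b x : V) : ht f b x = ((f.q b)⁻¹ * f.B b x) • b - x := by
  simp [ht, rf_apply]

theorem ht_eq (b x : V) : ht f b x = -f.rf b x := rfl

theorem ht_mem (b : V) : ht f b ∈ f.O :=
  ⟨fun x y => by simp [ht_eq, mem_O_B (rf_mem_O b)], fun x => by
    rw [ht_eq, q_neg, mem_O_q (rf_mem_O b)]⟩

theorem ht_sq (b : V) : ht f b * ht f b = 1 := LinearEquiv.ext fun x => by simp [ht_eq, Form.rf_rf]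

theorem ht_self (hb : f.q b ≠ 0) : ht f b b = b := by rw [ht_eq, rf_self hb, neg_neg]

theorem ht_perp {x : V} (h : f.B b x = 0) : ht f b x = -x := by simp [ht_apply, h]

theorem ht_comm (h : f.B b b' = 0) : Commute (ht f b) (ht f b') := LinearEquiv.ext fun x => by
  simpa [ht_eq] using LinearEquiv.congr_fun (rf_comm h) x

variable (f) in
/-- Similarities. -/
def Sim (D : V ≃ₗ[F] V) : Prop := ∃ m : F, m ≠ 0 ∧ ∀ x y, f.B (D x) (D y) = m * f.B x y

theorem sim_of_O {D : V ≃ₗ[F] V} (h : D ∈ f.O) : Sim f D :=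
  ⟨1, one_ne_zero, fun x y => by rw [mem_O_B h, one_mul]⟩

variable (h2 : (2 : F) ≠ 0)
include h2

theorem q_sim {D : V ≃ₗ[F] V} {m : F} (h : ∀ x y, f.B (D x) (D y) = m * f.B x y) (x : V) :
    f.q (D x) = m * f.q x := mul_left_cancel₀ h2 (by rw [← quad_B_self, h, quad_B_self]; ring)

theorem Sim.q_eq {D : V ≃ₗ[F] V} (h : Sim f D) {x : V} : f.q (D x) = 0 ↔ f.q x = 0 := by
  obtain ⟨m, m0, h⟩ := h
  simp [q_sim h2 h, m0]

theorem Sim.ht {D : V ≃ₗ[F] V} (h : Sim f D) (b : V) : D * ht f b * D⁻¹ = ht f (D b) := by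
  obtain ⟨m, m0, h⟩ := h
  refine mul_inv_eq_of_eq_mul (LinearEquiv.ext fun x => ?_)
  simp only [mul_app, ht_apply, map_sub, map_smul, h, q_sim h2 h]
  congr 2
  rw [mul_inv, mul_mul_mul_comm, inv_mul_cancel₀ m0, one_mul]

theorem Sim.conj_E {D e : V ≃ₗ[F] V} (h : Sim f D) (he : e ∈ f.E) : D * e * D⁻¹ ∈ f.E := by
  obtain ⟨m, m0, h⟩ := h
  refine (E_le_iff'.2 fun c y μ ok => ?_ : f.E ≤ f.E.comap (MulAut.conj D).toMonoidHom) he
  have hc : f.q (D c) = 0 := by rw [q_sim h2 h, ok.hu, mul_zero]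
  have hy : f.B (D c) (m⁻¹ • D y) = 0 := by simp [h, ok.huv]
  change D * f.ei c y μ * D⁻¹ ∈ f.E
  convert ei_mem_E (f := f) (D c) (m⁻¹ • D y) (f.q (m⁻¹ • D y)) using 1
  refine mul_inv_eq_of_eq_mul (LinearEquiv.ext fun x => ?_)
  obtain rfl : μ = f.q y := ok.3
  rw [mul_app, mul_app, quad_ei ok.hu ok.huv, quad_ei hc hy]
  simp only [map_add, map_sub, map_smul, h, quad_q_smul, q_sim h2 h, B_smul_left, FormType.quad_σ]
  match_scalars <;> field_simp

theorem mem_of_ht {x : V} (h : ht f b x = x) : x ∈ F ∙ b := by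
  rw [ht_apply, sub_eq_iff_eq_add, ← two_smul F] at h
  exact (Submodule.smul_mem_iff _ h2).1 (h ▸ Submodule.smul_mem _ _ (Submodule.mem_span_singleton_self b))

theorem of_ht_comm (hb : f.q b ≠ 0) (hb' : f.q b' ≠ 0) (h : Commute (ht f b) (ht f b')) :
    f.B b b' = 0 ∨ ht f b = ht f b' := by
  refine or_iff_not_imp_left.2 fun h0 => ?_
  have := LinearEquiv.congr_fun h.eq b'
  rw [mul_app, mul_app, ht_self hb'] at this
  obtain ⟨c, hc⟩ := Submodule.mem_span_singleton.1 (mem_of_ht h2 this.symm)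
  rw [ht_apply, eq_sub_iff_add_eq, show c • b' + b' = (c + 1) • b' by module] at hc
  have e := mul_ne_zero (inv_ne_zero hb) h0
  have e' : c + 1 ≠ 0 := fun e' => hb (by
    rw [e', zero_smul, eq_comm, smul_eq_zero] at hc
    rw [hc.resolve_left e, q_zero])
  rw [ht, ht, ← rf_smul e, ← hc, rf_smul e']

variable [FiniteDimensional F V] (hf : f.Nondeg)
include hf

theorem third (h3 : finrank F V = 3) (hb : f.q b ≠ 0) (hb' : f.q b' ≠ 0) (h : f.B b b' = 0) :
    ∃ c, f.q c ≠ 0 ∧ f.B b c = 0 ∧ ht f b * ht f b' = ht f c := by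
  obtain ⟨c, c0, c1, c2⟩ := exists_perp_two (h := f) h3.ge b b'
  have h' := f.B_eq_zero_symm h
  have sp : ∀ x, ∃ α β γ : F, x = α • b + β • b' + γ • c := fun x => by
    have d1 := hf.finrank_add_finrank_perp (Submodule.span F {b, b'})
    rw [finrank_span_pair_of (by rintro rfl; simp [q_zero] at hb') fun e => by
      obtain ⟨a, rfl⟩ := Submodule.mem_span_singleton.1 e
      simp [quad_B_self, h2, hb'] at h
      simp [h, q_zero] at hb] at d1
    obtain ⟨γ, e⟩ := Submodule.mem_span_singleton.1 ((Submodule.eq_of_le_of_finrank_eq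
      ((Submodule.span_singleton_le_iff_mem c _).2 (f.mem_perp_span_pair.2 ⟨c1, c2⟩))
      (by rw [finrank_span_singleton c0]; omega)).ge (f.mem_perp_span_pair.2
        (show f.B b (x - (f.B b x / (2 * f.q b)) • b - (f.B b' x / (2 * f.q b')) • b') = 0 ∧ _ from
        ⟨by simp [h, quad_B_self]; field_simp; ring, by simp [h', quad_B_self]; field_simp; ring⟩)))
    exact ⟨_, _, γ, by rw [e]; abel⟩
  have q0 : f.q c ≠ 0 := fun e => c0 (hf.right c fun x => by
    obtain ⟨α, β, γ, rfl⟩ := sp x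
    simp [c1, c2, quad_B_self, e])
  refine ⟨c, q0, c1, LinearEquiv.ext fun x => ?_⟩
  obtain ⟨α, β, γ, rfl⟩ := sp x
  simp [ht_self, ht_perp, *, f.B_eq_zero_symm c1, f.B_eq_zero_symm c2, add_comm]

theorem univ_perp [Finite F] (h3 : 3 ≤ finrank F V) (hb : f.q b ≠ 0) (c : F) :
    ∃ w, f.B b w = 0 ∧ f.q w = c := by
  have b0 : b ≠ 0 := by rintro rfl; simp [q_zero] at hb
  have d1 := hf.finrank_add_finrank_perp (F ∙ b)
  rw [finrank_span_singleton b0] at d1
  obtain ⟨w, hw, e⟩ := exists_q_eq_mem (hf.restrict_perp (W := F ∙ b) (by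
    rw [f.restrict_nondeg_iff, disjoint_comm, Submodule.disjoint_span_singleton' b0,
      f.mem_perp_span_singleton, quad_B_self]
    exact mul_ne_zero h2 hb)) (by omega) c
  exact ⟨w, f.mem_perp_span_singleton.1 hw, e⟩

/-- A unipotent similarity of a `3`-space fixing a non-singular point is a scalar. -/
theorem fix3 (h3 : finrank F V = 3) {A : V ≃ₗ[F] V} (hA : Sim f A) {l : F} (l0 : l ≠ 0) {k : ℕ}
    (hN : ((A : End F V) - l • 1) ^ k = 0) (hb : f.q b ≠ 0) (h : A b ∈ F ∙ b) (x : V) :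
    A x = l • x := by
  obtain ⟨m, m0, hA⟩ := hA
  obtain ⟨μ, hμ⟩ := Submodule.mem_span_singleton.1 h
  have b0 : b ≠ 0 := by rintro rfl; simp [q_zero] at hb
  have μ0 : μ ≠ 0 := by rintro rfl; exact b0 (by simpa using hμ.symm)
  have e1 : μ = l := by
    by_contra hn
    refine b0 (eq_zero_of_pow_inj (S := F ∙ b) (fun w hw => ?_) (fun w hw e => ?_) hN
      (Submodule.mem_span_singleton_self b)) <;>
    obtain ⟨s, rfl⟩ := Submodule.mem_span_singleton.1 hw
    · simpa [← hμ, smul_smul, ← sub_smul] using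
        Submodule.smul_mem _ _ (Submodule.mem_span_singleton_self b)
    · simp [← hμ, ← sub_smul, sub_ne_zero.2 hn, b0] at e
      simp [e]
  obtain ⟨w, w1, w2, w0⟩ : ∃ w, f.B b w = 0 ∧ A w = l • w ∧ w ≠ 0 := by
    by_contra! H
    obtain ⟨w, w0, w1, -⟩ := exists_perp_two (h := f) h3.ge b b
    refine w0 (eq_zero_of_pow_inj (S := LinearMap.ker (f.B b)) (fun w hw => ?_)
      (fun w hw e => H w hw (sub_eq_zero.1 e)) hN w1)
    have := hA b w
    simp only [LinearMap.mem_ker] at hw ⊢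
    simpa [← hμ, hw, μ0] using this
  refine scalar_of_ker hf h2 h3.ge l0 hA hN ?_ x
  have := Submodule.finrank_mono (show Submodule.span F {b, w} ≤
    LinearMap.ker ((A : End F V) - l • 1) from Submodule.span_le.2 (by
      rintro _ (rfl | rfl) <;> simp [← hμ, e1, w2]))
  rw [finrank_span_pair_of w0 fun e => by
    obtain ⟨a, rfl⟩ := Submodule.mem_span_singleton.1 e
    simp [quad_B_self, quad_q_smul, h2] at w1 hb
    tauto] at this
  omega

/-- A non-scalar unipotent similarity of a `3`-space has a cyclic vector. -/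
theorem reg3 (h3 : finrank F V = 3) {A : V ≃ₗ[F] V} (hA : Sim f A) {l : F} (l0 : l ≠ 0) {k : ℕ}
    (hN : ((A : End F V) - l • 1) ^ k = 0) (hn : ¬ ∀ x, A x = l • x) :
    ∃ x, ∀ α β γ : F, α • x + β • A x + γ • A (A x) = 0 → α = 0 ∧ β = 0 := by
  obtain ⟨m, m0, hA⟩ := hA
  have e3 : ((A : End F V) - l • 1) ^ 3 = 0 := by
    have := LinearMap.aeval_self_charpoly ((A : End F V) - l • 1)
    rwa [IsNilpotent.charpoly_eq_X_pow_finrank ⟨k, hN⟩, h3, map_pow, Polynomial.aeval_X] at this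
  obtain ⟨N, hN'⟩ : ∃ N : End F V, N = (A : End F V) - l • 1 := ⟨_, rfl⟩
  have eA : ∀ x, A x = N x + l • x := fun x => by simp [hN']
  obtain ⟨x, hx⟩ : ∃ x, N (N x) ≠ 0 := by
    by_contra! H
    refine hn (scalar_of_ker hf h2 h3.ge l0 hA hN ?_)
    have d1 := N.finrank_range_add_finrank_ker
    have := Submodule.finrank_mono (show LinearMap.range N ≤ LinearMap.ker N by
      rintro _ ⟨x, rfl⟩; exact H x)
    rw [← hN']; omega
  rw [← hN'] at e3
  have e4 : N (N (N x)) = 0 := LinearMap.congr_fun e3 x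
  refine ⟨x, fun α β γ e => ?_⟩
  have p1 := congrArg (fun y => N (N y)) e
  have p2 := congrArg N e
  simp only [eA, map_add, map_smul, e4, map_zero] at p1 p2 e
  have q1 : α + β * l + γ * l ^ 2 = 0 := (smul_eq_zero.1 (by
    linear_combination (norm := module) p1)).resolve_right hx
  have q2 : β + 2 * γ * l = 0 := (smul_eq_zero.1 (by
    linear_combination (norm := module) p2 - q1 • N x)).resolve_right hx
  have q3 : γ = 0 := (smul_eq_zero.1 (by
    linear_combination (norm := module) e - q1 • x - q2 • N x)).resolve_right hx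
  simp only [q3, mul_zero, zero_mul, add_zero] at q1 q2
  simpa [q2] using q1

omit hf h2 [FiniteDimensional F V]

/-- A one-parameter group of Eichler elements. -/
noncomputable def rt (hs : f.q s = 0) (hv : f.B s v = 0) : Multiplicative F →* (V ≃ₗ[F] V) :=
  MonoidHom.mk' (fun a => f.ei s (a.toAdd • v) (f.q (a.toAdd • v))) fun a b => by
    rw [(qok hs (by simp [hv])).ei_mul (qok hs (by simp [hv])), toAdd_mul, add_smul, quad_q_add]

variable (hs : f.q s = 0) (hv : f.B s v = 0)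

theorem rt_mem (a : Multiplicative F) : rt hs hv a ∈ f.E := ei_mem_E _ _ _

theorem rt_apply (a : Multiplicative F) (x : V) : rt hs hv a x =
    x + a.toAdd • wd f s v x - (a.toAdd ^ 2 * f.q v * f.B s x) • s := by
  refine (quad_ei hs (show f.B s (a.toAdd • v) = 0 by simp [hv]) x).trans ?_
  simp only [wd_apply, quad_q_smul, B_smul_left, FormType.quad_σ]
  module

theorem rt_sq (a : Multiplicative F) (x : V) : dl (rt hs hv a) (dl (rt hs hv a) x) =
    -(2 * a.toAdd ^ 2 * f.q v * f.B s x) • s := by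
  simp only [dl_apply, rt_apply, wd_apply, map_add, map_sub, map_smul, hv, f.B_self_eq_zero hs,
    f.B_eq_zero_symm hv, quad_B_self]
  module

theorem rt_cube (a : Multiplicative F) : dl (rt hs hv a) ^ 3 = 0 := by
  ext x
  simp [pow_succ', rt_sq, dl_apply (v := s), rt_apply, wd_apply, f.B_self_eq_zero hs,
    f.B_eq_zero_symm hv]

theorem rt_inj [FiniteDimensional F V] (hf : f.Nondeg) (h2 : (2 : F) ≠ 0) (s0 : s ≠ 0)
    (v0 : f.q v ≠ 0) : Function.Injective (rt hs hv) := (injective_iff_map_eq_one _).2 fun a e => by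
  obtain ⟨x, hx⟩ := hf.exists_B_eq s0 1
  simpa [e, dl_apply, hx, h2, s0, v0] using rt_sq hs hv a x

section Z

variable {G : Type*} [Group G] {φ : (V ≃ₗ[F] V) →* G} {X : Subgroup G} {z x : G}

variable (f φ X) in
/-- The half-turns of a factor. -/
def Zs : Set G := {z | z ∈ X ∧ ∃ b, f.q b ≠ 0 ∧ z = φ (ht f b)}

theorem Zs.sq (hz : z ∈ Zs f φ X) : z * z = 1 := by
  obtain ⟨-, b, -, rfl⟩ := hz
  rw [← map_mul, ht_sq, map_one]

variable [Finite F] [FiniteDimensional F V] (h2 : (2 : F) ≠ 0) (hf : f.Nondeg)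
  (h3 : finrank F V = 3) (hφ : Function.Injective φ)
  (hC : ∀ A ∈ f.O, ∀ B ∈ f.O, φ (A * B * A⁻¹ * B⁻¹) ∈ X)
include h2 hf h3

include hφ in
theorem Zs.mul (hz : z ∈ Zs f φ X) (hx : x ∈ Zs f φ X) (hn : z ≠ x) (hc : Commute z x) :
    z * x ∈ Zs f φ X := by
  obtain ⟨h1, b, hb, rfl⟩ := hz
  obtain ⟨h1', b', hb', rfl⟩ := hx
  obtain ⟨c, c0, -, e⟩ := third h2 hf h3 hb hb' ((of_ht_comm h2 hb hb' (hc.of_map hφ)).resolve_right
    fun e => hn (congrArg φ e))
  exact ⟨X.mul_mem h1 h1', c, c0, by rw [← map_mul, e]⟩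

include hC

theorem exists_Zs (hb : f.q b ≠ 0) : ∃ c, f.q c ≠ 0 ∧ f.B b c = 0 ∧ φ (ht f c) ∈ X := by
  obtain ⟨w, w1, w2⟩ := univ_perp h2 hf h3.ge hb (f.q b)
  obtain ⟨c, c0, c1, e⟩ := third h2 hf h3 hb (w2 ▸ hb) w1
  refine ⟨c, c0, c1, ?_⟩
  convert hC _ (ht_mem b) _ (rf_mem_O (b - w))
  rw [inv_eq_of_mul_eq_one_right (ht_sq b), mul_assoc, mul_assoc,
    ← mul_assoc (f.rf _), (sim_of_O (rf_mem_O _)).ht h2, ← e, rf_apply]
  simp only [q_sub, w2, w1, f.B_eq_zero_symm w1, quad_B_self, map_sub, LinearMap.sub_apply,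
    FormType.quad_π, sub_zero, ← two_mul]
  congr 2
  match_scalars <;> field_simp <;> ring

include hφ

theorem Zs.two (hz : z ∈ Zs f φ X) : ∃ e ∈ Zs f φ X, z ≠ e ∧ Commute z e := by
  obtain ⟨h1, b, hb, rfl⟩ := hz
  obtain ⟨c, c0, c1, e⟩ := exists_Zs h2 hf h3 hC hb
  refine ⟨_, ⟨e, c, c0, rfl⟩, fun e => hb ?_, (ht_comm c1).map φ⟩
  have := LinearEquiv.congr_fun (hφ e) b
  rw [ht_self hb, ht_perp (f.B_eq_zero_symm c1), eq_neg_iff_add_eq_zero, ← two_smul F,
    smul_eq_zero] at this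
  rw [this.resolve_left h2, q_zero]

theorem Zs.nc (ex : ∃ t : F, t ≠ 0 ∧ t ^ 2 ≠ 1) (hz : z ∈ Zs f φ X) :
    ¬ ∀ x ∈ Zs f φ X, Commute z x := fun H => by
  obtain ⟨h1, b, hb, rfl⟩ := hz
  obtain ⟨t, t0, t1⟩ := ex
  obtain ⟨w, w1, w2⟩ := univ_perp h2 hf h3.ge hb (t * f.q b)
  have t2 : 1 + t ≠ 0 := fun e => t1 (by linear_combination (t - 1) * e)
  have t3 : t - 1 ≠ 0 := fun e => t1 (by linear_combination (t + 1) * e)
  have q1 : f.q (f.rf (b + w) b) ≠ 0 := by rwa [mem_O_q (rf_mem_O _)]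
  have e : f.rf (b + w) b = (1 + t)⁻¹ • ((t - 1) • b - (2 : F) • w) := by
    simp only [rf_apply, quad_q_add, w1, w2, map_add, LinearMap.add_apply, quad_B_self,
      f.B_eq_zero_symm w1, add_zero, ← one_add_mul]
    match_scalars <;> field_simp <;> ring
  rcases of_ht_comm h2 hb q1 ((H _ ⟨by
    have := X.mul_mem (hC _ (rf_mem_O (b + w)) _ (ht_mem b)) h1
    rwa [← map_mul, inv_mul_cancel_right,
      (sim_of_O (rf_mem_O _)).ht h2] at this, _, q1, rfl⟩).of_map hφ) with h | h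
  · simp [e, w1, quad_B_self, t2, t3, h2, hb] at h
  · obtain ⟨a, ha⟩ := Submodule.mem_span_singleton.1 (mem_of_ht h2 (h ▸ ht_self q1))
    simpa [e, f.B_eq_zero_symm w1, quad_B_self, w2, t2, h2, t0, hb] using congrArg (f.B w) ha

end Z

section KH

variable [Finite F] [FiniteDimensional F V] {X H : Subgroup (V ≃ₗ[F] V)} {z : V ≃ₗ[F] V}
  {u : Multiplicative F →* (V ≃ₗ[F] V)}

/-- The centralizer of `z` lies in `H`. -/
theorem cen_le (h2 : (2 : F) ≠ 0) (ex : ∃ t : F, t ≠ 0 ∧ t ^ 2 ≠ 1) (hu : Function.Injective u)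
    (uX : ∀ a, u a ∈ X) (uH : ∀ a, u a ∈ H) (uz : ∀ a, Commute (u a) z) (cub : ∀ a, dl (u a) ^ 3 = 0)
    (hN : NrmG X H u.range) (hc : ∀ a, a ≠ 1 → ∀ g ∈ X, Commute g (u a) → g ∈ H)
    (h1 : ∀ k ∈ X, k ∈ H → (∀ w, z w = w → k w = w) → k ^ ringChar F = 1 → k = 1)
    {c : V ≃ₗ[F] V} (cX : c ∈ X) (cz : Commute c z) (hγ : ∀ a, ∃ h ∈ X, h ∈ H ∧ Commute h z ∧
      ∀ w, z w = w → c (u a w) = h (c w)) : c ∈ H := by
  have := Wr.finite_equiv F V
  have hp : Fact (ringChar F).Prime := ⟨CharP.char_is_prime F _⟩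
  let C := X ⊓ Subgroup.centralizer {z}
  have mC : ∀ {k}, k ∈ C ↔ k ∈ X ∧ Commute k z := and_congr_right fun _ =>
    Subgroup.mem_centralizer_singleton_iff
  have fx : ∀ k ∈ C, ∀ w, z w = w → z (k w) = k w := fun k hk w hw => by
    rw [← mul_app, ← (mC.1 hk).2.eq, mul_app, hw]
  let K : Subgroup (V ≃ₗ[F] V) :=
    { carrier := {k | k ∈ C ∧ ∀ w, z w = w → k w = w}
      one_mem' := ⟨C.one_mem, fun _ _ => rfl⟩
      mul_mem' := fun ha hb => ⟨C.mul_mem ha.1 hb.1, fun w hw => by rw [mul_app, hb.2 w hw, ha.2 w hw]⟩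
      inv_mem' := fun ha => ⟨C.inv_mem ha.1, fun w hw => inv_app_eq (ha.2 w hw)⟩ }
  have hn : ∀ c ∈ C, ∀ k ∈ K, c * k * c⁻¹ ∈ K := fun c hc k hk =>
    ⟨C.mul_mem (C.mul_mem hc hk.1) (C.inv_mem hc), fun w hw => by
      rw [mul_app, mul_app, hk.2 _ (fx _ (C.inv_mem hc) w hw), app_inv]⟩
  have up : ∀ a, u a ^ ringChar F = 1 := fun a => by
    rw [← map_pow, show a ^ ringChar F = 1 from by
      apply Multiplicative.toAdd.injective; simp, map_one]
  have uC : u.range ≤ C := by rintro _ ⟨a, rfl⟩; exact mC.2 ⟨uX a, uz a⟩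
  have hR : IsPGroup (ringChar F) u.range := by
    rintro ⟨_, a, rfl⟩
    exact ⟨1, Subtype.ext (by simpa using up a)⟩
  have cop := hN.coprime (K := K) (by rintro _ ⟨a, rfl⟩; exact uH a) hR inf_le_left uC
    (fun _ h => h.1) hn fun k hk kH => h1 k hk.1.1 kH hk.2
  have KH : K ≤ H := by
    by_cases p3 : ringChar F = 3
    · obtain ⟨n, e⟩ := IsPGroup.iff_card.1 hR
      refine le_of_cent (A := u.range) (by rintro _ ⟨a, rfl⟩ _ ⟨b, rfl⟩; rw [← map_mul, mul_comm, map_mul])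
        (fun hcy => ?_) (fun a ha => hn a (uC ha)) (e ▸ cop.symm.pow_left n) ?_
      · obtain ⟨t, t0, t1⟩ := ex
        have := Fintype.ofFinite F
        have h3 : Nat.card u.range ∣ 3 := by
          rw [← IsCyclic.exponent_eq_card, ← p3]
          exact Monoid.exponent_dvd_of_forall_pow_eq_one (by
            rintro ⟨_, a, rfl⟩; exact Subtype.ext (by simpa using up a))
        rw [← Nat.card_congr (MonoidHom.ofInjective hu).toEquiv] at h3
        have h4 := Nat.le_of_dvd (by norm_num) h3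
        classical
        have h5 := Finset.card_le_univ ({0, 1, -1, t} : Finset F)
        rw [Finset.card_insert_of_notMem (by simp [t0.symm]), Finset.card_insert_of_notMem (by
          simpa [eq_neg_iff_add_eq_zero, one_add_one_eq_two, h2] using fun e => t1 (by simp [← e])),
          Finset.card_pair fun e => t1 (by simp [← e])] at h5
        simp only [Nat.card_eq_fintype_card, Fintype.card_multiplicative] at h4
        omega
      · rintro _ ⟨a, rfl⟩ a1 k hk e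
        exact hc a (by rintro rfl; simp at a1) k hk.1.1 e
    · intro k hk
      refine hc (Multiplicative.ofAdd 1) (by simp) k hk.1.1 (cubic_comm (p := ringChar F) ?_ cop
        (Subgroup.mem_normalizer_iff.2 fun k => ⟨hn _ (uC ⟨_, rfl⟩) k, fun e => by
          simpa [mul_assoc] using hn _ (C.inv_mem (uC ⟨Multiplicative.ofAdd 1, rfl⟩)) _ e⟩) (up _) (cub _) hk)
      have p2 : ringChar F ≠ 2 := fun e => h2 (by simpa [e] using CharP.cast_eq_zero F (ringChar F))
      exact hp.out.five_le_of_ne_two_of_ne_three p2 p3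
  refine hN c cX ?_
  rintro _ ⟨a, rfl⟩
  obtain ⟨h, hX, hH, hz, e⟩ := hγ a
  have m := mC.2 ⟨cX, cz⟩
  simpa using H.mul_mem hH (KH ⟨C.mul_mem (C.inv_mem (mC.2 ⟨hX, hz⟩)) (C.mul_mem (C.mul_mem m
    (uC ⟨a, rfl⟩)) (C.inv_mem m)), fun w hw => by
      rw [mul_app, mul_app, mul_app, e _ (fx _ (C.inv_mem m) w hw), app_inv, inv_app]⟩)

end KH

theorem nrm_of {G : Type*} [Group G] {X H : Subgroup G} {z : G} (hz : z ∈ X)
    (h1 : ∀ c ∈ X, Commute c z → c ∈ H) (h2 : ∀ g ∈ X, g * z * g⁻¹ ∈ H →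
      ∃ R ≤ X, NrmG X H R ∧ ∀ r ∈ R, Commute r (g * z * g⁻¹)) : Nrm X H z :=
  ⟨hz, h1 z hz (Commute.refl z), fun g hg e => by
    obtain ⟨R, r1, r2, r3⟩ := h2 g hg e
    simpa using H.inv_mem (r2 _ (X.inv_mem hg) fun r hr => h1 _
      (X.mul_mem (X.mul_mem (X.inv_mem hg) (r1 hr)) (X.inv_mem (X.inv_mem hg)))
      (by simpa [mul_assoc] using (r3 r hr).conj g⁻¹))⟩

end CL.WrO
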