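/-
Orthogonal tensor factors: similarities, half-turns and root groups.
-/
import Mathlib
import Cfsg.Agent.CLAS.WrO2

set_option autoImplicit false
set_option linter.unusedSectionVars false

namespace CL.WrO

open Module CL.ExtF CL.Tens CL.Wr CL.Witt CL.Witt.Form CL.Uniq

attribute [-simp] LinearEquiv.coe_inv
attribute [local simp] FormType.quad_σ FormType.quad_ε FormType.quad_π

variable {F V₁ V U : Type*} [Field F] [AddCommGroup V₁] [Module F V₁] [AddCommGroup V] [Module F V]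
  [AddCommGroup U] [Module F U] {f : Form (FormType.quad F) V} {f₁ : Form (FormType.quad F) V₁}
  {fU : Form (FormType.quad F) U} {σ σ' : Rep F V₁ V} {τ : U →ₗ[F] V₁ →ₗ[F] V} {a b c d s v : V₁}
  {g k r : V ≃ₗ[F] V} {D e : V₁ ≃ₗ[F] V₁}

variable (f₁) in
/-- The rank one operator `x ↦ f₁(a, x) b`. -/
def tv : V₁ →ₗ[F] V₁ →ₗ[F] End F V₁ :=
  LinearMap.mk₂ F (fun a b => (f₁.B a).smulRight b) (fun _ _ _ => by ext; simp [add_smul])
    (fun _ _ _ => by ext; simp [mul_smul]) (fun _ _ _ => by ext; simp)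
    fun s _ _ => by ext; simp [smul_comm s]

theorem tv_eq (a b : V₁) : tv f₁ a b = (f₁.B a).smulRight b := rfl

@[simp] theorem tv_apply (a b x : V₁) : tv f₁ a b x = f₁.B a x • b := rfl

theorem tv_mul (a b c d : V₁) : tv f₁ a b * tv f₁ c d = f₁.B a d • tv f₁ c b := rk_mul _ _ _ _

theorem tv_adj (a b x y : V₁) : f₁.B (tv f₁ a b x) y = f₁.B x (tv f₁ b a y) := by
  simp [f₁.quad_symm a x, mul_comm]

theorem B_ne (hf : f₁.Nondeg) (ha : a ≠ 0) : f₁.B a ≠ 0 := fun e => ha (hf a (LinearMap.congr_fun e))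

theorem tv_ne (hf : f₁.Nondeg) (ha : a ≠ 0) (hb : b ≠ 0) : tv f₁ a b ≠ 0 := fun h =>
  ha (hf a fun x => by simpa [hb] using LinearMap.congr_fun h x)

theorem coe_un (σ : Rep F V₁ V) (e : V₁ ≃ₗ[F] V₁) : (un σ e : End F V) = σ e := rfl

theorem dl_un (σ : Rep F V₁ V) (e : V₁ ≃ₗ[F] V₁) : dl (un σ e) = σ (dl e) := by
  simp [dl, coe_un]

theorem un_cj (e : V₁ ≃ₗ[F] V₁) : un (Wr.cj g σ) e = g * un σ e * g⁻¹ := rfl

theorem un_rt_sq (hs : f₁.q s = 0) (hv : f₁.B s v = 0) (t : Multiplicative F) :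
    dl (un σ (rt hs hv t)) ^ 2 = -(2 * t.toAdd ^ 2 * f₁.q v) • σ (tv f₁ s s) := by
  rw [dl_un, ← map_pow, ← map_smul]
  congr 1
  ext x
  simp [pow_two, rt_sq, smul_smul]

theorem rt_lag (hs : f₁.q s = 0) (hv : f₁.B s v = 0) (σ : Rep F V₁ V) (t : F) {x y z : F}
    (h1 : x ≠ y) (h2 : x ≠ z) (h3 : y ≠ z) (w : V) : un σ (rt hs hv (.ofAdd t)) w =
      ((t - y) * (t - z) / ((x - y) * (x - z))) • un σ (rt hs hv (.ofAdd x)) w +
      ((t - x) * (t - z) / ((y - x) * (y - z))) • un σ (rt hs hv (.ofAdd y)) w +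
      ((t - x) * (t - y) / ((z - x) * (z - y))) • un σ (rt hs hv (.ofAdd z)) w := by
  suffices ((rt hs hv (.ofAdd t) : V₁ ≃ₗ[F] V₁) : End F V₁) =
      ((t - y) * (t - z) / ((x - y) * (x - z))) • (rt hs hv (.ofAdd x) : End F V₁) +
      ((t - x) * (t - z) / ((y - x) * (y - z))) • (rt hs hv (.ofAdd y) : End F V₁) +
      ((t - x) * (t - y) / ((z - x) * (z - y))) • (rt hs hv (.ofAdd z) : End F V₁) by
    simp [un_apply, this]
  ext v
  have := sub_ne_zero.2 h1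
  have := sub_ne_zero.2 h2
  have := sub_ne_zero.2 h3
  have := sub_ne_zero.2 h1.symm
  have := sub_ne_zero.2 h2.symm
  have := sub_ne_zero.2 h3.symm
  simp only [LinearEquiv.coe_coe, LinearMap.add_apply, LinearMap.smul_apply, rt_apply, toAdd_ofAdd]
  match_scalars <;> field_simp <;> ring

variable (f f₁ σ) in
/-- The factor is compatible with the forms. -/
def Ad : Prop := ∀ A A' : End F V₁, (∀ x y, f₁.B (A x) y = f₁.B x (A' y)) →
  ∀ v w, f.B (σ A v) w = f.B v (σ A' w)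

theorem Ad.cj (h : Ad f f₁ σ) (hg : g ∈ f.O) : Ad f f₁ (Wr.cj g σ) := fun A A' H v w => by
  rw [Wr.cj_apply, Wr.cj_apply, B_apply_left hg, h A A' H, ← mem_O_B hg, app_inv]

theorem Ad.un_mem (h : Ad f f₁ σ) (h2 : (2 : F) ≠ 0) (he : e ∈ f₁.O) : un σ e ∈ f.O :=
  mem_O_of_B h2 fun v w => by
    rw [un_apply, h _ (e⁻¹ : V₁ ≃ₗ[F] V₁) (B_apply_left he), ← un_inv_apply, inv_app]

theorem _root_.CL.Wr.Tn.un_eq (h : Tn σ τ) (e : V₁ ≃ₗ[F] V₁) : un σ e = kr h.tp 1 e :=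
  equiv_ext h.tp fun x y => by simp [un_apply, h.app]

theorem ad_of (h : Tn σ τ) (S : TQ h.tp f fU f₁) : Ad f f₁ σ := fun A A' H v w => by
  refine h.tp.inductionOn v (by simp) (fun x d => ?_) fun a b ha hb => by simp [ha, hb]
  refine h.tp.inductionOn w (by simp) (fun x' d' => ?_) fun a b ha hb => by
    simp only [map_add, ha, hb]
  simp [h.app, S.mul, H]

/-- The second factor of a tensor product. -/
noncomputable def rep (h : IsTensorProduct τ) : Rep F V₁ V :=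
  AlgHom.ofLinearMap (IsLinearMap.mk' (fun A => h.map h LinearMap.id A)
    ⟨fun _ _ => ext_of h fun _ _ => by simp, fun _ _ => ext_of h fun _ _ => by simp⟩)
    (ext_of h fun _ _ => by simp) fun _ _ => ext_of h fun _ _ => by simp

theorem tn_rep (h : IsTensorProduct τ) : Tn (rep h) τ := ⟨h, fun _ _ _ => by simp [rep]⟩

theorem fix_ht (hb : f₁.q b ≠ 0) {w : V} (hw : w ∈ T σ (F ∙ b)) : un σ (ht f₁ b) w = w := by
  simpa [sub_eq_zero, un_apply] using hw ((ht f₁ b : End F V₁) - 1) fun x hx => by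
    obtain ⟨s, rfl⟩ := Submodule.mem_span_singleton.1 hx
    simp [ht_self hb]

theorem add_ht_mem (b : V₁) (w : V) : un σ (ht f₁ b) w + w ∈ T σ (F ∙ b) := by
  convert rk_mem_T (ρ := σ) (Submodule.mem_span_singleton_self b) ((f₁.q b)⁻¹ • f₁.B b) w using 1
  rw [show ((f₁.q b)⁻¹ • f₁.B b).smulRight b = (ht f₁ b : End F V₁) + 1 by ext; simp [ht_apply]]
  simp [un_apply]

theorem mem_of_fix (h2 : (2 : F) ≠ 0) {w : V} (hw : un σ (ht f₁ b) w = w) : w ∈ T σ (F ∙ b) := by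
  have := add_ht_mem (σ := σ) (f₁ := f₁) b w
  rwa [hw, ← two_smul F, Submodule.smul_mem_iff _ h2] at this

variable [FiniteDimensional F V₁]

theorem eq_top_of_tv (hf : f₁.Nondeg) {R : Submodule F (End F V₁)} (H : ∀ a b, tv f₁ a b ∈ R)
    (A : End F V₁) : A ∈ R := by
  refine sum_rk' A ▸ R.sum_mem fun i _ => ?_
  obtain ⟨a, ha⟩ := hf.exists_rep ((finBasis F V₁).coord i)
  rw [← show f₁.B a = _ from LinearMap.ext ha]
  exact H _ _

theorem gen [Finite F] (hf : f₁.Nondeg) (h3 : 3 ≤ finrank F V₁) (R : Subalgebra F (End F V₁))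
    (H : ∀ s, f₁.q s = 0 → tv f₁ s s ∈ R) (A : End F V₁) : A ∈ R := by
  obtain ⟨p, -, p0, hp⟩ := f₁.quad_iso3 ⊤ (by simpa using h3)
  refine eq_top_of_tv hf (R := R.toSubmodule) (fun a b => hf.mem_of_singular hp p0
    (A := (R.toSubmodule.comap ((tv f₁).flip b)).toAddSubgroup) (fun a ha => hf.mem_of_singular hp p0
    (A := (R.toSubmodule.comap (tv f₁ a)).toAddSubgroup) (fun b hb => ?_) b) a) A
  change tv f₁ a b ∈ R
  rcases eq_or_ne a 0 with rfl | a0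
  · simp
  rcases eq_or_ne b 0 with rfl | b0
  · simp
  obtain ⟨c, hc, h1, h2⟩ := hf.exists_common_partner' (big_of_three h3) ha a0 hb b0
  have := R.smul_mem (R.mul_mem (H b hb) (R.mul_mem (H c hc) (H a ha))) (f₁.B a c * f₁.B b c)⁻¹
  rwa [tv_mul, mul_smul_comm, tv_mul, smul_smul, smul_smul, mul_assoc, f₁.quad_symm a c,
    inv_mul_cancel₀ (mul_ne_zero h1 h2), one_smul] at this

theorem comm_of_P [Finite F] (hf : f₁.Nondeg) (h3 : 3 ≤ finrank F V₁) {ξ : End F V}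
    (H : ∀ s, f₁.q s = 0 → Commute ξ (σ (tv f₁ s s))) (A : End F V₁) : Commute ξ (σ A) :=
  (Subalgebra.mem_centralizer_iff F).1 (gen hf h3 ((Subalgebra.centralizer F {ξ}).comap σ)
    (fun s hs => by simpa [Subalgebra.mem_centralizer_iff] using (H s hs).eq) A) ξ rfl

theorem exists_rt (hf : f₁.Nondeg) (h3 : 3 ≤ finrank F V₁) (hs : f₁.q s = 0) (s0 : s ≠ 0) :
    ∃ v, f₁.B s v = 0 ∧ f₁.q v ≠ 0 :=
  have ⟨_, hw, h1⟩ := hf.exists_partner' hs s0
  have ⟨v, v1, _, v3⟩ := exists_nonsing_hyp hf h3 hs hw h1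
  ⟨v, v1, v3⟩

omit [FiniteDimensional F V₁] in
theorem comm_P (h2 : (2 : F) ≠ 0) (hs : f₁.q s = 0) (hv : f₁.B s v = 0) (v0 : f₁.q v ≠ 0)
    {t : Multiplicative F} (t1 : t ≠ 1) {ξ : End F V} (H : Commute ξ (un σ (rt hs hv t))) :
    Commute ξ (σ (tv f₁ s s)) := by
  have := (H.sub_right (Commute.one_right ξ)).pow_right 2
  rwa [← dl, un_rt_sq, Commute.smul_right_iff₀ (by simpa [h2, v0] using t1)] at this

theorem stab_of_comm (hf : f₁.Nondeg) (s0 : s ≠ 0) {ξ : End F V} (H : Commute ξ (σ (tv f₁ s s)))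
    (w : V) (hw : w ∈ T σ (F ∙ s)) : ξ w ∈ T σ (F ∙ s) := by
  obtain ⟨w, rfl⟩ := exists_rk (B_ne hf s0) hw
  rw [← tv_eq, ← End.mul_apply, H.eq]
  exact rk_mem_T (Submodule.mem_span_singleton_self s) _ _

theorem Ad.exists_TQ (h : Ad f f₁ σ) (h2 : (2 : F) ≠ 0) (hf : f.Nondeg) (hf₁ : f₁.Nondeg)
    [Nontrivial V₁] (hτ : Tn σ τ) : ∃ fU, TQ hτ.tp f fU f₁ := by
  obtain ⟨c, hc⟩ := exists_ne (0 : V₁)
  obtain ⟨c', p⟩ := hf₁.exists_B_eq hc 1
  have p' : f₁.B c' c = 1 := by rw [f₁.quad_symm, p]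
  have k : ∀ u x u' y, f.B (τ u x) (τ u' y) = f.B (τ u c) (τ u' c') * f₁.B x y := fun u x u' y => by
    rw [show τ u x = σ (tv f₁ c' x) (τ u c) by simp [hτ.app, p'], h _ _ (tv_adj _ _), hτ.app]
    simp [mul_comm]
  refine ⟨ofSymm h2 ((show V →ₗ[F] V →ₗ[F] F from f.B).compl₁₂ (τ.flip c) (τ.flip c')) fun x y => ?_,
    ⟨fun u H => pure_inj hτ.tp hc ?_, hf₁, k⟩, h2⟩
  · change f.B (τ y c) (τ x c') = f.B (τ x c) (τ y c')
    rw [f.quad_symm, k, p', mul_one]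
  · simpa using hf _ (LinearMap.congr_fun (ext_of hτ.tp (f := f.B (τ u c)) (g := 0) fun u' y => by
      simp [k u c u' y, show f.B (τ u c) (τ u' c') = 0 from H u']))

theorem Ad.un_mem_E (h : Ad f f₁ σ) (h2 : (2 : F) ≠ 0) (hf : f.Nondeg) (hf₁ : f₁.Nondeg)
    [Nontrivial V₁] [FiniteDimensional F V] (he : e ∈ f₁.E) : un σ e ∈ f.E := by
  obtain ⟨U, τ, hτ⟩ := exists_tn σ
  obtain ⟨fU, S⟩ := h.exists_TQ h2 hf hf₁ hτ
  exact hτ.un_eq e ▸ S.right_mem_E he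

variable (σ σ' g D) in
/-- `g` maps the factor `σ` to `σ'`, inducing `D`. -/
def Nd : Prop := ∀ A v, g (σ A v) = σ' ((D : End F V₁) * A * (D⁻¹ : V₁ ≃ₗ[F] V₁)) (g v)

omit [FiniteDimensional F V₁] in
theorem Nd.un (h : Nd σ σ' g D) (e : V₁ ≃ₗ[F] V₁) : g * un σ e * g⁻¹ = un σ' (D * e * D⁻¹) :=
  mul_inv_eq_of_eq_mul (LinearEquiv.ext (h e))

omit [FiniteDimensional F V₁] in
theorem Nd.map_T (h : Nd σ σ' g D) {w : V} (hw : w ∈ T σ (F ∙ b)) : g w ∈ T σ' (F ∙ D b) :=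
  fun A hA => by
    have := h ((D⁻¹ : V₁ ≃ₗ[F] V₁) * A * D) w
    rw [hw _ fun x hx => by
      obtain ⟨s, rfl⟩ := Submodule.mem_span_singleton.1 hx
      simp [hA _ (Submodule.mem_span_singleton_self _)], map_zero] at this
    convert this.symm using 3
    ext; simp [app_inv]

omit [FiniteDimensional F V₁] in
theorem Nd.kron [Nontrivial V₁] (h : Tn σ τ) (hD : Nd σ σ g D) :
    ∃ B : End F U, ∀ u x, g (τ u x) = τ (B u) (D x) := by
  obtain ⟨B, hB⟩ := h.exists_left (ξ := σ (D⁻¹ : V₁ ≃ₗ[F] V₁) * g) fun A => by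
    ext v
    simp only [End.mul_apply, LinearEquiv.coe_coe, hD A, rho_mul]
    congr 2
    ext; simp [inv_app]
  refine ⟨B, fun u x => ?_⟩
  have := congrArg (σ D) (hB u x)
  rw [End.mul_apply, rho_mul, h.app,
    show (D : End F V₁) * (D⁻¹ : V₁ ≃ₗ[F] V₁) = 1 by ext; simp [app_inv]] at this
  simpa using this

omit [FiniteDimensional F V₁] in
theorem Nd.comm (h : Nd σ σ g D) {l : F} (hl : ∀ x, D x = l • x) (A : End F V₁) :
    Commute (g : End F V) (σ A) := LinearMap.ext fun v => (h A v).trans (by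
  congr 2
  ext x
  rw [End.mul_apply, End.mul_apply, LinearEquiv.coe_coe, hl, ← map_smul, ← hl]; simp [app_inv])

variable [Nontrivial V]

theorem un_inj (σ : Rep F V₁ V) : Function.Injective (un σ) := fun _ _ h =>
  LinearEquiv.toLinearMap_injective (rho_inj σ (congrArg LinearEquiv.toLinearMap h))

theorem exists_sim (h : Nz σ σ' g) (hg : g ∈ f.O) (hf : f.Nondeg) (hf₁ : f₁.Nondeg)
    [Nontrivial V₁] (h1 : Ad f f₁ σ) (h2 : Ad f f₁ σ') : ∃ D, Sim f₁ D ∧ Nd σ σ' g D := by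
  obtain ⟨D, hD⟩ := h.exists_equiv
  have k : ∀ a b x y, f₁.B a x * f₁.B (D b) (D y) = f₁.B b y * f₁.B (D x) (D a) := fun a b x y => by
    obtain ⟨A, hA⟩ := exists_adjL hf₁ ((D : End F V₁) * tv f₁ a b * (D⁻¹ : V₁ ≃ₗ[F] V₁))
    have := rho_inj σ' (a₁ := A) (a₂ := (D : End F V₁) * tv f₁ b a * (D⁻¹ : V₁ ≃ₗ[F] V₁)) (LinearMap.ext fun w => hf.ext_right fun v => by
      obtain ⟨v, rfl⟩ := g.surjective v
      obtain ⟨w, rfl⟩ := g.surjective w
      rw [← h2 _ _ hA, ← hD, mem_O_B hg, h1 _ _ (tv_adj _ _), ← mem_O_B hg, hD])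
    simpa [this, inv_app] using hA (D x) (D y)
  obtain ⟨a, ha⟩ := exists_ne (0 : V₁)
  obtain ⟨x, hx⟩ := hf₁.exists_B_eq ha 1
  refine ⟨D, ⟨f₁.B (D x) (D a), fun e => ha (D.injective ?_), fun b y => by
    simpa [hx, mul_comm] using k a b x y⟩, hD⟩
  simpa using hf₁ (D a) fun y => by simpa [hx, e, app_inv] using k a a x (D⁻¹ y)

theorem Nd.unip [Finite F] [Nontrivial V₁] (h : Nd σ σ g D) (hp : g ^ ringChar F = 1) :
    ∃ l : F, l ≠ 0 ∧ ∃ k, ((D : End F V₁) - l • 1) ^ k = 0 := by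
  have := Fintype.ofFinite F
  have k : ∀ n : ℕ, Nd σ σ (g ^ n) (D ^ n) := fun n => by
    induction n with
    | zero => exact fun A v => by simp [← End.one_eq_id]
    | succ n ih =>
      intro A v
      rw [pow_succ', mul_app, mul_app, ih, h]
      congr 2
      ext; simp [pow_succ']
  obtain ⟨n, -, hn⟩ := FiniteField.card F (ringChar F)
  have h1 : g ^ Fintype.card F = 1 := by
    rw [hn, ← n.natPred_add_one, pow_succ', pow_mul, hp, one_pow]
  obtain ⟨l, hl⟩ := exists_smul_of_mem_span (f := (D : End F V₁) ^ Fintype.card F) fun x => by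
    rcases eq_or_ne x 0 with rfl | x0
    · simp
    obtain ⟨φ, hφ⟩ := Module.Projective.exists_dual_eq_one F x0
    have := LinearMap.congr_fun (rho_inj σ (LinearMap.ext (h1 ▸ k _ (φ.smulRight x))))
      ((D ^ Fintype.card F) x)
    rw [coe_pow']
    exact Submodule.mem_span_singleton.2 ⟨_, by simpa [inv_app, hφ] using this⟩
  obtain ⟨x, hx⟩ := exists_ne (0 : V₁)
  refine ⟨l, by rintro rfl; exact hx (by simpa [coe_pow'] using hl x), Fintype.card F, ?_⟩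
  rw [sub_pow_card, sub_eq_zero]
  exact LinearMap.ext hl

theorem T_eq_of {ψ : Dual F V₁} (hc : c ≠ 0) (hψ : ψ ≠ 0) [FiniteDimensional F V] {A : End F V₁}
    (h : σ (ψ.smulRight c) = σ' A) : ∃ d, d ≠ 0 ∧ T σ (F ∙ c) = T σ' (F ∙ d) := by
  obtain ⟨x, hx⟩ : ∃ x, A x ≠ 0 := by
    by_contra! h0
    exact rk_ne σ hc hψ (by rw [h, show A = 0 from LinearMap.ext h0, map_zero])
  refine ⟨_, hx, (Submodule.eq_of_le_of_finrank_eq (fun w hw => ?_) (finrank_T_eq _ _ hx hc)).symm⟩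
  obtain ⟨φ, hφ⟩ := Module.Projective.exists_dual_eq_one F hx
  have := rk_mem_T (ρ := σ) (Submodule.mem_span_singleton_self c) ψ (σ' (φ.smulRight x) w)
  rwa [h, rho_mul, show A * φ.smulRight x = φ.smulRight (A x) by ext; simp, rk_self hφ hw] at this

theorem eq_zero_of_T {ξ : End F V} (H : ∀ A, Commute ξ (σ A)) (hc : c ≠ 0)
    (h : ∀ w ∈ T σ (F ∙ c), ξ w = 0) : ξ = 0 := by
  obtain ⟨φ, hφ⟩ := Module.Projective.exists_dual_eq_one F hc
  exact eq_zero_of_mul (A := φ.smulRight c) (fun e => hc (by simpa [hφ] using LinearMap.congr_fun e c))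
    H ((H _).eq.symm.trans (LinearMap.ext fun v =>
      h _ (rk_mem_T (Submodule.mem_span_singleton_self c) _ _)))

section Three

variable [Finite F] [FiniteDimensional F V] (h2 : (2 : F) ≠ 0) (hf : f.Nondeg) (hf₁ : f₁.Nondeg) (h3 : finrank F V₁ = 3)
  (ad : Ad f f₁ σ)
include h2 hf hf₁ h3 ad

theorem comm_of_fix (hk : k ∈ f.O) (h : Nz σ σ k) (hp : k ^ ringChar F = 1) (hb : f₁.q b ≠ 0)
    (H : ∀ w ∈ T σ (F ∙ b), k w ∈ T σ (F ∙ b)) (A : End F V₁) : Commute (k : End F V) (σ A) := by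
  have : Nontrivial V₁ := Module.nontrivial_of_finrank_pos (R := F) (by omega)
  obtain ⟨D, hD, h1⟩ := exists_sim h hk hf hf₁ ad ad
  obtain ⟨l, l0, n, hn⟩ := h1.unip hp
  obtain ⟨w, hw, w0⟩ := exists_mem_T σ (show b ≠ 0 by rintro rfl; simp [q_zero] at hb)
  refine h1.comm (fix3 h2 hf₁ h3 hD l0 hn hb (by_contra fun e => w0 (k.injective ?_))) A
  simpa using T_disj e (H w hw) (h1.map_T hw)

theorem eq_one_of_fix (hk : k ∈ f.O) (h : Nz σ σ k) (hp : k ^ ringChar F = 1) (hb : f₁.q b ≠ 0)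
    (H : ∀ w ∈ T σ (F ∙ b), k w = w) : k = 1 := LinearEquiv.toLinearMap_injective (sub_eq_zero.1
  (eq_zero_of_T (fun A => (comm_of_fix h2 hf hf₁ h3 ad hk h hp hb (fun w hw => by rwa [H w hw])
    A).sub_left (Commute.one_left _)) (show b ≠ 0 by rintro rfl; simp [q_zero] at hb)
    fun w hw => by simp [H w hw]))

/-- An element of a root group normalizing a factor lies in the factor or centralizes it. -/
theorem sm3 (hr : r ∈ f.O) (h : Nz σ σ r) (h' : Nz σ σ k) (hp : r ^ ringChar F = 1) {α β γ : F}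
    (α0 : α ≠ 0) (β0 : β ≠ 0) (e : ∀ v, k v = α • v + β • r v + γ • r (r v)) :
    (∃ A, (r : End F V) = σ A) ∨ ∀ A, Commute (r : End F V) (σ A) := by
  have : Nontrivial V₁ := Module.nontrivial_of_finrank_pos (R := F) (by omega)
  obtain ⟨D, hD, h1⟩ := exists_sim h hr hf hf₁ ad ad
  obtain ⟨l, l0, n, hn⟩ := h1.unip hp
  refine or_iff_not_imp_right.2 fun hc => ?_
  obtain ⟨x, hx⟩ := reg3 h2 hf₁ h3 hD l0 hn fun e => hc (h1.comm e)
  obtain ⟨U, τ, hτ⟩ := exists_tn σ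
  obtain ⟨B, hB⟩ := h1.kron hτ
  obtain ⟨D', B', hB'⟩ := hτ.kron h'
  obtain ⟨φ, p1, p2⟩ := CL.Tv.exists_dual_one (Submodule.span F {D x, D (D x)}) (x := x) fun e => by
    obtain ⟨a, b, e⟩ := Submodule.mem_span_pair.1 e
    simpa using (hx (-1) a b (by linear_combination (norm := module) e)).1
  obtain ⟨ψ, q1, q2⟩ := CL.Tv.exists_dual_one (Submodule.span F {x, D (D x)}) (x := D x) fun e => by
    obtain ⟨a, b, e⟩ := Submodule.mem_span_pair.1 e
    simpa using (hx a (-1) b (by linear_combination (norm := module) e)).2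
  have e1 : ∀ u, φ (D' x) • B' u = α • u := fun u => by
    simpa [hB, hB', p1, p2 (D x) (Submodule.subset_span (by simp)),
      p2 (D (D x)) (Submodule.subset_span (by simp))] using congrArg (ct hτ.tp φ) (e (τ u x))
  have e2 : ∀ u, ψ (D' x) • B' u = β • B u := fun u => by
    simpa [hB, hB', q1, q2 x (Submodule.subset_span (by simp)),
      q2 (D (D x)) (Submodule.subset_span (by simp))] using congrArg (ct hτ.tp ψ) (e (τ u x))
  have := hτ.nt
  obtain ⟨u, hu⟩ := exists_ne (0 : U)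
  have p0 : φ (D' x) ≠ 0 := fun e => by simpa [e, α0, hu] using (e1 u).symm
  refine ⟨(β⁻¹ * ψ (D' x) * (φ (D' x))⁻¹ * α) • D, hτ.eq_rho fun u y => ?_⟩
  simp [hB, (inv_smul_eq_iff₀ β0).2 (e2 u) |>.symm, (eq_inv_smul_iff₀ p0).2 (e1 u), smul_smul,
    mul_assoc]

end Three

theorem nz_of_kron {V₁ : Type*} [AddCommGroup V₁] [Module F V₁] {σ : Rep F V₁ V}
    {τ : U →ₗ[F] V₁ →ₗ[F] V} (hτ : Tn σ τ) (h : g ∈ Kron τ) : Nz σ σ g := fun A =>
  have ⟨_, B, e⟩ := h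
  ⟨(B : End F V₁) * A * (B⁻¹ : V₁ ≃ₗ[F] V₁), LinearMap.congr_fun (ext_of hτ.tp
    (f := (g : End F V) * σ A) (g := σ _ * g) fun u x => by simp [hτ.app, e, inv_app])⟩

theorem Zs.perm [Finite F] {X : Subgroup (V ≃ₗ[F] V)} (h2 : (2 : F) ≠ 0) (hg : g ∈ X)
    (hD : Sim f₁ D) (h : Nd σ σ' g D) {z : V ≃ₗ[F] V} (hz : z ∈ Zs f₁ (un σ) X) :
    g * z * g⁻¹ ∈ Zs f₁ (un σ') X := by
  obtain ⟨h1, b, hb, rfl⟩ := hz
  exact ⟨X.mul_mem (X.mul_mem hg h1) (X.inv_mem hg), D b, by rwa [Ne, hD.q_eq h2], by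
    rw [h.un, hD.ht h2]⟩

theorem neg_ht_mem (b : V₁) (v : V) :
    (LinearEquiv.neg F * un σ (ht f₁ b) : V ≃ₗ[F] V) v - v ∈ T σ (F ∙ b) := by
  rw [mul_app, LinearEquiv.neg_apply, ← neg_add', neg_mem_iff]
  exact add_ht_mem b v

theorem small_ht [FiniteDimensional F V] (h3 : 3 ≤ finrank F V₁) (hb : b ≠ 0)
    (h : Nz σ σ (un σ' (ht f₁ b))) : (∃ A, σ' (ht f₁ b) = σ A) ∨ ∀ A, Commute (σ' (ht f₁ b)) (σ A) := by
  have e : ((LinearEquiv.neg F * un σ' (ht f₁ b) : V ≃ₗ[F] V) : End F V) = -σ' (ht f₁ b) := rfl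
  have := (Nz.mul (g := LinearEquiv.neg F) (fun A => ⟨A, by simp⟩) h).small (neg_ht_mem b)
    (finrank_T σ' hb) (Or.inl h3)
  rw [e] at this
  exact this.imp (fun ⟨A, h⟩ => ⟨-A, by rw [map_neg, ← h, neg_neg]⟩) fun h A => by simpa using h A

variable (σ) in
/-- The normalizer of a factor. -/
def nor : Subgroup (V ≃ₗ[F] V) where
  carrier := {g | Nz σ σ g}
  one_mem' := nz_one σ
  mul_mem' := Nz.mul
  inv_mem' := Nz.inv

theorem mem_of_sq {G : Type*} [Group G] {H : Subgroup G} {g : G} {n : ℕ} (hn : Odd n) (h : g ^ n = 1)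
    (h2 : g * g ∈ H) : g ∈ H := by
  obtain ⟨k, rfl⟩ := hn
  have := H.pow_mem h2 (k + 1)
  rwa [← pow_two, ← pow_mul, show 2 * (k + 1) = 2 * k + 1 + 1 by ring, pow_succ, h, one_mul] at this

theorem odd_ringChar [Finite F] (h2 : (2 : F) ≠ 0) : Odd (ringChar F) :=
  (CharP.char_is_prime F _).odd_of_ne_two fun e => h2 (by
    simpa [e] using CharP.cast_eq_zero F (ringChar F))

theorem pow_ringChar {G : Type*} [Group G] (u : Multiplicative F →* G) (a : Multiplicative F) :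
    u a ^ ringChar F = 1 := by
  rw [← map_pow, show a ^ ringChar F = 1 from Multiplicative.toAdd.injective (by simp), map_one]

variable {I : Type*} [DecidableEq I] {ρ : I → Rep F V₁ V} {S : Finset I} {i j l : I}
  {𝒜 : Subalgebra F (End F V)} [FiniteDimensional F V]

theorem T_ne (Φ : Fam ρ S 𝒜) (hi : i ∈ S) (hj : j ∈ S) (hij : i ≠ j) (h2 : 2 ≤ finrank F V₁)
    (hb : b ≠ 0) : ¬ T (ρ i) (F ∙ b) ≤ T (ρ j) (F ∙ c) := fun h => by
  obtain ⟨φ, p1, p2⟩ := exists_dual_kill (F := F) ![c] (by omega)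
  exact rk_ne (ρ j) hb p1 (eq_zero_of_T (Φ.comm j hj i hi hij.symm _) hb fun w hw =>
    rk_T (fun x hx => by
      obtain ⟨s, rfl⟩ := Submodule.mem_span_singleton.1 hx
      simp [show φ c = 0 from p2 0]) _ (h hw))

/-- The identity is not a combination of three elements moving a factor. -/
theorem no_three (Φ : Fam ρ S 𝒜) (h3 : 3 ≤ finrank F V₁) {m₁ m₂ m₃ : I} (hj : j ∈ S) (h1 : m₁ ∈ S)
    (h2 : m₂ ∈ S) (h3' : m₃ ∈ S) (n1 : m₁ ≠ j) (n2 : m₂ ≠ j) (n3 : m₃ ≠ j) (n : m₁ ≠ m₂)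
    {g₁ g₂ g₃ : V ≃ₗ[F] V} (p1 : Nz (ρ j) (ρ m₁) g₁) (p2 : Nz (ρ j) (ρ m₂) g₂)
    (p3 : Nz (ρ j) (ρ m₃) g₃) {α β γ : F} (e : ∀ v, v = α • g₁ v + β • g₂ v + γ • g₃ v) : False := by
  have : Nontrivial V₁ := Module.nontrivial_of_finrank_pos (R := F) (by omega)
  obtain ⟨x, x0⟩ := exists_ne (0 : V₁)
  obtain ⟨D₁, q1⟩ := p1.exists_equiv
  obtain ⟨D₂, q2⟩ := p2.exists_equiv
  obtain ⟨D₃, q3⟩ := p3.exists_equiv
  obtain ⟨φ, f0, f1⟩ := exists_dual_kill (F := F) ![D₁ x, D₃ x] (by omega)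
  obtain ⟨ψ, g0, g1⟩ := exists_dual_kill (F := F) ![D₂ x, D₃ x] (by omega)
  obtain ⟨χ, h0, h1'⟩ := exists_dual_kill (F := F) ![D₃ x] (by omega)
  have k : ∀ {m D g} (φ : Dual F V₁), Nd (ρ j) (ρ m) g D → φ (D x) = 0 → ∀ w ∈ T (ρ j) (F ∙ x),
      ρ m (φ.smulRight x) (g w) = 0 := fun φ h e w hw => rk_T (fun y hy => by
    obtain ⟨s, rfl⟩ := Submodule.mem_span_singleton.1 hy
    simp [e]) _ (h.map_T hw)
  have c12 := Φ.comm _ h1 _ h2 n
  have a0 : ∀ {φ : Dual F V₁}, φ ≠ 0 → (φ.smulRight x : End F V₁) ≠ 0 := fun h e =>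
    rk_ne (ρ j) x0 h (by simp [e])
  have ne := fun e => rk_ne (ρ m₂) x0 g0 (eq_zero_of_mul (a0 f0) (fun A => (c12 A _).symm) e)
  have cm := fun A => (Φ.comm _ h1 _ hj n1 (φ.smulRight x) A).mul_left
    (Φ.comm _ h2 _ hj n2 (ψ.smulRight x) A)
  have k1 := k φ q1 (f1 0)
  have k2 := k ψ q2 (g1 0)
  have k0 := cm_app (c12 (φ.smulRight x)) (ψ.smulRight x)
  by_cases e1 : m₃ = m₁
  · subst e1
    exact ne (eq_zero_of_T cm x0 fun w hw => by
      rw [e w]; simp [k2 w hw, k0, k1 w hw, k φ q3 (f1 1) w hw])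
  by_cases e2 : m₃ = m₂
  · subst e2
    exact ne (eq_zero_of_T cm x0 fun w hw => by
      rw [e w]; simp [k2 w hw, k ψ q3 (g1 1) w hw, k0, k1 w hw])
  have c1 := Φ.comm _ h3' _ h1 e1 (χ.smulRight x)
  have c2 := Φ.comm _ h3' _ h2 e2 (χ.smulRight x)
  refine ne (eq_zero_of_mul (a0 h0) (fun A => (Φ.comm _ h1 _ h3' (Ne.symm e1) _ A).mul_left
    (Φ.comm _ h2 _ h3' (Ne.symm e2) _ A)) (eq_zero_of_T (fun A =>
    (Φ.comm _ h3' _ hj n3 _ A).mul_left (cm A)) x0 fun w hw => ?_))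
  rw [e w]
  simp only [End.mul_apply, map_add, map_smul, k2 w hw, map_zero, cm_app c1, cm_app c2,
    k χ q3 (h1' 0) w hw, smul_zero, add_zero]
  rw [← cm_app c2, ← cm_app c1, k0, k1 w hw]; simp

/-- A root group permuting the factors normalizes them. -/
theorem no_move [Finite F] (h2 : (2 : F) ≠ 0)
    (ex : ∃ t : F, t ≠ 0 ∧ t ^ 2 ≠ 1) (Φ : Fam ρ S 𝒜) (h3 : 3 ≤ finrank F V₁) (hs : f₁.q s = 0)
    (hv : f₁.B s v = 0) (H : ∀ t, un σ (rt hs hv t) ∈ NF ρ S) (hj : j ∈ S) (t : Multiplicative F) :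
    Nz (ρ j) (ρ j) (un σ (rt hs hv t)) := by
  let u := (un σ).comp (rt hs hv)
  let R := (nor (ρ j)).comap u
  by_contra ht
  obtain ⟨a, rfl⟩ := Multiplicative.ofAdd.surjective t
  replace ht : .ofAdd a ∉ R := ht
  have a0 : a ≠ 0 := by rintro rfl; exact ht R.one_mem
  obtain ⟨b, hb, b1, b2⟩ : ∃ b, .ofAdd b ∉ R ∧ a ≠ b ∧ -a ≠ b := by
    by_contra! K
    obtain ⟨t, t0, t1⟩ := ex
    have k : ∀ t : F, t ^ 2 ≠ 1 → .ofAdd (t * a) ∈ R := fun t t1 => by_contra fun e => t1 (by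
      by_cases e' : a = t * a
      · rw [show t = 1 from (mul_eq_right₀ a0).1 e'.symm, one_pow]
      · rw [show t = -1 from mul_right_cancel₀ a0 (by rw [← K _ e e']; ring)]; ring)
    by_cases e : (t + 1) ^ 2 = 1
    · exact ht (by simpa [sub_mul, ← ofAdd_sub] using R.div_mem (k t t1) (k (t - 1) fun e' =>
        mul_ne_zero (mul_ne_zero h2 h2) t0 (by linear_combination e - e')))
    · exact ht (by simpa [add_mul, ← ofAdd_sub] using R.div_mem (k _ e) (k t t1))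
  have aa : a ≠ -a := fun e => mul_ne_zero h2 a0 (by linear_combination e)
  obtain ⟨m₁, h1, p1⟩ := H (.ofAdd a) j hj
  obtain ⟨m₂, h2', p2⟩ := H (.ofAdd (-a)) j hj
  obtain ⟨m₃, h3', p3⟩ := H (.ofAdd b) j hj
  refine no_three Φ h3 hj h1 h2' h3' (by rintro rfl; exact ht p1)
    (by rintro rfl; exact ht (by simpa using R.inv_mem p2)) (by rintro rfl; exact hb p3) ?_ p1 p2 p3
    fun w => by simpa using rt_lag hs hv σ 0 aa b1 b2 w
  rintro rfl
  exact ht (mem_of_sq (H := nor (ρ j)) (odd_ringChar h2) (pow_ringChar u _) (by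
    simpa [u, nor] using p2.inv.mul p1))

end CL.WrO
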