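/-
Maximality of `O₃ ⊗ O₄⁻` in `Ω₁₂⁻`.
-/
import Mathlib
import Cfsg.Agent.CLAS.WrO3

set_option autoImplicit false
set_option linter.unusedSectionVars false

namespace CL.WrO

open Module CL.ExtF CL.Tens CL.Wr CL.Witt CL.Witt.Form CL.Uniq

attribute [-simp] LinearEquiv.coe_inv
attribute [local simp] FormType.quad_σ FormType.quad_ε FormType.quad_π

variable {F V₁ V₂ V : Type*} [Field F] [AddCommGroup V₁] [Module F V₁] [AddCommGroup V] [Module F V]
  [AddCommGroup V₂] [Module F V₂] {f : Form (FormType.quad F) V} {f₁ : Form (FormType.quad F) V₁}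
  {f₂ : Form (FormType.quad F) V₂} {τ : V₁ →ₗ[F] V₂ →ₗ[F] V} {h : IsTensorProduct τ}
  {X : Subgroup (V ≃ₗ[F] V)} {σ : Rep F V₁ V} {σ₂ : Rep F V₂ V} {b : V₁}

theorem not_right [FiniteDimensional F V₁] [FiniteDimensional F V₂] (t₂ : Tn σ₂ τ)
    (h2 : (2 : F) ≠ 0) (h3 : finrank F V₁ = 3) (h4 : finrank F V₂ = 4) (hb : f₁.q b ≠ 0)
    {B : End F V₂} (hB : ∀ x y, σ (ht f₁ b) (τ x y) = τ x (B y)) : False := by
  have h := t₂.tp
  have := finiteDimensional h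
  have dS := finrank_T σ (show b ≠ 0 by rintro rfl; simp [q_zero] at hb)
  rw [finrank_eq h, h3, h4] at dS
  have e1 : ∀ y, mem τ (B y + y) ≤ T σ (F ∙ b) := by
    rintro y _ ⟨x, rfl⟩
    simpa [un_apply, hB] using add_ht_mem (σ := σ) (f₁ := f₁) b (τ x y)
  have e3 : ∀ d, d ≠ 0 → ∃ y, B y + y ∉ F ∙ d := fun d d0 => by
    by_contra! H
    have := Submodule.finrank_mono (show T σ (F ∙ b) ≤ mem τ d from fun w hw => by
      have : ∀ v, un σ (ht f₁ b) v + v ∈ mem τ d := fun v =>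
        h.inductionOn v (by simp) (fun x y => by
          simpa [un_apply, hB, ← t₂.T_span] using t₂.pure_T x (H y))
          fun a b ha hb => by rw [map_add, add_add_add_comm]; exact add_mem ha hb
      have := this w
      rwa [fix_ht hb hw, ← two_smul F, Submodule.smul_mem_iff _ h2] at this)
    rw [finrank_mem h d0] at this
    omega
  have : Nontrivial V₂ := Module.nontrivial_of_finrank_pos (R := F) (by omega)
  obtain ⟨c, c0⟩ := exists_ne (0 : V₂)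
  obtain ⟨y, hy⟩ := e3 c c0
  have y0 : B y + y ≠ 0 := fun e => by simp [e] at hy
  obtain ⟨y', hy'⟩ := e3 _ y0
  have := (sup_eq_of_mem_le h y0 hy' (e1 y) (e1 y')).2
  omega

/-- An operator commuting with all conjugates of a non-scalar involution fixes a member. -/
theorem exists_P [FiniteDimensional F V₂] (hf : f₂.Nondeg) (h2 : (2 : F) ≠ 0)
    (h4 : 4 ≤ finrank F V₂) {c c' y : V₂} (hc : f₂.q c = 0) (hc' : f₂.q c' = 0) (p1 : f₂.B c c' = 1)
    (hy : f₂.B c y = 0) (hy' : f₂.B c' y = 0) (y0 : f₂.q y ≠ 0) : ∃ ι ∈ f₂.E, ι * ι = 1 ∧ ι ≠ 1 ∧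
      ∀ ξ : End F V, (∀ e ∈ f₂.E, Commute ξ (un σ₂ (e * ι * e⁻¹))) →
        ∃ s, s ≠ 0 ∧ f₂.q s = 0 ∧ Commute ξ (σ₂ (tv f₂ s s)) := by
  have pp : f₂.B (f₂.q y • c + c') y = 0 := by simp [hy, hy']
  have c0 : c ≠ 0 := by rintro rfl; simp at p1
  obtain ⟨ι, hι⟩ : ∃ ι, ι = f₂.rf (f₂.q y • c + c') * f₂.rf y := ⟨_, rfl⟩
  have ιE : ι ∈ f₂.E := by
    rw [hι, rf_mul_rf_eq_ei hc hc' p1 hy hy' y0]
    exact mul_mem (mul_mem (ei_mem_E _ _ _) (ei_mem_E _ _ _)) (ei_mem_E _ _ _)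
  have ι2 : ι * ι = 1 := by
    rw [hι, mul_assoc, ← mul_assoc (f₂.rf y), ← rf_comm pp, mul_assoc, rf_mul_self, mul_one,
      rf_mul_self]
  have ιy : ι y = -y := by rw [hι, mul_app, rf_self y0, map_neg, Form.rf_of_perp pp]
  have yy : y ≠ -y := fun e => y0 (by
    rw [eq_neg_iff_add_eq_zero, ← two_smul F, smul_eq_zero] at e
    rw [e.resolve_left h2, q_zero])
  refine ⟨ι, ιE, ι2, by rintro rfl; exact yy ιy, fun ξ key => ?_⟩
  obtain ⟨s, hs, s1⟩ : ∃ s, f₂.q s = 0 ∧ f₂.B s (ι s) ≠ 0 := by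
    by_contra! H
    obtain ⟨l, hl⟩ := sym_scalar hf h2 (Or.inl h4) hc c0 (S := ι) (fun x y => by
      rw [LinearEquiv.coe_coe, B_apply_left (E_le_O ιE), inv_eq_of_mul_eq_one_right ι2]) H
    obtain ⟨w, w0, w1, w2⟩ := exists_perp_two (h := f₂) (by omega) (f₂.q y • c + c') y
    have := hl w
    rw [LinearEquiv.coe_coe, hι, mul_app, Form.rf_of_perp w2, Form.rf_of_perp w1] at this
    obtain rfl : 1 = l := smul_left_injective F w0 (by simpa using this)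
    exact yy (by simpa [ιy] using (hl y).symm)
  have s0 : s ≠ 0 := by rintro rfl; simp at s1
  obtain ⟨θ, hθ, e⟩ := exists_extract hf h2 (by omega) (Or.inl h4) hs s0 (L := F)
    (M := { carrier := {θ | ∀ A ∈ f₂.E, Commute ξ (σ₂ (Tens.cj A (θ 1)))}
            zero_mem' := by simp
            add_mem' := fun ha hb A hA => by simpa using (ha A hA).add_right (hb A hA)
            smul_mem' := fun s _ ha A hA => by simpa using (ha A hA).smul_right s })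
    (fun A hA θ H B hB => H _ (mul_mem hB hA)) (θ := LinearMap.toSpanSingleton F _ (ι : End F V₂))
    fun A hA => by rw [LinearMap.toSpanSingleton_apply_one]; exact key A hA
  have := hθ 1 (one_mem _)
  rw [show Tens.cj 1 (θ 1) = f₂.B s (ι s) • tv f₂ s s by ext; simp [Tens.cj_apply, e, mul_smul],
    map_smul, Commute.smul_right_iff₀ s1] at this
  exact ⟨s, s0, hs, this⟩

/-- Overgroups of `O₃ ⊗ O₄⁻`. -/
theorem le_kron [Finite F] [Nontrivial V] (S : SQ X h f f₁ f₂) (h3 : finrank F V₁ = 3)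
    (h4 : finrank F V₂ = 4) : X ≤ Kron τ := by
  have := S.fd₁
  have := S.fd₂
  have := S.fd
  have := S.nt
  have := finite_equiv F V
  have h2 := S.h2
  have dV := finrank_eq h
  have t₁ := tn_rep (Tens.flip h)
  have t₂ := tn_rep h
  set σ₁ := rep (Tens.flip h)
  set σ₂ := rep h
  have ad := ad_of t₁ S.flip
  have ex := S.ex.resolve_left (by omega)
  have cm : ∀ A B, Commute (σ₁ A) (σ₂ B) := fun A => t₂.comm_of_left (B := A) fun x y => t₁.app A y x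
  have nz : ∀ g ∈ Kron τ, Nz σ₁ σ₁ g := fun g hg => nz_of_kron t₁ (kron_flip.ge hg)
  have R : ∀ e ∈ f₂.E, un σ₂ e ∈ X ∧ un σ₂ e ∈ Kron τ := fun e he =>
    t₂.un_eq e ▸ ⟨S.R he, kr_mem h _ _⟩
  have cu : ∀ A B, Commute (un σ₁ A) (un σ₂ B) := fun A B =>
    LinearEquiv.toLinearMap_injective (cm A B).eq
  have hC : ∀ A ∈ f₁.O, ∀ B ∈ f₁.O, un σ₁ (A * B * A⁻¹ * B⁻¹) ∈ X := fun A hA B hB =>
    S.ge ⟨t₁.un_eq _ ▸ kron_flip.le (kr_mem _ _ _), by
      simpa [commutatorElement_def] using S.nd.commutator_O_le_E (f.quad_iso3.idx2 S.nd (by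
        rw [dV, h3, h4]; omega)) (Subgroup.commutator_mem_commutator (ad.un_mem h2 hA)
          (ad.un_mem h2 hB))⟩
  obtain ⟨c, -, c0, hc⟩ := f₂.quad_iso3 ⊤ (by simp; omega)
  obtain ⟨c', hc', p1⟩ := S.nd₂.exists_partner' hc c0
  obtain ⟨y, hy, hy', y0⟩ := exists_nonsing_hyp S.nd₂ (by omega) hc hc' p1
  let u := (un σ₂).comp (rt hc hy)
  have nA : ∀ a, a ≠ 1 → Nrm X (Kron τ) (u a) := fun a a1 => by
    convert S.nrmA (by omega) hc c0 (y := a.toAdd • y) (by simp [hy])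
      (by simpa [quad_q_smul, y0] using a1) using 1
    exact t₂.un_eq _
  have hN : NrmG X (Kron τ) u.range := fun g hg H =>
    (nA (.ofAdd 1) (by simp)).of_conj g hg (H _ ⟨_, rfl⟩)
  have nrm : ∀ z ∈ Zs f₁ (un σ₁) X, Nrm X (Kron τ) z := by
    rintro _ ⟨hz, b, hb, rfl⟩
    have b0 : b ≠ 0 := by rintro rfl; simp [q_zero] at hb
    refine nrm_of hz (fun k kX kz => cen_le h2 ex ((un_inj σ₂).comp (rt_inj hc hy S.nd₂ h2 c0 y0))
      (fun a => (R _ (rt_mem _ _ a)).1) (fun a => (R _ (rt_mem _ _ a)).2) (fun a => (cu _ _).symm)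
      (fun a => by rw [MonoidHom.comp_apply, dl_un, ← map_pow, rt_cube, map_zero]) hN
      (fun a a1 g hg e => (nA a a1).of_comm hg e.eq) (fun k hk kH e hp => eq_one_of_fix h2 S.nd
        S.nd₁ h3 ad (S.leO hk) (nz k kH) hp hb fun w hw => e w (fix_ht hb hw)) kX kz fun a => ?_)
      fun g hg e => ⟨u.range, by rintro _ ⟨a, rfl⟩; exact (R _ (rt_mem _ _ a)).1, hN, ?_⟩
    · obtain ⟨D, hD⟩ := exists_left_of_stab (Tens.flip h) b0 (z := k) (c' := b) fun w hw => by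
        rw [← t₁.T_span] at hw ⊢
        exact mem_of_fix h2 (by rw [← mul_app, ← kz.eq, mul_app, fix_ht hb hw])
      have hO : D ∈ f₂.O := mem_O_of_B h2 fun y y' => by
        simpa [show ∀ y, k (τ b y) = τ b (D y) from hD, S.mul, quad_B_self, h2, hb] using
          mem_O_B (S.leO kX) (τ b y) (τ b y')
      have m := R _ ((sim_of_O hO).conj_E h2 (rt_mem hc hy a))
      refine ⟨_, m.1, m.2, (cu _ _).symm, fun w hw => ?_⟩
      obtain ⟨y, rfl⟩ := mem_mem.1 (t₁.T_span b ▸ mem_of_fix h2 hw)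
      simp [u, -map_mul, un_apply, t₂.app, show ∀ y, k (τ b y) = τ b (D y) from hD, inv_app]
    rintro _ ⟨a, rfl⟩
    rcases small_ht (σ' := Wr.cj g σ₁) h3.ge b0 (nz _ e) with ⟨A, hA⟩ | hA
    · exact LinearEquiv.toLinearMap_injective (hA ▸ cm A (rt hc hy a)).symm.eq
    · obtain ⟨B, hB⟩ := t₁.exists_left hA
      exact (not_right t₂ h2 h3 h4 hb fun x y => hB y x).elim
  have I : IS X (Kron τ) fun _ : Unit => Zs f₁ (un σ₁) X :=
    ⟨fun _ => nrm, fun _ _ => Zs.sq, fun g hg H _ => ⟨(), fun z hz =>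
      have ⟨_, h1, h⟩ := exists_sim (nz g H) (S.leO hg) S.nd S.nd₁ ad ad
      Zs.perm h2 hg h1 h hz⟩, fun _ _ e => (e rfl).elim,
      fun _ _ hz _ hx => Zs.mul h2 S.nd₁ h3 (un_inj σ₁) hz hx,
      fun _ _ => Zs.two h2 S.nd₁ h3 (un_inj σ₁) hC, fun _ _ => Zs.nc h2 S.nd₁ h3 (un_inj σ₁) hC ex⟩
  intro g hg
  by_contra hn
  obtain ⟨b, hb⟩ := exists_q_ne S.nd₁
  obtain ⟨b, hb, -, hx⟩ := exists_Zs h2 S.nd₁ h3 hC hb
  have xZ : _ ∈ Zs f₁ (un σ₁) X := ⟨hx, b, hb, rfl⟩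
  obtain ⟨ι, ιE, ι2, ι1, key⟩ := exists_P (σ₂ := σ₂) S.nd₂ h2 h4.ge hc hc' p1 hy hy' y0
  obtain ⟨s, s0, hs, this⟩ := key (g * un σ₁ (ht f₁ b) * g⁻¹ : V ≃ₗ[F] V) fun e he =>
    have m := R _ (mul_mem (mul_mem he ιE) (inv_mem he))
    congrArg LinearEquiv.toLinearMap ((I.main (i := ()) (j := ()) xZ hg hn xZ m.1
      (by rw [← map_mul, conj_mul, ι2]; simp)
      (fun e => ι1 (by simpa using (un_inj σ₂).eq_iff' (map_one _) |>.1 e))
      (by rintro _ ⟨-, b, -, rfl⟩; exact (cu _ _).symm) m.2).resolve_right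
        fun ⟨⟨_, _, e⟩, _⟩ => e rfl).eq
  exact hn ((nrm _ xZ).of_conj g hg (S.stab_kron hs s0 (mul_mem (mul_mem hg hx) (inv_mem hg))
    (t₂.T_span s ▸ stab_of_comm S.nd₂ s0 this)))

open Matrix Cfsg Cfsg.Geo CL.Tv in
/-- The stabilizer of a decomposition `O₃ ⊗ O₄⁻` is maximal in `Ω₁₂⁻(q)` for odd `q ≥ 5`. -/
theorem o34_maximal {F : Type*} [Field F] [Fintype F] {ι : Type} [Fintype ι] [DecidableEq ι]
    (hodd : Odd (Fintype.card F)) (h5 : 5 ≤ Fintype.card F) (f : Form (FormType.quad F) (ι → F))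
    (e : ι ≃ Fin 3 × Fin 4) (P : GL ι F) {f₁ : (Fin 3 → F) → (Fin 3 → F) → F}
    {f₂ : (Fin 4 → F) → (Fin 4 → F) → F} (hf₁ : IsSymmetricForm f₁) (hf₂ : IsSymmetricForm f₂)
    (m₂ : ¬ IsPlusTypeOn (fun v => f₂ v v) ⊤)
    (hT : IsTensorFormStructure id (fun u v => f.B u v) f₁ f₂ e P) :
    IsMaximalIn (omegaGL f.q) (tensorProductSubgroup 3 4 e P ⊓ omegaGL f.q) := by
  obtain ⟨g₁, g₂, S, e₁, e₂⟩ := exists_TQ (CL.FGL.two_ne_zero_of_odd hodd) f hf₁ hf₂ hT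
  have : Nonempty ι := ⟨e.symm (0, 0)⟩
  exact oo_maximal_of S (by simp) (idx_of_minus le_rfl S.nd₁ e₁ (by omega))
    (Or.inr (exists_sq_ne_one hodd (by omega))) (by simp) (idx_of_minus (by omega) S.nd₂ e₂ fun _ => m₂)
    (fun X H => le_kron H (by simp) (by simp)) (mem_tensor_iff e P)

end CL.WrO
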