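/-
Commuting orthogonal tensor factors: invariant spaces of endomorphisms.
-/
import Mathlib
import Cfsg.Agent.CLAS.WrO4

set_option autoImplicit false
set_option linter.unusedSectionVars false

namespace CL.WrO

open Module CL.ExtF CL.Tens CL.Wr CL.Witt CL.Witt.Form CL.Uniq

attribute [-simp] LinearEquiv.coe_inv
attribute [local simp] FormType.quad_σ FormType.quad_ε FormType.quad_π

variable {F V₁ V : Type*} [Field F] [AddCommGroup V₁] [Module F V₁] [AddCommGroup V] [Module F V]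
  {f : Form (FormType.quad F) V} {f₁ : Form (FormType.quad F) V₁} {σ σ' : Rep F V₁ V}
  {a b c d s v : V₁} {ξ η ζ : End F V} {S : Submodule F (End F V)} {𝒜 : Subalgebra F (End F V)}

variable (f ξ) in
/-- Skew operators. -/
def Sk : Prop := ∀ v w, f.B (ξ v) w = -f.B v (ξ w)

theorem Sk.scalar (h2 : (2 : F) ≠ 0) (hf : f.Nondeg) {μ : F} (h : Sk f ξ) (e : ξ = μ • 1) : ξ = 0 :=
  LinearMap.ext fun v => hf _ fun w => mul_left_cancel₀ h2 (by
    have := h v w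
    simp only [e, LinearMap.smul_apply, End.one_apply, map_smul, smul_eq_mul, B_smul_left,
      FormType.quad_σ] at this ⊢
    linear_combination this)

theorem wd_sk (a b : V₁) : Sk f₁ (wd f₁ a b) := fun x y => by
  simp [wd_apply, f₁.quad_symm a x, f₁.quad_symm b x]; ring

theorem tv_conj {e : V₁ ≃ₗ[F] V₁} (he : e ∈ f₁.O) (a b : V₁) :
    (e : End F V₁) * tv f₁ a b * (e⁻¹ : V₁ ≃ₗ[F] V₁) = tv f₁ (e a) (e b) := by
  ext x; simp [B_apply_left he]

theorem wd_conj {e : V₁ ≃ₗ[F] V₁} (he : e ∈ f₁.O) (a b : V₁) :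
    (e : End F V₁) * wd f₁ a b * (e⁻¹ : V₁ ≃ₗ[F] V₁) = wd f₁ (e a) (e b) := cj_wd he a b

theorem conj_eq_iff {e : V₁ ≃ₗ[F] V₁} : σ e * ξ * σ (e⁻¹ : V₁ ≃ₗ[F] V₁) = ξ ↔ Commute ξ (σ e) :=
  ⟨fun h => LinearMap.ext fun v => by
    simpa [← un_inv_apply, ← un_apply, inv_app] using (LinearMap.congr_fun h (un σ e v)).symm,
  fun h => LinearMap.ext fun v => by
    rw [← h.eq, End.mul_apply, End.mul_apply, ← un_inv_apply, ← un_apply, app_inv]⟩

variable (f₁ σ S) in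
/-- Invariance under the elementary group of the factor. -/
def Inv : Prop := ∀ e ∈ f₁.E, ∀ ξ ∈ S, σ e * ξ * σ (e⁻¹ : V₁ ≃ₗ[F] V₁) ∈ S

theorem Inv.lv {P : Set (End F V₁)} (H : Inv f₁ σ' S)
    (h : ∀ A, σ' A ∈ 𝒜 ⊓ Subalgebra.centralizer F (Set.range σ)) : Inv f₁ σ' (WrS.lv σ S P 𝒜) :=
  fun e he η hη => ⟨mul_mem (mul_mem (h _) hη.1) (h _), fun B hB => by
    rw [← mul_assoc, ← mul_assoc, ← (WrS.cen_comm (h e) B).eq, mul_assoc (σ' e)]
    exact H e he _ (hη.2 B hB)⟩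

variable (F) in
/-- The dimension condition. -/
def Dim (k : ℕ) : Prop := 5 ≤ k ∨ k = 3 ∧ ∃ t : F, t ≠ 0 ∧ t ^ 2 ≠ 1

theorem Dim.three {k : ℕ} (h : Dim F k) : 3 ≤ k := by unfold Dim at h; omega

theorem Dim.ex {k : ℕ} (h : Dim F k) : 4 ≤ k ∨ ∃ t : F, t ≠ 0 ∧ t ^ 2 ≠ 1 :=
  Or.imp (by omega) (·.2) h

variable [FiniteDimensional F V₁] [FiniteDimensional F V]

theorem Ad.sk (ad : Ad f f₁ σ) (hf : f.Nondeg) (hf₁ : f₁.Nondeg) {A : End F V₁} (A0 : A ≠ 0)
    (hA : ∀ x y, f₁.B (A x) y = f₁.B x (A y)) (hη : ∀ B, Commute η (σ B)) (h : Sk f (σ A * η)) :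
    Sk f η := by
  obtain ⟨η', h'⟩ := exists_adjL hf η
  have c : ∀ B, Commute η' (σ B) := fun B => LinearMap.ext fun w => hf.ext_right fun v => by
    obtain ⟨B', hB⟩ := exists_adjL hf₁ B
    have hB' : ∀ x y, f₁.B (B' x) y = f₁.B x (B y) := fun x y => by
      rw [f₁.quad_symm, ← hB, f₁.quad_symm]
    simp only [End.mul_apply, ← h', ← ad _ _ hB', cm_app hη]
  have := eq_zero_of_mul A0 (fun B => (hη B).add_left (c B))
    (LinearMap.ext fun w => hf.ext_right fun v => by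
      have := h v w
      rw [End.mul_apply, ad _ _ hA, h', cm_app c] at this
      simp [this])
  intro v w
  rw [h', ← neg_eq_of_add_eq_zero_right this]; simp

theorem exists_dec (σ : Rep F V₁ V) (ξ : End F V) : ∃ (n : ℕ) (A : Fin n → End F V₁)
    (η : Fin n → End F V), LinearIndependent F η ∧ (∀ a B, Commute (η a) (σ B)) ∧
    (∀ a (𝒜 : Subalgebra F (End F V)), (∀ B, σ B ∈ 𝒜) → ξ ∈ 𝒜 → η a ∈ 𝒜) ∧
    ξ = ∑ a, σ (A a) * η a := by
  let C := Submodule.span F {η | ∃ φ x, η = Wr.cmp σ φ x ξ}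
  let b := finBasis F C
  let e := finBasis F V₁
  let m : ∀ k l, C := fun k l => ⟨Wr.cmp σ (e.coord k) (e l) ξ, Submodule.subset_span ⟨_, _, rfl⟩⟩
  refine ⟨_, fun a => ∑ k, ∑ l, b.coord a (m k l) • (e.coord l).smulRight (e k), fun a => b a,
    b.linearIndependent.map' C.subtype C.ker_subtype, fun a B => ?_, fun a 𝒜 h h' => ?_, ?_⟩
  · refine (Subalgebra.mem_centralizer_iff F).1 (Submodule.span_le.2 ?_ (b a).2 :
      (b a : End F V) ∈ (Subalgebra.centralizer F {σ B}).toSubmodule) _ rfl |>.symm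
    rintro _ ⟨φ, x, rfl⟩ _ rfl
    exact (cmp_comm B).symm
  · refine (Submodule.span_le.2 ?_ : C ≤ 𝒜.toSubmodule) (b a).2
    rintro _ ⟨φ, x, rfl⟩
    exact cmp_mem h h'
  · conv_lhs => rw [← sum_cmp σ ξ]
    simp only [map_sum, map_smul, Finset.sum_mul, smul_mul_assoc]
    rw [eq_comm, Finset.sum_comm]
    refine Finset.sum_congr rfl fun k _ => ?_
    rw [Finset.sum_comm]
    refine Finset.sum_congr rfl fun l _ => ?_
    simp only [← mul_smul_comm, ← Finset.mul_sum]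
    congr 1
    simpa [-Basis.sum_repr] using congrArg Subtype.val (b.sum_repr (m k l))

omit [FiniteDimensional F V] in
theorem dec_zero {n : ℕ} {A : Fin n → End F V₁} {η : Fin n → End F V} (hi : LinearIndependent F η)
    (hc : ∀ a B, Commute (η a) (σ B)) (h : ∑ a, σ (A a) * η a = 0) (a : Fin n) : A a = 0 :=
  LinearMap.ext fun x => (Module.forall_dual_apply_eq_zero_iff F _).1 fun φ =>
    Fintype.linearIndependent_iff.1 hi (fun a => φ (A a x)) (by
      simp only [← cmp_mul (hc _)]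
      simp only [Wr.cmp]
      rw [Finset.sum_comm]
      simp [← Finset.sum_mul, ← Finset.mul_sum, h]) a

variable [Finite F] (hf₁ : f₁.Nondeg) (h2 : (2 : F) ≠ 0)
include hf₁

omit [FiniteDimensional F V] in
theorem Inv.all_P (H : Inv f₁ σ S) (h3 : 3 ≤ finrank F V₁) (hη : ∀ A, Commute η (σ A))
    (hs : f₁.q s = 0) (s0 : s ≠ 0) (h : σ (tv f₁ s s) * η ∈ S) (hd : f₁.q d = 0) :
    σ (tv f₁ d d) * η ∈ S := by
  rcases eq_or_ne d 0 with rfl | d0
  · simp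
  obtain ⟨g, hg, c, c0, e⟩ := hf₁.exists_mem_E_apply_eq_smul (big_of_three h3) hs s0 hd d0
  have := H g hg _ h
  simp only [WrS.conj_mul _ hη, tv_conj (E_le_O hg), e, map_smul, LinearMap.smul_apply,
    smul_mul_assoc] at this
  rwa [S.smul_mem_iff c0, S.smul_mem_iff c0] at this

omit [Finite F] in
theorem Dim.idx (h : Dim F (finrank F V₁)) : 5 ≤ finrank F V₁ ∨ Idx1 f₁ :=
  Or.imp_right (fun h => idx1_of_three hf₁ h.1) h

omit [Finite F] in
theorem wd_ne (hs : s ≠ 0) (hv : v ∉ F ∙ s) : wd f₁ s v ≠ 0 := fun e => by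
  obtain ⟨x, hx⟩ := hf₁.exists_B_eq hs 1
  have := LinearMap.congr_fun e x
  rw [wd_apply, hx, one_smul, LinearMap.zero_apply, sub_eq_zero] at this
  exact hv (this ▸ Submodule.smul_mem _ _ (Submodule.mem_span_singleton_self s))

omit [Finite F] in
theorem perp3 (h3 : finrank F V₁ = 3) (hs : f₁.q s = 0) (s0 : s ≠ 0) (hv : f₁.B s v = 0)
    (v0 : f₁.q v ≠ 0) {y : V₁} (hy : f₁.B s y = 0) : ∃ a b : F, a • s + b • v = y := by
  have d1 := hf₁.finrank_add_finrank_perp (F ∙ s)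
  rw [finrank_span_singleton s0] at d1
  rw [← Submodule.mem_span_pair, Submodule.eq_of_le_of_finrank_eq (S₂ := f₁.perp (F ∙ s))
    (Submodule.span_le.2 (by
      rintro _ (rfl | rfl) <;> simp [f₁.mem_perp_span_singleton, hv, f₁.B_self_eq_zero hs]))
    (by rw [Set.pair_comm, finrank_span_pair_of s0 fun e => by
          obtain ⟨a, rfl⟩ := Submodule.mem_span_singleton.1 e
          exact v0 (f₁.q_smul_eq_zero hs a)]; omega)]
  exact f₁.mem_perp_span_singleton.2 hy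

include h2

omit [FiniteDimensional F V] in
theorem Inv.all_wd (H : Inv f₁ σ S) (hd : Dim F (finrank F V₁)) (hη : ∀ A, Commute η (σ A))
    (s0 : s ≠ 0) (hv : v ∉ F ∙ s) (h : σ (wd f₁ s v) * η ∈ S) (x y : V₁) :
    σ (wd f₁ x y) * η ∈ S :=
  skew_all hf₁ h2 hd.three (hd.idx hf₁) (R := S.comap ((LinearMap.mulRight F η).comp σ.toLinearMap))
    (fun A hA β hβ => by
      have := H A hA (σ β * η) hβ
      rwa [WrS.conj_mul _ hη] at this) h (wd_sk s v)
    (wd_ne hf₁ s0 hv) x y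

/-- The highest weight component of a family of skew operators. -/
theorem extract_wd (hd : Dim F (finrank F V₁)) {L : Type*} [AddCommGroup L] [Module F L]
    {M : Submodule F (L →ₗ[F] End F V₁)} (hM : ∀ A ∈ f₁.E, ∀ θ ∈ M, Tens.cj A ∘ₗ θ ∈ M)
    {θ : L →ₗ[F] End F V₁} (hθ : θ ∈ M) (H : ∀ y s, f₁.q s = 0 → f₁.B s (θ y s) = 0) {y₀ : L}
    (h0 : ¬ ∃ l : F, ∀ x, θ y₀ x = l • x) : ∃ s v, s ≠ 0 ∧ v ∉ F ∙ s ∧ ∃ θ' ∈ M, ∃ l : L → F,
      l y₀ ≠ 0 ∧ ∀ y, θ' y = l y • wd f₁ s v := by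
  have h3 := hd.three
  obtain ⟨p, -, p0, hp⟩ := f₁.quad_iso3 ⊤ (by simpa using h3)
  have k : ∀ y, ∃ l : F, Sk f₁ (θ y - l • 1) := fun y => by
    obtain ⟨A, hA⟩ := exists_adjL hf₁ (θ y)
    have hA' : ∀ x z, f₁.B (A x) z = f₁.B x (θ y z) := fun x z => by
      rw [f₁.quad_symm, ← hA, f₁.quad_symm]
    obtain ⟨l, hl⟩ := sym_scalar hf₁ h2 hd.ex hp p0 (S := θ y + A)
      (fun x z => by simp [hA, hA', add_comm]) fun x hx => by simp [← hA, H y x hx, f₁.quad_symm x]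
    refine ⟨l / 2, fun x z => ?_⟩
    have := congrArg (f₁.B x) (hl z)
    simp [hA] at this ⊢
    field_simp
    linear_combination 2 * this
  choose l hl using k
  obtain ⟨s, hs, hn⟩ : ∃ s, f₁.q s = 0 ∧ (θ y₀ - l y₀ • 1) s ∉ F ∙ s := by
    by_contra! K
    obtain ⟨p', hp', e⟩ := hf₁.exists_partner' hp p0
    obtain ⟨v, v1, v2, v3⟩ := exists_nonsing_hyp hf₁ h3 hp hp' e
    obtain ⟨a, ha⟩ := Submodule.mem_span_singleton.1 (skew_all hf₁ h2 h3 (hd.idx hf₁)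
      (R := { carrier := {β | ∀ s, f₁.q s = 0 → β s ∈ F ∙ s}
              zero_mem' := by simp
              add_mem' := fun ha hb s hs => add_mem (ha s hs) (hb s hs)
              smul_mem' := fun a _ ha s hs => Submodule.smul_mem _ a (ha s hs) })
      (fun A hA β hβ s hs => by
        obtain ⟨a, ha⟩ := Submodule.mem_span_singleton.1
          (hβ (A⁻¹ s) (by rwa [mem_O_q (inv_mem (E_le_O hA))]))
        exact Submodule.mem_span_singleton.2 ⟨a, by simp [Tens.cj_apply, ← ha, app_inv]⟩)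
      K (hl y₀) (fun e => h0 ⟨_, LinearMap.congr_fun (sub_eq_zero.1 e)⟩) p v p' hp')
    simpa [wd_apply, e, f₁.B_eq_zero_symm v2, quad_B_self, h2, v3] using congrArg (f₁.B v) ha
  have s0 : s ≠ 0 := by rintro rfl; simp at hn
  have ss := f₁.B_self_eq_zero hs
  obtain ⟨v, v1, v3⟩ := exists_rt hf₁ h3 hs s0
  let w : L → V₁ := fun y => f₁.q v • (θ y - l y • 1) s - f₁.B v ((θ y - l y • 1) s) • v
  have w1 : ∀ y, f₁.B s (w y) = 0 := fun y => by simp [w, H y s hs, v1, ss]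
  have w2 : w y₀ ∉ F ∙ s := fun e => hn (by
    obtain ⟨a, ha⟩ := Submodule.mem_span_singleton.1 e
    have := congrArg (f₁.B v) ha
    simp only [w, map_smul, f₁.B_eq_zero_symm v1, map_sub (f₁.B v), quad_B_self, smul_eq_mul] at this
    have e0 : f₁.B v ((θ y₀ - l y₀ • 1) s) = 0 := mul_left_cancel₀ v3 (by linear_combination this)
    refine (Submodule.smul_mem_iff _ v3).1 ?_
    simpa only [w, e0, zero_smul, sub_zero] using e)
  have w3 : ∀ y, dd f₁ s v (θ y) = (-2 : F) • wd f₁ s (w y) := fun y => LinearMap.ext fun x => by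
    have e := hl y
    rw [← sub_add_cancel (θ y) (l y • 1)]
    simp only [w]
    generalize θ y - l y • 1 = β at e
    have e1 : f₁.B s (β x) = -f₁.B (β s) x := by rw [e, neg_neg]
    have e2 : f₁.B s (β v) = -f₁.B v (β s) := by rw [← e, f₁.quad_symm]
    have e3 : ∀ s, f₁.B s (β s) = 0 := fun s => mul_left_cancel₀ h2 (by
      linear_combination e s s - f₁.quad_symm s (β s))
    simp only [dd_apply hs v1, wd_apply, map_sub, map_add, map_smul, e1, e2, e3, LinearMap.sub_apply,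
      LinearMap.smul_apply, LinearMap.add_apply, End.one_apply, ss, v1, f₁.B_eq_zero_symm v1,
      quad_B_self]
    match_scalars <;> ring
  have m := dd_mem (s := s) (v := v) hM hθ
  rcases hd with h5 | ⟨h3, -⟩
  · obtain ⟨d, d1, d2, d3⟩ : ∃ d, f₁.B s d = 0 ∧ f₁.q d = 0 ∧ f₁.B (w y₀) d ≠ 0 := by
      by_contra! K
      obtain ⟨t, t1, t2⟩ := hf₁.exists_perp_eq' w2 1
      simpa [t2] using CL.Root.mem_of_singular_perp hf₁ (CL.Root.sing3_quad f₁) h5 s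
        (LinearMap.ker (f₁.B (w y₀))).toAddSubgroup K t (t1 s (Submodule.mem_span_singleton_self s))
    obtain ⟨u, hu, u0⟩ := CL.Root.exists_nonsing_perp hf₁ (Submodule.span F {s, d}) (by
      have := CL.Tv.finrank_span_pair_le (F := F) s d
      omega)
    rw [mem_perp_span_pair] at hu
    refine ⟨s, d, s0, fun e => ?_, _, dd_mem (s := d) (v := u) hM m,
      fun y => 4 * f₁.q u * f₁.B (w y) d, by
        simpa [u0, d3] using (by norm_num : (4 : F) = 2 * 2) ▸ mul_ne_zero h2 h2, fun y => ?_⟩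
    · obtain ⟨a, rfl⟩ := Submodule.mem_span_singleton.1 e
      simp [f₁.B_eq_zero_symm (w1 y₀)] at d3
    · ext x
      simp only [LinearMap.comp_apply, w3, map_smul, LinearMap.smul_apply, dd_apply d2 hu.2,
        wd_apply, map_sub, d1, hu.1, f₁.B_eq_zero_symm d1, f₁.B_eq_zero_symm hu.1,
        f₁.quad_symm (w y) d]
      match_scalars <;> ring
  · choose a b e using fun y => perp3 hf₁ h3 hs s0 v1 v3 (w1 y)
    refine ⟨s, v, s0, fun e => ?_, _, m, fun y => -2 * b y, fun h => w2 ?_, fun y => ?_⟩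
    · obtain ⟨a, rfl⟩ := Submodule.mem_span_singleton.1 e
      exact v3 (f₁.q_smul_eq_zero hs a)
    · exact Submodule.mem_span_singleton.2 ⟨a y₀, by simp [← e, show b y₀ = 0 by simpa [h2] using h]⟩
    · simp [w3, ← e, wd_self, smul_smul]

/-- Extraction of an isotypic component. -/
theorem Inv.ext (H : Inv f₁ σ S) (hd : Dim F (finrank F V₁)) (hξ : ξ ∈ S)
    (hn : ¬ ∀ A, Commute ξ (σ A)) : ∃ η, η ≠ 0 ∧ (∀ A, Commute η (σ A)) ∧
      (∀ 𝒜 : Subalgebra F (End F V), (∀ A, σ A ∈ 𝒜) → ξ ∈ 𝒜 → η ∈ 𝒜) ∧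
      ((∀ s, f₁.q s = 0 → σ (tv f₁ s s) * η ∈ S) ∨ ∀ x y, σ (wd f₁ x y) * η ∈ S) := by
  obtain ⟨n, A, η, hi, hc, hm, e⟩ := exists_dec σ ξ
  let M : Submodule F ((Fin n → F) →ₗ[F] End F V₁) :=
    { carrier := {θ | ∑ a, σ (θ (Pi.single a 1)) * η a ∈ S}
      zero_mem' := by simp
      add_mem' := fun ha hb => by simpa [add_mul, Finset.sum_add_distrib] using S.add_mem ha hb
      smul_mem' := fun s _ ha => by simpa [← Finset.smul_sum] using S.smul_mem s ha }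
  have hM : ∀ A ∈ f₁.E, ∀ θ ∈ M, Tens.cj A ∘ₗ θ ∈ M := fun A hA θ h => by
    have := H A hA _ h
    simp only [Finset.mul_sum, Finset.sum_mul, WrS.conj_mul _ (hc _)] at this
    exact this
  have h0 : Fintype.linearCombination F A ∈ M := by simpa [M, ← e] using hξ
  have k : ∀ {θ B} (l : Fin n → F) a, θ ∈ M → l a ≠ 0 → (∀ a, θ (Pi.single a 1) = l a • B) →
      ∑ a, l a • η a ≠ 0 ∧ (∀ A, Commute (∑ a, l a • η a) (σ A)) ∧
      (∀ 𝒜 : Subalgebra F (End F V), (∀ A, σ A ∈ 𝒜) → ξ ∈ 𝒜 → ∑ a, l a • η a ∈ 𝒜) ∧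
      σ B * ∑ a, l a • η a ∈ S := fun l a h l0 e =>
    ⟨fun h => l0 (Fintype.linearIndependent_iff.1 hi l h a),
      fun A => Commute.sum_left _ _ _ fun a _ => (hc a A).smul_left _,
      fun 𝒜 h h' => 𝒜.sum_mem fun a _ => 𝒜.smul_mem (hm a 𝒜 h h') _, by
      simpa [M, e, Finset.mul_sum] using h⟩
  by_cases h : ∀ a s, f₁.q s = 0 → f₁.B s (A a s) = 0
  · obtain ⟨a, ha⟩ : ∃ a, ¬ ∃ l : F, ∀ x, A a x = l • x := by
      by_contra! K
      refine hn fun B => e ▸ Commute.sum_left _ _ _ fun a _ => Commute.mul_left ?_ (hc a B)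
      obtain ⟨l, hl⟩ := K a
      simp [show A a = l • 1 from LinearMap.ext hl, Commute.smul_left]
    obtain ⟨s, v, s0, hv, θ, hθ, l, l0, e⟩ := extract_wd hf₁ h2 hd hM h0
      (fun y s hs => by simp [Fintype.linearCombination_apply, h _ s hs]) (y₀ := Pi.single a 1)
      (by simpa using ha)
    obtain ⟨p1, p2, p3, p4⟩ := k (fun a => l (Pi.single a 1)) a hθ l0 fun _ => e _
    exact ⟨_, p1, p2, p3, Or.inr (H.all_wd hf₁ h2 hd p2 s0 hv p4)⟩
  push Not at h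
  obtain ⟨a, s, hs, h⟩ := h
  have s0 : s ≠ 0 := by rintro rfl; simp at h
  obtain ⟨θ, hθ, e⟩ := exists_extract hf₁ h2 hd.three hd.ex hs s0 hM h0
  obtain ⟨p1, p2, p3, p4⟩ := k (B := tv f₁ s s) (fun a => f₁.B s (A a s)) a hθ h
    fun _ => by ext; simp [e, mul_smul]
  exact ⟨_, p1, p2, p3, Or.inl fun d => H.all_P hf₁ hd.three p2 hs s0 p4⟩

omit [FiniteDimensional F V] in
theorem genE (h3 : 3 ≤ finrank F V₁) (R : Subalgebra F (End F V₁)) (H : ∀ e ∈ f₁.E, (e : End F V₁) ∈ R)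
    (A : End F V₁) : A ∈ R := gen hf₁ h3 R (fun s hs => by
  rcases eq_or_ne s 0 with rfl | s0
  · simp
  obtain ⟨v, v1, v0⟩ := exists_rt hf₁ h3 hs s0
  have := R.pow_mem (R.sub_mem (H _ (rt_mem hs v1 (.ofAdd 1))) R.one_mem) 2
  rwa [show ((rt hs v1 (.ofAdd 1) : End F V₁) - 1) ^ 2 = -(2 * f₁.q v) • tv f₁ s s by
    ext x; simpa [pow_two, smul_smul, dl_apply] using rt_sq hs v1 (.ofAdd 1) x, ← Subalgebra.mem_toSubmodule, Submodule.smul_mem_iff _ (by simp [h2, v0])] at this) A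

variable {I : Type*} [DecidableEq I] {ρ : I → Rep F V₁ V} {J : Finset I} {i j l : I}

omit [FiniteDimensional F V] in
/-- An invariant space has no annihilator. -/
theorem exists_mul_ne (h3 : 3 ≤ finrank F V₁) (Φ : Fam ρ J 𝒜) (H : ∀ l ∈ J, Inv f₁ (ρ l) S)
    (hη : η ∈ S) (h0 : η ≠ 0) : ∃ η' ∈ S, η ∈ 𝒜 → η * η' ≠ 0 := by
  by_contra! h
  let K : Submodule F (End F V) :=
    { carrier := {ζ | ζ ∈ 𝒜 ∧ ∀ η ∈ S, ζ * η = 0}
      zero_mem' := ⟨zero_mem _, by simp⟩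
      add_mem' := fun ha hb => ⟨add_mem ha.1 hb.1, fun η h => by simp [add_mul, ha.2 η h, hb.2 η h]⟩
      smul_mem' := fun s _ ha => ⟨𝒜.smul_mem ha.1 s, fun η h => by simp [ha.2 η h]⟩ }
  refine h0 ((one_mul η).symm.trans ((WrS.one_mem_of_ideal (S := K) Φ (fun _ h => h.1)
    (fun l hl A ξ hξ => ⟨⟨𝒜.mul_mem (Φ.mem l hl A) hξ.1, fun η h => by
      simp [mul_assoc, hξ.2 η h]⟩, ?_⟩) ⟨(h η hη).1, fun a ha => (h a ha).2⟩ h0).2 η hη))
  let R : Subalgebra F (End F V₁) :=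
    { carrier := {A | ∀ ξ ∈ K, ξ * ρ l A ∈ K}
      mul_mem' := fun ha hb ξ hξ => by simpa [mul_assoc] using hb _ (ha ξ hξ)
      add_mem' := fun ha hb ξ hξ => by simpa [mul_add] using K.add_mem (ha ξ hξ) (hb ξ hξ)
      algebraMap_mem' := fun s ξ hξ => by
        simpa [Algebra.algebraMap_eq_smul_one] using K.smul_mem s hξ }
  refine genE hf₁ h2 h3 R (fun e he ξ hξ => ⟨𝒜.mul_mem hξ.1 (Φ.mem l hl _), fun η hη => ?_⟩) A ξ hξ
  have := congrArg (· * ρ l e) (hξ.2 _ (H l hl _ he η hη))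
  simp only [mul_assoc, ← map_mul, ← LinearEquiv.coe_toLinearMap_mul, inv_mul_cancel] at this
  simpa [mul_assoc, ← End.one_eq_id] using this

variable (hd : Dim F (finrank F V₁)) [Nontrivial V]
include hd

/-- An invariant commutative space is scalar. -/
theorem cm_scalar (Φ : Fam ρ J 𝒜) (hS : S ≤ 𝒜.toSubmodule) (H : ∀ l ∈ J, Inv f₁ (ρ l) S)
    (hc : ∀ a ∈ S, ∀ b ∈ S, a * b = b * a) (hξ : ξ ∈ S) : ∃ μ : F, ξ = μ • 1 := by
  by_contra hn
  obtain ⟨j, hj, hj'⟩ := WrS.exists_not_comm Φ (hS hξ) hn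
  obtain ⟨η, η0, p1, p2, p3⟩ := (H j hj).ext hf₁ h2 hd hξ hj'
  obtain ⟨s, -, s0, hs⟩ := f₁.quad_iso3 ⊤ (by simpa using hd.three)
  obtain ⟨s', hs', e⟩ := hf₁.exists_partner' hs s0
  obtain ⟨v, v1, v2, v3⟩ := exists_nonsing_hyp hf₁ hd.three hs hs' e
  obtain ⟨A, B, hA, hB, e1, e2⟩ : ∃ A B, ρ j A * η ∈ S ∧ ρ j B * η ∈ S ∧ tv f₁ s s * (A * B) = 0 ∧
      tv f₁ s s * (B * A) ≠ 0 := by
    have ss := f₁.B_self_eq_zero hs
    rcases p3 with h | h
    · exact ⟨_, _, h s hs, h s' hs', by simp [tv_mul, ss], fun h => s0 (by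
        simpa [e, f₁.quad_symm s] using LinearMap.congr_fun h s')⟩
    · exact ⟨_, _, h s v, h s' v, by ext; simp [wd_apply, ss, v1], fun h => s0 (by
        simpa [e, wd_apply, v1, v2, f₁.B_eq_zero_symm v2, quad_B_self, h2, v3] using
          LinearMap.congr_fun h s')⟩
  have Φ' := Φ.erase hj
  have m : η ∈ WrS.lv (ρ j) S {A, B} 𝒜 :=
    ⟨WrS.mem_cen (p2 _ (Φ.mem j hj) (hS hξ)) p1, by rintro _ (rfl | rfl) <;> assumption⟩
  obtain ⟨η', m', n⟩ := exists_mul_ne hf₁ h2 hd.three Φ'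
    (fun l hl => (H l (Finset.mem_of_mem_erase hl)).lv (Φ'.mem l hl)) m η0
  have := congrArg (ρ j (tv f₁ s s) * ·) (hc _ hB _ (m'.2 A (by simp)))
  simp only [WrS.mul_mul p1, WrS.mul_mul (WrS.cen_comm m'.1), ← mul_assoc _ (ρ j _), ← map_mul, e1,
    map_zero, zero_mul] at this
  exact n m.1 (eq_zero_of_mul e2 (WrS.cen_comm (mul_mem m.1 m'.1)) this)

/-- An invariant space of skew operators has a skew component in some factor. -/
theorem exists_wd (hf : f.Nondeg) (ad : ∀ l ∈ J, Ad f f₁ (ρ l)) (Φ : Fam ρ J 𝒜)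
    (hS : S ≤ 𝒜.toSubmodule) (H : ∀ l ∈ J, Inv f₁ (ρ l) S) (sk : ∀ a ∈ S, Sk f a) (hξ : ξ ∈ S)
    (h0 : ξ ≠ 0) : ∃ l ∈ J, ∃ η, η ≠ 0 ∧ η ∈ WrS.lv (ρ l) S {B | ∃ x y, B = wd f₁ x y} 𝒜 := by
  induction J using Finset.strongInduction generalizing 𝒜 S ξ with
  | H J ih =>
  obtain ⟨j, hj, hj'⟩ := WrS.exists_not_comm Φ (hS hξ) fun ⟨_, e⟩ => h0 ((sk ξ hξ).scalar h2 hf e)
  obtain ⟨η, η0, p1, p2, p3⟩ := (H j hj).ext hf₁ h2 hd hξ hj'
  have m := WrS.mem_cen (p2 _ (Φ.mem j hj) (hS hξ)) p1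
  rcases p3 with h | h
  swap
  · exact ⟨j, hj, η, η0, m, by rintro _ ⟨x, y, rfl⟩; exact h x y⟩
  obtain ⟨s, -, s0, hs⟩ := f₁.quad_iso3 ⊤ (by simpa using hd.three)
  have Φ' := Φ.erase hj
  have t0 := tv_ne hf₁ s0 s0
  obtain ⟨l, hl, ζ, ζ0, m1, m2⟩ := ih _ (Finset.erase_ssubset hj)
    (S := WrS.lv (ρ j) S {tv f₁ s s} 𝒜) (fun l hl => ad l (Finset.mem_of_mem_erase hl)) Φ'
    (fun _ h => h.1) (fun l hl => (H l (Finset.mem_of_mem_erase hl)).lv (Φ'.mem l hl))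
    (fun a ha => (ad j hj).sk hf hf₁ t0 (tv_adj s s) (WrS.cen_comm ha.1) (sk _ (ha.2 _ rfl)))
    ⟨m, by rintro _ rfl; exact h s hs⟩ η0
  have hl' := Finset.mem_of_mem_erase hl
  have c := Φ.comm j hj l hl' (Finset.ne_of_mem_erase hl).symm (tv f₁ s s)
  exact ⟨l, hl', ρ j (tv f₁ s s) * ζ, fun e => ζ0 (eq_zero_of_mul t0 (WrS.cen_comm m1.1) e),
    WrS.mem_cen (mul_mem (Φ.mem j hj _) m1.1.1) fun A => (c A).mul_left (WrS.cen_comm m1 A),
    fun B hB => (c B).left_comm ζ ▸ (m2 B hB).2 _ rfl⟩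

omit hd

section Three

variable (h3 : finrank F V₁ = 3) (hf : f.Nondeg) (ad : ∀ l ∈ J, Ad f f₁ (ρ l)) (Φ : Fam ρ J 𝒜)
include h3

include hf ad Φ in
/-- A skew operator commuting with a four-group of half-turns in each factor vanishes. -/
theorem sk_zero (ha : f₁.q a ≠ 0) (hb : f₁.q b ≠ 0) (hab : f₁.B a b = 0) (hξ : ξ ∈ 𝒜) (sk : Sk f ξ)
    (H : ∀ l ∈ J, Commute ξ (ρ l (ht f₁ a)) ∧ Commute ξ (ρ l (ht f₁ b))) : ξ = 0 := by
  induction J using Finset.induction_on generalizing 𝒜 ξ with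
  | empty => exact (Φ.cent ξ hξ (by simp)).elim fun _ => sk.scalar h2 hf
  | insert j J hj ih =>
  have m := Finset.mem_insert_self j J
  have Φ' := Φ.erase m
  rw [Finset.erase_insert hj] at Φ'
  have k : ∀ x, f₁.q x ≠ 0 → Commute ξ (ρ j (ht f₁ x)) → ρ j (ht f₁ x) * ξ = -ξ := fun x x0 c => by
    have e : tv f₁ x x = f₁.q x • ((ht f₁ x : End F V₁) + 1) := by
      ext; simp [ht_apply, smul_sub, smul_smul, x0]
    have x1 : x ≠ 0 := by rintro rfl; simp [q_zero] at x0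
    have e1 := cmp_spec (ρ j) (f₁.B x) (f₁.B x) x x ξ
    rw [← tv_eq] at e1
    rw [ih (fun l hl => ad l (Finset.mem_insert_of_mem hl)) Φ'
      (WrS.mem_cen (cmp_mem (Φ.mem j m) hξ) cmp_comm) ((ad j m).sk hf hf₁ (tv_ne hf₁ x1 x1)
        (tv_adj x x) cmp_comm fun v w => by
          rw [e1]; simp [ad j m _ _ (tv_adj x x), sk _]) fun l hl => by
      have c := Φ.comm l (Finset.mem_insert_of_mem hl) j m (by rintro rfl; exact hj hl)
      exact (H l (Finset.mem_insert_of_mem hl)).imp (fun h => (cmp_commute (c _) h.symm).symm)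
        fun h => (cmp_commute (c _) h.symm).symm, mul_zero, mul_assoc,
      (show Commute ξ (ρ j (tv f₁ x x)) by
        simpa [e] using (c.add_right (Commute.one_right _)).smul_right (f₁.q x)).eq,
      ← mul_assoc, ← map_mul, tv_mul, e] at e1
    simpa [quad_B_self, h2, x0, add_mul, add_eq_zero_iff_eq_neg, -smul_add] using e1.symm
  obtain ⟨c, c0, -, e⟩ := third h2 hf₁ h3 ha hb hab
  have e' : ρ j (ht f₁ c) = ρ j (ht f₁ a) * ρ j (ht f₁ b) := by rw [← e, ← map_mul]; rfl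
  have := k c c0 (e' ▸ (H j m).1.mul_right (H j m).2)
  rw [e', mul_assoc, k b hb (H j m).2, mul_neg, k a ha (H j m).1, neg_neg, eq_neg_iff_add_eq_zero,
    ← two_smul F] at this
  exact (smul_eq_zero.1 this).resolve_left h2

variable (hs : f₁.q s = 0) (s0 : s ≠ 0) (hv : f₁.B s v = 0) (v0 : f₁.q v ≠ 0)
include hs s0 hv v0

omit [Finite F] in
theorem cen3 {A : End F V₁} (h : Commute A (rt hs hv (.ofAdd 1))) :
    ∃ α β γ : F, A = α • 1 + β • wd f₁ s v + γ • tv f₁ s s := by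
  obtain ⟨s', -, e⟩ := hf₁.exists_partner' hs s0
  have ss := f₁.B_self_eq_zero hs
  have vs := f₁.B_eq_zero_symm hv
  have sp : ∀ x, ∃ a b, x = a • s + b • v + f₁.B s x • s' := fun x =>
    have ⟨a, b, h⟩ := perp3 hf₁ h3 hs s0 hv v0 (y := x - f₁.B s x • s') (by simp [e])
    ⟨a, b, by simp [h]⟩
  obtain ⟨a, b, h0⟩ := sp (A s')
  suffices ∀ A : End F V₁, Commute A (rt hs hv (.ofAdd 1)) → A s' = 0 → A = 0 from
    ⟨f₁.B s (A s'), b, a + b * f₁.B v s', sub_eq_zero.1 (this _ (h.sub_left (LinearMap.ext fun x => by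
      simp [rt_apply, wd_apply, ss, vs, hv, quad_B_self]
      module)) (by rw [LinearMap.sub_apply, h0]; simp [wd_apply, e, ss, hv]; module))⟩
  intro A h h0
  have c := LinearMap.congr_fun h.eq
  have h1 := c s'
  simp [h0, rt_apply, wd_apply, e] at h1
  have h2' := c (v - (f₁.B v s' + f₁.q v) • s)
  have h3 : A (v - (f₁.B v s' + f₁.q v) • s) = 0 := by
    simp only [map_sub, map_smul]; linear_combination (norm := module) h1
  rw [End.mul_apply, End.mul_apply, h3] at h2'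
  simp [rt_apply, wd_apply, ss, vs, hv, quad_B_self] at h2'
  have h4 : A s = 0 := (smul_eq_zero.1 (show (2 * f₁.q v) • A s = 0 by
    linear_combination (norm := module) h1 - h2')).resolve_left (mul_ne_zero h2 v0)
  ext x
  obtain ⟨a, b, e⟩ := sp x
  rw [e]
  simp [h0, h4, show A v = 0 by simpa [h4] using h3]

theorem slot3 (h : Commute ξ (σ (rt hs hv (.ofAdd 1)))) : ∃ η : Fin 3 → End F V,
    (∀ a A, Commute (η a) (σ A)) ∧
    (∀ a (𝒜 : Subalgebra F (End F V)), (∀ B, σ B ∈ 𝒜) → ξ ∈ 𝒜 → η a ∈ 𝒜) ∧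
    ξ = η 0 + σ (wd f₁ s v) * η 1 + σ (tv f₁ s s) * η 2 ∧
    ξ - σ (f₁.rf v) * ξ * σ ((f₁.rf v)⁻¹ : V₁ ≃ₗ[F] V₁) = (2 : F) • (σ (wd f₁ s v) * η 1) := by
  obtain ⟨n, A, η, hi, hc, hm, e⟩ := exists_dec σ ξ
  choose α β γ k using fun a => cen3 hf₁ h2 h3 hs s0 hv v0 (sub_eq_zero.1 (dec_zero hi hc
    (A := fun a => A a * (rt hs hv (.ofAdd 1) : End F V₁) - (rt hs hv (.ofAdd 1) : End F V₁) * A a) (by
      have := sub_eq_zero.2 h.eq
      simp only [e, Finset.sum_mul, Finset.mul_sum, mul_assoc, (hc _ _).eq] at this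
      simpa [sub_mul, mul_assoc] using this) a))
  have c : ∀ (l : Fin n → F) A, Commute (∑ a, l a • η a) (σ A) := fun l A =>
    Commute.sum_left _ _ _ fun a _ => (hc a A).smul_left _
  have e1 : ξ = ∑ a, α a • η a + σ (wd f₁ s v) * ∑ a, β a • η a + σ (tv f₁ s s) * ∑ a, γ a • η a := by
    simp [e, k, add_mul, Finset.sum_add_distrib, Finset.mul_sum]
  refine ⟨fun i => ∑ a, ![α, β, γ] i a • η a, fun _ => c _,
    fun _ 𝒜 h h' => 𝒜.sum_mem fun a _ => 𝒜.smul_mem (hm a 𝒜 h h') _, e1, ?_⟩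
  have e2 := wd_conj (rf_mem_O (f := f₁) v) s v
  have e3 := tv_conj (rf_mem_O (f := f₁) v) s s
  rw [rf_self v0, Form.rf_of_perp (f₁.B_eq_zero_symm hv)] at *
  have e4 := WrS.conj_mul (σ := σ) (e := f₁.rf v) 1 (c α)
  rw [e1, mul_add, mul_add, add_mul, add_mul, WrS.conj_mul _ (c _), WrS.conj_mul _ (c _), e3, e2]
  simp only [map_one, one_mul, mul_one, ← LinearEquiv.coe_toLinearMap_mul, mul_inv_cancel] at e4
  simp [e4, ← End.one_eq_id]
  module

include hf ad Φ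

theorem sk_zero' (hξ : ξ ∈ 𝒜) (sk : Sk f ξ) (H : ∀ l ∈ J, Commute ξ (ρ l (rt hs hv (.ofAdd 1))) ∧
    Commute ξ (ρ l (f₁.rf v))) : ξ = 0 := by
  induction J using Finset.induction_on generalizing 𝒜 ξ with
  | empty => exact (Φ.cent ξ hξ (by simp)).elim fun _ => sk.scalar h2 hf
  | insert j J hj ih =>
  have m := Finset.mem_insert_self j J
  have Φ' := Φ.erase m
  rw [Finset.erase_insert hj] at Φ'
  obtain ⟨η, c, hm, e1, e2⟩ := slot3 hf₁ h2 h3 hs s0 hv v0 (H j m).1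
  rw [conj_eq_iff.2 (H j m).2, sub_self, eq_comm, smul_eq_zero_iff_right h2] at e2
  have k : ∀ a, Sk f (ρ j (tv f₁ s s) * η a) → η a = 0 := fun a h =>
    ih (fun l hl => ad l (Finset.mem_insert_of_mem hl)) Φ' (WrS.mem_cen (hm a _ (Φ.mem j m) hξ) (c a))
      ((ad j m).sk hf hf₁ (tv_ne hf₁ s0 s0) (tv_adj s s) (c a) h) fun l hl => by
      have c := Φ.comm j m l (Finset.mem_insert_of_mem hl) (by rintro rfl; exact hj hl)
      have k : ∀ B, Commute ξ (ρ l B) → Commute (η a) (ρ l B) := fun B h =>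
        ((Subalgebra.mem_centralizer_iff F).1 (hm a (Subalgebra.centralizer F {ρ l B})
          (by rintro A _ rfl; exact (c A B).symm) (by rintro _ rfl; exact h.symm)) _ rfl).symm
      exact (H l (Finset.mem_insert_of_mem hl)).imp (k _) (k _)
  have p : ∀ v, ρ j (tv f₁ s s) (ρ j (tv f₁ s s) v) = 0 := rk_rk (f₁.B_self_eq_zero hs)
  have k0 := k 0 fun v w => by
    have := sk v (ρ j (tv f₁ s s) w)
    rw [← ad j m _ _ (tv_adj s s)] at this
    simpa [e1, e2, p, cm_app (c _)] using this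
  rw [e2, k0] at e1
  simp [e1, k 2 (by simpa [e1] using sk)]

/-- An invariant additive group of skew operators contains a line. -/
theorem line {Λ : AddSubgroup (End F V)} (hΛ : ∀ ξ ∈ Λ, ξ ∈ 𝒜 ∧ Sk f ξ) (H : ∀ l ∈ J, ∀ e,
    e ∈ f₁.E ∨ e = f₁.rf v → ∀ ξ ∈ Λ, ρ l e * ξ * ρ l (e⁻¹ : V₁ ≃ₗ[F] V₁) ∈ Λ) (hξ : ξ ∈ Λ)
    (h0 : ξ ≠ 0) : ∃ η, η ≠ 0 ∧ ∀ a : F, a • η ∈ Λ := by
  have hp : Fact (ringChar F).Prime := ⟨CharP.char_is_prime F _⟩
  obtain ⟨β, m, β0, c⟩ : ∃ β ∈ Λ, β ≠ 0 ∧ ∀ l ∈ J, Commute β (ρ l (rt hs hv (.ofAdd 1))) := by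
    clear hΛ ad
    have cm := Φ.comm
    clear Φ
    induction J using Finset.induction_on with
    | empty => exact ⟨ξ, hξ, h0, by simp⟩
    | insert j J hj ih =>
    obtain ⟨β, m, β0, c⟩ := ih (fun l hl => H l (Finset.mem_insert_of_mem hl))
      fun i hi l hl => cm i (Finset.mem_insert_of_mem hi) l (Finset.mem_insert_of_mem hl)
    by_contra! K
    let g := un (ρ j) (rt hs hv (.ofAdd 1))
    have := charP_of_injective_algebraMap (algebraMap F (End F (End F V))).injective (ringChar F)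
    have e : (Tens.cj g - 1 : End F (End F V)) ^ ringChar F = 0 := by
      rw [sub_pow_char_of_commute _ (Commute.one_right _), one_pow, sub_eq_zero]
      have : ∀ n : ℕ, (Tens.cj g : End F (End F V)) ^ n = Tens.cj (g ^ n) := fun n => by
        induction n with
        | zero => rfl
        | succ n ih => rw [pow_succ, ih, pow_succ]; rfl
      rw [this, show g ^ _ = 1 from pow_ringChar ((un (ρ j)).comp (rt hs hv)) _]; rfl
    have k : ∀ n : ℕ, ∀ β ∈ Λ, (∀ l ∈ J, Commute β (ρ l (rt hs hv (.ofAdd 1)))) →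
        ((Tens.cj g - 1 : End F (End F V)) ^ n) β = 0 → β = 0 := fun n => by
      induction n with
      | zero => simp
      | succ n ih =>
        intro β m c h
        have := ih _ (sub_mem (H j (by simp) _ (Or.inl (rt_mem hs hv _)) β m) m) (fun l hl => by
          have cm := fun A => cm j (by simp) l (by simp [hl]) (by rintro rfl; exact hj hl) A
            (rt hs hv (.ofAdd 1))
          exact (((cm _).mul_left (c l hl)).mul_left (cm _)).sub_left (c l hl)) h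
        by_contra β0
        obtain ⟨l, hl, h'⟩ := K β m β0
        rcases Finset.mem_insert.1 hl with rfl | hl
        exacts [h' (conj_eq_iff.1 (sub_eq_zero.1 this)), h' (c l hl)]
    exact β0 (k _ β m c (by rw [e]; rfl))
  obtain ⟨l, hl, h⟩ : ∃ l ∈ J, ¬ Commute β (ρ l (f₁.rf v)) := by
    by_contra! K
    exact β0 (sk_zero' hf₁ h2 h3 hf ad Φ hs s0 hv v0 (hΛ β m).1 (hΛ β m).2 fun l hl =>
      ⟨c l hl, K l hl⟩)
  obtain ⟨η, c, -, -, e⟩ := slot3 hf₁ h2 h3 hs s0 hv v0 (c l hl)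
  have m1 := e ▸ sub_mem m (H l hl _ (Or.inr rfl) β m)
  have k : ∀ a : F, a ^ 2 • (2 : F) • (ρ l (wd f₁ s v) * η 1) ∈ Λ := fun a => by
    rcases eq_or_ne a 0 with rfl | a0
    · simp
    obtain ⟨e, he, e1, e2⟩ := torus hf₁ h3.ge hs s0 a0
    obtain ⟨t, ht⟩ := Submodule.mem_span_singleton.1 (e2 v hv)
    have := H l hl e (Or.inl he) _ m1
    rw [mul_smul_comm, smul_mul_assoc, WrS.conj_mul _ (c 1), wd_conj (E_le_O he), e1,
      ← eq_sub_iff_add_eq'.1 ht] at this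
    simpa [wd_self, smul_comm (2 : F)] using this
  refine ⟨_, fun e' => h (conj_eq_iff.1 (sub_eq_zero.1 (e.trans e')).symm), fun a => ?_⟩
  obtain ⟨a, b, rfl⟩ := exists_eq_sq_sub_sq a
  simpa only [sub_smul] using sub_mem (k a) (k b)

end Three

end CL.WrO
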