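/-
Orthogonal tensor powers: the stabilizer of a member in a proper overgroup.
-/
import Mathlib
import Cfsg.Agent.CLAS.WrO5

set_option autoImplicit false
set_option linter.unusedSectionVars false

namespace CL.WrO

open Module CL.ExtF CL.Tens CL.Witt CL.Witt.Form CL.Root

attribute [-simp] LinearEquiv.coe_inv
attribute [local simp] FormType.quad_σ FormType.quad_ε FormType.quad_π

variable {F : Type*} [Field F] {V₁ V₂ V : Type*} [AddCommGroup V₁] [Module F V₁] [AddCommGroup V₂]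
  [Module F V₂] [AddCommGroup V] [Module F V] {τ : V₁ →ₗ[F] V₂ →ₗ[F] V}
  {X Y : Subgroup (V ≃ₗ[F] V)} {h : IsTensorProduct τ} {f : Form (FormType.quad F) V}
  {f₁ : Form (FormType.quad F) V₁} {f₂ : Form (FormType.quad F) V₂} {c c' d y : V₂}
  {u z : V ≃ₗ[F] V} {θ θ' : V₂ →ₗ[F] V₁ →ₗ[F] V₁} {β : End F V₁}

theorem th_mul (H : Th τ X f₂ c u θ) (H' : Th τ X f₂ c z θ') : Th τ X f₂ c (u * z) (θ + θ') :=
  ⟨X.mul_mem H.mem H'.mem, fun x => by simp [H.fix, H'.fix], fun y hy x => by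
    simp [H.app y hy, H'.app y hy, H.fix, add_assoc]⟩

variable [FiniteDimensional F V₁] [FiniteDimensional F V₂]

section

variable (hc : f₂.q c = 0) (c0 : c ≠ 0)

theorem second (hf : f₂.Nondeg) (h5 : 5 ≤ finrank F V₂) (hd : f₂.q d = 0) (hcd : f₂.B c d = 0) :
    ∃ e ∈ f₂.E, e c = c ∧ ∃ μ : F, μ ≠ 0 ∧
      ∀ x, e x + e⁻¹ x = (2 : F) • (x - (μ * f₂.B d x) • d) := by
  obtain ⟨u, hu, u0⟩ := exists_nonsing_perp hf (Submodule.span F {c, d}) (by
    have := CL.Tv.finrank_span_pair_le (F := F) c d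
    omega)
  rw [mem_perp_span_pair] at hu
  refine ⟨_, ei_mem_E d u (f₂.q u), (qok hd hu.2).ei_apply_fix (f₂.B_eq_zero_symm hcd)
    (f₂.B_eq_zero_symm hu.1), _, u0, fun x => ?_⟩
  rw [quad_ei_inv hd hu.2, quad_ei hd hu.2, quad_ei_neg hd hu.2]
  module

include hc c0

theorem of_sing [Finite F] (hf : f₂.Nondeg) (h5 : 5 ≤ finrank F V₂) (h0 : θ c = 0)
    (H : ∀ d, f₂.B c d = 0 → f₂.q d = 0 → d ∉ F ∙ c → ∃ l : F, θ d = l • 1) (hy : f₂.B c y = 0) :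
    ∃ l : F, θ y = l • 1 :=
  (Submodule.mem_span_singleton.1 (mem_of_singular_perp hf (sing3_quad f₂) h5 c
    ((F ∙ (1 : End F V₁)).comap θ).toAddSubgroup (fun d h1 h2 => by
      by_cases e : d ∈ F ∙ c
      · obtain ⟨a, rfl⟩ := Submodule.mem_span_singleton.1 e
        simp [h0]
      · exact Submodule.mem_span_singleton.2 ((H d h1 h2 e).imp fun _ => Eq.symm)) y hy)).imp
    fun _ => Eq.symm

section TQ

variable (S : TQ h f f₁ f₂)
include S

theorem level (hz : z ∈ f.O) (hW : ∀ v, z v - v ∈ mem τ c) :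
    ∃ β : End F V₁, ∀ v, z v = v + τ (β (et h f₂ c v)) c := by
  obtain ⟨c', -, h1⟩ := S.nd₂.exists_partner' hc c0
  have h1' : f₂.B c' c = 1 := by rw [f₂.quad_symm, h1]
  refine ⟨et h f₂ c' ∘ₗ ((z : V →ₗ[F] V) - LinearMap.id) ∘ₗ τ.flip c', fun v => ?_⟩
  obtain ⟨a, ha⟩ := mem_mem.1 (hW (τ (et h f₂ c v) c'))
  have := S.fix_of_mem hz hW (w := v - τ (et h f₂ c v) c') (by simp [h1])
  simp only [LinearMap.comp_apply, LinearMap.flip_apply, LinearMap.sub_apply,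
    LinearEquiv.coe_coe, LinearMap.id_apply, ← ha, et_pure, h1', one_smul]
  rw [map_sub] at this
  linear_combination (norm := module) this - ha

theorem level_sk (hz : z ∈ f.O) (e : ∀ v, z v = v + τ (β (et h f₂ c v)) c) : Sk f₁ β := fun x y => by
  obtain ⟨c', hc', h1⟩ := S.nd₂.exists_partner' hc c0
  have := mem_O_B hz (τ x c') (τ y c')
  simp [e, h1, f₂.quad_symm c c', S.mul, f₂.B_self_eq_zero hc] at this
  linear_combination this

theorem exists_th (hu : u ∈ Y) (hq : QO h f₂ c u) : ∃ θ, Th τ Y f₂ c u θ := by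
  obtain ⟨c', -, h1⟩ := S.nd₂.exists_partner' hc c0
  refine ⟨τ.flip.compr₂ (et h f₂ c' ∘ₗ ((u : V →ₗ[F] V) - LinearMap.id)), hu, hq.1, fun y hy x => ?_⟩
  obtain ⟨a, ha⟩ := mem_mem.1 (hq.2 (τ x y) (by simp [hy]))
  simp [← ha, f₂.quad_symm c c', h1, ← sub_eq_iff_eq_add']

theorem split [Nontrivial V₁] (H : Th τ Y f₂ c u θ) (hu : u ∈ f.O)
    (hs : ∀ y, f₂.B c y = 0 → ∃ l : F, θ y = l • 1) : ∃ t, f₂.B c t = 0 ∧ ∃ β : End F V₁,
      ∀ v, ((kr h 1 (f₂.ei c t (f₂.q t)))⁻¹ * u) v = v + τ (β (et h f₂ c v)) c := by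
  obtain ⟨c', -, h1⟩ := S.nd₂.exists_partner' hc c0
  obtain ⟨x0, hx0⟩ := exists_ne (0 : V₁)
  obtain ⟨α, hα⟩ := Module.Projective.exists_dual_eq_one F hx0
  obtain ⟨t, ht⟩ := S.nd₂.exists_rep (-(α ∘ₗ θ.flip x0))
  have e2 : f₂.B c t = 0 := f₂.B_eq_zero_symm (by simp [ht, H.theta_self h hc c0])
  have hr := f.O.mul_mem (f.O.inv_mem (E_le_O (S.right_mem_E (ei_mem_E c t (f₂.q t))))) hu
  have e3 : ∀ v, et h f₂ c v = 0 → ((kr h 1 (f₂.ei c t (f₂.q t)))⁻¹ * u) v = v := fun v hv =>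
    inv_app_eq (sub_eq_zero.1 (mem_of_perp_pure' (h := h) (S := ⊥) (g := ((u : V →ₗ[F] V) -
      (kr h 1 (f₂.ei c t (f₂.q t)) : V →ₗ[F] V)).toAddMonoidHom) h1 (fun x y hy => by
        obtain ⟨l, hl⟩ := hs y hy
        simp [H.app y hy, quad_ei_perp hc e2 hy, ht, hl, hα]) hv)).symm
  exact ⟨t, e2, level hc c0 S hr fun v => S.mem_of_perp fun w hw => by
    rw [map_sub, ← e3 w hw, mem_O_B hr, e3 w hw, sub_self]⟩

end TQ

end

variable (X h f f₁ f₂) in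
/-- A proper overgroup of the tensor wreath subgroup, seen from one factor. -/
structure SW : Prop extends TQ h f f₁ f₂ where
  leO : X ≤ f.O
  R : ∀ {e}, e ∈ f₂.E → kr h 1 e ∈ X
  nt : Nontrivial V₁
  dim : Dim F (finrank F V₂)
  lv : ∀ c, f₂.q c = 0 → c ≠ 0 → ∀ β : End F V₁, Has X (fun v => τ (β (et h f₂ c v)) c) → β = 0
  cm : ∀ M : Submodule F (End F V₁), (∀ p ∈ f₁.E, kr h p 1 ∈ X → ∀ ξ ∈ M, Tens.cj p ξ ∈ M) →
    (∀ a ∈ M, ∀ b ∈ M, a * b = b * a) → ∀ ξ ∈ M, ∃ μ : F, ξ = μ • 1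
  d3 : finrank F V₂ = 3 → ∀ c, f₂.q c = 0 → c ≠ 0 → ∀ p ∈ f₁.E, ∀ β : End F V₁, ∀ y ∈ X,
    (∀ v, y v = kr h p 1 (v + τ (β (et h f₂ c v)) c)) → kr h p 1 ∈ X

namespace SW

variable (S : SW X h f f₁ f₂) [Finite F] (hc : f₂.q c = 0) (c0 : c ≠ 0)
include S hc c0

theorem cen (hz : z ∈ X) (hW : ∀ v, z v - v ∈ mem τ c) : z = 1 :=
  have ⟨β, e⟩ := level hc c0 S.toTQ (S.leO hz) hW
  LinearEquiv.ext fun v => by simp [e, S.lv c hc c0 β ⟨z, hz, e⟩]

theorem comm {θ θ' : V₂ →ₗ[F] V₁ →ₗ[F] V₁} (H : Th τ X f₂ c u θ) (H' : Th τ X f₂ c z θ') {y : V₂}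
    (hy : f₂.B c y = 0) {P : V₁ →ₗ[F] V₁} (hP : ∀ x x', f₁.B (P x) x' = f₁.B x (P x'))
    (e : ∀ d, f₂.B c d = 0 → θ' d = f₂.B y d • P) (x x' : V₁) :
    f₁.B x (θ y (P x')) = f₁.B (θ y (P x)) x' := by
  have cc := f₂.B_self_eq_zero hc
  obtain ⟨c', -, h1⟩ := S.nd₂.exists_partner' hc c0
  have h1' : f₂.B c' c = 1 := by rw [f₂.quad_symm, h1]
  have k0 : ∀ w, et h f₂ c w = 0 → z w = w + τ (P (et h f₂ y w)) c := fun w hw =>
    sub_eq_zero.1 (mem_of_perp_pure' (h := h) (S := ⊥)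
      (g := ((z : V →ₗ[F] V) - (LinearMap.id + τ.flip c ∘ₗ P ∘ₗ et h f₂ y)).toAddMonoidHom) h1
      (fun x d hd => by simp [H'.app d hd, e d hd]) hw)
  have k1 : ∀ v, z v - v + τ (P (et h f₂ c v)) y ∈ mem τ c := fun v =>
    S.mem_of_et fun d hd => S.et_eq_zero fun x => by
      have hd' := f₂.B_eq_zero_symm hd
      have := mem_O_B (S.leO H'.mem) (τ x d) v
      rw [H'.app d hd', e d hd'] at this
      simp [S.B_pure (P x) c, S.et_of_fix (S.leO H'.mem) H'.fix] at this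
      simp [S.mul, ← this, hP, f₂.quad_symm y d, mul_comm]
  have k2 : ∀ v, ∃ b, z v = v - τ (P (et h f₂ c v)) y + τ b c := fun v =>
    (mem_mem.1 (k1 v)).imp fun b hb => by rw [hb]; abel
  have k3 : ∀ v, et h f₂ c (u v - v) = 0 := fun v => by
    simp [S.et_of_fix (S.leO H.mem) H.fix]
  have k4 : ∀ v, u (z v) - z (u v) =
      τ (-θ y (P (et h f₂ c v)) - P (et h f₂ y (u v - v))) c := fun v => by
    obtain ⟨b, hb⟩ := k2 v
    have := k0 _ (k3 v)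
    rw [map_sub, sub_eq_iff_eq_add] at this
    rw [this, hb]
    generalize et h f₂ y (u v - v) = a
    simp [H.app y hy, H.fix]
    abel
  have k5 := S.cen hc c0 (X.mul_mem (X.inv_mem (X.mul_mem H'.mem H.mem)) (X.mul_mem H.mem H'.mem))
    fun v => by
      have : ((z * u)⁻¹ * (u * z)) v - v = (z * u)⁻¹ (u (z v) - z (u v)) := by
        rw [map_sub, ← mul_app z u, inv_app]; rfl
      rw [this, k4, inv_app_eq (show (z * u) (τ _ c) = τ _ c by rw [mul_app, H.fix, H'.fix])]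
      exact pure_mem _ _
  have k6 := k4 (τ x' c')
  rw [← mul_app u, ← mul_app z, ← inv_mul_eq_one.1 k5, sub_self] at k6
  have k7 := congrArg (fun v => f₁.B x (et h f₂ c' v)) k6
  have k8 := B_apply_left (f.O.inv_mem (S.leO H.mem)) (τ (P x) y) (τ x' c')
  rw [H.inv.app y hy, inv_inv, S.B_pure (P x) y (u _)] at k8
  simp [h1, h1', S.mul, ← hP] at k7 k8
  linear_combination k7 + k8

/-- The space of actions of the radical. -/
def rad : Submodule F (V₂ →ₗ[F] V₁ →ₗ[F] V₁) where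
  carrier := {θ | ∃ u, Th τ X f₂ c u θ}
  zero_mem' := ⟨1, X.one_mem, fun _ => rfl, by simp⟩
  add_mem' := by
    rintro θ θ' ⟨u, H⟩ ⟨u', H'⟩
    exact ⟨u * u', X.mul_mem H.mem H'.mem, fun x => by simp [H.fix, H'.fix], fun y hy x => by
      simp [H.app y hy, H'.app y hy, H.fix, add_assoc]⟩
  smul_mem' := by
    rintro s θ ⟨u, H⟩
    obtain ⟨a, b, rfl⟩ := exists_eq_sq_sub_sq s
    have k : ∀ a : F, ∃ u, Th τ X f₂ c u (a ^ 2 • θ) := fun a => by
      rcases eq_or_ne a 0 with rfl | a0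
      · exact ⟨1, X.one_mem, fun _ => rfl, by simp⟩
      obtain ⟨e, he, e1, e2⟩ := torus S.nd₂ S.dim.three hc c0 a0
      have H' := H.conj (E_le_O he) (S.R he) (pow_ne_zero 2 a0) e1
      refine ⟨_, H'.mem, H'.fix, fun y hy x => ?_⟩
      obtain ⟨t, ht⟩ := Submodule.mem_span_singleton.1 (e2 (e⁻¹ y) (by
        simp [← B_apply_left (E_le_O he), e1, hy]))
      rw [app_inv, eq_sub_iff_add_eq, ← eq_sub_iff_add_eq'] at ht
      simp [H'.app y hy, ht, H.theta_self h hc c0, Tens.cj_apply]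
    obtain ⟨u, H⟩ := k a
    obtain ⟨u', H'⟩ := k b
    exact ⟨u * u'⁻¹, X.mul_mem H.mem H'.inv.mem, fun x => by simp [H.fix, H'.inv.fix],
      fun y hy x => by simp [H.app y hy, H'.inv.app y hy, H.fix, sub_smul]; abel⟩

theorem th_sym (H : Th τ X f₂ c u θ) (hy : f₂.B c y = 0) (x x' : V₁) :
    f₁.B (θ y x) x' = f₁.B x (θ y x') := by
  simpa using (S.comm hc c0 H (th_ei hc (y := -y) (by simp [hy]) (S.R (ei_mem_E _ _ _))) hy
    (P := LinearMap.id) (fun _ _ => rfl) (fun d _ => by ext; simp) x x').symm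

theorem rk_scalar (H : θ ∈ S.rad hc c0) (y1 : f₂.B c y = 0) (y2 : y ∉ F ∙ c)
    (e : ∀ d, f₂.B c d = 0 → θ d = f₂.B y d • β) : ∃ l : F, β = l • 1 := by
  obtain ⟨e₂, he, e1, e2⟩ : ∃ e ∈ f₂.E, e c = c ∧ f₂.B y (e⁻¹ y) ≠ 0 := by
    by_cases hq : f₂.q y = 0
    swap
    · exact ⟨1, f₂.E.one_mem, rfl, by simp [quad_B_self, hq, S.h2]⟩
    have h5 := (S.dim.idx S.nd₂).resolve_right fun H => y2 (H c y hc hq y1 c0)
    obtain ⟨p, p1, hp, p2⟩ := S.nd₂.exists_partner hq y2 (f₂.mem_perp_span_singleton.2 y1)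
    rw [mem_perp_span_singleton] at p1
    obtain ⟨v, hv, v0⟩ := exists_nonsing_perp S.nd₂ (Submodule.span F {c, y}) (by
      have := CL.Tv.finrank_span_pair_le (F := F) c y
      omega)
    rw [mem_perp_span_pair] at hv
    have p3 : f₂.B p y = 1 := by rw [f₂.quad_symm, p2]
    have ok := qok (v := v - f₂.B p v • y) hp (by simp [p3])
    refine ⟨_, f₂.E.inv_mem (ei_mem_E _ _ _), inv_app_eq (ok.ei_apply_fix (f₂.B_eq_zero_symm p1)
      (by simp [f₂.quad_symm c, hv.1, y1])), ?_⟩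
    rw [inv_inv, ok.ei_apply]
    simp [p3, p2, hv.2, f₂.quad_symm y v, f₂.B_self_eq_zero hq, q_sub, quad_q_smul, hq, v0]
  have e3 : f₂.B c (e₂⁻¹ y) = 0 := by rw [← B_apply_left (E_le_O he), e1, y1]
  let M : Submodule F (End F V₁) :=
    { carrier := {β | ∃ θ ∈ S.rad hc c0, ∀ d, f₂.B c d = 0 → θ d = f₂.B y d • β}
      zero_mem' := ⟨0, zero_mem _, by simp⟩
      add_mem' := fun ⟨_, a, ea⟩ ⟨_, b, eb⟩ => ⟨_, add_mem a b, fun d hd => by simp [ea d hd, eb d hd]⟩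
      smul_mem' := fun s _ ⟨_, a, ea⟩ => ⟨_, Submodule.smul_mem _ s a, fun d hd => by
        simp [ea d hd, smul_comm s]⟩ }
  have sy : ∀ a ∈ M, ∀ x x', f₁.B (a x) x' = f₁.B x (a x') := fun a ⟨_, ⟨_, H⟩, e⟩ x x' => by
    simpa [e _ e3, e2] using S.th_sym hc c0 H e3 x x'
  refine S.cm M (fun p hp hk a ⟨_, ⟨_, H⟩, e⟩ => ⟨_, ⟨_, H.conj f₂.O.one_mem hk one_ne_zero (by simp)⟩,
    fun d hd => by simp [e d hd]⟩) (fun a ha b hb => LinearMap.ext fun x' => S.nd₁.ext_right fun x => ?_)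
    β ⟨θ, H, e⟩
  obtain ⟨_, ⟨_, H⟩, e⟩ := id ha
  obtain ⟨_, ⟨_, H'⟩, e'⟩ := id hb
  simpa [Tens.cj_apply, e _ e3, e2, sy a ha, sy b hb] using
    S.comm hc c0 (H.conj (A := 1) (E_le_O he) (S.R he) one_ne_zero (by simp [e1])) H' y1 (sy b hb) e' x x'

theorem th_scalar (H : Th τ X f₂ c u θ) (hy : f₂.B c y = 0) : ∃ l : F, θ y = l • 1 := by
  have h0 := H.theta_self h hc c0
  rcases S.dim with h5 | ⟨h3, -⟩
  · refine of_sing hc c0 S.nd₂ h5 h0 (fun d h1 h2 h3 => ?_) hy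
    obtain ⟨e, he, e1, μ, μ0, e2⟩ := second S.nd₂ h5 h2 h1
    refine S.rk_scalar hc c0 (Submodule.smul_mem _ (2 * μ)⁻¹ (sub_mem (Submodule.smul_mem _ 2 ⟨u, H⟩)
      (add_mem ⟨_, H.conj (A := 1) (E_le_O (inv_mem he)) (S.R (inv_mem he)) one_ne_zero
        (by simpa using inv_app_eq e1)⟩
      ⟨_, H.conj (A := 1) (E_le_O he) (S.R he) one_ne_zero (by simp [e1])⟩))) h1 h3 fun x _ => ?_
    have := S.h2
    ext w
    have e3 := congrArg (θ · w) (e2 x)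
    simp only [map_add, map_smul, map_sub, LinearMap.add_apply, LinearMap.smul_apply,
      LinearMap.sub_apply] at e3
    change (2 * μ)⁻¹ • ((2 : F) • θ x w - ((1 : F) • θ (e x) w + (1 : F) • θ (e⁻¹ x) w)) = _
    rw [one_smul, one_smul, e3, LinearMap.smul_apply]
    match_scalars <;> field_simp
    ring
  · obtain ⟨v, v1, v0⟩ := exists_rt S.nd₂ h3.ge hc c0
    obtain ⟨l, e⟩ := S.rk_scalar hc c0 (β := (2 * f₂.q v)⁻¹ • θ v) ⟨u, H⟩ v1 (fun e => by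
      obtain ⟨a, rfl⟩ := Submodule.mem_span_singleton.1 e
      exact v0 (f₂.q_smul_eq_zero hc a)) fun d hd => by
        obtain ⟨a, b, rfl⟩ := perp3 S.nd₂ h3 hc c0 v1 v0 hd
        simp [h0, f₂.B_eq_zero_symm v1, quad_B_self, smul_smul, -mul_inv_rev, S.h2, v0]
    obtain ⟨a, b, rfl⟩ := perp3 S.nd₂ h3 hc c0 v1 v0 hy
    exact ⟨b * (2 * f₂.q v) * l, by simp [h0, mul_smul, ← e, S.h2, v0]⟩

/-- The radical is the obvious one. -/
theorem of_QO (hu : u ∈ X) (hq : QO h f₂ c u) :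
    ∃ t, f₂.B c t = 0 ∧ u = kr h 1 (f₂.ei c t (f₂.q t)) := by
  have := S.nt
  obtain ⟨θ, H⟩ := exists_th hc c0 S.toTQ hu hq
  obtain ⟨t, ht, β, e⟩ := split hc c0 S.toTQ H (S.leO hu) fun y => S.th_scalar hc c0 H
  exact ⟨t, ht, (inv_mul_eq_one.1 (S.cen hc c0 (X.mul_mem (X.inv_mem (S.R (ei_mem_E _ _ _))) hu)
    fun v => by simpa [e] using pure_mem _ _)).symm⟩

theorem decomp (hz : z ∈ X) (hW : ∀ w ∈ mem τ c, z w ∈ mem τ c) : ∃ D B, Sim f₁ D ∧ Sim f₂ B ∧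
    kr h D B ∈ f.O ∧ QO h f₂ c ((kr h D B)⁻¹ * z) := by
  have := finiteDimensional h
  have := S.nt
  have cc := f₂.B_self_eq_zero hc
  have zO := S.leO hz
  obtain ⟨D, hD⟩ := exists_left_of_stab h c0 hW
  obtain ⟨c', hc', h1⟩ := S.nd₂.exists_partner' hc c0
  have h1' : f₂.B c' c = 1 := by rw [f₂.quad_symm, h1]
  have cc' := f₂.B_self_eq_zero hc'
  let D' : V₁ →ₗ[F] V₁ := et h f₂ c ∘ₗ (z : V →ₗ[F] V) ∘ₗ τ.flip c'
  have hD' : ∀ x x', f₁.B (D x) (D' x') = f₁.B x x' := fun x x' => by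
    change f₁.B (D x) (et h f₂ c (z (τ x' c'))) = _
    rw [← S.B_pure, ← hD, mem_O_B zO, S.mul, h1, mul_one]
  have e3 : ∀ y, f₂.B c y = 0 → ∃ t, f₂.B c t = 0 ∧ ∀ x, z (τ x y) - τ (D' x) t ∈ mem τ c := by
    intro y hy
    have ok := qok hc hy
    obtain ⟨t, ht, e⟩ := S.of_QO hc c0
      (X.mul_mem (X.mul_mem hz (S.R (ei_mem_E c y (f₂.q y)))) (X.inv_mem hz))
      ⟨fun x => by
        rw [mul_app, mul_app, ← app_inv D x, inv_app_eq (hD _), kr_apply, ok.ei_apply_u, hD]; rfl,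
      fun v hv => by
        have : et h f₂ c (z⁻¹ v) = 0 := S.et_eq_zero fun x => by
          rw [← B_apply_left zO, hD, S.B_pure, hv, map_zero]
        simpa [kr_ei_apply ok, this, app_inv] using hW _ (pure_mem _ _)⟩
    refine ⟨t, ht, fun x => ?_⟩
    have := congrArg (fun k : V ≃ₗ[F] V => k (z (τ x c'))) e
    simp only [mul_app, inv_app, kr_ei_apply ok, kr_ei_apply (qok hc ht), map_sub, map_add, map_smul,
      et_pure, h1, one_smul, FormType.quad_ε] at this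
    refine ⟨D (f₂.B y c' • x + f₂.q y • x) - (et h f₂ t (z (τ x c')) + f₂.q t • D' x), ?_⟩
    simp only [D', LinearMap.flip_apply, map_sub, map_add, map_smul, LinearMap.add_apply,
      LinearMap.smul_apply, LinearMap.comp_apply, LinearEquiv.coe_coe, hD] at this ⊢
    linear_combination (norm := module) -this
  obtain ⟨x0, hx0⟩ := exists_ne (0 : V₁)
  obtain ⟨x1, hx1⟩ := S.nd₁.exists_B_eq hx0 1
  have e4 : ∀ y y' t t' x x', f₂.B c t = 0 → f₂.B c t' = 0 → z (τ x y) - τ (D' x) t ∈ mem τ c →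
      z (τ x' y') - τ (D' x') t' ∈ mem τ c →
      f₁.B (D' x) (D' x') * f₂.B t t' = f₁.B x x' * f₂.B y y' := by
    rintro y y' t t' x x' ht ht' ⟨a, ha⟩ ⟨b, hb⟩
    have := mem_O_B zO (τ x y) (τ x' y')
    rw [← sub_add_cancel (z (τ x y)), ← ha, ← sub_add_cancel (z (τ x' y')), ← hb] at this
    simpa [S.mul, ht', f₂.B_eq_zero_symm ht, cc] using this
  obtain ⟨m, m0, hm⟩ : ∃ m : F, m ≠ 0 ∧ ∀ x, D' x = m • D x := by
    obtain ⟨y, y1, -, y3⟩ := exists_nonsing_hyp S.nd₂ S.dim.three hc hc' h1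
    obtain ⟨t, ht, e⟩ := e3 y y1
    have k := fun x x' => e4 y y t t x x' ht ht (e x) (e x')
    have y4 : f₂.B y y ≠ 0 := by simp [quad_B_self, y3, S.h2]
    have t0 : f₂.B t t ≠ 0 := fun e => y4 (by simpa [e, hx1] using (k x0 x1).symm)
    refine ⟨f₂.B y y / f₂.B t t, div_ne_zero y4 t0, fun x => S.nd₁.ext_left fun w => ?_⟩
    obtain ⟨w, rfl⟩ := LinearMap.injective_iff_surjective.1 ((injective_iff_map_eq_zero D').2
      fun x e => S.nd₁.right x fun x' => by rw [← hD', e, map_zero]) w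
    simp only [B_smul_left, FormType.quad_σ, hD']
    field_simp
    linear_combination k x w
  have hDm : ∀ x y, f₁.B (D x) (D y) = m⁻¹ * f₁.B x y := fun x y => by
    simp [← hD' x y, hm, m0]
  obtain ⟨α, hα⟩ := Module.Projective.exists_dual_eq_one F (show D x0 ≠ 0 by simpa using hx0)
  let B0 : V₂ →ₗ[F] V₂ := cl h α ∘ₗ (z : V →ₗ[F] V) ∘ₗ τ x0
  have hB0 : B0 c = c := by simp [B0, hD, hα]
  have hB : ∀ y, f₂.B c y = 0 → f₂.B c (B0 y) = 0 ∧ ∀ x, z (τ x y) - τ (D x) (B0 y) ∈ mem τ c := by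
    intro y hy
    obtain ⟨t, ht, e⟩ := e3 y hy
    obtain ⟨a, ha⟩ := mem_mem.1 (e x0)
    have e4 : B0 y = m • t + α a • c := by
      have := congrArg (cl h α) ha
      simp only [map_sub, cl_apply, hm, map_smul] at this
      rw [this]; simp [B0, hα]
    refine ⟨by simp [e4, ht, cc], fun x => ?_⟩
    convert Submodule.sub_mem _ (e x) (pure_mem (τ := τ) (α a • D x) c) using 1
    simp [e4, hm]; abel
  have hBm : ∀ y y', f₂.B c y = 0 → f₂.B c y' = 0 → f₂.B (B0 y) (B0 y') = m * f₂.B y y' := by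
    intro y y' hy hy'
    have := e4 y y' (m⁻¹ • B0 y) (m⁻¹ • B0 y') x0 x1 (by simp [(hB y hy).1]) (by simp [(hB y' hy').1])
      (by simpa [hm, smul_smul, m0] using (hB y hy).2 x0)
      (by simpa [hm, smul_smul, m0] using (hB y' hy').2 x1)
    simp [hm, hDm, hx1, m0] at this
    rw [← this]; field_simp
  let π : V₂ →ₗ[F] V₂ := LinearMap.id - (f₂.B c').smulRight c - (f₂.B c).smulRight c'
  have hπ : ∀ y, π y = y - f₂.B c' y • c - f₂.B c y • c' := fun _ => rfl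
  have π1 : ∀ y, f₂.B c (π y) = 0 := fun y => by simp [hπ, h1, cc]
  let B1 : V₂ →ₗ[F] V₂ := π ∘ₗ B0 ∘ₗ π + (f₂.B c').smulRight c + m • (f₂.B c).smulRight c'
  have hB1 : ∀ y, B1 y = B0 (π y) + (f₂.B c' y - f₂.B c' (B0 (π y))) • c +
      (m * f₂.B c y) • c' := fun y => by
    simp only [B1, LinearMap.add_apply, LinearMap.comp_apply, hπ (B0 _),
      (hB _ (π1 y)).1, LinearMap.smul_apply, LinearMap.smulRight_apply]
    module
  have hB2 : ∀ y y', f₂.B (B1 y) (B1 y') = m * f₂.B y y' := fun y y' => by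
    have p1 := (hB _ (π1 y)).1
    have p2 := (hB _ (π1 y')).1
    have p3 := hBm _ _ (π1 y) (π1 y')
    rw [hB1, hB1]
    generalize B0 (π y) = u at *
    generalize B0 (π y') = u' at *
    simp [hπ, h1, h1', p2, f₂.quad_symm c u, f₂.quad_symm c' u, p1, f₂.quad_symm c y,
      f₂.quad_symm c' y, cc, cc'] at p3 ⊢
    linear_combination p3
  let B : V₂ ≃ₗ[F] V₂ := LinearEquiv.ofInjectiveEndo B1 (by
    rw [← LinearMap.ker_eq_bot, eq_bot_iff]
    intro d hd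
    refine S.nd₂ d fun y => ?_
    simpa [LinearMap.mem_ker.1 hd, m0] using hB2 d y)
  have Ba : ∀ d, B d = B1 d := fun _ => rfl
  have Bc : B c = c := by simp [Ba, hB1, hπ, h1', cc]
  have hk : ∀ w ∈ mem τ c, (kr h D B)⁻¹ w ∈ mem τ c := inv_mem_of_stab fun w hw => by
    obtain ⟨x, rfl⟩ := mem_mem.1 hw
    rw [kr_apply, Bc]; exact pure_mem _ _
  have hq : QO h f₂ c ((kr h D B)⁻¹ * z) := by
    refine ⟨fun x => by rw [mul_app, hD]; exact inv_app_eq (by rw [kr_apply, Bc]), fun v hv => ?_⟩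
    refine mem_of_perp_pure' (S := (mem τ c).toAddSubgroup) (g := ((((kr h D B)⁻¹ * z :
      V ≃ₗ[F] V) : V →ₗ[F] V) - LinearMap.id).toAddMonoidHom) h1 (fun x y hy => ?_) hv
    have := hk _ (Submodule.add_mem _ ((hB y hy).2 x)
      (pure_mem (τ := τ) ((f₂.B c' (B0 (π y))) • D x) c))
    have e5 : τ (D x) (B0 y) - τ (f₂.B c' (B0 (π y)) • D x) c = kr h D B (τ x y) := by
      rw [kr_apply, Ba, hB1]; simp [hπ y, hy, hB0, sub_smul]
    rwa [sub_add, e5, map_sub, inv_app] at this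
  have kO : kr h D B ∈ f.O := mem_O_of_B S.h2 fun v w => by
    refine h.inductionOn v (by simp) (fun x d => ?_) fun a b ha hb => by simp [ha, hb]
    refine h.inductionOn w (by simp) (fun x' d' => ?_) fun a b ha hb => by
      simp only [map_add, ha, hb]
    simp only [kr_apply, S.mul, hDm, Ba, hB2]
    field_simp
  exact ⟨D, B, ⟨_, inv_ne_zero m0, hDm⟩, ⟨m, m0, hB2⟩, kO, hq⟩

/-- The stabilizer of a member lies in the Kronecker subgroup. -/
theorem stab (hz : z ∈ X) (hW : ∀ w ∈ mem τ c, z w ∈ mem τ c) : z ∈ Kron τ := by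
  have := S.nt
  have h2 := S.h2
  obtain ⟨D, B, hD, hB, kO, hq⟩ := S.decomp hc c0 hz hW
  have uO := f.O.mul_mem (f.O.inv_mem kO) (S.leO hz)
  have hu : ∀ n e, kr h (D * n * D⁻¹) (B * e * B⁻¹) ∈ X →
      ((kr h D B)⁻¹ * z)⁻¹ * kr h n e * ((kr h D B)⁻¹ * z) ∈ X := fun n e H => by
    convert X.mul_mem (X.mul_mem (X.inv_mem hz) H) hz using 1
    rw [show kr h (D * n * D⁻¹) (B * e * B⁻¹) = kr h D B * kr h n e * (kr h D B)⁻¹ from
      equiv_ext h fun x y => by simp [kr_inv_apply]]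
    group
  have hu1 : ∀ e ∈ f₂.E, _ := fun e he => hu 1 e (by simpa using S.R (hB.conj_E h2 he))
  have hu2 : ∀ n, kr h n 1 ∈ X → _ := fun n hn => hu (D⁻¹ * n * D) 1 (by simpa [mul_assoc] using hn)
  suffices (kr h D B)⁻¹ * z ∈ Kron τ by simpa using (Kron τ).mul_mem (kr_mem h D B) this
  generalize (kr h D B)⁻¹ * z = u at hq uO hu1 hu2
  obtain ⟨θ, H⟩ := exists_th hc c0 S.toTQ (Subgroup.mem_top u) hq
  have h0 := H.theta_self h hc c0
  have k : ∀ e ∈ f₂.E, ∀ l : F, l ≠ 0 → e c = l • c → ∀ y, f₂.B c y = 0 →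
      ∃ m : F, l • θ (e⁻¹ y) - θ y = m • 1 := fun e he l l0 hl y hy => by
    have H' := th_mul H.inv (H.conj (h := h) (A := 1) (E_le_O he) trivial l0 hl)
    obtain ⟨m, hm⟩ := S.th_scalar hc c0 ⟨by
      simpa [mul_assoc] using X.mul_mem (hu1 e he) (X.inv_mem (S.R he)), H'.fix, H'.app⟩ hy
    exact ⟨m, by rw [← hm]; ext; simp [Tens.cj_apply, neg_add_eq_sub]⟩
  obtain ⟨t, ht, β, e⟩ := split hc c0 S.toTQ H uO fun y hy => by
    rcases S.dim with h5 | ⟨h3, a, a0, a1⟩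
    · refine of_sing hc c0 S.nd₂ h5 h0 (fun d h1 h2' h3 => ?_) hy
      obtain ⟨e, he, e1, μ, μ0, e2⟩ := second S.nd₂ h5 h2' h1
      obtain ⟨x, x1, x2⟩ := S.nd₂.exists_perp_eq' h3 1
      replace x1 := x1 c (Submodule.mem_span_singleton_self c)
      obtain ⟨m, hm⟩ := k e he 1 one_ne_zero (by simp [e1]) x x1
      obtain ⟨m', hm'⟩ := k _ (inv_mem he) 1 one_ne_zero (by simpa using inv_app_eq e1) x x1
      have e3 := congrArg θ (e2 x)
      simp only [map_add, map_smul, map_sub, x2, inv_inv] at e3 hm'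
      exact ⟨-(2 * μ)⁻¹ * (m + m'), smul_right_injective _ (mul_ne_zero h2 μ0) (by
        simp only [smul_smul, neg_mul, mul_neg, mul_inv_cancel_left₀ (mul_ne_zero h2 μ0)]
        linear_combination (norm := module) e3 - hm - hm')⟩
    · obtain ⟨e, he, e1, e2⟩ := torus S.nd₂ h3.ge hc c0 a0
      obtain ⟨m, hm⟩ := k e he _ (pow_ne_zero 2 a0) e1 y hy
      obtain ⟨t, ht⟩ := Submodule.mem_span_singleton.1 (e2 (e⁻¹ y) (by
        simp [← B_apply_left (E_le_O he), e1, hy]))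
      rw [app_inv, eq_sub_iff_add_eq, ← eq_sub_iff_add_eq'] at ht
      rw [ht, map_sub, map_smul, h0, smul_zero, sub_zero, ← one_smul F (θ y), smul_smul, mul_one,
        ← sub_smul] at hm
      exact ⟨_, by rw [mul_smul, ← hm, inv_smul_smul₀ (sub_ne_zero.2 a1)]⟩
  have m := ei_mem_E (f := f₂) c t (f₂.q t)
  have xO := f.O.mul_mem (f.O.inv_mem (S.leO (S.R m))) uO
  have sk := level_sk hc c0 S.toTQ xO e
  have hx : ∀ n e', u⁻¹ * kr h n (f₂.ei c t (f₂.q t) * e' * (f₂.ei c t (f₂.q t))⁻¹) * u ∈ X →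
      ((kr h 1 (f₂.ei c t (f₂.q t)))⁻¹ * u)⁻¹ * kr h n e' * ((kr h 1 (f₂.ei c t (f₂.q t)))⁻¹ * u) ∈ X :=
    fun n e' H => by
      convert H using 1
      rw [show kr h n (f₂.ei c t (f₂.q t) * e' * (f₂.ei c t (f₂.q t))⁻¹) = kr h 1 (f₂.ei c t (f₂.q t)) *
        kr h n e' * (kr h 1 (f₂.ei c t (f₂.q t)))⁻¹ from equiv_ext h fun x y => by simp [kr_inv_apply]]
      group
  have hx1 : ∀ e' ∈ f₂.E, _ := fun e' he => hx 1 e' (hu1 _ (mul_mem (mul_mem m he) (inv_mem m)))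
  have hx2 : ∀ n, kr h n 1 ∈ X → _ := fun n hn => hx _ 1 (by simpa using hu2 n hn)
  suffices (kr h 1 (f₂.ei c t (f₂.q t)))⁻¹ * u = 1 from inv_mul_eq_one.1 this ▸ kr_mem h _ _
  generalize (kr h 1 (f₂.ei c t (f₂.q t)))⁻¹ * u = x at e hx1 hx2
  have cc := f₂.B_self_eq_zero hc
  have e' : ∀ v, x⁻¹ v = v - τ (β (et h f₂ c v)) c := fun v => inv_app_eq (by simp [e, cc])
  suffices ∃ μ : F, β = μ • 1 from
    this.elim fun _ h => LinearEquiv.ext fun v => by simp [e, sk.scalar h2 S.nd₁ h]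
  rcases S.dim with h5 | ⟨h3, -⟩
  · obtain ⟨d, p1, p2, hd⟩ := exists_sing_perp S.nd₂ (sing3_quad f₂) (F ∙ c) (by
      rw [finrank_span_singleton c0]; omega)
    replace p1 := f₂.mem_perp_span_singleton.1 p1
    have hw : ∀ d, f₂.q d = 0 → d ≠ 0 → f₂.B d c = 0 →
        Has X fun v => τ (β (et h f₂ c v)) c - τ (β (et h f₂ d v)) d := fun d hd d0 p => by
      obtain ⟨a, ha, rfl⟩ := exists_trans h2 S.nd₂ (by omega) (Or.inl h5) hc c0 hd d0
      refine ⟨_, X.mul_mem (S.R ha) (hx1 _ (inv_mem ha)), fun v => ?_⟩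
      rw [mul_app, mul_app, mul_app, show kr h 1 a⁻¹ = (kr h 1 a)⁻¹ from
        equiv_ext h fun x y => by simp [kr_inv_apply], e', map_sub, app_inv,
        et_kr_inv _ (E_le_O ha), kr_apply, e]
      simp [p, add_sub_assoc]
    have p3 := f₂.B_eq_zero_symm p1
    obtain ⟨a, ha, ea⟩ := hw d hd (by rintro rfl; simp at p2) p3
    obtain ⟨b, hb, eb⟩ := hw (d + c) (by simp [quad_q_add, hd, hc, p3]) (fun e => p2 (by
      simp [eq_neg_of_add_eq_zero_left e])) (by simp [p3, cc])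
    obtain ⟨y, y1, y2⟩ := S.nd₂.exists_perp_eq' p2 1
    simpa [y2] using S.th_scalar hc c0 (θ := (f₂.B d).smulRight β) ⟨X.mul_mem (X.inv_mem hb) ha,
      fun x => inv_app_eq (by simp [ea, eb, p3, cc]), fun y hy x => inv_app_eq (by
        simp [ea, eb, p3, cc, hy])⟩ (y1 c (Submodule.mem_span_singleton_self c))
  refine (S.cm (F ∙ Tens.cj D β) (fun n hn hk ξ hξ => ?_) (fun a ha b hb => ?_) _
    (Submodule.mem_span_singleton_self _)).imp fun μ hμ => LinearMap.ext fun v => D.injective (by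
      simpa [Tens.cj_apply, inv_app] using LinearMap.congr_fun hμ (D v))
  · obtain ⟨a, rfl⟩ := Submodule.mem_span_singleton.1 hξ
    have nE : D⁻¹ * n * D ∈ f₁.E := by
      obtain ⟨m, m0, hD⟩ := hD
      simpa using Sim.conj_E h2 (D := D⁻¹) ⟨m⁻¹, inv_ne_zero m0, fun x y => by
        simp [← hD (D⁻¹ x), app_inv, eq_inv_mul_iff_mul_eq₀ m0]⟩ hn
    have e1 : ∀ v, (x⁻¹ * kr h (D⁻¹ * n * D) 1 * x) v = kr h (D⁻¹ * n * D) 1
        (v + τ ((β - Tens.cj (D⁻¹ * n * D)⁻¹ β) (et h f₂ c v)) c) := fun v => by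
      generalize D⁻¹ * n * D = n
      have : ∀ v, et h f₂ c (kr h n 1 v) = n (et h f₂ c v) := et_kr n f₂.O.one_mem c
      simp [e, e', this, cc, Tens.cj_apply, app_inv]
      abel
    have := S.lv c hc c0 _ ⟨_, X.mul_mem (X.inv_mem (S.d3 h3 c hc c0 _ nE _ _ (hx2 n hk) e1))
      (hx2 n hk), fun v => by rw [mul_app, e1, inv_app]⟩
    refine Submodule.mem_span_singleton.2 ⟨a, LinearMap.ext fun v => ?_⟩
    simpa [Tens.cj_apply, app_inv, inv_app] using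
      congrArg (fun w => a • n (D w)) (LinearMap.congr_fun (sub_eq_zero.1 this) (D⁻¹ (n⁻¹ v))).symm
  · obtain ⟨a, rfl⟩ := Submodule.mem_span_singleton.1 ha
    obtain ⟨b, rfl⟩ := Submodule.mem_span_singleton.1 hb
    simp [smul_smul, mul_comm]

end SW

end CL.WrO
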