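/-
Orthogonal tensor powers: rigid factors and their recognition.
-/
import Mathlib
import Cfsg.Agent.CLAS.WrO6

set_option autoImplicit false
set_option linter.unusedSectionVars false

namespace CL.WrO

open Module CL.ExtF CL.Tens CL.Wr CL.Witt CL.Witt.Form CL.Uniq

attribute [-simp] LinearEquiv.coe_inv
attribute [local simp] FormType.quad_σ FormType.quad_ε FormType.quad_π

variable {F V₁ V : Type*} [Field F] [AddCommGroup V₁] [Module F V₁] [AddCommGroup V] [Module F V]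
  {f : Form (FormType.quad F) V} {f₁ : Form (FormType.quad F) V₁} {σ σ' : Rep F V₁ V}
  {a b c c' d s v : V₁} {g k r z : V ≃ₗ[F] V} {D e : V₁ ≃ₗ[F] V₁} {X : Subgroup (V ≃ₗ[F] V)}
  {L L' : Submodule F V₁} {A : End F V₁} {ξ η : End F V} {w w' : V}

theorem fix_T (h : ∀ x ∈ L, A x = x) (hw : w ∈ T σ L) : σ A w = w := by
  simpa [sub_eq_zero] using hw (A - 1) fun x hx => by simp [h x hx]

theorem rho_mem_T (h : ∀ x, A x ∈ L) (w : V) : σ A w ∈ T σ L := fun B hB => by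
  rw [rho_mul, show B * A = 0 from LinearMap.ext fun x => hB _ (h x)]; simp

theorem Nd.inv (h : Nd σ σ' g D) : Nd σ' σ g⁻¹ D⁻¹ := fun A v => inv_app_eq (by
  rw [h, app_inv]; congr 2; ext; simp [app_inv])

theorem rt_sub_mem (hs : f₁.q s = 0) (hv : f₁.B s v = 0) (t : Multiplicative F) (w : V) :
    un σ (rt hs hv t) w - w ∈ T σ (Submodule.span F {s, v}) := by
  rw [← dl_apply, dl_un]
  exact rho_mem_T (fun x => Submodule.mem_span_pair.2
    ⟨-(t.toAdd * f₁.B v x) - t.toAdd ^ 2 * f₁.q v * f₁.B s x, t.toAdd * f₁.B s x, by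
      rw [dl_apply, rt_apply, wd_apply]; module⟩) w

theorem exists_quad (h2 : (2 : F) ≠ 0) (sk : Sk f ξ) (h0 : ∀ v, ξ (ξ v) = 0) :
    ∃ g ∈ f.O, ∀ v, g v = v + ξ v :=
  ⟨LinearEquiv.ofLinearMap (1 + ξ) (1 - ξ) (by ext; simp [h0]) (by ext; simp [h0]),
    mem_O_of_B h2 fun v w => by simp [sk _, h0], fun _ => rfl⟩

theorem mem_E_of_quad [FiniteDimensional F V] (h2 : (2 : F) ≠ 0) (hf : f.Nondeg) (hg : g ∈ f.O)
    (h0 : ∀ v, g (g v - v) = g v - v) : g ∈ f.E :=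
  mem_E_of_rad hf (LinearMap.range (dl g)) (by
    rintro _ ⟨v, rfl⟩
    have := mem_O_B hg (g v - v) v
    rw [h0, ← sub_eq_zero, ← map_sub] at this
    exact mul_left_cancel₀ h2 (by rw [← quad_B_self, dl_apply, this, mul_zero])) hg
    (by rintro _ ⟨v, rfl⟩; exact h0 v) fun v _ => ⟨v, rfl⟩

variable (f₁ X σ) in
/-- Stabilizers of singular members normalize the factor. -/
def St : Prop := ∀ s, f₁.q s = 0 → s ≠ 0 → ∀ z ∈ X, (∀ w ∈ T σ (F ∙ s), z w ∈ T σ (F ∙ s)) → Nz σ σ z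

variable (f f₁ X σ) in
/-- A rigid factor. -/
structure GS : Prop where
  ad : Ad f f₁ σ
  st : St f₁ σ X
  R : ∀ e ∈ f₁.E, un σ e ∈ X

theorem GS.cj (G : GS f f₁ σ X) (hX : X ≤ f.O) (hg : g ∈ X) : GS f f₁ (Wr.cj g σ) X :=
  ⟨G.ad.cj (hX hg), fun s hs s0 z hz H => by
    simpa [mul_assoc] using (nz_cj (g := g)).mul ((G.st s hs s0 _ (X.mul_mem (X.mul_mem
      (X.inv_mem hg) hz) hg) fun w hw => mem_T_cj.1 (H (g w) (mem_T_cj.2 (by
        rwa [inv_app])))).mul (nz_cj' (g := g))),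
    fun e he => X.mul_mem (X.mul_mem hg (G.R e he)) (X.inv_mem hg)⟩

variable (f₁ s v) in
/-- The root directions. -/
structure Rt : Prop where
  hs : f₁.q s = 0
  hv : f₁.B s v = 0
  s0 : s ≠ 0
  v0 : v ∉ F ∙ s
  q : f₁.q v = 0 ∨ finrank F V₁ = 3

variable [FiniteDimensional F V₁]

theorem T_perp (hf₁ : f₁.Nondeg) (ad : Ad f f₁ σ) (h : ∀ x ∈ L, ∀ y ∈ L', f₁.B x y = 0)
    (hw : w ∈ T σ L) (hw' : w' ∈ T σ L') : f.B w w' = 0 := by
  obtain ⟨C, hC⟩ := L.exists_isCompl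
  obtain ⟨A, hA⟩ := exists_adjL hf₁ (L.subtype ∘ₗ L.projectionOnto C hC)
  rw [← fix_T (A := L.subtype ∘ₗ L.projectionOnto C hC) (fun x hx => by
    exact congrArg Subtype.val (Submodule.projectionOnto_apply_left hC ⟨x, hx⟩)) hw,
    ad _ _ hA, hw' A fun y hy => hf₁.right _ fun x => by rw [← hA]; exact h _ (Subtype.prop _) y hy,
    map_zero]

theorem exists_Rt [Finite F] (hf₁ : f₁.Nondeg) (hd : Dim F (finrank F V₁)) (hs : f₁.q s = 0)
    (s0 : s ≠ 0) : ∃ v, Rt f₁ s v := by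
  rcases hd with h5 | ⟨h3, -⟩
  · obtain ⟨d, p1, p2, hd⟩ := CL.Root.exists_sing_perp hf₁ (CL.Root.sing3_quad f₁) (F ∙ s) (by
      rw [finrank_span_singleton s0]; omega)
    exact ⟨d, hs, f₁.mem_perp_span_singleton.1 p1, s0, p2, Or.inl hd⟩
  · obtain ⟨v, v1, v0⟩ := exists_rt hf₁ h3.ge hs s0
    refine ⟨v, hs, v1, s0, fun e => ?_, Or.inr h3⟩
    obtain ⟨a, rfl⟩ := Submodule.mem_span_singleton.1 e
    exact v0 (f₁.q_smul_eq_zero hs a)

theorem Rt.ne (R : Rt f₁ s v) (hf₁ : f₁.Nondeg) {t : Multiplicative F} (t1 : t ≠ 1) :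
    rt R.hs R.hv t ≠ 1 := fun e => by
  obtain ⟨x, hx⟩ := hf₁.exists_B_eq R.s0 1
  have := rt_apply R.hs R.hv t x
  rw [e, wd_apply, hx, LinearEquiv.coe_one, id] at this
  refine R.v0 ((Submodule.smul_mem_iff _ (show t.toAdd ≠ 0 from t1)).1
    (Submodule.mem_span_singleton.2 ⟨t.toAdd * f₁.B v x + t.toAdd ^ 2 * f₁.q v, ?_⟩))
  linear_combination (norm := module) this

theorem comm_of_Rt [Finite F] (hf₁ : f₁.Nondeg) (h2 : (2 : F) ≠ 0) (hd : Dim F (finrank F V₁))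
    (H : ∀ s v (R : Rt f₁ s v), Commute ξ (σ (rt R.hs R.hv (.ofAdd 1)))) (A : End F V₁) :
    Commute ξ (σ A) := comm_of_P hf₁ hd.three (fun s hs => by
  rcases eq_or_ne s 0 with rfl | s0
  · simp
  obtain ⟨v, v1, v0⟩ := exists_rt hf₁ hd.three hs s0
  rcases hd with h5 | ⟨h3, -⟩
  · have := CL.Root.mem_of_singular_perp hf₁ (CL.Root.sing3_quad f₁) h5 s
      (((Subalgebra.centralizer F {ξ}).toSubmodule.comap (σ.toLinearMap ∘ₗ wd f₁ s))).toAddSubgroup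
      (fun d h1 hd => by
        rintro _ rfl
        by_cases e : d ∈ F ∙ s
        · obtain ⟨a, rfl⟩ := Submodule.mem_span_singleton.1 e
          simp [wd_self]
        have := (H s d ⟨hs, h1, s0, e, Or.inl hd⟩).sub_right (Commute.one_right _)
        rwa [← map_one σ, ← map_sub, show (rt hs h1 (.ofAdd 1) : End F V₁) - 1 = wd f₁ s d by
          ext; simp [rt_apply, hd]] at this) v v1 ξ rfl
    have := Commute.mul_right this this
    rwa [LinearMap.comp_apply, AlgHom.toLinearMap_apply, ← map_mul,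
      show wd f₁ s v * wd f₁ s v = -(2 * f₁.q v) • tv f₁ s s by
        ext; simp [wd_apply, v1, f₁.B_eq_zero_symm v1, f₁.B_self_eq_zero hs, quad_B_self, smul_smul,
          mul_comm], map_smul, Commute.smul_right_iff₀ (by simp [h2, v0])] at this
  · exact comm_P h2 hs v1 v0 (by simp) (H s v ⟨hs, v1, s0, fun e => by
      obtain ⟨a, rfl⟩ := Submodule.mem_span_singleton.1 e
      exact v0 (f₁.q_smul_eq_zero hs a), Or.inr h3⟩)) A

variable [FiniteDimensional F V] [Nontrivial V]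

/-- A quadratic element normalizing a factor lies in the factor or centralizes it. -/
theorem sm2 [Nontrivial V₁] (h2 : (2 : F) ≠ 0) (h : Nz σ σ r) (h0 : ∀ v, r (r v - v) = r v - v) :
    (∃ A, (r : End F V) = σ A) ∨ ∀ A, Commute (r : End F V) (σ A) := by
  obtain ⟨D, h1⟩ := h.exists_equiv
  refine or_iff_not_imp_right.2 fun hc => ?_
  obtain ⟨x, hx⟩ : ∃ x, D x ∉ F ∙ x := by
    by_contra! H
    obtain ⟨l, hl⟩ := exists_smul_of_mem_span (f := (D : End F V₁)) H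
    exact hc (Nd.comm h1 hl)
  obtain ⟨U, τ, hτ⟩ := exists_tn σ
  obtain ⟨B, hB⟩ := Nd.kron hτ h1
  obtain ⟨φ, p1, p2⟩ := CL.Tv.exists_dual_one (F ∙ D x) (x := x) fun e => hx (by
    obtain ⟨a, e⟩ := Submodule.mem_span_singleton.1 e
    have a0 : a ≠ 0 := by rintro rfl; simp at e; simp [← e] at hx
    exact Submodule.mem_span_singleton.2 ⟨a⁻¹, (inv_smul_eq_iff₀ a0).2 e.symm⟩)
  obtain ⟨ψ, q1, q2⟩ := CL.Tv.exists_dual_one _ hx
  have e1 : ∀ u, φ (D (D x)) • B (B u) = -u := fun u => by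
    simpa [hB, p1, p2 _ (Submodule.mem_span_singleton_self _)] using
      congrArg (ct hτ.tp φ) (h0 (τ u x))
  have e2 : ∀ u, ψ (D (D x)) • B (B u) = (2 : F) • B u := fun u => by
    simpa [hB, q1, q2 _ (Submodule.mem_span_singleton_self _), sub_eq_iff_eq_add, two_smul] using
      congrArg (ct hτ.tp ψ) (h0 (τ u x))
  have := hτ.nt
  obtain ⟨u, hu⟩ := exists_ne (0 : U)
  have p0 : φ (D (D x)) ≠ 0 := fun e => by simpa [e, hu] using (e1 u).symm
  refine ⟨-(2⁻¹ * ψ (D (D x)) * (φ (D (D x)))⁻¹) • D, hτ.eq_rho fun u y => ?_⟩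
  have := e2 u
  rw [(eq_inv_smul_iff₀ p0).2 (e1 u), ← inv_smul_eq_iff₀ h2] at this
  simp [hB, ← this, smul_smul, mul_assoc]

theorem rt_dich [Finite F] (h2 : (2 : F) ≠ 0) (hf : f.Nondeg) (hf₁ : f₁.Nondeg)
    (hd : Dim F (finrank F V₁)) (ad : Ad f f₁ σ) (ad' : Ad f f₁ σ') (R : Rt f₁ s v)
    (H : ∀ t, Nz σ σ (un σ' (rt R.hs R.hv t))) : (∃ A, σ' (rt R.hs R.hv (.ofAdd 1)) = σ A) ∨
      ∀ A, Commute (σ' (rt R.hs R.hv (.ofAdd 1))) (σ A) := by
  have := nontrivial_of_ne s 0 R.s0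
  rcases R.q with h | h3
  · exact sm2 h2 (H _) fun w => sub_eq_zero.1 (by
      simpa [pow_two, h, dl_apply] using LinearMap.congr_fun (un_rt_sq (σ := σ') R.hs R.hv (.ofAdd 1)) w)
  obtain ⟨t, t0, t1, t2⟩ : ∃ t : F, t ≠ 0 ∧ t ≠ 1 ∧ t ≠ 2 := by
    obtain ⟨-, t, t0, t1⟩ := hd.resolve_left (by omega)
    rcases eq_or_ne t 2 with rfl | t2
    · exact ⟨-1, by simp, fun e => h2 (by linear_combination -e), fun e => t1 (by linear_combination -e)⟩
    · exact ⟨t, t0, by rintro rfl; simp at t1, t2⟩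
  refine sm3 h2 hf hf₁ h3 ad (ad'.un_mem h2 (E_le_O (rt_mem _ _ _))) (H _) (H (.ofAdd t))
    (pow_ringChar ((un σ').comp (rt R.hs R.hv)) _) ?_ ?_ fun w => (rt_lag R.hs R.hv σ' t
      (x := 0) (y := 1) (z := 1 + 1) zero_ne_one (by simpa [one_add_one_eq_two] using h2.symm) (by simp)
      w).trans (by rw [ofAdd_add, map_mul, map_mul, ofAdd_zero, map_one, map_one]; rfl) <;>
  simp [one_add_one_eq_two, sub_eq_zero, show (1 : F) ≠ 2 by simp [← one_add_one_eq_two], *]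

theorem slot_inj {I : Type*} [DecidableEq I] {ρ : I → Rep F V₁ V} {S : Finset I} {i j : I}
    {𝒜 : Subalgebra F (End F V)} (Φ : Fam ρ S 𝒜) (hi : i ∈ S) (hj : j ∈ S)
    (h2 : 2 ≤ finrank F V₁) (h : Nz (ρ i) (ρ j) 1) : i = j := by_contra fun hij => by
  have : Nontrivial V₁ := Module.nontrivial_of_finrank_pos (R := F) (by omega)
  obtain ⟨c, hc⟩ := exists_ne (0 : V₁)
  obtain ⟨D, hD⟩ := h.exists_equiv
  exact T_ne Φ hi hj hij h2 hc fun w => Nd.map_T hD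

theorem nNF [Finite F] {I : Type*} [DecidableEq I] {ρ : I → Rep F V₁ V} {S : Finset I} {i j : I}
    {𝒜 : Subalgebra F (End F V)} (Φ : Fam ρ S 𝒜) (h3 : 3 ≤ finrank F V₁) (hi : i ∈ S) (hj : j ∈ S)
    (hij : i ≠ j) {ψ : Dual F V₁} (hc : c ≠ 0) (hψ : ψ ≠ 0) (hξ : ∀ A, Commute ξ (ρ i A))
    {B : End F V₁} (hB : ¬ Commute ξ (ρ j B)) (e : ∀ v, g v = v + ρ i (ψ.smulRight c) (ξ v)) :
    g ∉ NF ρ S := fun hg => by
  have n0 : (ψ.smulRight c : End F V₁) ≠ 0 := fun h => rk_ne (ρ i) hc hψ (by simp [h])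
  obtain ⟨C, hC⟩ : ∃ C, ψ.smulRight c * C - C * ψ.smulRight c ≠ 0 := by
    obtain ⟨x, hx⟩ := DFunLike.ne_iff.1 hψ
    obtain ⟨χ, hχ⟩ := Module.Projective.exists_dual_eq_one F hc
    obtain ⟨d, d1, d2⟩ := exists_ker_notMem h3 ψ c
    exact ⟨χ.smulRight d, fun e => by
      simpa [d1, hχ, show ψ x ≠ 0 from hx, show d ≠ 0 by rintro rfl; simp at d2] using
        LinearMap.congr_fun e x⟩
  have eg : ρ i (ψ.smulRight c) * ξ = g - 1 := LinearMap.ext fun v => by simp [e]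
  obtain ⟨k, hk, h⟩ := hg i hi
  rcases eq_or_ne k i with rfl | hki
  · rcases h.small (S := Wr.T (ρ k) (F ∙ c)) (fun v => by
      simpa [e] using rk_mem_T (Submodule.mem_span_singleton_self c) ψ _) (finrank_T _ hc)
      (Or.inl h3) with ⟨A, h⟩ | h
    · have := ((h ▸ Φ.comm k hk j hj hij A B).sub_left (Commute.one_left _)).eq
      rw [← eg, ← mul_assoc, ← (Φ.comm k hk j hj hij _ B).eq, mul_assoc, mul_assoc] at this
      exact hB (sub_eq_zero.1 (eq_zero_of_mul n0 (fun C => ((hξ C).mul_left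
        (Φ.comm j hj k hk hij.symm B C)).sub_left ((Φ.comm j hj k hk hij.symm B C).mul_left (hξ C)))
        (by rw [mul_sub, this, sub_self])))
    · have := ((h C).sub_left (Commute.one_left _)).eq
      rw [← eg, mul_assoc, (hξ _).eq, ← mul_assoc, ← mul_assoc, ← sub_eq_zero, ← sub_mul,
        ← map_mul, ← map_mul, ← map_sub] at this
      exact hB (by rw [eq_zero_of_mul hC hξ this]; exact Commute.zero_left _)
  · obtain ⟨A, hA⟩ := h (ψ.smulRight c)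
    have e1 : ρ i (ψ.smulRight c) = ρ k A := LinearMap.ext fun v => by
      obtain ⟨v, rfl⟩ := g.surjective v
      rw [← hA]; simp [e, cm_app hξ]
    have := (Φ.comm k hk i hi hki A C).eq
    rw [← e1, ← map_mul, ← map_mul] at this
    exact hC (sub_eq_zero.2 (rho_inj _ this))

theorem sing_of_T (h2 : (2 : F) ≠ 0) (hf : f.Nondeg) (ad : Ad f f₁ σ)
    (H : ∀ w ∈ T σ (F ∙ d), ∀ w' ∈ T σ (F ∙ d), f.B w w' = 0) : f₁.q d = 0 := by_contra fun h => by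
  obtain ⟨w, hw, w0⟩ := exists_mem_T σ (show d ≠ 0 by rintro rfl; simp [q_zero] at h)
  refine w0 (hf w fun v => ?_)
  have := H w hw _ (rk_mem_T (Submodule.mem_span_singleton_self d) (f₁.B d) v)
  rw [← tv_eq, ← ad _ _ (tv_adj d d), show σ (tv f₁ d d) w = (2 * f₁.q d) • w by
    simpa [sub_eq_zero] using hw (tv f₁ d d - (2 * f₁.q d) • 1) fun x hx => by
      obtain ⟨a, rfl⟩ := Submodule.mem_span_singleton.1 hx
      simp [quad_B_self]] at this
  simpa [h2, h] using this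

theorem nm2 [Finite F] {I : Type*} [DecidableEq I] {ρ : I → Rep F V₁ V} {S : Finset I} {j : I}
    {𝒜 : Subalgebra F (End F V)} (h2 : (2 : F) ≠ 0) (Φ : Fam ρ S 𝒜) (h3 : 3 ≤ finrank F V₁)
    (hz : z ∈ NF ρ S) (h0 : ∀ v, z (z v - v) = z v - v) (hj : j ∈ S) : Nz (ρ j) (ρ j) z := by
  by_contra hn
  have e : ∀ v, z v = v + dl z v := fun v => by simp [dl_apply]
  have e0 : ∀ v, dl z (dl z v) = 0 := fun v => sub_eq_zero.2 (h0 v)
  obtain ⟨m₁, h1, p1⟩ := hz j hj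
  obtain ⟨m₂, h2', p2⟩ := inv_mem hz j hj
  refine no_three Φ h3 hj h1 h2' h1 (by rintro rfl; exact hn p1) (by rintro rfl; exact hn p2.inv)
    (by rintro rfl; exact hn p1) ?_ p1 p2 p1 (α := 2⁻¹) (β := 2⁻¹) (γ := 0) fun w => by
      rw [quad_inv e e0, e]; match_scalars <;> field_simp <;> norm_num
  rintro rfl
  exact hn (mem_of_sq (H := nor (ρ j)) (odd_ringChar h2) (LinearEquiv.ext fun v => by
    simp [quad_pow e e0]) (p2.inv.mul p1))

variable {I : Type*} [Fintype I] [DecidableEq I] {ρ : I → Rep F V₁ V} {i j l m : I}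
  {E' : Subgroup (V ≃ₗ[F] V)}

variable (f f₁ ρ) in
/-- `f` is a tensor power of the form `f₁`. -/
structure PO : Prop where
  fam : Fam ρ Finset.univ ⊤
  nd : f.Nondeg
  nd₁ : f₁.Nondeg
  h2 : (2 : F) ≠ 0
  ad : ∀ i, Ad f f₁ (ρ i)
  sw : ∀ a b, ∃ p ∈ f.O, ∀ l A v, p (ρ l A v) = ρ (Equiv.swap a b l) A (p v)
  dim : Dim F (finrank F V₁)
  odd : Odd (finrank F V)

variable [Finite F]

variable (f₁ σ X) in
/-- The central level. -/
def Lv : Submodule F (End F V) where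
  carrier := {η | (∀ A, Commute η (σ A)) ∧ ∀ s, f₁.q s = 0 → Has X fun v => σ (tv f₁ s s) (η v)}
  zero_mem' := ⟨fun _ => Commute.zero_left _, fun _ _ => Has.zero.congr fun v => by simp⟩
  add_mem' ha hb := ⟨fun A => (ha.1 A).add_left (hb.1 A), fun s hs => ((ha.2 s hs).add (hb.2 s hs)
    fun v => by simp [cm_app ha.1, rho_mul, tv_mul, f₁.B_self_eq_zero hs]).congr fun v => by simp⟩
  smul_mem' t η h := ⟨fun A => (h.1 A).smul_left t, fun s hs => by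
    obtain ⟨a, b, rfl⟩ := exists_eq_sq_sub_sq t
    have k : ∀ a : F, Has X fun v => a ^ 2 • σ (tv f₁ s s) (η v) := fun a =>
      (h.2 (a • s) (f₁.q_smul_eq_zero hs a)).congr fun v => by simp [smul_smul, sq]
    exact ((k a).sub (k b) (fun v w => by simp [cm_app h.1, rho_mul, tv_mul, f₁.B_self_eq_zero hs])
      fun v w => by simp [cm_app h.1, rho_mul, tv_mul, f₁.B_self_eq_zero hs]).congr
      fun v => by simp [sub_smul]⟩

variable (f f₁ ρ j E') in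
/-- The elementary group of the cofactor of the `j`-th factor. -/
structure LE : Prop where
  le : E' ≤ f.E ⊓ cen (ρ j)
  conj : ∀ c ∈ f.O ⊓ cen (ρ j), ∀ e ∈ E', c * e * c⁻¹ ∈ E'
  un : ∀ l, l ≠ j → ∀ e ∈ f₁.E, un (ρ l) e ∈ E'
  lev : ∀ g ∈ f.O ⊓ cen (ρ j), (∀ v, g (g v - v) = g v - v) → g ∈ E'
  cmt : ∀ l m, l ≠ j → m ≠ j → l ≠ m → ⁅f.O ⊓ cen (ρ j), f.O ⊓ cen (ρ j)⁆ ≤ E'
  ih : ∀ Y ≤ f.O ⊓ cen (ρ j), NF ρ Finset.univ ⊓ E' ≤ Y → E' ≤ Y ∨ Y ≤ NF ρ Finset.univ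
  full : ∀ X ≤ f.O, E' ≤ X → ∀ η ∈ Lv f₁ (ρ j) X, η ≠ 0 → f.E ≤ X

variable (f f₁ ρ X) in
/-- An overgroup of the wreath product in which the factors are rigid. -/
structure CO : Prop extends PO f f₁ ρ where
  le : X ≤ f.O
  ge : NF ρ Finset.univ ⊓ f.E ≤ X
  st : ∀ i, St f₁ (ρ i) X
  cn : ∀ m, X ⊓ cen (ρ m) ≤ NF ρ Finset.univ
  loc : ∀ j, ∃ E', LE f f₁ ρ j E'

theorem PO.nt (S : PO f f₁ ρ) : Nontrivial V₁ :=
  Module.nontrivial_of_finrank_pos (R := F) (by have := S.dim.three; omega)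

theorem PO.comm (S : PO f f₁ ρ) (h : i ≠ j) (A B : End F V₁) : Commute (ρ i A) (ρ j B) :=
  S.fam.comm i (Finset.mem_univ _) j (Finset.mem_univ _) h A B

theorem PO.un_mem (S : PO f f₁ ρ) (i : I) (e : V₁ ≃ₗ[F] V₁) : un (ρ i) e ∈ NF ρ Finset.univ :=
  S.fam.un_mem (Finset.mem_univ _) e

theorem PO.exists_slot (S : PO f f₁ ρ) (h3 : dl r ^ 3 = 0) (r1 : r ≠ 1) (H : ∀ j,
    (∃ A, (r : End F V) = ρ j A) ∨ ∀ A, Commute (r : End F V) (ρ j A)) :
    ∃ j A, (r : End F V) = ρ j A := by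
  by_contra! K
  obtain ⟨μ, e⟩ := S.fam.cent r trivial fun j _ => (H j).resolve_left (not_exists.2 (K j))
  obtain ⟨v, hv⟩ := exists_ne (0 : V)
  have := LinearMap.congr_fun h3 v
  rw [dl, e, ← one_smul F (1 : End F V), smul_smul, mul_one, ← sub_smul, smul_pow] at this
  simp [hv, sub_eq_zero] at this
  exact r1 (LinearEquiv.toLinearMap_injective (by simp [e, this, End.one_eq_id]))

namespace CO

variable (S : CO f f₁ X ρ)
include S

theorem gs (i : I) : GS f f₁ (ρ i) X :=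
  have := S.nt
  ⟨S.ad i, S.st i, fun e he => S.ge ⟨S.un_mem i e, (S.ad i).un_mem_E S.h2 S.nd S.nd₁ he⟩⟩

variable (G : GS f f₁ σ X)
include G

theorem uniq (hc : f₁.q c = 0) (c0 : c ≠ 0) (d0 : d ≠ 0) (h : T σ (F ∙ c) = T (ρ j) (F ∙ d)) :
    Nz σ (ρ j) 1 := fun A => by
  refine (S.fam.mem_range (Finset.mem_univ j) trivial fun k _ hkj =>
    comm_of_Rt S.nd₁ S.h2 S.dim fun s v R => ?_).imp fun _ e v => LinearMap.congr_fun e v
  have st := fun A w hw => h.ge (T_comm (S.comm hkj A) (h.le (x := w) hw))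
  refine ((rt_dich S.h2 S.nd S.nd₁ S.dim G.ad (S.ad k) R fun t => G.st c hc c0 _
    ((S.gs k).R _ (rt_mem _ _ t)) (st _)).resolve_left ?_ A).symm
  rintro ⟨B, hB⟩
  obtain ⟨w, hw, w0⟩ := exists_mem_T σ c0
  obtain ⟨μ, hμ⟩ := Submodule.mem_span_singleton.1 (show B c ∈ F ∙ c from by_contra fun e =>
    w0 ((un (ρ k) (rt R.hs R.hv (.ofAdd 1))).injective (by
      simpa [un_apply] using T_disj e (st _ w hw) (hB ▸ WrS.rho_T B hw))))
  have k1 : ∀ w ∈ T σ (F ∙ c), ρ k (dl (rt R.hs R.hv (.ofAdd 1))) w = (μ - 1) • w := fun w hw => by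
    simpa [dl, hB, sub_smul, sub_eq_zero] using hw (B - μ • 1) fun x hx => by
      obtain ⟨a, rfl⟩ := Submodule.mem_span_singleton.1 hx
      simp [← hμ]
  have k2 := LinearMap.congr_fun (congrArg (ρ k) (rt_cube R.hs R.hv (.ofAdd 1))) w
  simp [pow_succ, k1 w hw, w0] at k2
  exact R.ne S.nd₁ (t := .ofAdd 1) (by simp) (LinearEquiv.toLinearMap_injective (sub_eq_zero.1
    (rho_inj (ρ k) ((eq_zero_of_T (S.comm hkj (dl _)) d0 fun w hw => by
      simpa [k2] using k1 w (h.ge hw)).trans (map_zero _).symm))))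

theorem fin (hs : f₁.q s = 0) (s0 : s ≠ 0) (hv : f₁.B s v = 0) (v0 : f₁.q v ≠ 0)
    (h : σ (rt hs hv (.ofAdd 1)) = ρ j A) : Nz σ (ρ j) 1 := by
  obtain ⟨d, d0, e⟩ := T_eq_of (σ := σ) (σ' := ρ j) (A := -(2 * f₁.q v)⁻¹ • (A - 1) ^ 2) s0
    (B_ne S.nd₁ s0) (by
      have := un_rt_sq (σ := σ) hs hv (.ofAdd 1)
      rw [dl, coe_un, h] at this
      simp [this, smul_smul, -mul_inv_rev, S.h2, v0, tv_eq])
  exact S.uniq G hs s0 d0 e

theorem recog3 (h3 : finrank F V₁ = 3) (R : Rt f₁ s v) (v0 : f₁.q v ≠ 0)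
    (H : ∀ t, un σ (rt R.hs R.hv t) ∈ NF ρ Finset.univ) : ∃ j, Nz σ (ρ j) 1 := by
  obtain ⟨j, A, e⟩ := S.exists_slot (r := un σ (rt R.hs R.hv (.ofAdd 1)))
    (by rw [dl_un, ← map_pow, rt_cube, map_zero])
    (fun e => R.ne S.nd₁ (by simp) ((un_inj σ).eq_iff' (map_one _) |>.1 e)) fun j =>
    rt_dich S.h2 S.nd S.nd₁ S.dim (S.ad j) G.ad R (no_move S.h2 (S.dim.ex.resolve_left (by omega))
      S.fam h3.ge _ _ H (Finset.mem_univ j))
  exact ⟨j, S.fin G R.hs R.s0 R.hv v0 e⟩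

omit G in
theorem iso (hc : f₁.q c = 0) (hc' : f₁.q c' = 0) (e0 : f₁.B c c' = 0) :
    ∀ x ∈ Submodule.span F {c, c'}, ∀ y ∈ Submodule.span F {c, c'}, f₁.B x y = 0 := fun x hx y hy => by
  obtain ⟨a, b, rfl⟩ := Submodule.mem_span_pair.1 hx
  obtain ⟨a', b', rfl⟩ := Submodule.mem_span_pair.1 hy
  simp [e0, f₁.B_eq_zero_symm e0, f₁.B_self_eq_zero hc, f₁.B_self_eq_zero hc']

theorem recogL (h5 : 5 ≤ finrank F V₁) (hc : f₁.q c = 0) (c0 : c ≠ 0) (hc' : f₁.q c' = 0)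
    (e0 : f₁.B c c' = 0) (hz : z ∈ X) (hN : z ∈ NF ρ Finset.univ) (z1 : z ≠ 1)
    (hW : ∀ v, z v - v ∈ T σ (Submodule.span F {c, c'})) : ∃ j, Nz σ (ρ j) 1 := by
  have := S.nt
  have iW := fun w w' => T_perp (w := w) (w' := w') S.nd₁ G.ad (S.iso hc hc' e0)
  have h0 := fun v => fix_of_perp S.nd (S.le hz) hW fun w hw => iW w _ hw (hW v)
  obtain ⟨j, A, e⟩ := S.exists_slot (by ext v; simp [pow_succ, dl_apply, -map_sub, h0]) z1 fun j =>
    sm2 S.h2 (nm2 S.h2 S.fam S.dim.three hN h0 (Finset.mem_univ j)) h0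
  have e' : ∀ v, z v - v = ρ j (A - 1) v := fun v => by simp [← e]
  obtain ⟨x, hx⟩ : ∃ x, (A - 1) x ≠ 0 := by
    by_contra! H
    exact z1 (LinearEquiv.ext fun v => sub_eq_zero.1 (by simp [e', show A - 1 = 0 from LinearMap.ext H]))
  obtain ⟨φ, hφ⟩ := Module.Projective.exists_dual_eq_one F hx
  have le : T (ρ j) (F ∙ (A - 1) x) ≤ T σ (Submodule.span F {c, c'}) := fun w hw => by
    have := hW (ρ j (φ.smulRight x) w)
    rwa [e', rho_mul, show (A - 1) * φ.smulRight x = φ.smulRight ((A - 1) x) by ext; simp [smul_sub],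
      rk_self hφ hw] at this
  obtain ⟨y, hy, y0⟩ := CL.Root.exists_nonsing_perp S.nd₁ (Submodule.span F {c, c'}) (by
    have := CL.Tv.finrank_span_pair_le (F := F) c c'
    omega)
  have hy' := f₁.mem_perp_span_pair.1 hy
  obtain ⟨D, hD⟩ := (S.st j _ (sing_of_T S.h2 S.nd (S.ad j) fun w hw w' hw' =>
    iW w w' (le hw) (le hw')) hx _ (G.R _ (rt_mem hc hy'.1 (.ofAdd 1))) fun w hw => by
      rwa [un_apply, fix_T (fun x hx => by
        obtain ⟨a, b, rfl⟩ := Submodule.mem_span_pair.1 hx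
        simp [rt_apply, wd_apply, e0, f₁.B_self_eq_zero hc, f₁.B_eq_zero_symm hy'.1,
          f₁.B_eq_zero_symm hy'.2]) (le hw)]).exists_equiv
  obtain ⟨U, τ, hτ⟩ := exists_tn (ρ j)
  obtain ⟨B, hB⟩ := Nd.kron hτ hD
  have e1 : ∀ u, φ ((A - 1) (D x)) • B u = u := fun u => by
    have := fix_of_perp S.nd (S.le hz) hW fun w hw => T_perp S.nd₁ G.ad (fun a ha b hb => by
      obtain ⟨s, t, rfl⟩ := Submodule.mem_span_pair.1 hb
      simp [hy a ha, S.iso hc hc' e0 a ha c (Submodule.subset_span (by simp))]) hw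
      (rt_sub_mem hc hy'.1 (.ofAdd 1) (τ u x))
    rw [← sub_eq_zero, e', map_sub, sub_eq_zero, hB, hτ.app, hτ.app] at this
    simpa [-LinearMap.sub_apply, hφ] using congrArg (ct hτ.tp φ) this
  have := hτ.nt
  obtain ⟨u, hu⟩ := exists_ne (0 : U)
  have p0 : φ ((A - 1) (D x)) ≠ 0 := fun e => hu (by rw [← e1 u, e, zero_smul])
  exact ⟨j, S.fin G hc c0 hy'.1 y0 (A := (φ ((A - 1) (D x)))⁻¹ • (D : End F V₁)) (hτ.eq_rho fun u y => by
    simp [← un_apply, hB, (eq_inv_smul_iff₀ p0).2 (e1 u), -LinearMap.sub_apply])⟩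

theorem recog (H : ∀ e ∈ f₁.E, un σ e ∈ NF ρ Finset.univ) : ∃ j, Nz σ (ρ j) 1 := by
  obtain ⟨s, -, s0, hs⟩ := f₁.quad_iso3 ⊤ (by simpa using S.dim.three)
  obtain ⟨v, R⟩ := exists_Rt S.nd₁ S.dim hs s0
  by_cases v0 : f₁.q v = 0
  · exact S.recogL G ((S.dim.idx S.nd₁).resolve_right fun h => R.v0 (h s v hs v0 R.hv s0)) hs s0 v0
      R.hv (G.R _ (rt_mem _ _ (.ofAdd 1))) (H _ (rt_mem _ _ _))
      (fun e => R.ne S.nd₁ (by simp) ((un_inj σ).eq_iff' (map_one _) |>.1 e)) (rt_sub_mem _ _ _)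
  · exact S.recog3 G (R.q.resolve_left v0) R v0 fun _ => H _ (rt_mem _ _ _)

omit G

theorem K (hg : g ∈ X) (h : Nz (ρ i) (ρ j) g) : g ∈ NF ρ Finset.univ := fun k _ => by
  rcases eq_or_ne k i with rfl | hki
  · exact ⟨j, Finset.mem_univ _, h⟩
  have G := (S.gs k).cj S.le hg
  obtain ⟨l, hl⟩ := S.recog G fun e he => S.cn j ⟨G.R e he, fun B => by
    obtain ⟨B', e'⟩ := h.inv B
    rw [show ρ j B = g.conjAlgEquiv F (ρ i B') from LinearMap.ext fun v =>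
      (app_inv g _).symm.trans (congrArg g (e' v))]
    exact (commute_cj (S.comm hki e B').symm).symm⟩
  exact ⟨l, Finset.mem_univ _, by simpa using hl.mul nz_cj⟩

theorem K' (hg : g ∈ X) (h : ∃ j, Nz (Wr.cj g (ρ i)) (ρ j) 1) : g ∈ NF ρ Finset.univ :=
  h.elim fun _ h => S.K hg (by simpa using h.mul nz_cj)

end CO

end CL.WrO
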