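/-
Orthogonal tensor powers: overgroups with rigid factors permute the factors.
-/
import Mathlib
import Cfsg.Agent.CLAS.WrO7

set_option autoImplicit false
set_option linter.unusedSectionVars false

namespace CL.WrO

open Module CL.ExtF CL.Tens CL.Wr CL.Witt CL.Witt.Form CL.Uniq

attribute [-simp] LinearEquiv.coe_inv
attribute [local simp] FormType.quad_σ FormType.quad_ε FormType.quad_π

variable {F V₁ V : Type*} [Field F] [AddCommGroup V₁] [Module F V₁] [AddCommGroup V] [Module F V]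
  {f : Form (FormType.quad F) V} {f₁ : Form (FormType.quad F) V₁} {σ σ' : Rep F V₁ V}
  {a b c c' d s v : V₁} {g k r z : V ≃ₗ[F] V} {D e : V₁ ≃ₗ[F] V₁} {X : Subgroup (V ≃ₗ[F] V)}
  {L L' : Submodule F V₁} {A : End F V₁} {ξ η : End F V} {w w' : V}
  [FiniteDimensional F V₁] [FiniteDimensional F V]

theorem Ad.sk' (ad : Ad f f₁ σ) (h : Sk f₁ A) : Sk f (σ A) := fun v w => by
  simpa using ad A (-A) (fun x y => by simpa using h x y) v w

theorem Ad.sk_mul (ad : Ad f f₁ σ) (h : Sk f η) (hη : ∀ A, Commute η (σ A)) (s : V₁) :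
    Sk f (σ (tv f₁ s s) * η) := fun v w => by
  rw [End.mul_apply, ad _ _ (tv_adj s s), h, cm_app hη]; rfl

theorem coe_rt (hs : f₁.q s = 0) (hv : f₁.B s v = 0) (t : F) : (rt hs hv (.ofAdd t) : End F V₁) =
    1 + t • wd f₁ s v - (t ^ 2 * f₁.q v) • tv f₁ s s := by
  ext; simp [rt_apply, smul_smul]

theorem stab_of_ht (h2 : (2 : F) ≠ 0) (hb : f₁.q b ≠ 0) (h : Commute k (un σ (ht f₁ b))) (w : V)
    (hw : w ∈ T σ (F ∙ b)) : k w ∈ T σ (F ∙ b) :=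
  mem_of_fix h2 (by rw [← mul_app, ← h.eq, mul_app, fix_ht hb hw])

theorem exists_cen (h2 : (2 : F) ≠ 0) (hf : f.Nondeg) (hf₁ : f₁.Nondeg) (ad : Ad f f₁ σ)
    (hb : f₁.q b ≠ 0) (hk : k ∈ f.O) (h : ∀ w ∈ T σ (F ∙ b), k w ∈ T σ (F ∙ b)) :
    ∃ γ ∈ f.O ⊓ cen σ, ∀ w ∈ T σ (F ∙ b), k w = γ w := by
  have b0 : b ≠ 0 := by rintro rfl; simp [q_zero] at hb
  have := nontrivial_of_ne b 0 b0
  obtain ⟨U, τ, hτ⟩ := exists_tn σ
  obtain ⟨fU, Q⟩ := ad.exists_TQ h2 hf hf₁ hτ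
  rw [hτ.T_span] at h ⊢
  obtain ⟨D, hD⟩ := exists_left_of_stab hτ.tp b0 h
  refine ⟨kr hτ.tp D 1, ⟨mem_O_of_B h2 (Q.kr_B (mem_O_of_B h2 fun y y' => ?_) f₁.O.one_mem),
    hτ.comm_of_left (B := D) fun u x => by simp⟩, ?_⟩
  · simpa [hD, Q.mul, quad_B_self, h2, hb] using mem_O_B hk (τ y b) (τ y' b)
  · rintro _ ⟨y, rfl⟩
    simp [hD]

theorem exists_ker (hf : f.Nondeg) (h2 : (2 : F) ≠ 0) (ho : Odd (finrank F V)) (sk : Sk f ξ) :
    ∃ y, y ≠ 0 ∧ ξ y = 0 := by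
  by_contra! H
  refine Nat.not_even_iff_odd.2 ho (Nondeg.even_finrank_alt (f := ofAlt
    ((show V →ₗ[F] V →ₗ[F] F from f.B).compl₂ ξ) fun x => mul_left_cancel₀ h2 ?_) fun x hx =>
      hf x fun y => ?_)
  · change 2 * f.B x (ξ x) = _
    linear_combination sk x x - f.quad_symm x (ξ x)
  · obtain ⟨y, rfl⟩ := LinearMap.injective_iff_surjective.1
      ((injective_iff_map_eq_zero ξ).2 fun y => not_imp_not.1 (H y)) y
    exact hx y

variable [Nontrivial V]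

theorem T_le_of {G : Submodule F V} (h : ∀ v, σ A v ∈ G) (x : V₁) : T σ (F ∙ A x) ≤ G := fun w hw => by
  rcases eq_or_ne (A x) 0 with e | e
  · simp [T_bot (show w ∈ T σ ⊥ by simpa [e] using hw)]
  obtain ⟨φ, hφ⟩ := Module.Projective.exists_dual_eq_one F e
  have := h (σ (φ.smulRight x) w)
  rwa [rho_mul, show A * φ.smulRight x = φ.smulRight (A x) by ext; simp, rk_self hφ hw] at this

variable {I : Type*} [Fintype I] [DecidableEq I] {ρ : I → Rep F V₁ V} {i j l m : I}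
  {E' : Subgroup (V ≃ₗ[F] V)} [Finite F]

namespace PO

variable (S : PO f f₁ ρ)
include S

theorem five (hij : i ≠ j) : 5 ≤ finrank F V := by
  have := S.nt
  obtain ⟨U, τ, hτ⟩ := exists_tn (ρ i)
  obtain ⟨κ, -⟩ := WrS.exists_rep hτ (S.comm hij.symm)
  obtain ⟨c, hc⟩ := exists_ne (0 : V₁)
  have := hτ.nt
  have h1 := Nat.le_of_dvd finrank_pos (Dvd.intro_left _ (finrank_T κ hc))
  have := S.dim.three
  rw [finrank_eq hτ.tp]
  nlinarith

theorem cmt (hij : i ≠ j) (hg : g ∈ f.O) (hk : k ∈ f.O) : g * k * g⁻¹ * k⁻¹ ∈ f.E := by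
  simpa [commutatorElement_def] using S.nd.commutator_O_le_E (f.quad_iso3.idx2 S.nd (S.five hij))
    (Subgroup.commutator_mem_commutator hg hk)

theorem nz_of_stab (hk : k ∈ NF ρ Finset.univ) (hb : b ≠ 0)
    (h : ∀ w ∈ T (ρ j) (F ∙ b), k w ∈ T (ρ j) (F ∙ b)) : Nz (ρ j) (ρ j) k := by
  obtain ⟨l, hl, p⟩ := hk j (Finset.mem_univ _)
  obtain ⟨D, hD⟩ := p.exists_equiv
  rwa [← show j = l from by_contra fun e => T_ne S.fam (Finset.mem_univ j) hl e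
    (by have := S.dim.three; omega) hb fun w hw =>
      app_inv k w ▸ Nd.map_T hD (inv_mem_of_stab h w hw)] at p

theorem mem_NF_of_T (hk : k ∈ NF ρ Finset.univ) (hg : g ∈ cen (ρ j)) (hb : b ≠ 0)
    (h : ∀ w ∈ T (ρ j) (F ∙ b), k w = g w) : g ∈ NF ρ Finset.univ := fun a ha => by
  rcases eq_or_ne a j with rfl | haj
  · exact ⟨a, ha, nz_of_comm hg⟩
  obtain ⟨n, hn, p⟩ := hk a ha
  have hnj : n ≠ j := by
    rintro rfl
    exact haj (slot_inj S.fam ha hn (by have := S.dim.three; omega) (by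
      simpa using (S.nz_of_stab hk hb fun w hw => h w hw ▸ T_comm hg hw).inv.mul p))
  refine ⟨n, hn, fun A => (p A).imp fun A' e => LinearMap.congr_fun (sub_eq_zero.1 (eq_zero_of_T
    (ξ := (g : End F V) * ρ a A - ρ n A' * (g : End F V)) (fun B => ((hg B).mul_left (S.comm haj A B)).sub_left
      ((S.comm hnj A' B).mul_left (hg B))) hb fun w hw => ?_))⟩
  simp [← h w hw, ← h _ (T_comm (S.comm haj A) hw), e]

theorem cen_le_NF (h : ¬ ∃ l m, l ≠ j ∧ m ≠ j ∧ l ≠ m) : cen (ρ j) ≤ NF ρ Finset.univ :=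
  fun g hg l hl => by
  rcases eq_or_ne l j with rfl | hlj
  · exact ⟨l, hl, nz_of_comm hg⟩
  have k : ∀ g ∈ cen (ρ j), ∃ B, (g : End F V) = ρ l B := fun g hg =>
    S.fam.mem_range hl trivial fun i _ hil => by
      rwa [show i = j from by_contra fun e => h ⟨i, l, e, hlj, hil⟩]
  obtain ⟨B, hB⟩ := k g hg
  obtain ⟨B', hB'⟩ := k _ (inv_mem hg)
  exact ⟨l, hl, fun A => ⟨B * A * B', fun v => by simp [← hB, ← hB', inv_app]⟩⟩

theorem nNF (sk : Sk f η) (η0 : η ≠ 0) (hη : ∀ A, Commute η (ρ l A)) (s0 : s ≠ 0)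
    (e : ∀ v, g v = v + ρ l (tv f₁ s s) (η v)) : g ∉ NF ρ Finset.univ := by
  obtain ⟨j, hj, h⟩ := WrS.exists_not_comm S.fam (ξ := η) trivial fun ⟨_, e⟩ =>
    η0 (sk.scalar S.h2 S.nd e)
  obtain ⟨B, hB⟩ := not_forall.1 h
  exact WrO.nNF S.fam S.dim.three (Finset.mem_univ l) hj (by rintro rfl; exact h hη) s0
    (B_ne S.nd₁ s0) hη hB e

theorem exists_lev (L : LE f f₁ ρ j E') (hl : l ≠ j) (sk : Sk f η) (h1 : ∀ A, Commute η (ρ l A))
    (h2 : ∀ A, Commute η (ρ j A)) (hs : f₁.q s = 0) : Has E' fun v => ρ l (tv f₁ s s) (η v) := by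
  have h0 : ∀ v, ρ l (tv f₁ s s) (η (ρ l (tv f₁ s s) v)) = 0 := fun v => by
    simp [cm_app h1, rho_mul, tv_mul, f₁.B_self_eq_zero hs]
  obtain ⟨g, hg, e⟩ := exists_quad S.h2 ((S.ad l).sk_mul sk h1 s) fun v => h0 _
  refine ⟨g, L.lev g ⟨hg, fun A => ?_⟩ fun v => by simp [e, h0], e⟩
  rw [show (g : End F V) = 1 + ρ l (tv f₁ s s) * η from LinearMap.ext e]
  exact (Commute.one_left _).add_left ((S.comm hl _ A).mul_left (h2 A))

end PO

namespace CO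

variable (S : CO f f₁ X ρ)
include S

section Five

variable (h5 : 5 ≤ finrank F V₁) (hc : f₁.q c = 0) (c0 : c ≠ 0) (hc' : f₁.q c' = 0)
  (e0 : f₁.B c c' = 0)
include h5 hc c0 hc' e0

omit h5 c0 in
theorem fix (hz : z ∈ X) (hW : ∀ v, z v - v ∈ T (ρ i) (Submodule.span F {c, c'}))
    (hw : w ∈ T (ρ i) (Submodule.span F {c, c'})) : z w = w :=
  fix_of_perp S.nd (S.le hz) hW fun _ h => T_perp S.nd₁ (S.ad i) (S.iso hc hc' e0) h hw

theorem nrmB (hz : z ∈ X) (z1 : z ≠ 1) (hW : ∀ v, z v - v ∈ T (ρ i) (Submodule.span F {c, c'})) :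
    Nrm X (NF ρ Finset.univ) z :=
  ⟨hz, S.K hz (S.st i c hc c0 z hz fun w hw => by
      rwa [S.fix hc hc' e0 hz hW (T_mono (Submodule.span_mono (by simp)) hw)]),
    fun g hg e => S.K' hg (S.recogL ((S.gs i).cj S.le hg) h5 hc c0 hc' e0
      (X.mul_mem (X.mul_mem hg hz) (X.inv_mem hg)) e (by simpa using z1) fun v => mem_T_cj.2 (by
        simpa [inv_app] using hW (g⁻¹ v)))⟩

theorem cm_le {G : Submodule F V} (h1 : T (ρ i) (Submodule.span F {c, c'}) ≤ G)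
    (OP : ∀ v ∈ G, v ∈ f.perp (T (ρ i) (Submodule.span F {c, c'})) →
      v ∈ T (ρ i) (Submodule.span F {c, c'}))
    (NB : ∀ e, T (ρ i) (F ∙ e) ≤ G → e ∈ Submodule.span F {c, c'}) (hz : z ∈ Wr.cm X G)
    (hk : z ∈ NF ρ Finset.univ) (v : V) : z v - v ∈ T (ρ i) (Submodule.span F {c, c'}) := by
  have := S.nt
  obtain ⟨y, hy, y2⟩ : ∃ y ∈ f₁.perp (Submodule.span F {c, c'}), y ∉ Submodule.span F {c, c'} := by
    by_contra! H
    have h1 := Submodule.finrank_mono (show f₁.perp _ ≤ _ from H)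
    have h2 := S.nd₁.finrank_add_finrank_perp (Submodule.span F {c, c'})
    have h3 := CL.Tv.finrank_span_pair_le (F := F) c c'
    omega
  have m1 : c ∈ Submodule.span F {c, c'} := Submodule.subset_span (by simp)
  generalize Submodule.span F {c, c'} = L at *
  have py : ∀ w ∈ T (ρ i) L, ∀ v ∈ T (ρ i) (F ∙ y), f.B w v = 0 := fun w hw v hv =>
    T_perp S.nd₁ (S.ad i) (fun a ha b hb => by
      obtain ⟨t, rfl⟩ := Submodule.mem_span_singleton.1 hb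
      simp [hy a ha]) hw hv
  have my := Submodule.mem_span_singleton_self (R := F) y
  obtain ⟨m, -, h⟩ := hk i (Finset.mem_univ _)
  obtain ⟨D, hD⟩ := h.exists_equiv
  have k : ∀ x ∈ L, T (ρ m) (F ∙ D x) ≤ G := fun x hx w hw => by
    exact app_inv z w ▸ cm_map hz (h1 (T_mono ((Submodule.span_singleton_le_iff_mem _ _).2 hx)
      (by simpa [inv_app] using (Nd.inv hD).map_T hw)))
  rcases eq_or_ne i m with rfl | him
  swap
  · obtain ⟨φ, hφ⟩ := Module.Projective.exists_dual_eq_one F c0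
    refine (rk_ne (ρ i) (c := y) (ψ := φ) (by rintro rfl; simp at y2) (by rintro rfl; simp at hφ)
      (eq_zero_of_T (S.comm him _) (show D c ≠ 0 by simpa using c0) fun w hw => T_bot (ρ := ρ i) ?_)).elim
    have := T_inf (OP _ (k c m1 (T_comm (S.comm him _) hw)) fun w' h => py w' h _ (rk_mem_T my φ w))
      (rk_mem_T my φ w)
    rwa [disjoint_iff.1 ((Submodule.disjoint_span_singleton' (by rintro rfl; simp at y2)).2 y2)] at this
  obtain ⟨U, τ, hτ⟩ := exists_tn (ρ i)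
  obtain ⟨B, hB⟩ := Nd.kron hτ hD
  have hW := inv_mem_of_stab fun w => hτ.map_T (z := z) hB fun x hx => NB _ (k x hx)
  obtain ⟨t, ht⟩ := hτ.scal (B := B) (y := D y) (fun u => hB u y ▸ OP _ (hz.2 _) fun w hw => by
    rw [map_sub, py w hw _ (hτ.pure_T u my), ← app_inv z w, mem_O_B (S.le hz.1),
      py _ (hW w hw) _ (hτ.pure_T u my), sub_self]) y2
  have e : ∀ v, z v - v = ρ i (t • (D : End F V₁) - 1) v := fun v => by
    simp [← hτ.eq_rho (ξ := z) (A := t • (D : End F V₁)) fun u x => by simp [hB, ht], -map_smul]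
  exact e v ▸ rho_mem_T (fun x => NB _ (T_le_of (fun v => e v ▸ hz.2 v) x)) v

omit hc c0 hc' e0 in
/-- Overgroups of `O_k ≀ S_t` for odd `k ≥ 5`. -/
theorem le5 (i : I) : X ≤ NF ρ Finset.univ := fun g₀ hg₀ => by_contra fun hn₀ => by
  have := S.nt
  have := finite_equiv F V
  obtain ⟨c, -, c0, hc⟩ := f₁.quad_iso3 ⊤ (by simp; omega)
  obtain ⟨c', R⟩ := exists_Rt S.nd₁ S.dim hc c0
  have hc' := R.q.resolve_right (by omega)
  have e0 := R.hv
  set L := Submodule.span F {c, c'} with hL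
  set W := T (ρ i) L with hW
  have : Nonempty {g // g ∈ X ∧ g ∉ NF ρ Finset.univ} := ⟨⟨g₀, hg₀, hn₀⟩⟩
  obtain ⟨⟨g, hg, hn⟩, mx⟩ := Finite.exists_max fun g : {g // g ∈ X ∧ g ∉ NF ρ Finset.univ} =>
    finrank F (W ⊓ W.map (g.1 : V →ₗ[F] V) : Submodule F V)
  set U := W.map (g : V →ₗ[F] V) with hU
  have key : ∀ s, Nrm X (NF ρ Finset.univ) s → (∀ w ∈ W, w ∈ U → s w = w) → ∀ v ∈ U, s v = v →
      v ∈ W := fun s n h v hv e => by
    refine ((Submodule.eq_of_le_of_finrank_le (S₁ := W ⊓ U) (S₂ := LinearMap.ker (dl s) ⊓ U)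
      (fun w hw => ⟨sub_eq_zero.2 (h w hw.1 hw.2), hw.2⟩) (le_trans ?_ (mx ⟨g⁻¹ * s * g,
      X.mul_mem (X.mul_mem (X.inv_mem hg) n.memX) hg, n.conj_notMem hg hn⟩))).ge
      ⟨sub_eq_zero.2 e, hv⟩).1
    rw [← LinearEquiv.finrank_map_eq g⁻¹]
    refine Submodule.finrank_mono ?_
    rintro _ ⟨_, ⟨h1, w, hw, rfl⟩, rfl⟩
    simp only [LinearEquiv.coe_coe, inv_app] at h1 ⊢
    exact ⟨hw, w, hw, by simp [show s (g w) = g w from sub_eq_zero.1 h1, inv_app]⟩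
  have nr : ∀ {c c'} (R : Rt f₁ c c') (t : Multiplicative F), t ≠ 1 →
      Nrm X (NF ρ Finset.univ) (un (ρ i) (rt R.hs R.hv t)) := fun R t t1 =>
    S.nrmB h5 R.hs R.s0 (R.q.resolve_right (by omega)) R.hv ((S.gs i).R _ (rt_mem _ _ t))
      (fun e => R.ne S.nd₁ t1 ((un_inj _).eq_iff' (map_one _) |>.1 e)) (rt_sub_mem _ _ t)
  have n1 := nr R (.ofAdd 1) (by simp)
  have n2 := nr R (.ofAdd (-1)) (by simp)
  have a1 := rt_sub_mem (σ := ρ i) R.hs R.hv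
  have iL := S.iso hc hc' e0
  have iW : ∀ w ∈ W, ∀ w' ∈ W, f.B w w' = 0 := fun w hw w' => T_perp S.nd₁ (S.ad i) iL hw
  have iU : ∀ w ∈ U, ∀ w' ∈ U, f.B w w' = 0 := by
    rintro _ ⟨w, hw, rfl⟩ _ ⟨w', hw', rfl⟩
    exact (mem_O_B (S.le hg) w w').trans (iW w hw w' hw')
  have OP : ∀ v ∈ W ⊔ U, v ∈ f.perp W → v ∈ W := fun v hv e => by
    obtain ⟨a, ha, b, hb, rfl⟩ := Submodule.mem_sup.1 hv
    exact W.add_mem ha (key _ n1 (fun w hw _ => S.fix hc hc' e0 n1.memX (a1 _) hw) b hb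
      (fix_of_perp S.nd (S.le n1.memX) (a1 _) fun w hw => by simpa [iW w hw a ha] using e w hw))
  have NB : ∀ e, T (ρ i) (F ∙ e) ≤ W ⊔ U → e ∈ L := fun e he => by_contra fun he' => by
    by_cases hp : e ∈ f₁.perp L
    · exact he' (mem_of_T_le fun w hw => OP w (he hw) fun w' hw' => T_perp S.nd₁ (S.ad i)
        (fun a ha b hb => by
          obtain ⟨t, rfl⟩ := Submodule.mem_span_singleton.1 hb
          simp [hp a ha]) hw' hw)
    obtain ⟨x, hx, x1⟩ : ∃ x ∈ L, f₁.B x e = 1 := by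
      obtain ⟨x, hx, x1⟩ : ∃ x ∈ L, f₁.B x e ≠ 0 := by simpa [Form.mem_perp] using hp
      exact ⟨_, L.smul_mem (f₁.B x e)⁻¹ hx, by simp [x1]⟩
    obtain ⟨d, d0, d1, d2⟩ : ∃ d, d ≠ 0 ∧ d ∈ L ∧ f₁.B d e = 0 := by
      by_cases H : f₁.B c e = 0
      · exact ⟨c, c0, Submodule.subset_span (by simp), H⟩
      · refine ⟨c' - (f₁.B c' e / f₁.B c e) • c, fun e => R.v0 ?_, Submodule.mem_span_pair.2
          ⟨-(f₁.B c' e / f₁.B c e), 1, by module⟩, by simp [H]⟩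
        rw [sub_eq_zero.1 e]
        exact Submodule.smul_mem _ _ (Submodule.mem_span_singleton_self c)
    have qL : ∀ x ∈ L, f₁.q x = 0 := fun x hx =>
      mul_left_cancel₀ S.h2 (by rw [← quad_B_self, iL x hx x hx, mul_zero])
    obtain ⟨U₀, τ, hτ⟩ := exists_tn (ρ i)
    obtain ⟨fU, Q⟩ := (S.ad i).exists_TQ S.h2 S.nd S.nd₁ hτ
    obtain ⟨y, hy⟩ : ∃ y, y = e - f₁.q e • x := ⟨_, rfl⟩
    have y1 : f₁.B x y = 1 := by simp [hy, x1, iL x hx x hx]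
    have y2 : y ∉ L := fun h => by simp [iL x hx y h] at y1
    have R' : Rt f₁ d y := ⟨qL d d1, by simp [hy, d2, iL d d1 x hx], d0, fun h => y2
      ((Submodule.span_singleton_le_iff_mem _ _).2 d1 h), Or.inl (by
        simp [hy, q_sub, quad_q_smul, qL x hx, f₁.quad_symm x e, x1])⟩
    have hq := R'.q.resolve_right (by omega)
    let Y : Submodule F (U₀ × W) := U.comap (τ.flip y ∘ₗ LinearMap.fst F _ _ -
      W.subtype ∘ₗ LinearMap.snd F _ _)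
    obtain ⟨t, ht⟩ := LinearMap.exists_rightInverse_of_surjective
      (LinearMap.fst F _ _ ∘ₗ Y.subtype) (LinearMap.range_eq_top.2 fun u => by
        obtain ⟨a, ha, b, hb, e'⟩ := Submodule.mem_sup.1 (he (hτ.pure_T u
          (Submodule.mem_span_singleton_self e)))
        exact ⟨⟨(u, ⟨a - f₁.q e • τ u x, W.sub_mem ha (W.smul_mem _ (hτ.pure_T u hx))⟩), by
          simpa [Y, hy, ← e'] using hb⟩, rfl⟩)
    have t1 : ∀ u, τ u y - (t u).1.2 ∈ U := fun u => by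
      have : τ (t u).1.1 y - (t u).1.2 ∈ U := (t u).2
      rwa [show (t u).1.1 = u from LinearMap.congr_fun ht u] at this
    have yy : ∀ u u', f.B (τ u y) (τ u' y) = 0 := fun u u' => by
      simp [Q.mul, f₁.B_self_eq_zero hq]
    have fx : ∀ v, et hτ.tp f₁ d v = 0 → et hτ.tp f₁ y v = 0 →
        un (ρ i) (rt R'.hs R'.hv (.ofAdd 1)) v = v := fun v h1 h2 => by
      rw [un_apply, show (rt R'.hs R'.hv (.ofAdd 1) : End F V₁) =
        1 + (tv f₁ d y - tv f₁ y d) by ext; simp [rt_apply, hq, wd_apply]]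
      simp [tv_eq, hτ.rk, show ct hτ.tp (f₁.B d) v = 0 from h1, show ct hτ.tp (f₁.B y) v = 0 from h2]
    have ed : ∀ w ∈ W, et hτ.tp f₁ d w = 0 := fun w hw =>
      Q.et_eq_zero fun u => iW _ (hτ.pure_T u d1) w hw
    have := hτ.fd
    obtain ⟨u, u0, hu⟩ := exists_ker Q.nd₁ S.h2 (Nat.odd_mul.1 (finrank_eq hτ.tp ▸ S.odd)).1
      (ξ := et hτ.tp f₁ y ∘ₗ W.subtype ∘ₗ LinearMap.snd F _ _ ∘ₗ Y.subtype ∘ₗ t) fun u u' => by
        have := iU _ (t1 u) _ (t1 u')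
        simp only [map_sub, LinearMap.sub_apply, yy, iW _ (Subtype.prop _) _ (Subtype.prop _),
          f.quad_symm (τ u' y), Q.B_pure] at this
        simp only [LinearMap.comp_apply, Submodule.subtype_apply, LinearMap.snd_apply]
        linear_combination -this + fU.quad_symm u' _
    refine y2 (hτ.mem_of_pure_T u0 ?_)
    simpa using W.add_mem (key _ (nr R' (.ofAdd 1) (by simp)) (fun w hw hw' => fx w (ed w hw)
      (Q.et_eq_zero fun u => by simpa [iW _ (Subtype.prop _) w hw] using iU _ (t1 u) w hw')) _ (t1 u)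
      (fx _ (by simp [R'.hv, ed]) (by simpa [f₁.B_self_eq_zero hq] using hu))) (t u).1.2.2
  obtain ⟨a, ha, b, hb, s, hs, s', hs', ha', ne, e⟩ := exists_two (Y := Wr.cm X (W ⊔ U))
    (g := g * un (ρ i) (rt R.hs R.hv (.ofAdd 1)) * g⁻¹) (fun _ a => a.1) n1 n2
    ⟨n1.memX, fun v => Submodule.mem_sup_left (a1 _ v)⟩
    ⟨n2.memX, fun v => Submodule.mem_sup_left (a1 _ v)⟩
    (fun e => R.ne S.nd₁ (t := .ofAdd 1 / .ofAdd (-1)) (by
      simpa [← ofAdd_add, one_add_one_eq_two] using S.h2) (by rw [map_div, un_inj _ e, div_self']))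
    ⟨X.mul_mem (X.mul_mem hg n1.memX) (X.inv_mem hg), fun v =>
      Submodule.mem_sup_right ⟨_, a1 _ (g⁻¹ v), (dl_conj v).symm⟩⟩
    fun e => hn (n1.of_conj g hg e)
  have k1 : ∀ s ∈ ({un (ρ i) (rt R.hs R.hv (.ofAdd 1)), un (ρ i) (rt R.hs R.hv (.ofAdd (-1)))} : Set _),
      Nrm X (NF ρ Finset.univ) s ∧ ∀ v, s v - v ∈ W := by
    rintro _ (rfl | rfl)
    exacts [⟨n1, a1 _⟩, ⟨n2, a1 _⟩]
  have k2 : ∀ a ∈ Wr.cm X (W ⊔ U), ∀ s, (Nrm X (NF ρ Finset.univ) s ∧ ∀ v, s v - v ∈ W) →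
      a * s * a⁻¹ ∈ Wr.cm X (W ⊔ U) := fun a ha s hs => Subgroup.mul_mem _ (Subgroup.mul_mem _ ha
    ⟨hs.1.memX, fun v => Submodule.mem_sup_left (hs.2 v)⟩) (Subgroup.inv_mem _ ha)
  have k3 : ∀ s ∈ X, (∀ v, s v - v ∈ W) → ∀ v, s (s v - v) = s v - v := fun s hs H v =>
    S.fix hc hc' e0 hs H (H v)
  have hz := Subgroup.mul_mem _ (Subgroup.inv_mem _ (k2 a ha s (k1 s hs))) (k2 b hb s' (k1 s' hs'))
  have hW := S.cm_le h5 hc c0 hc' e0 le_sup_left OP NB hz e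
  refine ha' ((k1 s hs).1.of_conj a ha.1 ((S.nrmB h5 hc c0 hc' e0 hz.1
    (by rwa [Ne, inv_mul_eq_one]) hW).of_comm_conj (k2 a ha s (k1 s hs)).1
    (comm_conj_of_fix (conj_fix (k3 _ (k1 s hs).1.memX (k1 s hs).2) a) (k3 _ hz.1 hW) ?_)))
  rw [mul_inv_cancel_left]
  exact conj_fix (k3 _ (k1 s' hs').1.memX (k1 s' hs').2) b

end Five

section Three

variable (h3 : finrank F V₁ = 3) (R : Rt f₁ s v) (v0 : f₁.q v ≠ 0)
include h3 R v0

theorem nrmG (m : I) : NrmG X (NF ρ Finset.univ) ((un (ρ m)).comp (rt R.hs R.hv)).range :=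
  fun _ hg H => S.K' hg (S.recog3 ((S.gs m).cj S.le hg) h3 R v0 fun t => H _ ⟨t, rfl⟩)

variable (hb : f₁.q b ≠ 0)
include hb

theorem cen1 (hm : m ≠ j) (hk : k ∈ X) (kz : Commute k (un (ρ j) (ht f₁ b))) (hγ : ∀ t, ∃ h ∈ X,
    h ∈ NF ρ Finset.univ ∧ Commute h (un (ρ j) (ht f₁ b)) ∧ ∀ w ∈ T (ρ j) (F ∙ b),
      k (un (ρ m) (rt R.hs R.hv t) w) = h (k w)) : k ∈ NF ρ Finset.univ :=
  cen_le S.h2 (S.dim.ex.resolve_left (by omega))
    ((un_inj (ρ m)).comp (rt_inj R.hs R.hv S.nd₁ S.h2 R.s0 v0))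
    (fun t => (S.gs m).R _ (rt_mem _ _ t)) (fun _ => S.un_mem _ _)
    (fun _ => LinearEquiv.toLinearMap_injective (S.comm hm _ _).eq)
    (fun a => by rw [MonoidHom.comp_apply, dl_un, ← map_pow, rt_cube, map_zero]) (S.nrmG h3 R v0 m)
    (fun a a1 g hg e => S.K hg (S.st m s R.hs R.s0 g hg (stab_of_comm S.nd₁ R.s0
      (comm_P S.h2 R.hs R.hv v0 a1 (congrArg LinearEquiv.toLinearMap e.eq)))))
    (fun k hk kH e hp => eq_one_of_fix S.h2 S.nd S.nd₁ h3 (S.ad j) (S.le hk) (S.nz_of_stab (b := b) kH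
      (by rintro rfl; simp [q_zero] at hb) fun w hw => by rwa [e w (fix_ht hb hw)]) hp hb
      fun w hw => e w (fix_ht hb hw)) hk kz
    fun t => (hγ t).imp fun _ h => ⟨h.1, h.2.1, h.2.2.1, fun w hw => h.2.2.2 w (mem_of_fix S.h2 hw)⟩

theorem cenz (hm : m ≠ j) (hk : k ∈ X) (kz : Commute k (un (ρ j) (ht f₁ b))) :
    k ∈ NF ρ Finset.univ := by
  obtain ⟨E', L⟩ := S.loc j
  have cz : ∀ g ∈ cen (ρ j), Commute g (un (ρ j) (ht f₁ b)) := fun g hg =>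
    LinearEquiv.toLinearMap_injective (hg _).eq
  let Γ : Subgroup (V ≃ₗ[F] V) :=
    { carrier := {γ | γ ∈ f.O ⊓ cen (ρ j) ∧ ∃ c ∈ X, Commute c (un (ρ j) (ht f₁ b)) ∧
        ∀ w ∈ T (ρ j) (F ∙ b), c w = γ w}
      one_mem' := ⟨one_mem _, 1, one_mem _, Commute.one_left _, fun _ _ => rfl⟩
      mul_mem' := fun ⟨h, c, c1, c2, c3⟩ ⟨h', d, d1, d2, d3⟩ => ⟨mul_mem h h', c * d, mul_mem c1 d1,
        c2.mul_left d2, fun w hw => by rw [mul_app, d3 w hw]; exact c3 _ (T_comm h'.2 hw)⟩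
      inv_mem' := fun ⟨h, c, c1, c2, c3⟩ => ⟨inv_mem h, c⁻¹, inv_mem c1, c2.inv_left, fun w hw =>
        inv_app_eq ((c3 _ (T_comm ((cen _).inv_mem h.2) hw)).trans (app_inv _ _))⟩ }
  have hΓ : Γ ≤ NF ρ Finset.univ := by
    by_cases h : ∃ l m, l ≠ j ∧ m ≠ j ∧ l ≠ m
    swap
    · exact fun γ hγ => S.cen_le_NF h hγ.1.2
    obtain ⟨l, m, hl, hm, hlm⟩ := h
    refine (L.ih Γ (fun _ h => h.1) fun γ h => ⟨⟨E_le_O (L.le h.2).1, (L.le h.2).2⟩, γ,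
      S.ge ⟨h.1, (L.le h.2).1⟩, cz _ (L.le h.2).2, fun _ _ => rfl⟩).resolve_left fun H => ?_
    have sk := (S.ad m).sk' (wd_sk s v)
    obtain ⟨γ, hγ, e⟩ := S.exists_lev L hl sk (S.comm hlm.symm _) (S.comm hm _) R.hs
    obtain ⟨h, c, c1, c2, c3⟩ := H hγ
    refine S.nNF sk (fun e => wd_ne S.nd₁ R.s0 R.v0 (rho_inj _ (e.trans (map_zero _).symm)))
      (S.comm hlm.symm _) R.s0 e (S.mem_NF_of_T (S.cen1 h3 R v0 hb hl c1 c2 fun t =>
        ⟨_, (S.gs l).R _ (rt_mem R.hs R.hv t), S.un_mem _ _, cz _ (S.comm hl _), fun w hw => ?_⟩) h.2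
        (by rintro rfl; simp [q_zero] at hb) c3)
    rw [c3 w hw, un_apply, c3 _ (T_comm (S.comm hl _) hw), e, e, un_apply, map_add]
    simp only [cm_app (S.comm hlm.symm _), rho_mul]
    congr 3
    ext x
    simp [rt_apply, wd_apply, f₁.B_self_eq_zero R.hs, R.hv, f₁.B_eq_zero_symm R.hv]
  obtain ⟨γ, h, e⟩ := exists_cen S.h2 S.nd S.nd₁ (S.ad j) hb (S.le hk) (stab_of_ht S.h2 hb kz)
  have m1 := hΓ ⟨h, k, hk, kz, e⟩
  refine S.cen1 h3 R v0 hb hm hk kz fun t => ?_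
  have m2 := L.le (L.conj γ h _ (L.un m hm _ (rt_mem R.hs R.hv t)))
  have m3 := mul_mem (mul_mem m1 (S.un_mem m (rt R.hs R.hv t))) (inv_mem m1)
  exact ⟨_, S.ge ⟨m3, m2.1⟩, m3, cz _ m2.2, fun w hw => by
    rw [e w hw, mul_app, mul_app, inv_app]; exact e _ (T_comm (S.comm hm _) hw)⟩

theorem nmz (hm : m ≠ j) (hz : un (ρ j) (ht f₁ b) ∈ X) (hg : g ∈ X)
    (h : g * un (ρ j) (ht f₁ b) * g⁻¹ ∈ NF ρ Finset.univ) (i : I) :
    Nz (ρ i) (ρ i) (g * un (ρ j) (ht f₁ b) * g⁻¹) := by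
  have b0 : b ≠ 0 := by rintro rfl; simp [q_zero] at hb
  have G := (S.gs j).cj S.le hg
  have cf : ∀ k ∈ X, Commute k (g * un (ρ j) (ht f₁ b) * g⁻¹) → k ^ ringChar F = 1 →
      ∀ A, Commute (k : End F V) (Wr.cj g (ρ j) A) := fun k hk kz hp A => by
    have m := X.mul_mem (X.mul_mem (X.inv_mem hg) hk) hg
    have c : Commute (g⁻¹ * k * g) (un (ρ j) (ht f₁ b)) := by simpa [mul_assoc] using kz.conj g⁻¹
    convert commute_cj (g := g) (comm_of_fix S.h2 S.nd S.nd₁ h3 (S.ad j) (S.le m) (S.nz_of_stab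
      (S.cenz h3 R v0 hb hm m c) b0 (stab_of_ht S.h2 hb c)) (by
        simpa [hp] using conj_pow (a := g⁻¹) (b := k) (i := ringChar F)) hb (stab_of_ht S.h2 hb c) A)
    ext; simp [← LinearEquiv.coe_inv, app_inv]
  have zX := X.mul_mem (X.mul_mem hg hz) (X.inv_mem hg)
  have zz : g * un (ρ j) (ht f₁ b) * g⁻¹ * (g * un (ρ j) (ht f₁ b) * g⁻¹) = 1 := by
    rw [conj_mul, ← map_mul, ht_sq]; simp
  rw [← un_cj] at *
  generalize Wr.cj g (ρ j) = σ at *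
  obtain ⟨l, -, p⟩ := h i (Finset.mem_univ _)
  rcases eq_or_ne l i with rfl | hli
  · exact p
  exfalso
  set z := un σ (ht f₁ b) with ez
  have zi := inv_eq_of_mul_eq_one_right zz
  have c12 : ∀ A B, Commute (Wr.cj z (ρ i) A) (ρ i B) := fun A B =>
    (p.cj_eq A).elim fun A' e => e ▸ S.comm hli A' B
  have sw := (swap_fix (ρ := ρ i) (ρ' := Wr.cj z (ρ i)) (neg_ht_mem (σ := σ) (f₁ := f₁) b)
    (finrank_T σ b0) h3.ge (fun A B => cm_app (c12 B) A) (fun A v => by simp [← ez, Wr.cj_apply, inv_app])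
    fun A v => by simp [← ez, Wr.cj_apply, zi, show ∀ v, z (z v) = v from LinearEquiv.congr_fun zz]).2 (f₁.B s) s
  have cy : ∀ t A, Commute (ρ i (rt R.hs R.hv (.ofAdd t)) * Wr.cj z (ρ i) (rt R.hs R.hv (.ofAdd t)))
      (σ A) := fun t => by
    have m := (S.gs i).R _ (rt_mem R.hs R.hv (.ofAdd t))
    have c : Commute (un (ρ i) (rt R.hs R.hv (.ofAdd t))) (z * un (ρ i) (rt R.hs R.hv (.ofAdd t)) * z⁻¹) :=
      LinearEquiv.toLinearMap_injective (c12 _ _).symm.eq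
    have hp := pow_ringChar ((un (ρ i)).comp (rt R.hs R.hv)) (.ofAdd t)
    refine cf _ (X.mul_mem m (X.mul_mem (X.mul_mem zX m) (X.inv_mem zX))) ?_
      (by rw [c.mul_pow, conj_pow, show un (ρ i) _ ^ _ = 1 from hp]; simp)
    have := c.eq
    generalize un (ρ i) (rt R.hs R.hv (.ofAdd t)) = r at this ⊢
    calc r * (z * r * z⁻¹) * z = z * (z * r * z⁻¹ * r) * z * z := by
          rw [zi]; simp only [← mul_assoc, zz, one_mul]
      _ = _ := by rw [mul_assoc _ z z, zz, mul_one, this]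
  obtain ⟨-, t, t0, t1⟩ := S.dim.resolve_left (by omega)
  have cP : ∀ A, Commute (ρ i (tv f₁ s s) * Wr.cj z (ρ i) (tv f₁ s s)) (σ A) := fun A => by
    rw [← Commute.smul_left_iff₀ (a := 2 * f₁.q v ^ 2 * t ^ 2 * (t ^ 2 - 1)) (by
      simp [S.h2, v0, t0, sub_ne_zero.2 t1])]
    refine (congrArg (Commute · (σ A)) ?_).mpr ((((cy t A).add_left (cy (-t) A)).sub_left
      (((cy 1 A).add_left (cy (-1) A)).smul_left (t ^ 2))).sub_left
      ((Commute.one_left _).smul_left (2 - 2 * t ^ 2)))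
    simp only [coe_rt, map_add, map_sub, map_smul, map_one, mul_add, add_mul, mul_sub, sub_mul,
      smul_mul_assoc, mul_smul_comm, one_mul, mul_one]
    module
  refine rk_ne _ R.s0 (B_ne S.nd₁ R.s0) (eq_zero_of_mul (tv_ne S.nd₁ R.s0 R.s0) (c12 _)
    (eq_zero_of_mul (A := (ht f₁ b : End F V₁) + 1) (fun e => b0 ?_) cP (LinearMap.ext fun w => ?_)))
  · simpa [ht_self hb, ← two_smul F, S.h2] using LinearMap.congr_fun e b
  · have := sw w
    rw [mul_app, LinearEquiv.neg_apply, neg_eq_iff_add_eq_zero] at this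
    simpa [un_apply, tv_eq] using this

theorem nrm3 (hm : m ≠ j) (hz : un (ρ j) (ht f₁ b) ∈ X) :
    Nrm X (NF ρ Finset.univ) (un (ρ j) (ht f₁ b)) :=
  nrm_of hz (fun _ => S.cenz h3 R v0 hb hm) fun g hg e => by
    have k : ∀ i, (∀ A, Commute (Wr.cj g (ρ j) (ht f₁ b)) (ρ i A)) → _ := fun i h =>
      (⟨_, by rintro _ ⟨t, rfl⟩; exact (S.gs i).R _ (rt_mem _ _ t), S.nrmG h3 R v0 i, by
        rintro _ ⟨t, rfl⟩; exact LinearEquiv.toLinearMap_injective (h _).symm.eq⟩ : ∃ R ≤ X,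
        NrmG X (NF ρ Finset.univ) R ∧ ∀ r ∈ R, Commute r (g * un (ρ j) (ht f₁ b) * g⁻¹))
    exact (small_ht (σ' := Wr.cj g (ρ j)) h3.ge (by rintro rfl; simp [q_zero] at hb)
      (S.nmz h3 R v0 hb hm hz hg e j)).elim (fun ⟨A, h⟩ => k m (h ▸ S.comm hm.symm A)) (k j)

omit R v0 hb in
/-- Overgroups of `O₃ ≀ S_t`. -/
theorem le3 (hij : i ≠ j) : X ≤ NF ρ Finset.univ := by
  have := S.nt
  have := finite_equiv F V
  obtain ⟨s, -, s0, hs⟩ := f₁.quad_iso3 ⊤ (by simp [h3])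
  obtain ⟨v, R⟩ := exists_Rt S.nd₁ S.dim hs s0
  have v0 : f₁.q v ≠ 0 := fun e => R.v0 (idx1_of_three S.nd₁ h3 s v hs e R.hv s0)
  have hC : ∀ l, ∀ A ∈ f₁.O, ∀ B ∈ f₁.O, un (ρ l) (A * B * A⁻¹ * B⁻¹) ∈ X := fun l A hA B hB =>
    S.ge ⟨S.un_mem _ _, by
      simpa using S.cmt hij ((S.ad l).un_mem S.h2 hA) ((S.ad l).un_mem S.h2 hB)⟩
  have I : IS X (NF ρ Finset.univ) fun l => Zs f₁ (un (ρ l)) X :=
    ⟨fun l => by
      rintro _ ⟨hz, b, hb, rfl⟩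
      rcases eq_or_ne i l with rfl | h
      exacts [S.nrm3 h3 R v0 hb hij.symm hz, S.nrm3 h3 R v0 hb h hz],
    fun _ _ => Zs.sq, fun g hg H l =>
      have ⟨l', _, p⟩ := H l (Finset.mem_univ _)
      have ⟨_, h1, h⟩ := exists_sim p (S.le hg) S.nd S.nd₁ (S.ad _) (S.ad _)
      ⟨l', fun _ => Zs.perm S.h2 hg h1 h⟩, fun _ _ e => by
      rintro _ ⟨-, b, -, rfl⟩ _ ⟨-, b', -, rfl⟩
      exact LinearEquiv.toLinearMap_injective (S.comm e _ _).eq,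
    fun _ _ hz _ hx => Zs.mul S.h2 S.nd₁ h3 (un_inj _) hz hx,
    fun l _ => Zs.two S.h2 S.nd₁ h3 (un_inj _) (hC l),
    fun l _ => Zs.nc S.h2 S.nd₁ h3 (un_inj _) (hC l) (S.dim.ex.resolve_left (by omega))⟩
  obtain ⟨b, hb, -, hx⟩ := exists_Zs S.h2 S.nd₁ h3 (hC i) v0
  obtain ⟨c, hc, -, hy⟩ := exists_Zs S.h2 S.nd₁ h3 (hC j) v0
  exact I.le hij ⟨hx, b, hb, rfl⟩ ⟨hy, c, hc, rfl⟩

end Three

theorem le_NF (hij : i ≠ j) : X ≤ NF ρ Finset.univ :=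
  S.dim.elim (S.le5 · i) fun h => S.le3 h.1 hij

end CO

end CL.WrO
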