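/-
Tensor-induced subgroups of orthogonal groups, IX: a proper overgroup has trivial central levels.
-/
import Mathlib
import Cfsg.Agent.CLAS.WrO8

set_option autoImplicit false
set_option linter.unusedSectionVars false

namespace CL.WrO

open Module CL.ExtF CL.Tens CL.Wr CL.Witt CL.Witt.Form CL.Uniq

attribute [-simp] LinearEquiv.coe_inv
attribute [local simp] FormType.quad_σ FormType.quad_ε FormType.quad_π

variable {F V₁ V : Type*} [Field F] [AddCommGroup V₁] [Module F V₁] [AddCommGroup V] [Module F V]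
  {f : Form (FormType.quad F) V} {f₁ : Form (FormType.quad F) V₁} {σ σ' : Rep F V₁ V}
  {a b c c' d s v : V₁} {g k r z : V ≃ₗ[F] V} {D e : V₁ ≃ₗ[F] V₁} {X : Subgroup (V ≃ₗ[F] V)}
  {L L' : Submodule F V₁} {A : End F V₁} {ξ η : End F V} {w w' : V}
  [FiniteDimensional F V₁] [FiniteDimensional F V]

theorem has_comm {N M : End F V} (h : Has X N) (h' : Has X M) (h1 : N * N = 0) (h2 : M * M = 0)
    (h3 : N * M * N = 0) (h4 : M * N * M = 0) : Has X (N * M - M * N : End F V) := by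
  obtain ⟨a, ha, ea⟩ := h
  obtain ⟨b, hb, eb⟩ := h'
  have p1 := LinearMap.congr_fun h1
  have p2 := LinearMap.congr_fun h2
  have p3 := LinearMap.congr_fun h3
  have p4 := LinearMap.congr_fun h4
  simp only [End.mul_apply, LinearMap.zero_apply] at p1 p2 p3 p4
  refine ⟨_, X.mul_mem (X.mul_mem (X.mul_mem ha hb) (X.inv_mem ha)) (X.inv_mem hb), fun v => ?_⟩
  simp [quad_inv ea p1, quad_inv eb p2, ea, eb, p1, p2, p3, p4]
  abel

theorem sk_of_has (hX : X ≤ f.O) (h : Has X ξ) (h0 : ∀ v, ξ (ξ v) = 0) : Sk f ξ := fun v w => by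
  obtain ⟨g, hg, e⟩ := h
  simpa [e, quad_inv e h0, sub_eq_add_neg] using B_apply_left (hX hg) v w

/-- The action of a factor on the range of a commuting projection. -/
noncomputable def pun (σ : Rep F V₁ V) {P : End F V} (hP : P * P = P) (h : ∀ A, Commute P (σ A)) :
    (V₁ ≃ₗ[F] V₁) →* (V ≃ₗ[F] V) :=
  (LinearMap.GeneralLinearGroup.generalLinearEquiv F V).toMonoidHom.comp (MonoidHom.toHomUnits
    { toFun g := 1 + P * (σ g - 1)
      map_one' := by simp [← End.one_eq_id]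
      map_mul' a b := LinearMap.ext fun v => by
        simp [← cm_app h, show ∀ v, P (P v) = P v from LinearMap.congr_fun hP]; abel })

theorem pun_apply {P : End F V} (hP : P * P = P) (h : ∀ A, Commute P (σ A)) (v : V) :
    pun σ hP h e v = v + P (σ e v - v) := rfl

theorem one_mem_of_sy [Finite F] (hf₁ : f₁.Nondeg) (h2 : (2 : F) ≠ 0) (h3 : 3 ≤ finrank F V₁)
    {M : Submodule F (End F V₁)} (H : ∀ c d, f₁.q c = 0 → f₁.q d = 0 → f₁.B c d ≠ 0 →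
      tv f₁ c d + tv f₁ d c ∈ M) : 1 ∈ M := by
  obtain ⟨p, -, p0, hp⟩ := f₁.quad_iso3 ⊤ (by simpa using h3)
  have k : ∀ y x, tv f₁ x y + tv f₁ y x ∈ M := fun y => hf₁.mem_of_singular hp p0
    (A := (M.comap ((tv f₁ + (tv f₁).flip).flip y)).toAddSubgroup) fun c hc => by
    rcases eq_or_ne c 0 with rfl | c0
    · simp
    change y ∈ M.comap ((tv f₁ + (tv f₁).flip) c)
    generalize hN : M.comap ((tv f₁ + (tv f₁).flip) c) = N
    replace H : ∀ d, f₁.q d = 0 → f₁.B c d ≠ 0 → d ∈ N := fun d hd h => hN ▸ H c d hc hd h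
    obtain ⟨c', hc', e⟩ := hf₁.exists_partner' hc c0
    obtain ⟨v, v1, v2, v3⟩ := exists_nonsing_hyp hf₁ h3 hc hc' e
    have cc := f₁.B_self_eq_zero hc
    have k0 : ∀ v, f₁.B c v = 0 → f₁.B c' v = 0 → c' + v - f₁.q v • c ∈ N := fun v v1 v2 =>
      H _ (by simp [q_sub, quad_q_add, quad_q_smul, hc, hc', v2, f₁.quad_symm c, e, v1]) (by
        simp [e, v1, cc])
    have m := H c' hc' (by simp [e])
    have k1 : c ∈ N := (N.smul_mem_iff (mul_ne_zero h2 v3)).1 (by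
      convert N.sub_mem (N.sub_mem (N.smul_mem 2 m) (k0 v v1 v2)) (k0 (-v) (by simp [v1])
        (by simp [v2])) using 1
      rw [q_neg]; module)
    have k2 : ∀ y, f₁.B c y ≠ 0 → y ∈ N := fun y hy => by
      obtain ⟨t, ht⟩ := f₁.exists_q_add_smul_eq_zero hc hy
      simpa using N.sub_mem (H _ ht (by simpa [cc] using hy)) (N.smul_mem t k1)
    by_cases hy : f₁.B c y = 0
    · simpa using N.sub_mem (k2 (y + c') (by simp [hy, e])) m
    · exact k2 y hy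
  obtain ⟨A, h1, h⟩ := eq_top_of_tv hf₁
    (R := { carrier := {A | ∃ A', (∀ x y, f₁.B (A x) y = f₁.B x (A' y)) ∧ A + A' ∈ M}
            zero_mem' := ⟨0, by simp⟩
            add_mem' := fun ⟨A, a1, a2⟩ ⟨B, b1, b2⟩ => ⟨A + B, by simp [a1, b1],
              add_add_add_comm _ _ _ B ▸ M.add_mem a2 b2⟩
            smul_mem' := fun t _ ⟨A, a1, a2⟩ => ⟨t • A, by simp [a1], smul_add t _ A ▸ M.smul_mem t a2⟩ })
    (fun a b => ⟨_, tv_adj a b, k b a⟩) 1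
  rwa [show A = 1 from LinearMap.ext fun y => hf₁.ext_right fun x => (h1 x y).symm, ← two_smul F,
    M.smul_mem_iff h2] at h

variable [Nontrivial V] {I : Type*} [Fintype I] [DecidableEq I] {ρ : I → Rep F V₁ V} {i j l m : I}
  {E' : Subgroup (V ≃ₗ[F] V)} [Finite F]

theorem lv_conj (hg : g ∈ X) (h : ∀ A v, g (σ A v) = σ' A (g v)) (hη : η ∈ Lv f₁ σ X) :
    (g : End F V) * η * (g⁻¹ : V ≃ₗ[F] V) ∈ Lv f₁ σ' X :=
  ⟨fun A => LinearMap.ext fun v => by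
    obtain ⟨v, rfl⟩ := g.surjective v
    simp [← h, inv_app, cm_app hη.1], fun s hs => ((hη.2 s hs).conj hg).congr fun v => h _ _⟩

variable (f f₁ ρ X) in
/-- A proper overgroup of the wreath product. -/
structure AO : Prop extends PO f f₁ ρ where
  le : X ≤ f.O
  ge : NF ρ Finset.univ ⊓ f.E ≤ X
  ne : ¬ f.E ≤ X
  loc : ∀ j, ∃ E', LE f f₁ ρ j E'

theorem PO.sw' (S : PO f f₁ ρ) (a b : I) : ∃ p ∈ NF ρ Finset.univ ⊓ f.O,
    ∀ l A v, p (ρ l A v) = ρ (Equiv.swap a b l) A (p v) :=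
  have ⟨p, hp, e⟩ := S.sw a b
  ⟨p, ⟨fun l _ => ⟨_, Finset.mem_univ _, fun A => ⟨A, e l A⟩⟩, hp⟩, e⟩

theorem PO.sk_lev (S : PO f f₁ ρ) (hX : X ≤ f.O) (hs : f₁.q s = 0) (s0 : s ≠ 0)
    (hη : ∀ A, Commute η (ρ i A)) (h : Has X fun v => ρ i (tv f₁ s s) (η v)) : Sk f η :=
  (S.ad i).sk S.nd S.nd₁ (tv_ne S.nd₁ s0 s0) (tv_adj s s) hη (sk_of_has hX h fun v => by
    simp [cm_app hη, rho_mul, tv_mul, f₁.B_self_eq_zero hs])

namespace AO

variable (S : AO f f₁ X ρ)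
include S

theorem R (i : I) (he : e ∈ f₁.E) : un (ρ i) e ∈ X :=
  have := S.nt
  S.ge ⟨S.un_mem i e, (S.ad i).un_mem_E S.h2 S.nd S.nd₁ he⟩

theorem cmt (hij : i ≠ j) (hg : g ∈ NF ρ Finset.univ ⊓ f.O) (hk : k ∈ NF ρ Finset.univ ⊓ f.O) :
    g * k * g⁻¹ * k⁻¹ ∈ X :=
  S.ge ⟨mul_mem (mul_mem (mul_mem hg.1 hk.1) ((NF _ _).inv_mem hg.1)) ((NF _ _).inv_mem hk.1),
    S.toPO.cmt hij hg.2 hk.2⟩

theorem no_lev (hη : η ∈ Lv f₁ (ρ j) X) (η0 : η ≠ 0) : X ⊓ cen (ρ j) ≤ NF ρ Finset.univ := by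
  obtain ⟨E', L⟩ := S.loc j
  exact (L.ih _ (inf_le_inf_right _ S.le) fun g h => ⟨S.ge ⟨h.1, (L.le h.2).1⟩, (L.le h.2).2⟩).resolve_left
    fun h => S.ne (L.full X S.le (h.trans inf_le_left) η hη η0)

theorem not_cen (hη : η ∈ Lv f₁ (ρ l) X) (η0 : η ≠ 0) (hl : l ≠ j) (h : ∀ A, Commute η (ρ j A)) :
    ¬ X ⊓ cen (ρ j) ≤ NF ρ Finset.univ := fun H => by
  obtain ⟨s, -, s0, hs⟩ := f₁.quad_iso3 ⊤ (by simpa using S.dim.three)
  obtain ⟨g, hg, e⟩ := hη.2 s hs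
  refine S.nNF (S.sk_lev S.le hs s0 hη.1 ⟨g, hg, e⟩) η0 hη.1 s0 e (H ⟨hg, fun A => ?_⟩)
  rw [show (g : End F V) = 1 + ρ l (tv f₁ s s) * η from LinearMap.ext e]
  exact (Commute.one_left _).add_left ((S.comm hl _ A).mul_left (h A))

theorem inv_lv (hl : l ≠ i) : Inv f₁ (ρ l) (Lv f₁ (ρ i) X) := fun _ he _ =>
  lv_conj (S.R l he) (cm_app (S.comm hl _))

theorem brk (hl : l ≠ i) {β γ : End F V}
    (hβ : β ∈ WrS.lv (ρ l) (Lv f₁ (ρ i) X) {B | ∃ x y, B = wd f₁ x y}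
      (⊤ ⊓ Subalgebra.centralizer F (Set.range (ρ i))))
    (hγ : γ ∈ WrS.lv (ρ l) (Lv f₁ (ρ i) X) {B | ∃ x y, B = wd f₁ x y}
      (⊤ ⊓ Subalgebra.centralizer F (Set.range (ρ i)))) : β * γ - γ * β ∈ Lv f₁ (ρ l) X := by
  have k : ∀ c d, f₁.q c = 0 → f₁.q d = 0 → ρ i (tv f₁ c c * tv f₁ d d) * (β * γ) -
      ρ i (tv f₁ d d * tv f₁ c c) * (γ * β) ∈ Lv f₁ (ρ l) X := fun c d hc hd => by
    have b1 := WrS.cen_comm hβ.1
    have c1 := WrS.cen_comm hγ.1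
    refine ⟨fun A => ((S.comm hl.symm _ A).mul_left ((b1 A).mul_left (c1 A))).sub_left
      ((S.comm hl.symm _ A).mul_left ((c1 A).mul_left (b1 A))), fun s hs => ?_⟩
    rcases eq_or_ne s 0 with rfl | s0
    · exact Has.zero.congr fun v => by simp
    obtain ⟨v, v1, v0⟩ := exists_rt S.nd₁ S.dim.three hs s0
    have w2 : wd f₁ s v * wd f₁ s v = -(2 * f₁.q v) • tv f₁ s s := by
      ext; simp [wd_apply, v1, f₁.B_eq_zero_symm v1, f₁.B_self_eq_zero hs, quad_B_self, smul_smul,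
        mul_comm]
    have w3 : tv f₁ s s * wd f₁ s v = 0 := by ext; simp [wd_apply, v1, f₁.B_self_eq_zero hs]
    have w4 : wd f₁ s v * tv f₁ s s = 0 := by ext; simp [wd_apply, f₁.B_eq_zero_symm v1, f₁.B_self_eq_zero hs]
    have b2 := cm_app (WrS.cen_comm hβ.1.1)
    have c2 := cm_app (WrS.cen_comm hγ.1.1)
    have il := fun A => cm_app (S.comm hl.symm A)
    have := has_comm (N := ρ i (tv f₁ c c) * (ρ l (wd f₁ s v) * ((-(2 * f₁.q v))⁻¹ • β)))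
      (M := ρ i (tv f₁ d d) * (ρ l (wd f₁ s v) * γ))
      (((Submodule.smul_mem _ _ hβ).2 _ ⟨s, v, rfl⟩).2 c hc) ((hγ.2 _ ⟨s, v, rfl⟩).2 d hd)
      (by ext; simp [← il, b2, rho_mul, tv_mul, f₁.B_self_eq_zero hc])
      (by ext; simp [← il, c2, rho_mul, tv_mul, f₁.B_self_eq_zero hd])
      (by ext; simp [il, cm_app b1, cm_app c1, rho_mul (ρ l), w2, w3, w4])
      (by ext; simp [il, cm_app b1, cm_app c1, rho_mul (ρ l), w2, w3, w4])
    refine this.congr fun x => ?_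
    simp [il, cm_app b1, cm_app c1, rho_mul (ρ l), w2, b2, c2, smul_smul, -mul_inv_rev, S.h2, v0,
      sub_eq_add_neg]
  simpa using one_mem_of_sy S.nd₁ S.h2 S.dim.three (M := (Lv f₁ (ρ l) X).comap
    ((LinearMap.mulRight F (β * γ - γ * β)).comp (ρ i).toLinearMap)) fun c d hc hd h => by
      rw [Submodule.mem_comap, ← Submodule.smul_mem_iff _ h]
      convert add_mem (k c d hc hd) (k d c hd hc) using 1
      simp [tv_mul, f₁.quad_symm c d, mul_sub, add_mul, smul_sub]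
      abel

/-- The central level is trivial. -/
theorem lv_zero (hη : η ∈ Lv f₁ (ρ i) X) : η = 0 := by_contra fun η0 => by
  obtain ⟨s, -, s0, hs⟩ := f₁.quad_iso3 ⊤ (by simpa using S.dim.three)
  have Φ := S.fam.erase (Finset.mem_univ i)
  have iv : ∀ l ∈ Finset.univ.erase i, _ := fun l hl => S.inv_lv (Finset.ne_of_mem_erase hl)
  obtain ⟨l, hl, β, β0, hβ⟩ := exists_wd S.nd₁ S.h2 S.dim S.nd (fun l _ => S.ad l) Φ
    (S := Lv f₁ (ρ i) X) (fun _ h => WrS.mem_cen trivial h.1) iv (fun a h => S.sk_lev S.le hs s0 h.1 (h.2 s hs)) hη η0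
  have hl' := Finset.ne_of_mem_erase hl
  obtain ⟨μ, rfl⟩ := cm_scalar S.nd₁ S.h2 S.dim (Φ.erase hl) (S := WrS.lv (ρ l) (Lv f₁ (ρ i) X)
    {B | ∃ x y, B = wd f₁ x y} (⊤ ⊓ Subalgebra.centralizer F (Set.range (ρ i))))
    (fun _ h => h.1) (fun m hm =>
    (iv m (Finset.mem_of_mem_erase hm)).lv ((Φ.erase hl).mem m hm)) (fun a ha b hb =>
      sub_eq_zero.1 (by_contra fun e => S.not_cen (S.brk hl' ha hb) e hl' (WrS.cen_comm
        (sub_mem (mul_mem ha.1.1 hb.1.1) (mul_mem hb.1.1 ha.1.1))) (S.no_lev hη η0))) hβ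
  obtain ⟨v, R⟩ := exists_Rt S.nd₁ S.dim hs s0
  have w := hβ.2 _ ⟨s, v, rfl⟩
  rw [mul_smul_comm, mul_one, Submodule.smul_mem_iff _ (by rintro rfl; simp at β0)] at w
  have w0 : ρ l (wd f₁ s v) ≠ 0 := fun e =>
    wd_ne S.nd₁ s0 R.v0 (rho_inj _ (e.trans (map_zero _).symm))
  obtain ⟨m, hmi, hml⟩ : ∃ m, m ≠ i ∧ m ≠ l := by
    by_contra! h
    obtain ⟨E', L⟩ := S.loc i
    exact S.ne (L.full X S.le (fun g hg => S.ge ⟨S.cen_le_NF (fun ⟨a, b, ha, hb, hab⟩ =>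
      hab ((h a ha).trans (h b hb).symm)) (L.le hg).2, (L.le hg).1⟩) η hη η0)
  obtain ⟨p, hp, e⟩ := S.sw' i m
  obtain ⟨p', hp', e'⟩ := S.sw' i l
  refine S.not_cen w w0 hmi.symm (S.comm hml.symm _) (S.no_lev (lv_conj (S.cmt hmi hp hp')
    (fun A v => ?_) hη) fun e => η0 (LinearMap.ext fun v => ?_))
  · obtain ⟨v, rfl⟩ := (p' * p).surjective v
    have e1 := e l A v
    have e2 := e' l A
    rw [Equiv.swap_apply_of_ne_of_ne hl' hml.symm] at e1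
    rw [Equiv.swap_apply_right] at e2
    simp only [mul_app, ← e2 (p v), inv_app, ← e1]
    rw [e2, e, Equiv.swap_apply_left]
  · generalize p * p' * p⁻¹ * p'⁻¹ = g at e
    simpa [inv_app] using LinearMap.congr_fun e (g v)

theorem cn (m : I) : X ⊓ cen (ρ m) ≤ NF ρ Finset.univ := by
  by_cases h : ∃ l j, l ≠ m ∧ j ≠ m ∧ l ≠ j
  swap
  · exact inf_le_right.trans (S.cen_le_NF h)
  obtain ⟨l, j, hl, hj, hlj⟩ := h
  obtain ⟨E', L⟩ := S.loc m
  obtain ⟨s, -, s0, hs⟩ := f₁.quad_iso3 ⊤ (by simpa using S.dim.three)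
  obtain ⟨v, R⟩ := exists_Rt S.nd₁ S.dim hs s0
  refine (L.ih _ (inf_le_inf_right _ S.le) fun g h =>
    ⟨S.ge ⟨h.1, (L.le h.2).1⟩, (L.le h.2).2⟩).resolve_left fun H => wd_ne S.nd₁ s0 R.v0
      (rho_inj (ρ j) ((S.lv_zero (i := l) ⟨S.comm hlj.symm _, fun d hd => ?_⟩).trans (map_zero _).symm))
  exact (S.exists_lev L hl ((S.ad j).sk' (wd_sk s v)) (S.comm hlj.symm _) (S.comm hj _) hd).imp
    fun _ h => ⟨(H h.1).1, h.2⟩

theorem lv0 (hc : f₁.q c = 0) (c0 : c ≠ 0) (hη : ∀ A, Commute η (ρ i A))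
    (h : Has X fun v => ρ i (tv f₁ c c) (η v)) : η = 0 := by
  have cj : ∀ {η g}, (∀ A, Commute η (ρ i A)) → g ∈ f₁.E → Has X (fun v => ρ i (tv f₁ c c) (η v)) →
      Has X fun v => ρ i (tv f₁ (g c) (g c)) (η v) := fun hη hg h =>
    (h.conj (S.R i hg)).congr fun v => by
      rw [un_apply, un_inv_apply, cm_app hη, rho_mul, rho_mul, tv_conj (E_le_O hg)]
  rcases S.dim with h5 | ⟨h3, -⟩
  · refine S.lv_zero ⟨hη, fun d hd => ?_⟩
    rcases eq_or_ne d 0 with rfl | d0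
    · exact Has.zero.congr fun v => by simp
    obtain ⟨g, hg, rfl⟩ := exists_trans S.h2 S.nd₁ (by omega) (Or.inl h5) hc c0 hd d0
    exact cj hη hg h
  by_contra η0
  obtain ⟨v, v1, v0⟩ := exists_rt S.nd₁ h3.ge hc c0
  have cc := f₁.B_self_eq_zero hc
  let Λ : AddSubgroup (End F V) :=
    { carrier := {η | (∀ A, Commute η (ρ i A)) ∧ Has X fun v => ρ i (tv f₁ c c) (η v)}
      zero_mem' := ⟨fun _ => Commute.zero_left _, Has.zero.congr fun v => by simp⟩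
      add_mem' := fun ha hb => ⟨fun A => (ha.1 A).add_left (hb.1 A), (ha.2.add hb.2
        fun v => by simp [cm_app ha.1, rho_mul, tv_mul, cc]).congr fun v => by simp⟩
      neg_mem' := fun ha => ⟨fun A => (ha.1 A).neg_left, (Has.zero.sub ha.2 (fun _ _ => rfl)
        fun v => by simp [cm_app ha.1, rho_mul, tv_mul, cc]).congr fun v => by simp⟩ }
  obtain ⟨ζ, ζ0, H⟩ := line S.nd₁ S.h2 h3 S.nd (fun l _ => S.ad l) (S.fam.erase (Finset.mem_univ i))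
    hc c0 v1 v0 (Λ := Λ) (fun ξ h => ⟨WrS.mem_cen trivial h.1, S.sk_lev S.le hc c0 h.1 h.2⟩)
    (fun l hl e he ξ h => by
      have hl := S.comm (Finset.ne_of_mem_erase hl)
      refine ⟨fun A => ((hl _ A).mul_left (h.1 A)).mul_left (hl _ A), ?_⟩
      rcases he with he | rfl
      · exact (h.2.conj (S.R l he)).congr fun w => cm_app (hl _) _ _
      obtain ⟨p, hp, e⟩ := S.sw' i l
      have := S.cmt (Finset.ne_of_mem_erase ‹_›) hp
        ⟨S.un_mem i (f₁.rf v), (S.ad i).un_mem S.h2 (rf_mem_O v)⟩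
      rw [show p * un (ρ i) (f₁.rf v) * p⁻¹ = un (ρ l) (f₁.rf v) from mul_inv_eq_of_eq_mul
        (LinearEquiv.ext fun w => by simp [un_apply, e])] at this
      refine (h.2.conj this).congr fun w => ?_
      have e1 := tv_conj (inv_mem (rf_mem_O (f := f₁) v)) c c
      rw [inv_app_eq (Form.rf_of_perp (f₁.B_eq_zero_symm v1)), inv_inv] at e1
      simp only [mul_inv_rev, inv_inv, mul_app, un_apply, un_inv_apply, cm_app h.1, cm_app (hl _),
        rho_mul (ρ i), ← mul_assoc, e1, End.mul_apply]) ⟨hη, h⟩ η0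
  refine ζ0 (S.lv_zero ⟨by simpa using (H 1).1, fun d hd => ?_⟩)
  rcases eq_or_ne d 0 with rfl | d0
  · exact Has.zero.congr fun v => by simp
  obtain ⟨g, hg, a, a0, e⟩ := S.nd₁.exists_mem_E_apply_eq_smul (big_of_three h3.ge) hc c0 hd d0
  exact (cj (H (a * a)⁻¹).1 hg (H _).2).congr fun v => by simp [e, smul_smul, -mul_inv_rev, a0]

theorem d3 (h3 : finrank F V₁ = 3) (L : LE f f₁ ρ i E') (hc : f₁.q c = 0) (c0 : c ≠ 0) (hg : g ∈ E')
    (hη : ∀ A, Commute η (ρ i A)) (hk : k ∈ X) (e : ∀ v, k v = g (v + ρ i (tv f₁ c c) (η v))) :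
    g ∈ X := by
  have cc := f₁.B_self_eq_zero hc
  let Γ : Subgroup (V ≃ₗ[F] V) :=
    { carrier := {g | g ∈ f.O ⊓ cen (ρ i) ∧ ∃ η : End F V, (∀ A, Commute η (ρ i A)) ∧ ∃ k ∈ X,
        ∀ v, k v = g (v + ρ i (tv f₁ c c) (η v))}
      one_mem' := ⟨one_mem _, 0, fun _ => Commute.zero_left _, 1, one_mem _, by simp⟩
      mul_mem' := fun {a b} ⟨h, η, c1, x, c2, c3⟩ ⟨h', ζ, d1, y, d2, d3⟩ => ⟨mul_mem h h',
        (b⁻¹ : V ≃ₗ[F] V) * η * b + ζ, fun A => ((((cen _).inv_mem h'.2 A).mul_left (c1 A)).mul_left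
          (h'.2 A)).add_left (d1 A), x * y, mul_mem c2 d2, fun v => by
          have := cm_app h'.2
          simp only [LinearEquiv.coe_coe] at this
          simp [c3, d3, this, cm_app c1, rho_mul, tv_mul, cc, app_inv]; abel⟩
      inv_mem' := fun {a} ⟨h, η, c1, x, c2, c3⟩ => ⟨inv_mem h, -((a : End F V) * η * (a⁻¹ : V ≃ₗ[F] V)),
        fun A => (((h.2 A).mul_left (c1 A)).mul_left ((cen _).inv_mem h.2 A)).neg_left, x⁻¹,
        inv_mem c2, fun v => inv_app_eq (by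
          have := cm_app h.2
          have := cm_app ((cen _).inv_mem h.2)
          simp only [LinearEquiv.coe_coe] at *
          simp [*, cm_app c1, rho_mul, tv_mul, app_inv, inv_app])⟩ }
  suffices Γ ≤ NF ρ Finset.univ from
    S.ge ⟨this ⟨⟨E_le_O (L.le hg).1, (L.le hg).2⟩, η, hη, k, hk, e⟩, (L.le hg).1⟩
  by_cases h : ∃ l m, l ≠ i ∧ m ≠ i ∧ l ≠ m
  swap
  · exact fun γ hγ => S.cen_le_NF h hγ.1.2
  obtain ⟨l, m, hl, hm, hlm⟩ := h
  refine (L.ih Γ (fun _ h => h.1) fun γ h => ⟨⟨E_le_O (L.le h.2).1, (L.le h.2).2⟩, 0,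
    fun _ => Commute.zero_left _, γ, S.ge ⟨h.1, (L.le h.2).1⟩, by simp⟩).resolve_left fun H => ?_
  have := S.nt
  have hC : ∀ A ∈ f₁.O, ∀ B ∈ f₁.O, MonoidHom.id _ (A * B * A⁻¹ * B⁻¹) ∈ ⁅f₁.O, f₁.O⁆ :=
    fun A hA B hB => Subgroup.commutator_mem_commutator hA hB
  have mp : ∀ (φ : (V₁ ≃ₗ[F] V₁) →* (V ≃ₗ[F] V)) (K : Subgroup (V ≃ₗ[F] V)), (∀ A ∈ f₁.O, φ A ∈ K) →
      ∀ A ∈ ⁅f₁.O, f₁.O⁆, φ A ∈ ⁅K, K⁆ := fun φ K h A hA => Subgroup.commutator_mono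
    (Subgroup.map_le_iff_le_comap.2 h) (Subgroup.map_le_iff_le_comap.2 h)
    (Subgroup.map_commutator _ _ φ ▸ Subgroup.mem_map_of_mem φ hA)
  obtain ⟨a, ha⟩ := exists_q_ne S.nd₁
  obtain ⟨a, ha, -, a1⟩ := exists_Zs S.h2 S.nd₁ h3 hC ha
  obtain ⟨b, hb, ab, b1⟩ := exists_Zs S.h2 S.nd₁ h3 hC ha
  have a0 : a ≠ 0 := by rintro rfl; simp [q_zero] at ha
  have q2 := mul_ne_zero S.h2 ha
  obtain ⟨π, hπ⟩ : ∃ π, π = (2 * f₁.q a)⁻¹ • tv f₁ a a := ⟨_, rfl⟩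
  have hP : ρ l π * ρ l π = ρ l π := by
    rw [← map_mul, hπ]; simp [tv_mul, quad_B_self, smul_smul, -mul_inv_rev, q2]
  have pp := LinearMap.congr_fun hP
  have ad := S.ad l π π fun x y => by simp [hπ, f₁.quad_symm a x, mul_comm, mul_left_comm]
  have pm : ∀ A ∈ f₁.O, pun (ρ m) hP (S.comm hlm π) A ∈ f.O ⊓ cen (ρ i) := fun A hA =>
    ⟨mem_O_of_B S.h2 fun v w => by
      have := mem_O_B ((S.ad m).un_mem S.h2 hA) (ρ l π v) w
      simp only [un_apply, End.mul_apply] at this pp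
      simp [pun_apply, ad, pp, ← cm_app (S.comm hlm π)] at this ⊢
      linear_combination this, fun B => LinearMap.ext fun v => by
      simp [pun_apply, cm_app (S.comm hl _), cm_app (S.comm hm _)]⟩
  obtain ⟨h, η, hη, x, hx, e⟩ := H (L.cmt l m hl hm hlm (mp _ _ pm _ a1))
  · have e1 : ∀ v, (pun (ρ m) hP (S.comm hlm π) (ht f₁ a)) v = _ := pun_apply hP (S.comm hlm π)
    generalize pun (ρ m) hP (S.comm hlm π) (ht f₁ a) = D at h e e1
    obtain rfl : η = 0 := sk_zero S.nd₁ S.h2 h3 S.nd (fun l _ => S.ad l)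
      (S.fam.erase (Finset.mem_univ i)) ha hb ab (WrS.mem_cen trivial hη)
      (S.sk_lev le_rfl hc c0 hη ⟨_, mul_mem (inv_mem h.1) (S.le hx), fun v => by
        rw [mul_app, e, inv_app]⟩) fun j hj => by
      have hj := Finset.ne_of_mem_erase hj
      have k : ∀ y, ht f₁ y ∈ ⁅f₁.O, f₁.O⁆ → Commute (ht f₁ y) (ht f₁ a) →
          Commute (ht f₁ y : End F V₁) π → Commute η (ρ j (ht f₁ y)) := fun y hy c1 c2 => by
        have m1 : un (ρ j) (ht f₁ y) ∈ X := S.ge ⟨S.un_mem _ _, S.nd.commutator_O_le_E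
          (f.quad_iso3.idx2 S.nd (S.five hlm)) (mp _ _ (fun A => (S.ad j).un_mem S.h2) _ hy)⟩
        have k : ∀ n B, Commute (ht f₁ y : End F V₁) B → ∀ v, un (ρ j) (ht f₁ y) (ρ n B v) =
            ρ n B (un (ρ j) (ht f₁ y) v) := fun n B h => LinearMap.congr_fun (Commute.eq (by
          rcases eq_or_ne j n with hn | hn
          exacts [hn ▸ h.map (ρ j), S.comm hn _ B] : Commute (ρ j (ht f₁ y)) (ρ n B)))
        have c3 : ∀ v, un (ρ j) (ht f₁ y) (D v) = D (un (ρ j) (ht f₁ y) v) := fun v => by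
          simp only [e1, map_add, map_sub, k l π c2,
            k m _ (congrArg LinearEquiv.toLinearMap c1.eq)]
        refine conj_eq_iff.1 (sub_eq_zero.1 (S.lv0 hc c0 (fun A => (((S.comm hj _ A).mul_left
          (hη A)).mul_left (S.comm hj _ A)).sub_left (hη A)) ⟨_, X.mul_mem (X.inv_mem hx)
          (X.mul_mem (X.mul_mem m1 hx) (X.inv_mem m1)), fun v => inv_app_eq ?_⟩))
        change _ = un (ρ j) (ht f₁ y) (x ((un (ρ j) (ht f₁ y))⁻¹ v))
        rw [e, e, c3, map_add (un _ _), app_inv, un_apply, cm_app (S.comm hj _)]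
        simp [cm_app hη, rho_mul (ρ i), tv_mul, cc, un_inv_apply]; abel
      refine ⟨k a a1 (Commute.refl _) ?_, k b b1 (ht_comm ab).symm ?_⟩ <;>
      refine LinearMap.ext fun x => ?_ <;>
      simp [hπ, ht_apply, quad_B_self, ha, ab, f₁.B_eq_zero_symm ab]
      match_scalars; field_simp
    obtain rfl : x = D := LinearEquiv.ext fun v => by simp [e]
    refine WrO.nNF S.fam h3.ge (Finset.mem_univ l) (Finset.mem_univ m) hlm
      (ψ := (2 * f₁.q a)⁻¹ • f₁.B a) (ξ := ρ m ((ht f₁ a : End F V₁) - 1)) (B := tv f₁ a b) a0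
      (smul_ne_zero (inv_ne_zero q2) (B_ne S.nd₁ a0)) (S.comm hlm.symm _) (fun e => hb ?_)
      (fun v => by simp [e1, hπ, smul_rk, tv_eq, smul_sub]) (S.cn i ⟨hx, h.2⟩)
    have := LinearMap.congr_fun (rho_inj _ ((map_mul _ _ _).trans (e.eq.trans (map_mul _ _ _).symm))) a
    simp [ht_self ha, ht_perp ab, quad_B_self, ha, S.h2, ← neg_add', ← two_smul F] at this
    rw [this, q_zero]

end AO

end CL.WrO
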