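/-
Maximality of the stabilizer of a decomposition as a tensor power of an odd-dimensional orthogonal
space.
-/
import Mathlib
import Cfsg.Agent.CLAS.WrO9

set_option autoImplicit false
set_option linter.unusedSectionVars false

namespace CL.WrO

open Module CL.ExtF CL.Tens CL.Wr CL.Witt CL.Witt.Form CL.Uniq

attribute [-simp] LinearEquiv.coe_inv
attribute [local simp] FormType.quad_σ FormType.quad_ε FormType.quad_π

universe u v

variable {F V₁ : Type*} [Field F] [AddCommGroup V₁] [Module F V₁] {f₁ : Form (FormType.quad F) V₁}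
  [FiniteDimensional F V₁] [Finite F]

section Loc

variable {U V : Type*} [AddCommGroup V] [Module F V] [AddCommGroup U] [Module F U]
  {f : Form (FormType.quad F) V} {fU : Form (FormType.quad F) U} {τ : U →ₗ[F] V₁ →ₗ[F] V}
  {g : V ≃ₗ[F] V} {p : U ≃ₗ[F] U} {X : Subgroup (V ≃ₗ[F] V)} {ξ : End F V}
  {I : Type*} [Fintype I] [DecidableEq I] {ρ : I → Rep F V₁ V} {j : I}
  {κ : {l // l ≠ j} → Rep F V₁ U} [FiniteDimensional F V] [Nontrivial V]

/-- The first factor of a tensor product. -/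
noncomputable def lam (h : IsTensorProduct τ) : Rep F U V := rep (Tens.flip h)

@[simp] theorem lam_app (h : IsTensorProduct τ) (β : End F U) (u : U) (x : V₁) :
    lam h β (τ u x) = τ (β u) x := (tn_rep (Tens.flip h)).app β x u

theorem un_lam (h : IsTensorProduct τ) (p : U ≃ₗ[F] U) : un (lam h) p = kr h p 1 :=
  equiv_ext h fun x y => by simp [un_apply]

variable (f f₁ ρ fU κ) in
/-- The cofactor of the `j`-th factor. -/
structure LD (hτ : Tn (ρ j) τ) : Prop extends PO f f₁ ρ where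
  Q : TQ hτ.tp f fU f₁
  app : ∀ l A, ρ l.1 A = lam hτ.tp (κ l A)

theorem PO.exists_LD (S : PO f f₁ ρ) (hτ : Tn (ρ j) τ) : ∃ fU κ, LD f₁ f fU ρ κ hτ := by
  have := S.nt
  obtain ⟨fU, Q⟩ := (S.ad j).exists_TQ S.h2 S.nd S.nd₁ hτ
  choose κ hκ using fun l : {l // l ≠ j} => WrS.exists_rep hτ (S.comm l.2)
  exact ⟨fU, κ, S, Q, fun l A => ext_of hτ.tp fun u x => by simp [hκ]⟩

namespace LD

variable {hτ : Tn (ρ j) τ} (S : LD f₁ f fU ρ κ hτ)
include S

theorem comm' (β : End F U) (A : End F V₁) : Commute (lam hτ.tp β) (ρ j A) :=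
  hτ.comm_of_left (lam_app _ β) A

theorem exists_lam (h : ∀ A, Commute ξ (ρ j A)) : ∃ β, ξ = lam hτ.tp β :=
  have := S.nt
  (hτ.exists_left h).imp fun β e => ext_of hτ.tp fun u x => by simp [e]

theorem lv_eq (β : End F U) (c : V₁) (v : V) :
    ρ j (tv f₁ c c) (lam hτ.tp β v) = τ (β (et hτ.tp f₁ c v)) c :=
  LinearMap.congr_fun (ext_of hτ.tp (f := ρ j (tv f₁ c c) * lam hτ.tp β)
    (g := τ.flip c ∘ₗ β ∘ₗ et hτ.tp f₁ c) fun u x => by simp [hτ.app]) v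

variable [FiniteDimensional F U] [Nontrivial U]

theorem adU : Ad f fU (lam hτ.tp) := ad_of (tn_rep (Tens.flip hτ.tp)) S.Q.flip

theorem exists_un (hg : g ∈ f.O ⊓ cen (ρ j)) : ∃ p ∈ fU.O, un (lam hτ.tp) p = g := by
  have := S.nt
  obtain ⟨c, hc⟩ := exists_ne (0 : V₁)
  obtain ⟨c', e⟩ := S.nd₁.exists_B_eq hc 1
  obtain ⟨B, hB⟩ := hτ.exists_left hg.2
  refine ⟨LinearEquiv.ofInjectiveEndo B ((injective_iff_map_eq_zero B).2 fun u hu =>
    pure_inj hτ.tp hc (g.injective (by simpa [hu] using hB u c))), mem_O_of_B S.h2 fun u u' => ?_,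
    equiv_ext hτ.tp fun u x => (lam_app _ _ u x).trans (hB u x).symm⟩
  have := mem_O_B hg.1 (τ u c) (τ u' c')
  rw [show g _ = _ from hB u c, show g _ = _ from hB u' c'] at this
  simpa [S.Q.mul, e] using this

theorem po : PO fU f₁ κ := by
  have := S.nt
  obtain ⟨c, hc⟩ := exists_ne (0 : V₁)
  obtain ⟨c', e⟩ := S.nd₁.exists_B_eq hc 1
  refine ⟨⟨fun _ _ _ => trivial, fun a _ b _ h A B => rho_inj (lam hτ.tp) (by
      rw [map_mul, map_mul, ← S.app, ← S.app, (S.comm (Subtype.coe_injective.ne h) A B).eq]),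
    fun β _ H => ?_⟩, S.Q.nd₁, S.nd₁, S.h2, fun l A A' H u u' => ?_, fun a b => ?_, S.dim,
    (Nat.odd_mul.1 (finrank_eq hτ.tp ▸ S.odd)).1⟩
  · refine (S.fam.cent (lam hτ.tp β) trivial fun l _ A => ?_).imp fun μ e =>
      rho_inj (lam hτ.tp) (by simp [e])
    rcases eq_or_ne l j with rfl | hl
    · exact S.comm' β A
    · exact S.app ⟨l, hl⟩ A ▸ (H _ (Finset.mem_univ _) A).map _
  · simpa [S.app, S.Q.mul, e] using S.ad l A A' H (τ u c) (τ u' c')
  · obtain ⟨g, hg, H⟩ := S.sw a b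
    obtain ⟨p, hp, rfl⟩ := S.exists_un ⟨hg, fun A => LinearMap.ext fun v => by
      simpa [Equiv.swap_apply_of_ne_of_ne a.2.symm b.2.symm] using H j A v⟩
    refine ⟨p, hp, fun l A u => pure_inj hτ.tp hc ?_⟩
    have := H l A (τ u c)
    rw [← Subtype.coe_injective.map_swap] at this
    simpa [S.app, un_apply] using this

theorem mem_NF : un (lam hτ.tp) p ∈ NF ρ Finset.univ ↔ p ∈ NF κ Finset.univ := by
  have := S.nt
  obtain ⟨c, hc⟩ := exists_ne (0 : V₁)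
  refine ⟨fun h l _ => ?_, fun h l hl => ?_⟩
  · obtain ⟨m, hm, H⟩ := h l (Finset.mem_univ _)
    have hj : m ≠ j := by
      rintro rfl
      exact l.2 (slot_inj S.fam (Finset.mem_univ _) hm (by have := S.dim.three; omega) (by
        simpa using (nz_of_comm (g := un (lam hτ.tp) p) (S.comm' p)).inv.mul H))
    refine ⟨⟨m, hj⟩, Finset.mem_univ _, fun A => (H A).imp fun A' e u => pure_inj hτ.tp hc ?_⟩
    simpa [S.app l, S.app ⟨m, hj⟩, un_apply] using e (τ u c)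
  rcases eq_or_ne l j with rfl | hj
  · exact ⟨l, hl, nz_of_comm (S.comm' p)⟩
  obtain ⟨m, -, H⟩ := h ⟨l, hj⟩ (Finset.mem_univ _)
  refine ⟨m, Finset.mem_univ _, fun A => (H A).imp fun A' e v => ?_⟩
  rw [S.app ⟨l, hj⟩, S.app, un_apply, un_apply, rho_mul, rho_mul, show (p : End F U) * κ _ A =
    κ m A' * p from LinearMap.ext e]

theorem un_un (l : {l // l ≠ j}) (e : V₁ ≃ₗ[F] V₁) : un (lam hτ.tp) (un (κ l) e) = un (ρ l) e :=
  LinearEquiv.toLinearMap_injective (S.app l e).symm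

theorem le (H : ∀ Y, NF κ Finset.univ ⊓ fU.E ≤ Y → Y ≤ fU.O → fU.E ≤ Y ∨ Y ≤ NF κ Finset.univ) :
    LE f f₁ ρ j (fU.E.map (un (lam hτ.tp))) := by
  have := S.nt
  refine ⟨?_, fun g hg => ?_, fun l hl e he => ⟨_, (S.po.ad ⟨l, hl⟩).un_mem_E S.h2 S.Q.nd₁ S.nd₁ he,
    S.un_un _ e⟩, fun g hg h0 => ?_, fun l m hl hm h => Subgroup.commutator_le.2 fun g hg k hk => ?_,
    fun Y hY h => ?_, fun X hX h η hη η0 => ?_⟩
  · rintro _ ⟨p, hp, rfl⟩
    exact ⟨S.adU.un_mem_E S.h2 S.nd S.Q.nd₁ hp, S.comm' p⟩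
  · rintro _ ⟨p, hp, rfl⟩
    obtain ⟨k, hk, rfl⟩ := S.exists_un hg
    exact ⟨_, conj_mem_E hk hp, by simp⟩
  · obtain ⟨p, hp, rfl⟩ := S.exists_un hg
    obtain ⟨c, hc⟩ := exists_ne (0 : V₁)
    exact ⟨p, mem_E_of_quad S.h2 S.Q.nd₁ hp fun u => pure_inj hτ.tp hc (by
      simpa [un_apply] using h0 (τ u c)), rfl⟩
  · obtain ⟨p, hp, rfl⟩ := S.exists_un hg
    obtain ⟨q, hq, rfl⟩ := S.exists_un hk
    exact ⟨_, S.po.cmt (i := ⟨l, hl⟩) (j := ⟨m, hm⟩) (by simpa using h) hp hq, by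
      simp [commutatorElement_def]⟩
  · refine (H (Y.comap (un (lam hτ.tp))) (fun p hp => h ⟨S.mem_NF.2 hp.1, p, hp.2, rfl⟩)
      fun p hp => ?_).imp Subgroup.map_le_iff_le_comap.2 fun h g hg => ?_
    · obtain ⟨q, hq, e⟩ := S.exists_un (hY hp)
      exact un_inj _ e ▸ hq
    · obtain ⟨p, -, rfl⟩ := S.exists_un (hY hg)
      exact S.mem_NF.2 (h hg)
  obtain ⟨β, rfl⟩ := S.exists_lam hη.1
  obtain ⟨c, -, c0, hc⟩ := f₁.quad_iso3 ⊤ (by simpa using S.dim.three)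
  have hβ : β ∈ lvO X hτ.tp f₁ := fun d hd => (hη.2 d hd).congr (S.lv_eq β d)
  obtain ⟨z, hz, e⟩ := hβ c hc
  have sk := level_sk hc c0 S.Q (hX hz) e
  have β0 : β ≠ 0 := by rintro rfl; simp at η0
  have h3 : 3 ≤ finrank F U := by
    by_contra h3
    obtain ⟨y, y0, hy⟩ := exists_ker S.Q.nd₁ S.h2 S.po.odd sk
    refine β0 (LinearMap.ext fun x => ?_)
    obtain ⟨a, rfl⟩ := (finrank_eq_one_iff_of_nonzero' (K := F) y y0).1 (by
      have := Nat.odd_iff.1 S.po.odd; omega) x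
    simp [hy]
  refine S.Q.E_le_of_rad h3 hc c0 fun x y d hd => ?_
  obtain ⟨t, ht, e⟩ := skew_all S.Q.nd₁ S.h2 h3 (h3.eq_or_lt.symm.imp (fun h => by
    have := Nat.odd_iff.1 S.po.odd; omega) fun h => idx1_of_three S.Q.nd₁ h.symm)
    (R := lvO X hτ.tp f₁) (fun A hA γ hγ c hc => ((hγ c hc).conj (h ⟨A, hA, un_lam _ A⟩)).congr
      fun v => by rw [et_kr_inv _ f₁.O.one_mem, kr_apply]; rfl) hβ sk β0 x y d hd
  have ok : f.EichOK (τ x d) (τ y d) 0 :=
    ⟨S.Q.q0 _ hd, by simp [S.Q.mul, f₁.B_self_eq_zero hd], by simp [S.Q.q0 _ hd]⟩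
  refine ⟨0, ok, ?_⟩
  convert ht using 1
  ext v
  simp [ok.ei_apply, e, wd_apply, S.Q.B_pure, add_sub_assoc]

theorem st (L : LE f f₁ ρ j (fU.E.map (un (lam hτ.tp)))) (A : AO f f₁ X ρ) : St f₁ (ρ j) X := by
  have := S.nt
  have W : SW X hτ.tp f fU f₁ := ⟨S.Q, A.le, fun he => hτ.un_eq _ ▸ A.R j he, inferInstance, S.dim,
    fun c hc c0 β h => rho_inj (lam hτ.tp) ((A.lv0 hc c0 (S.comm' β)
      (h.congr fun v => (S.lv_eq β c v).symm)).trans (map_zero _).symm),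
    fun M H hc ξ => cm_scalar S.nd₁ S.h2 S.dim S.po.fam (fun _ _ => trivial) (fun l _ e he =>
      H (un (κ l) e) ((S.po.ad l).un_mem_E S.h2 S.Q.nd₁ S.nd₁ he)
        (by rw [← un_lam, S.un_un]; exact A.R _ he)) hc,
    fun h3 c hc c0 p hp β y hy e => A.d3 h3 L hc c0 ⟨p, hp, un_lam _ p⟩ (S.comm' β) hy
      fun v => by rw [e, S.lv_eq]⟩
  intro s hs s0 z hz h
  exact nz_of_kron hτ (W.stab hs s0 hz (hτ.T_span s ▸ h))

end LD

theorem PO.not_le (S : PO f f₁ ρ) {i : I} (hij : i ≠ j) : ¬ f.E ≤ NF ρ Finset.univ := fun H => by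
  obtain ⟨s, -, s0, hs⟩ := f₁.quad_iso3 ⊤ (by simpa using S.dim.three)
  obtain ⟨v, R⟩ := exists_Rt S.nd₁ S.dim hs s0
  have sk := (S.ad j).sk' (wd_sk s v)
  have h1 := S.comm hij.symm (wd f₁ s v)
  have h0 : ∀ w, ρ i (tv f₁ s s) (ρ j (wd f₁ s v) (ρ i (tv f₁ s s) w)) = 0 := fun w => by
    simp [cm_app h1, rho_mul, tv_mul, f₁.B_self_eq_zero hs]
  obtain ⟨g, hg, e⟩ := exists_quad S.h2 ((S.ad i).sk_mul sk h1 s) fun v => h0 _
  exact S.nNF sk (fun e => wd_ne S.nd₁ s0 R.v0 (rho_inj _ (e.trans (map_zero _).symm))) h1 s0 e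
    (H (mem_E_of_quad S.h2 S.nd hg fun v => by simp [e, h0]))

end Loc

/-- The tensor wreath subgroup is maximal among the subgroups of `O` not containing `Ω`. -/
theorem main (n : ℕ) : ∀ {I : Type v} [Fintype I] [DecidableEq I] {V : Type u} [AddCommGroup V]
    [Module F V] [FiniteDimensional F V] [Nontrivial V] {f : Form (FormType.quad F) V}
    {ρ : I → Rep F V₁ V}, Fintype.card I = n → PO f f₁ ρ → ∀ X, NF ρ Finset.univ ⊓ f.E ≤ X →
      X ≤ f.O → f.E ≤ X ∨ X ≤ NF ρ Finset.univ := by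
  induction n using Nat.strong_induction_on with | _ n ih =>
  intro I _ _ V _ _ _ _ f ρ hn S X h1 h2
  refine or_iff_not_imp_left.2 fun h3 => ?_
  have := S.nt
  by_cases h : ∀ i j : I, i = j
  · intro g _ l hl
    have k : ∀ g : V ≃ₗ[F] V, ∃ B, (g : End F V) = ρ l B := fun g =>
      S.fam.mem_range hl trivial fun i _ hil => absurd (h i l) hil
    obtain ⟨B, hB⟩ := k g
    obtain ⟨B', hB'⟩ := k g⁻¹
    exact ⟨l, hl, fun A => ⟨B * A * B', fun v => by simp [← hB, ← hB', inv_app]⟩⟩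
  have L : ∀ j, ∃ E', LE f f₁ ρ j E' ∧ (AO f f₁ X ρ → St f₁ (ρ j) X) := fun j => by
    obtain ⟨U, τ, hτ⟩ := exists_tn (ρ j)
    obtain ⟨fU, κ, D⟩ := S.exists_LD hτ
    have := hτ.nt
    have L := D.le (ih _ (hn ▸ Fintype.card_subtype_lt (x := j) (by simp)) rfl D.po)
    exact ⟨_, L, D.st L⟩
  have A : AO f f₁ X ρ := ⟨S, h2, h1, h3, fun j => (L j).imp fun _ h => h.1⟩
  push Not at h
  obtain ⟨i, j, hij⟩ := h
  exact CO.le_NF ⟨S, h2, h1, fun j => (L j).elim fun _ h => h.2 A, A.cn, A.loc⟩ hij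

open Matrix Cfsg Cfsg.Geo CL.Tv CL.Root in
/-- The stabilizer of a decomposition `O_k ⊗ ⋯ ⊗ O_k` is maximal in `Ω` in odd dimension. -/
theorem wreath_o_maximal {F : Type*} [Field F] [Fintype F] {ι : Type} [Fintype ι] [DecidableEq ι]
    (hodd : Odd (Fintype.card F)) (hn : Odd (Fintype.card ι)) {Q : (ι → F) → F}
    (hQ : IsNondegenerateQuadraticForm Q) {k t : ℕ} (hk : 3 ≤ k) (ht : 2 ≤ t)
    (hex : ¬ (Fintype.card F = 3 ∧ k = 3)) (e : ι ≃ (Fin t → Fin k)) (P : GL ι F)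
    {f₁ : (Fin k → F) → (Fin k → F) → F} (hf₁ : IsSymmetricForm f₁)
    (hT : IsTensorPowerFormStructure id (QuadraticMap.polar Q) f₁ e P) :
    IsMaximalIn (omegaGL Q) (tensorWreathSubgroup k t e P ⊓ omegaGL Q) := by
  obtain ⟨c₀, -, H⟩ := form_pure (σ := RingHom.id F) (bilin_eq_gram hf₁.bilinear) hT
  have h2 := FGL.two_ne_zero_of_odd hodd
  have : NeZero k := ⟨by omega⟩
  have : NeZero t := ⟨by omega⟩
  have : Nonempty ι := ⟨e.symm 0⟩
  have T := ptT e P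
  have ext : ∀ A B A' B' : End F (ι → F), (∀ xs ys, (quadOfGeo hQ).B (A ((crd e P ∘ pi0) xs))
      (B ((crd e P ∘ pi0) ys)) = (quadOfGeo hQ).B (A' ((crd e P ∘ pi0) xs)) (B' ((crd e P ∘ pi0) ys))) →
      ∀ v w, (quadOfGeo hQ).B (A v) (B w) = (quadOfGeo hQ).B (A' v) (B' w) := fun A B A' B' H v w =>
    LinearMap.congr_fun₂ (T.ext
      (f := (bilin hQ.polar_bilinear).compl₁₂ A B) (g := (bilin hQ.polar_bilinear).compl₁₂ A' B')
      fun xs => T.ext (H xs)) v w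
  have S : PO (quadOfGeo hQ) (ofSymm h2 (bilin hf₁.bilinear) fun x y => hf₁.symm y x) (rhoT e P) := by
    refine ⟨T.fam, quadOfGeo_nondeg hQ, fun x hx => by_contra fun x0 => ?_, h2,
      fun i A A' h => ext _ 1 1 _ fun xs ys => ?_, fun a b => ?_, ?_, by simpa using hn⟩
    · obtain ⟨y, hy⟩ := (hf₁.nondegenerate x x0).2
      exact hy (hx y)
    · simp only [End.one_apply, T.app, quadOfGeo_B, H]
      congr 1
      refine Finset.prod_congr rfl fun j _ => ?_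
      rcases eq_or_ne j i with rfl | e
      · simp only [Function.update_self]; exact h _ _
      · simp [e]
    · obtain ⟨g, -, g2, g3⟩ := T.exists_perm (Equiv.swap a b)
      refine ⟨g, mem_O_of_B h2 (ext g g 1 1 fun xs ys => ?_), fun l A v => by
        simpa using g3 (Equiv.swap a b l) A v⟩
      simp only [LinearEquiv.coe_coe, g2, End.one_apply, quadOfGeo_B, H]
      exact congrArg _ (Equiv.prod_comp (Equiv.swap a b) fun j => f₁ (xs j) (ys j))
    · rw [show Fintype.card ι = k ^ t by simp [Fintype.card_congr e], Nat.odd_pow_iff (by omega),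
        Nat.odd_iff] at hn
      rw [finrank_fin_fun]
      exact (hk.eq_or_lt.imp (fun h => ⟨h.symm, exists_sq_ne_one hodd fun e => hex ⟨e, h.symm⟩⟩)
        (by omega)).symm
  have hij : (0 : Fin t) ≠ ⟨1, ht⟩ := by simp [Fin.ext_iff]
  exact isMaximalIn_of_act (mem_omegaGL_iff_E (quadOfGeo_nondeg hQ) (by simpa using S.five hij))
    (mem_wreath_iff (by omega) (by omega) e P) (S.not_le hij) fun K h1 h2 ⟨g, hg, hg'⟩ =>
      (main _ rfl S K h1 (h2.trans E_le_O)).resolve_right fun h => hg' (h hg)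

end CL.WrO
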