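/-
Orthogonal spaces of dimension four and Witt index one.
-/
import Mathlib
import Cfsg.Agent.CLAS.WrO10

set_option autoImplicit false
set_option linter.unusedSectionVars false

namespace CL.WrE

open Module CL.ExtF CL.Tens CL.Wr CL.Witt CL.Witt.Form CL.Uniq CL.WrO

attribute [-simp] LinearEquiv.coe_inv
attribute [local simp] FormType.quad_σ FormType.quad_ε FormType.quad_π

variable {F V : Type*} [Field F] [AddCommGroup V] [Module F V] {f : Form (FormType.quad F) V}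
  {a a' b b' c c' s v x y : V} {D e : V ≃ₗ[F] V} {A : End F V}

theorem sq_mul_of_not [Finite F] {x y : F} (hx : ¬ IsSquare x) (hy : ¬ IsSquare y) :
    IsSquare (x * y) := by
  classical
  have := Fintype.ofFinite F
  have x0 : x ≠ 0 := by rintro rfl; simp at hx
  have y0 : y ≠ 0 := by rintro rfl; simp at hy
  rw [← quadraticChar_neg_one_iff_not_isSquare] at hx hy
  rw [← quadraticChar_one_iff_isSquare (mul_ne_zero x0 y0), map_mul, hx, hy]; norm_num

variable (f a a') in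
/-- Orthogonal pairs of non-singular vectors. -/
structure OP : Prop where
  q1 : f.q a ≠ 0
  q2 : f.q a' ≠ 0
  o : f.B a a' = 0

theorem OP.o' (h : OP f a a') : f.B a' a = 0 := f.B_eq_zero_symm h.o

theorem OP.symm (h : OP f a a') : OP f a' a := ⟨h.q2, h.q1, h.o'⟩

theorem ne_of_q (h : f.q a ≠ 0) : a ≠ 0 := by rintro rfl; simp [q_zero] at h

variable (f a a' b b') in
/-- Orthogonal bases. -/
structure OB : Prop where
  p1 : OP f a a'
  p2 : OP f b b'
  o1 : f.B a b = 0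
  o2 : f.B a b' = 0
  o3 : f.B a' b = 0
  o4 : f.B a' b' = 0

theorem OB.rel (h : OB f a a' b b') : (f.B a a' = 0 ∧ f.B a' a = 0 ∧ f.B b b' = 0 ∧ f.B b' b = 0) ∧
    (f.B a b = 0 ∧ f.B a b' = 0 ∧ f.B a' b = 0 ∧ f.B a' b' = 0) ∧
    f.B b a = 0 ∧ f.B b' a = 0 ∧ f.B b a' = 0 ∧ f.B b' a' = 0 :=
  ⟨⟨h.p1.o, h.p1.o', h.p2.o, h.p2.o'⟩, ⟨h.o1, h.o2, h.o3, h.o4⟩, f.B_eq_zero_symm h.o1,
    f.B_eq_zero_symm h.o2, f.B_eq_zero_symm h.o3, f.B_eq_zero_symm h.o4⟩

theorem OB.symm (h : OB f a a' b b') : OB f b b' a a' :=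
  ⟨h.p2, h.p1, h.rel.2.2.1, h.rel.2.2.2.2.1, h.rel.2.2.2.1, h.rel.2.2.2.2.2⟩

theorem Sim.rf (h2 : (2 : F) ≠ 0) (h : Sim f D) (b : V) : D * f.rf b * D⁻¹ = f.rf (D b) :=
  LinearEquiv.ext fun x => by simpa [ht_eq] using LinearEquiv.congr_fun (h.ht h2 b) x

theorem Sim.inv (h : Sim f D) : Sim f D⁻¹ :=
  have ⟨m, m0, h⟩ := h
  ⟨m⁻¹, inv_ne_zero m0, fun x y => by simp [← h (D⁻¹ x), app_inv, eq_inv_mul_iff_mul_eq₀ m0]⟩

theorem Sim.op (h2 : (2 : F) ≠ 0) (h : Sim f D) (p : OP f a a') : OP f (D a) (D a') :=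
  ⟨(h.q_eq h2).not.2 p.q1, (h.q_eq h2).not.2 p.q2, h.elim fun _ h => by simp [h.2, p.o]⟩

theorem OP.rr (p : OP f a a') (x : V) : (f.rf a * f.rf a') x =
    x - ((f.q a)⁻¹ * f.B a x) • a - ((f.q a')⁻¹ * f.B a' x) • a' := by
  simp [rf_apply, p.o]; abel

theorem OP.sq (p : OP f a a') : f.rf a * f.rf a' * (f.rf a * f.rf a') = 1 := by
  rw [(show Commute (f.rf a') (f.rf a) from rf_comm p.o').mul_mul_mul_comm]; simp [rf_mul_self]

variable (h2 : (2 : F) ≠ 0)
include h2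

theorem OP.rr1 (p : OP f a a') : (f.rf a * f.rf a') a = -a := by
  simp [rf_self p.q1, Form.rf_of_perp p.o']

theorem OP.rr2 (p : OP f a a') : (f.rf a * f.rf a') a' = -a' := by
  simp [rf_self p.q2, Form.rf_of_perp p.o]

theorem OP.of_neg (p : OP f a a') (h : (f.rf a * f.rf a') x = -x) : ∃ α β : F, x = α • a + β • a' := by
  rw [p.rr] at h
  exact ⟨2⁻¹ * ((f.q a)⁻¹ * f.B a x), 2⁻¹ * ((f.q a')⁻¹ * f.B a' x), by
    rw [mul_smul 2⁻¹, mul_smul 2⁻¹, ← smul_add, eq_inv_smul_iff₀ h2]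
    linear_combination (norm := module) h⟩

/-- The discriminant of a space of Witt index one. -/
theorem disc4 [Finite F] (hI : Idx1 f) (h : OB f a a' b b') :
    ¬ IsSquare (f.q a * f.q a' * (f.q b * f.q b')) := fun ⟨r, hr⟩ => by
  obtain ⟨x, y, e⟩ := exists_binary_eq h2 h.p2.q1 h.p2.q2 (-f.q a)
  have k := h.rel
  obtain ⟨t, ht⟩ := Submodule.mem_span_singleton.1 (hI (a + x • b + y • b')
    (r • a' + f.q a' • ((x * f.q b) • b' - (y * f.q b') • b))
    (by simp [quad_q_add, quad_q_smul, k]; linear_combination e)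
    (by simp [quad_q_add, q_sub, quad_q_smul, k]
        linear_combination f.q a' ^ 2 * f.q b * f.q b' * e - f.q a' * hr)
    (by simp [k, quad_B_self]; ring)
    fun e => by simpa [k, quad_B_self, h2, h.p1.q1] using congrArg (f.B a) e)
  have := congrArg (f.B a') ht
  simp [k, quad_B_self, h2, h.p1.q2] at this
  simp [this, h.p1.q1, h.p1.q2, h.p2.q1, h.p2.q2] at hr

theorem fix2 (hD : Sim f D) {l : F} (l0 : l ≠ 0) {k : ℕ} (hN : ((D : End F V) - l • 1) ^ k = 0)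
    (p : OP f a a') {α β γ δ : F} (e1 : D a = α • a + β • a') (e2 : D a' = γ • a + δ • a') :
    D a = l • a ∧ D a' = l • a' := by
  obtain ⟨m, m0, hD⟩ := hD
  let M : Matrix (Fin 2) (Fin 2) F := !![α - l, γ; β, δ - l]
  have k1 : ∀ n : ℕ, ∀ u : Fin 2 → F, (((D : End F V) - l • 1) ^ n) (u 0 • a + u 1 • a') =
      (M ^ n).mulVec u 0 • a + (M ^ n).mulVec u 1 • a' := fun n => by
    induction n with
    | zero => simp
    | succ n ih =>
      intro u
      rw [pow_succ, pow_succ, ← Matrix.mulVec_mulVec, ← ih, End.mul_apply]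
      congr 1
      simp [M, e1, e2, Matrix.mulVec, dotProduct]
      module
  have hM : IsNilpotent M := ⟨k, Matrix.ext_iff_mulVec.2 fun u => by
    have := k1 k u
    rw [hN] at this
    ext i
    fin_cases i
    · simpa [p.o, quad_B_self, h2, p.q1] using congrArg (f.B a) this
    · simpa [p.o', quad_B_self, h2, p.q2] using congrArg (f.B a') this⟩
  have t1 := (Matrix.isNilpotent_trace_of_isNilpotent hM).eq_zero
  have t2 : M.det = 0 := by
    obtain ⟨n, hn⟩ := hM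
    have := congrArg Matrix.det hn
    rw [Matrix.det_pow, Matrix.det_zero] at this
    exact eq_zero_of_pow_eq_zero this
  simp [M, Matrix.det_fin_two] at t1 t2
  have s1 := hD a a
  have s2 := hD a' a'
  have s3 := hD a a'
  simp only [e1, e2, p.o, p.o', quad_B_self, map_add, map_smul, LinearMap.add_apply,
    smul_eq_mul, B_smul_left, FormType.quad_σ] at s1 s2 s3
  obtain ⟨u, rfl⟩ : ∃ u, α = l + u := ⟨α - l, by ring⟩
  obtain rfl : δ = l - u := by linear_combination t1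
  have q1 := p.q1
  have q2 := p.q2
  generalize f.q a = A at *
  generalize f.q a' = A' at *
  have r1 : l * (A * γ + A' * β) + u * (A * γ - A' * β) = 0 := mul_left_cancel₀ h2 (by
    linear_combination s3)
  have r2 : 4 * A * A' * l * u = (A * γ + A' * β) * (A * γ - A' * β) := mul_left_cancel₀ h2 (by
    linear_combination A' * s1 - A * s2)
  have h4 : (4 : F) ≠ 0 := (by norm_num : (4 : F) = 2 * 2) ▸ mul_ne_zero h2 h2
  obtain rfl : u = 0 := by_contra fun u0 => by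
    have r3 : 4 * A * A' * l ^ 2 + (A * γ - A' * β) ^ 2 = 0 := mul_left_cancel₀ u0 (by
      linear_combination l * r2 + (A * γ - A' * β) * r1)
    have : 4 * A * A' * l ^ 4 = 0 := by
      linear_combination (l ^ 2 - u ^ 2) * r3 - 4 * A * A' * l ^ 2 * t2 +
        (l * (A * γ + A' * β) - u * (A * γ - A' * β)) * -r1
    simp [*] at this
  have r4 : A * γ + A' * β = 0 := by simpa [l0] using r1
  have r5 : A * γ - A' * β = 0 := eq_zero_of_pow_eq_zero (n := 2) (by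
    linear_combination (A * γ + A' * β) * r4 + 4 * A * A' * t2)
  have r6 : γ = 0 := mul_left_cancel₀ (mul_ne_zero h2 q1) (by linear_combination r4 + r5)
  have r7 : β = 0 := mul_left_cancel₀ (mul_ne_zero h2 q2) (by linear_combination r4 - r5)
  simp [e1, e2, r6, r7]

variable (f) in
/-- Products of two commuting conjugate reflections. -/
def Zr : Set (V ≃ₗ[F] V) := {e | ∃ a a', OP f a a' ∧ f.q a' = f.q a ∧ e = f.rf a * f.rf a'}

theorem mem_Zr (p : OP f a a') (h : IsSquare (f.q a * f.q a')) : f.rf a * f.rf a' ∈ Zr f := by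
  obtain ⟨r, hr⟩ := h
  have r0 : r ≠ 0 := by rintro rfl; simp [p.q1, p.q2] at hr
  have := p.q1
  have := p.q2
  refine ⟨a, (r / f.q a') • a', ⟨p.q1, by simp [quad_q_smul, *], by simp [p.o]⟩, ?_,
    by rw [rf_smul (div_ne_zero r0 p.q2)]⟩
  rw [quad_q_smul]; field_simp; linear_combination -hr

theorem Zr.perm (hD : Sim f D) (he : e ∈ Zr f) : D * e * D⁻¹ ∈ Zr f := by
  obtain ⟨a, a', p, q, rfl⟩ := he
  refine ⟨D a, D a', Sim.op h2 hD p, hD.elim fun m h => by simp [q_sim h2 h.2, q], ?_⟩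
  rw [← Sim.rf h2 hD, ← Sim.rf h2 hD]; group

theorem rr_rot (p : OP f a a') (q : f.q a' = f.q a) {α β : F} (h : f.q (α • a + β • a') ≠ 0) :
    f.rf a * f.rf a' = f.rf (α • a + β • a') * f.rf (α • a' - β • a) ∧
      OP f (α • a + β • a') (α • a' - β • a) ∧ f.q (α • a' - β • a) = f.q (α • a + β • a') := by
  have e1 : f.q (α • a + β • a') = (α ^ 2 + β ^ 2) * f.q a := by
    simp [quad_q_add, quad_q_smul, q, p.o]; ring
  have e2 : f.q (α • a' - β • a) = (α ^ 2 + β ^ 2) * f.q a := by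
    simp [q_sub, quad_q_smul, q, p.o']; ring
  have p' : OP f (α • a + β • a') (α • a' - β • a) :=
    ⟨h, by rwa [e2, ← e1], by simp [p.o, p.o', quad_B_self, q]; ring⟩
  refine ⟨LinearEquiv.ext fun x => ?_, p', e2.trans e1.symm⟩
  rw [e1, mul_ne_zero_iff] at h
  rw [p.rr, p'.rr, e1, e2, q]
  simp only [map_add, map_sub, map_smul, LinearMap.add_apply, LinearMap.sub_apply, B_smul_left,
    FormType.quad_σ]
  match_scalars <;> field_simp [h.1, h.2] <;> ring

variable (f) in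
/-- A rotation `c` of the plane on which `w` is `-1`. -/
structure Rot (c w : V ≃ₗ[F] V) : Prop where
  rr : ∃ a b, f.q a ≠ 0 ∧ f.q b ≠ 0 ∧ c = f.rf a * f.rf b
  op : ∃ a b, OP f a b ∧ w = f.rf a * f.rf b
  tr : ∃ κ : F, κ ≠ 0 ∧ κ + 2 ≠ 0 ∧ (c : End F V) + (c⁻¹ : V ≃ₗ[F] V) = 2 + κ • (1 - (w : End F V))
  cub : ∃ α : F, α ≠ 0 ∧ ((c⁻¹ : V ≃ₗ[F] V) : End F V) = α • 1 + -α • (c : End F V) + c * c

theorem rot (p : OP f a a') {t : F} (t0 : t ≠ 0) (h : f.q (t • a + a') ≠ 0)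
    (h3 : 3 * t ^ 2 * f.q a ≠ f.q a') : Rot f (f.rf a * f.rf (t • a + a')) (f.rf a * f.rf a') := by
  have e : f.q (t • a + a') = t ^ 2 * f.q a + f.q a' := by simp [quad_q_add, quad_q_smul, p.o]
  have q1 := p.q1
  have q2 := p.q2
  refine ⟨⟨_, _, q1, h, rfl⟩, ⟨_, _, p, rfl⟩, ⟨-2 * f.q a' / f.q (t • a + a'),
    div_ne_zero (by simp [*]) h, fun H => ?_,
    LinearMap.ext fun x => ?_⟩, (3 * t ^ 2 * f.q a - f.q a') / f.q (t • a + a'),
    div_ne_zero (sub_ne_zero.2 h3) h, LinearMap.ext fun x => ?_⟩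
  · field_simp at H
    simp [e, *] at H
  all_goals
    simp only [mul_inv_rev, rf_inv, LinearMap.add_apply, LinearEquiv.coe_coe, mul_app, rf_apply,
      LinearMap.smul_apply, LinearMap.sub_apply, End.one_apply, End.ofNat_apply, End.mul_apply,
      map_add, map_sub, map_smul, B_smul_left, FormType.quad_σ, f.quad_B_self a, f.quad_B_self a',
      p.o, p.o', smul_eq_mul]
    generalize f.q (t • a + a') = Q at e h
    match_scalars <;> field_simp <;> subst e <;> ring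

variable [FiniteDimensional F V] (hf : f.Nondeg)
include hf

theorem sp4 (h4 : finrank F V = 4) (p : OP f a a') (hb : f.q b ≠ 0) (o1 : f.B a b = 0)
    (o3 : f.B a' b = 0) (c0 : c ≠ 0) (o2 : f.B a c = 0) (o4 : f.B a' c = 0) (o : f.B b c = 0) (x : V) :
    ∃ α β γ δ : F, x = α • a + β • a' + γ • b + δ • c := by
  have : LinearIndependent F ![a, a', b, c] := Fintype.linearIndependent_iff.2 fun g hg => by
    simp only [Fin.sum_univ_four] at hg
    have g0 : g 0 = 0 := by simpa [quad_B_self, h2, p.q1, p.o, o1, o2] using congrArg (f.B a) hg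
    have g1 : g 1 = 0 := by simpa [quad_B_self, h2, p.q2, p.o', o3, o4] using congrArg (f.B a') hg
    have g2 : g 2 = 0 := by
      simpa [quad_B_self, h2, hb, f.B_eq_zero_symm o1, f.B_eq_zero_symm o3, o] using
        congrArg (f.B b) hg
    intro i
    fin_cases i <;> simp_all
  obtain ⟨g, rfl⟩ := (Submodule.mem_span_range_iff_exists_fun F).1
    ((this.span_eq_top_of_card_eq_finrank' (by simp [h4])).ge (Submodule.mem_top (x := x)))
  exact ⟨g 0, g 1, g 2, g 3, by simp [Fin.sum_univ_four]⟩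

theorem OB.sp (h4 : finrank F V = 4) (h : OB f a a' b b') (x : V) :
    ∃ α β γ δ : F, x = α • a + β • a' + γ • b + δ • b' :=
  sp4 h2 hf h4 h.p1 h.p2.q1 h.o1 h.o3 (ne_of_q h.p2.q2) h.o2 h.o4 h.p2.o x

theorem OB.ext (h4 : finrank F V = 4) (h : OB f a a' b b') {W : Type*} [AddCommGroup W] [Module F W]
    {A B : V →ₗ[F] W} (e1 : A a = B a) (e2 : A a' = B a') (e3 : A b = B b) (e4 : A b' = B b') :
    A = B := LinearMap.ext fun x => by
  obtain ⟨α, β, γ, δ, rfl⟩ := h.sp h2 hf h4 x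
  simp [*]

theorem ns3 (h4 : finrank F V = 4) (p : OP f a a') (hb : f.q b ≠ 0) (o1 : f.B a b = 0)
    (o3 : f.B a' b = 0) : ∃ b', OB f a a' b b' := by
  obtain ⟨c, c0, o2, o4, o⟩ := exists_perp_three (h := f) h4.ge a a' b
  refine ⟨c, p, ⟨hb, fun e => c0 (hf.right c fun x => ?_), o⟩, o1, o2, o3, o4⟩
  obtain ⟨α, β, γ, δ, rfl⟩ := sp4 h2 hf h4 p hb o1 o3 c0 o2 o4 o x
  simp [*, quad_B_self]

variable [Finite F]

theorem scalar_of_sing (h3 : 3 ≤ finrank F V) (H : ∀ s, f.q s = 0 → A s ∈ F ∙ s) :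
    ∃ l : F, ∀ x, A x = l • x := by
  obtain ⟨p, -, p0, hp⟩ := f.quad_iso3 ⊤ (by simpa using h3)
  obtain ⟨p', hp', e⟩ := hf.exists_partner' hp p0
  obtain ⟨l, hl⟩ := Submodule.mem_span_singleton.1 (H p hp)
  obtain ⟨l', hl'⟩ := Submodule.mem_span_singleton.1 (H p' hp')
  have e' : f.B p' p = 1 := by rw [f.quad_symm, e]
  have pp := f.B_self_eq_zero hp
  have pp' := f.B_self_eq_zero hp'
  have k : ∀ v, f.B p v = 0 → f.B p' v = 0 → A v = l' • v ∧ f.q v * l = f.q v * l' := fun v v1 v2 => by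
    have k0 : ∀ v, f.B p v = 0 → f.B p' v = 0 → ∃ m : F, A v = m • v + (m - l') • p' -
        (f.q v * (m - l)) • p := fun v v1 v2 => by
      obtain ⟨m, hm⟩ := Submodule.mem_span_singleton.1 (H (p' + v - f.q v • p) (by
        simp [q_sub, quad_q_add, quad_q_smul, hp, hp', v2, e', f.B_eq_zero_symm v1]))
      simp only [map_sub, map_add, map_smul, ← hl, ← hl'] at hm
      exact ⟨m, by linear_combination (norm := module) -hm⟩
    obtain ⟨m, hm⟩ := k0 v v1 v2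
    obtain ⟨n, hn⟩ := k0 (-v) (by simp [v1]) (by simp [v2])
    rw [map_neg, hm, q_neg] at hn
    rcases eq_or_ne v 0 with rfl | v0
    · simp [q_zero]
    have k1 := congrArg (f.B p) hn
    have k2 := congrArg (f.B p') hn
    simp [v1, v2, e, e', pp, pp'] at k1 k2
    have k3 : m = n := sub_eq_zero.1 ((smul_eq_zero.1 (show (m - n) • v = 0 by
      linear_combination (norm := module) -hn + k1 • p' + k2 • p)).resolve_right v0)
    have k4 : m = l' := mul_left_cancel₀ h2 (by linear_combination k3 - k1)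
    have k5 : f.q v * l = f.q v * l' := mul_left_cancel₀ h2 (by
      linear_combination 2 * f.q v * k4 - f.q v * k3 - k2)
    exact ⟨by rw [hm, k4, mul_sub, k5]; simp, k5⟩
  obtain ⟨v, v1, v2, v3⟩ := exists_nonsing_hyp hf h3 hp hp' e
  obtain rfl := mul_left_cancel₀ v3 (k v v1 v2).2
  refine ⟨l, fun x => ?_⟩
  have := (k (x - f.B p' x • p - f.B p x • p') (by simp [e, pp]) (by simp [e', pp'])).1
  simp only [map_sub, map_smul, ← hl, ← hl'] at this
  linear_combination (norm := module) this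

theorem ns2 (h4 : 4 ≤ finrank F V) (p : OP f a a') (t : F) :
    ∃ b, f.B a b = 0 ∧ f.B a' b = 0 ∧ f.q b = t := by
  have d1 := hf.finrank_add_finrank_perp (Submodule.span F {a, a'})
  have := CL.Tv.finrank_span_pair_le (F := F) a a'
  obtain ⟨w, hw, e⟩ := exists_q_eq_mem (hf.restrict_perp (W := Submodule.span F {a, a'}) (by
    rw [f.restrict_nondeg_iff, Submodule.disjoint_def]
    intro x hx h
    obtain ⟨α, β, rfl⟩ := Submodule.mem_span_pair.1 hx
    simp [f.mem_perp_span_pair, quad_B_self, p.o, p.o', h2, p.q1, p.q2] at h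
    simp [h])) (by omega) t
  exact ⟨w, (f.mem_perp_span_pair.1 hw).1, (f.mem_perp_span_pair.1 hw).2, e⟩

variable (h4 : finrank F V = 4)
include h4

theorem exists_OB (p : OP f a a') : ∃ b b', OB f a a' b b' ∧ f.q b = f.q a :=
  have ⟨b, o1, o3, e⟩ := ns2 h2 hf h4.ge p (f.q a)
  have ⟨b', h⟩ := ns3 h2 hf h4 p (e ▸ p.q1) o1 o3
  ⟨b, b', h, e⟩

theorem exists_Z (ha : f.q a ≠ 0) : ∃ a', OP f a a' ∧ f.q a' = f.q a :=
  have ⟨a', o, e⟩ := univ_perp h2 hf (by omega) ha (f.q a)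
  ⟨a', ⟨ha, e ▸ ha, o⟩, e⟩

theorem exists_sim_to (ha : f.q a ≠ 0) (hb : f.q b ≠ 0) : ∃ D, Sim f D ∧ D a = b := by
  obtain ⟨a', p, q⟩ := exists_Z h2 hf h4 ha
  obtain ⟨c, c', h, q'⟩ := exists_OB h2 hf h4 p
  obtain ⟨x, y, e⟩ := exists_binary_eq h2 ha ha (f.q b)
  obtain ⟨x', y', e'⟩ := exists_binary_eq h2 ha h.p2.q2 (f.q b)
  have k := h.rel
  have q2 := h.p2.q2
  let A : End F V := (2 * f.q a)⁻¹ • (tv f a (x • a + y • a') + tv f a' (x • a' - y • a) +
    tv f c (x' • c + y' • c')) + (2 * f.q c')⁻¹ • tv f c' (x' • c' - (y' * f.q c' / f.q a) • c)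
  have hA : ∀ u w, f.B (A u) (A w) = f.q b / f.q a * f.B u w := fun u w => by
    obtain ⟨α, β, γ, δ, rfl⟩ := h.sp h2 hf h4 u
    obtain ⟨α', β', γ', δ', rfl⟩ := h.sp h2 hf h4 w
    simp [A, k, quad_B_self, q, q']
    field_simp
    linear_combination (α * α' + β * β') * f.q a * e + (γ * γ' * f.q a + δ * δ' * f.q c') * e'
  have m0 := div_ne_zero hb ha
  let D := LinearEquiv.ofInjectiveEndo A ((injective_iff_map_eq_zero A).2 fun u hu =>
    hf u fun w => by simpa [hu, m0] using hA u w)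
  obtain ⟨g, hg, eg⟩ := hf.witt_vector (x := D a) (by simpa using ne_of_q ha) (ne_of_q hb)
    (by rw [q_sim h2 (D := D) hA]; field_simp)
  exact ⟨g * D, ⟨_, m0, fun u w => (mem_O_B hg _ _).trans (hA u w)⟩, eg⟩

theorem OB.neg (h : OB f a a' b b') (x : V) : (f.rf a * f.rf a') ((f.rf b * f.rf b') x) = -x := by
  obtain ⟨α, β, γ, δ, rfl⟩ := h.sp h2 hf h4 x
  have k := h.rel
  simp [Form.rf_of_perp, k, rf_self, h.p1.q1, h.p1.q2, h.p2.q1, h.p2.q2]
  abel

variable (hI : Idx1 f)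
include hI

theorem pm_Zr (p : OP f a a') :
    ∃ e ∈ Zr f, f.rf a * f.rf a' = e ∨ ((f.rf a * f.rf a' : V ≃ₗ[F] V) : End F V) = -e := by
  by_cases h : IsSquare (f.q a * f.q a')
  · exact ⟨_, mem_Zr h2 p h, Or.inl rfl⟩
  obtain ⟨b, b', o, -⟩ := exists_OB h2 hf h4 p
  refine ⟨_, mem_Zr h2 o.p2 (by_contra fun h' => disc4 h2 hI o (sq_mul_of_not h h')),
    Or.inr (LinearMap.ext fun x => ?_)⟩
  have := o.neg h2 hf h4 ((f.rf b * f.rf b') x)
  rwa [← mul_app (f.rf b * f.rf b'), o.p2.sq] at this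

theorem Zr.mul {z : V ≃ₗ[F] V} (hz : z ∈ Zr f) (he : e ∈ Zr f) (hn : z ≠ e) (hc : Commute z e) :
    z * e ∈ Zr f := by
  obtain ⟨a, a', p, q, rfl⟩ := hz
  obtain ⟨b, b', p', q', rfl⟩ := he
  obtain ⟨u, u0, u1, u2⟩ : ∃ u, f.q u ≠ 0 ∧ (f.rf a * f.rf a') u = -u ∧ (f.rf b * f.rf b') u = -u := by
    have k : ∀ {a a'}, OP f a a' → f.q a' = f.q a → Commute (f.rf a * f.rf a') (f.rf b * f.rf b') →
        (f.rf b * f.rf b') a ≠ a → ∃ u, f.q u ≠ 0 ∧ (f.rf a * f.rf a') u = -u ∧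
          (f.rf b * f.rf b') u = -u := fun {a a'} p q hc h => by
      have e1 : (f.rf a * f.rf a') ((f.rf b * f.rf b') a) = -(f.rf b * f.rf b') a := by
        rw [← mul_app, hc.eq, mul_app, p.rr1 h2, map_neg]
      refine ⟨a - (f.rf b * f.rf b') a, fun e => h ?_, by rw [map_sub, p.rr1 h2, e1]; abel, by
        rw [map_sub, ← mul_app _ _ a, p'.sq]; simp⟩
      obtain ⟨α, β, e2⟩ := p.of_neg h2 e1
      have e3 := mem_O_q (mul_mem (rf_mem_O (f := f) b) (rf_mem_O b')) a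
      rw [e2] at e e3 ⊢
      simp [q_sub, quad_q_add, quad_q_smul, p.o, quad_B_self, q] at e e3
      obtain rfl : α = 1 := mul_left_cancel₀ (mul_ne_zero h2 p.q1) (by linear_combination e3 - e)
      simp [show β = 0 by simpa [p.q1] using e3]
    by_cases h1 : (f.rf b * f.rf b') a = a
    swap
    · exact k p q hc h1
    by_cases h1' : (f.rf b * f.rf b') a' = a'
    swap
    · simpa only [rf_comm p.o] using k p.symm q.symm (rf_comm p.o ▸ hc) h1'
    have k : ∀ x, (f.rf b * f.rf b') x = x → f.B x b = 0 ∧ f.B x b' = 0 := fun x h => by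
      have e1 := mem_O_B (mul_mem (rf_mem_O (f := f) b) (rf_mem_O b')) x
      exact ⟨mul_left_cancel₀ h2 (by simpa [h, p'.rr1 h2, neg_eq_iff_add_eq_zero, two_mul] using e1 b),
        mul_left_cancel₀ h2 (by simpa [h, p'.rr2 h2, neg_eq_iff_add_eq_zero, two_mul] using e1 b')⟩
    exact (disc4 h2 hI ⟨p, p', (k a h1).1, (k a h1).2, (k a' h1').1, (k a' h1').2⟩
      ⟨f.q a * f.q b, by rw [q, q']; ring⟩).elim
  obtain ⟨α, β, e1⟩ := p.of_neg h2 u1
  obtain ⟨γ, δ, e2⟩ := p'.of_neg h2 u2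
  obtain ⟨r1, p1, q1⟩ := rr_rot h2 p q (e1 ▸ u0)
  obtain ⟨r2, p2, q2⟩ := rr_rot h2 p' q' (e2 ▸ u0)
  rw [← e1] at r1 p1 q1
  rw [← e2] at r2 p2 q2
  rw [r1, r2] at hn hc ⊢
  generalize α • a' - β • a = x at *
  generalize γ • b' - δ • b = y at *
  have c1 : Commute (f.rf u) (f.rf x) := rf_comm p1.o
  have c2 : Commute (f.rf u) (f.rf y) := rf_comm p2.o
  have e : ∀ {x y}, Commute (f.rf u) (f.rf x) → f.rf u * f.rf x * (f.rf u * f.rf y) = f.rf x * f.rf y :=
    fun c => by rw [c.eq, mul_assoc, ← mul_assoc (f.rf u), rf_mul_self, one_mul]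
  refine ⟨x, y, ⟨p1.q2, p2.q2, (of_ht_comm h2 p1.q2 p2.q2 (LinearEquiv.ext fun w => ?_)).resolve_right
    fun h => hn ?_⟩, q2.trans q1.symm, e c1⟩
  · simpa [ht_eq] using LinearEquiv.congr_fun ((e c1).symm.trans (hc.eq.trans (e c2))) w
  · exact congrArg _ (LinearEquiv.ext fun w => by simpa [ht_eq] using LinearEquiv.congr_fun h w)

omit hI in
theorem Zr.two (he : e ∈ Zr f) : ∃ z ∈ Zr f, e ≠ z ∧ Commute e z := by
  obtain ⟨a, a', p, q, rfl⟩ := he
  obtain ⟨b, b', h, q'⟩ := exists_OB h2 hf h4 p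
  refine ⟨_, ⟨a, b, ⟨p.q1, h.p2.q1, h.o1⟩, q', rfl⟩, fun e => ne_of_q p.q2 ?_,
    ((Commute.refl _).mul_right (rf_comm h.o1)).mul_left
      ((show Commute _ _ from rf_comm p.o').mul_right (rf_comm h.o3))⟩
  simpa [rf_self p.q2, Form.rf_of_perp, h.rel, neg_eq_iff_add_eq_zero, ← two_smul F, h2] using
    LinearEquiv.congr_fun (mul_left_cancel e) a'

theorem Zr.nc (he : e ∈ Zr f) : ¬ ∀ z ∈ Zr f, Commute e z := fun H => by
  obtain ⟨a, a', p, q, rfl⟩ := he
  obtain ⟨b, b', h, q'⟩ := exists_OB h2 hf h4 p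
  have k := h.rel
  obtain ⟨w, w0, w1, w2, w3, w4⟩ : ∃ w, w ≠ 0 ∧ f.B a w = 0 ∧ f.B a' w = 0 ∧ f.q w ≠ f.q a ∧
      f.q a + f.q w ≠ 0 := by
    by_cases e : f.q a + f.q b' = 0
    · have : f.q (b + b') = 0 := by simpa [quad_q_add, k, q'] using e
      exact ⟨b + b', fun e => by simpa [k, quad_B_self, h2, h.p2.q1] using congrArg (f.B b) e,
        by simp [k], by simp [k], this ▸ p.q1.symm, by simpa [this] using p.q1⟩
    · exact ⟨b', ne_of_q h.p2.q2, h.o2, h.o4, fun e => disc4 h2 hI h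
        ⟨f.q a * f.q a, by rw [q, q', e]⟩, e⟩
  have c := H _ (Zr.perm h2 (sim_of_O (rf_mem_O (a + w))) ⟨a, a', p, q, rfl⟩)
  have e1 : f.rf (a + w) a = a - (2 * f.q a / (f.q a + f.q w)) • (a + w) := by
    simp [rf_apply, quad_q_add, w1, f.B_eq_zero_symm w1, quad_B_self, div_eq_inv_mul]
  obtain ⟨α, β, e2⟩ := p.of_neg h2 (x := (f.rf (a + w) * (f.rf a * f.rf a') * (f.rf (a + w))⁻¹) a) (by
    rw [← mul_app, c.eq, mul_app, p.rr1 h2, map_neg])
  have q1 := p.q1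
  have e3 : (f.rf (a + w) * (f.rf a * f.rf a') * (f.rf (a + w))⁻¹) a = a -
      (2 * (f.q w - f.q a) / (f.q a + f.q w)) • f.rf (a + w) a := by
    rw [mul_app, mul_app, rf_inv, p.rr, map_sub, map_sub, Form.rf_rf, map_smul, map_smul, e1]
    simp [p.o', w1, w2, quad_B_self]
    congr 1
    field_simp; ring
  rw [e3, e1] at e2
  have e4 := congrArg (f.B a') e2
  simp [p.o', w2, quad_B_self, h2, p.q2] at e4
  obtain ⟨φ, f1, f2⟩ := CL.Tv.exists_dual_one (F ∙ a) (x := w) fun e => by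
    obtain ⟨t, rfl⟩ := Submodule.mem_span_singleton.1 e
    simp [quad_B_self, h2, q1] at w1
    simp [w1] at w0
  simpa [e4, f1, f2 a (Submodule.mem_span_singleton_self a), h2, q1, w4, sub_eq_zero, w3] using
    congrArg φ e2

/-- A symmetric involution has two orthogonal eigenvectors of the same length and eigenvalue. -/
theorem eig_pair (hA : ∀ x y, f.B (A x) y = f.B x (A y)) (hs : ∀ x, A (A x) = x) :
    ∃ a a', OP f a a' ∧ f.q a' = f.q a ∧ ∃ ε : F, A a = ε • a ∧ A a' = ε • a' := by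
  have k : ∀ x, f.q x ≠ 0 → ∃ y, ∃ ε : Bool, f.q y ≠ 0 ∧ A y = (if ε then 1 else -1 : F) • y ∧
      ∀ u, ∀ δ : F, A u = δ • u → f.B u x = 0 → f.B u y = 0 := fun x hx => by
    by_cases h : f.q (x + A x) = 0
    · refine ⟨x - A x, false, fun h' => hx (mul_left_cancel₀ (mul_ne_zero h2 (mul_ne_zero h2 h2)) ?_),
        by simp [hs], fun u δ e o => by simp [← hA, e, o]⟩
      have := hA (A x) x
      rw [hs, f.quad_symm] at this
      have e := hA x (A x)
      simp [quad_q_add, q_sub, hs, quad_B_self] at h h' e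
      linear_combination 2 * h + 2 * h' - 4 * e.resolve_right h2
    · exact ⟨x + A x, true, h, by simp [hs, add_comm], fun u δ e o => by simp [← hA, e, o]⟩
  have : Nontrivial V := Module.nontrivial_of_finrank_pos (R := F) (by omega)
  obtain ⟨x, hx⟩ := exists_q_ne hf
  obtain ⟨a, ε₁, a0, a1, -⟩ := k x hx
  obtain ⟨x, p, -⟩ := exists_Z h2 hf h4 a0
  obtain ⟨a', ε₂, a0', a1', o⟩ := k x p.q2
  have p : OP f a a' := ⟨a0, a0', o a _ a1 p.o⟩
  obtain ⟨x, _, h, -⟩ := exists_OB h2 hf h4 p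
  obtain ⟨b, ε₃, b0, b1, o⟩ := k x h.p2.q1
  obtain ⟨x, h⟩ := ns3 h2 hf h4 p b0 (o a _ a1 h.o1) (o a' _ a1' h.o3)
  obtain ⟨b', ε₄, b0', b1', o⟩ := k x h.p2.q2
  have h : OB f a a' b b' := ⟨p, ⟨b0, b0', o b _ b1 h.p2.o⟩, h.o1, o a _ a1 h.o2, h.o3, o a' _ a1' h.o4⟩
  by_contra! H
  have k : ∀ {a a'} {ε : F}, OP f a a' → A a = ε • a → A a' = ε • a' → ¬ IsSquare (f.q a * f.q a') :=
    fun {a a' ε} p e e' ⟨r, hr⟩ => by
      have r0 : r ≠ 0 := by rintro rfl; simp [p.q1, p.q2] at hr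
      have := p.q1
      have := p.q2
      exact H a ((r / f.q a') • a') ⟨p.q1, by simp [quad_q_smul, *], by simp [p.o]⟩
        (by rw [quad_q_smul]; field_simp; linear_combination -hr) ε e (by simp [e', smul_comm ε])
  have d := disc4 h2 hI h
  have k3 : ∀ {a a' b} {ε : F}, OP f a a' → OP f a b → OP f a' b → A a = ε • a → A a' = ε • a' →
      A b = ε • b → False := fun {a a' b ε} p p' p'' e e' e'' => by
    obtain ⟨r, hr⟩ := sq_mul_of_not (k p e e') (k p' e e'')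
    exact k p'' e' e'' ⟨r / f.q a, by have := p.q1; field_simp; linear_combination hr⟩
  have p13 : OP f a b := ⟨a0, b0, h.o1⟩
  have p14 : OP f a b' := ⟨a0, b0', h.o2⟩
  have p23 : OP f a' b := ⟨a0', b0, h.o3⟩
  have p24 : OP f a' b' := ⟨a0', b0', h.o4⟩
  cases ε₁ <;> cases ε₂ <;> cases ε₃ <;> cases ε₄ <;> first
    | exact k3 p p13 p23 a1 a1' b1 | exact k3 p p14 p24 a1 a1' b1'
    | exact k3 p13 p14 h.p2 a1 b1 b1' | exact k3 p23 p24 h.p2 a1' b1 b1'
    | exact d (sq_mul_of_not (k p a1 a1') (k h.p2 b1 b1'))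
    | exact d (by convert sq_mul_of_not (k p13 a1 b1) (k p24 a1' b1') using 1; ring)
    | exact d (by convert sq_mul_of_not (k p14 a1 b1') (k p23 a1' b1) using 1; ring)

/-- A similarity whose square is a scalar is symmetric. -/
theorem sym_of_sq (hD : Sim f D) {μ : F} (h : ∀ x, D (D x) = μ • x) (x y : V) :
    f.B (D x) y = f.B x (D y) := by
  obtain ⟨m, m0, hD⟩ := hD
  have : Nontrivial V := Module.nontrivial_of_finrank_pos (R := F) (by omega)
  obtain ⟨u, hu⟩ := exists_q_ne hf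
  have μ0 : μ ≠ 0 := fun e => ne_of_q hu (by simpa [e] using h u)
  have k : ∀ x y, μ * f.B (D x) y = m * f.B x (D y) := fun x y => by rw [← hD, h]; simp
  have e : μ * μ = m * m := mul_right_cancel₀ (mul_ne_zero h2 hu) (by
    have := hD (D u) (D u)
    rw [h, hD] at this
    simp [quad_B_self] at this
    linear_combination this)
  rcases mul_self_eq_mul_self_iff.1 e with rfl | rfl
  · exact mul_left_cancel₀ m0 (k x y)
  obtain ⟨l, hl⟩ := scalar_of_sing h2 hf (A := D) (by omega) fun s hs => by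
    rcases eq_or_ne s 0 with rfl | s0
    · simp
    refine hI s _ hs (by simp [q_sim h2 hD, hs]) (mul_left_cancel₀ (mul_ne_zero h2 m0) ?_) s0
    simp only [LinearEquiv.coe_coe]
    linear_combination -k s s + m * f.quad_symm (D s) s
  simp [show ∀ x, D x = l • x from hl]

theorem hyp4 (h : OB f a a' b b') (q : f.q a' = f.q a) : ∃ c c', f.q c = 0 ∧ f.q c' = 0 ∧
    f.B c c' ≠ 0 ∧ ((∀ x, f.B a x = 0 → f.B a' x = 0 → f.B c x = 0 ∧ f.B c' x = 0) ∨
      ∀ x, f.B b x = 0 → f.B b' x = 0 → f.B c x = 0 ∧ f.B c' x = 0) := by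
  have k : ∀ {a a'}, OP f a a' → IsSquare (-1 * (f.q a * f.q a')) → ∃ c c', f.q c = 0 ∧ f.q c' = 0 ∧
      f.B c c' ≠ 0 ∧ ∀ x, f.B a x = 0 → f.B a' x = 0 → f.B c x = 0 ∧ f.B c' x = 0 :=
    fun {a a'} p ⟨r, hr⟩ => ⟨f.q a' • a + r • a', f.q a' • a - r • a',
      by simp [quad_q_add, quad_q_smul, p.o]; linear_combination -f.q a' * hr,
      by simp [q_sub, quad_q_smul, p.o]; linear_combination -f.q a' * hr, fun e => by
        simp [p.o, p.o', quad_B_self] at e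
        exact mul_ne_zero (mul_ne_zero h2 h2) (mul_ne_zero p.q1 (pow_ne_zero 2 p.q2)) (by
          linear_combination e - 2 * f.q a' * hr), fun x h h' => by simp [h, h']⟩
  by_cases e : IsSquare (-1 : F)
  · obtain ⟨c, c', h⟩ := k h.p1 (e.mul ⟨_, by rw [q]⟩)
    exact ⟨c, c', h.1, h.2.1, h.2.2.1, Or.inl h.2.2.2⟩
  · obtain ⟨c, c', h⟩ := k h.p2 (sq_mul_of_not e fun e => disc4 h2 hI h (IsSquare.mul ⟨_, by rw [q]⟩ e))
    exact ⟨c, c', h.1, h.2.1, h.2.2.1, Or.inr h.2.2.2⟩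

end CL.WrE
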