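/-
Anisotropic root groups acting on tensor factors; spaces invariant under reflections.
-/
import Mathlib
import Cfsg.Agent.CLAS.WrE1

set_option autoImplicit false
set_option linter.unusedSectionVars false

namespace CL.WrE

open Module CL.ExtF CL.Tens CL.Wr CL.Witt CL.Witt.Form CL.Uniq CL.WrO

attribute [-simp] LinearEquiv.coe_inv
attribute [local simp] FormType.quad_σ FormType.quad_ε FormType.quad_π

section Grp

variable {G : Type*} [Group G] [Finite G] {X H R P K : Subgroup G} {p : ℕ} [Fact p.Prime]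
  (hN : NrmG X H R) (hR : R ≤ H) (hp : IsPGroup p R)
include hN hR hp

theorem ker_le (hX : R ≤ X) (hc : ∀ a ∈ R, ∀ b ∈ R, a * b = b * a) (hn : ¬ IsCyclic R)
    (h0 : ∀ r ∈ R, r ≠ 1 → ∀ g ∈ X, g * r = r * g → g ∈ H) (hK : K ≤ X)
    (h1 : ∀ c ∈ X, ∀ k ∈ K, c * k * c⁻¹ ∈ K) (h2 : ∀ k ∈ K, k ∈ H → k ^ p = 1 → k = 1) : K ≤ H := by
  obtain ⟨n, e⟩ := IsPGroup.iff_card.1 hp
  exact le_of_cent hc hn (fun a ha => h1 a (hX ha))
    (e ▸ (hN.coprime hR hp le_rfl hX hK h1 h2).symm.pow_left n) fun a ha a1 k hk =>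
      h0 a ha a1 k (hK hk)

theorem le_of_quot (hP : P ≤ X) (hRP : R ≤ P) (hK : K ≤ H) (h1 : ∀ c ∈ P, ∀ k ∈ K, c * k * c⁻¹ ∈ K)
    (h2 : ∀ g ∈ P, g ^ p ∈ K) : P ≤ H := fun g hg => by
  have : (K.subgroupOf P).Normal := ⟨fun k hk c => h1 c c.2 k hk⟩
  obtain ⟨S, hS⟩ := (hp.comap_subtype (K := P)).exists_le_sylow
  have h3 := hN.le_of_pgroup hR (P := (S : Subgroup P).map P.subtype)
    ((Subgroup.map_subtype_le _).trans hP) (fun r hr => ⟨⟨r, hRP hr⟩, hS hr, rfl⟩) (S.isPGroup'.map _)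
  have hq : IsPGroup p (P ⧸ K.subgroupOf P) := fun x => by
    obtain ⟨x, rfl⟩ := QuotientGroup.mk_surjective x
    exact ⟨1, by rw [pow_one, ← QuotientGroup.mk_pow, QuotientGroup.eq_one_iff]; exact h2 x x.2⟩
  obtain ⟨s, hs, e⟩ := ((S.mapSurjective (QuotientGroup.mk'_surjective (K.subgroupOf P))).is_maximal'
    (hq.to_subgroup ⊤) le_top).le (Subgroup.mem_top (QuotientGroup.mk ⟨g, hg⟩))
  have := QuotientGroup.eq.1 (show (s : P ⧸ K.subgroupOf P) = _ from e)
  simpa using H.mul_mem (h3 ⟨s, hs, rfl⟩) (hK this)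

end Grp

variable {F V₁ V : Type*} [Field F] [AddCommGroup V₁] [Module F V₁] [AddCommGroup V] [Module F V]
  {f : Form (FormType.quad F) V} {f₁ : Form (FormType.quad F) V₁} {σ σ' σ'' : Rep F V₁ V}
  {a a' b b' c d s v : V₁} {g k r z : V ≃ₗ[F] V} {D D' e : V₁ ≃ₗ[F] V₁} {ν : F × F →ₗ[F] V₁}
  {ξ η ζ : End F V} {S : Submodule F (End F V)} {𝒜 : Subalgebra F (End F V)}

variable (f₁ s ν) in
/-- An anisotropic plane of root directions. -/
structure An : Prop where
  hs : f₁.q s = 0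
  s0 : s ≠ 0
  hv : ∀ p, f₁.B s (ν p) = 0
  an : ∀ p, f₁.q (ν p) = 0 → p = 0

theorem exists_An [FiniteDimensional F V₁] (hs : f₁.q s = 0) (s0 : s ≠ 0) {M : Submodule F V₁}
    (hM : ∀ x ∈ M, f₁.B s x = 0) (h3 : 3 ≤ finrank F M) (H : ∀ x ∈ M, f₁.q x = 0 → x ∈ F ∙ s) :
    ∃ ν, An f₁ s ν ∧ ∀ p, ν p ∈ M := by
  have k : ∀ x, ∃ y ∈ M, y ∉ Submodule.span F {s, x} := fun x => by
    by_contra! h
    have := Submodule.finrank_mono (show M ≤ _ from h)
    have := CL.Tv.finrank_span_pair_le (F := F) s x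
    omega
  obtain ⟨x, hx, x1⟩ := k s
  obtain ⟨y, hy, y1⟩ := k x
  have m : ∀ p : F × F, p.1 • x + p.2 • y ∈ M := fun p => add_mem (M.smul_mem _ hx) (M.smul_mem _ hy)
  refine ⟨(LinearMap.toSpanSingleton F _ x).coprod (LinearMap.toSpanSingleton F _ y),
    ⟨hs, s0, fun p => hM _ (m p), fun p h => ?_⟩, m⟩
  obtain ⟨t, ht⟩ := Submodule.mem_span_singleton.1 (H _ (m p) h)
  have e2 : p.2 = 0 := by_contra fun e => y1 ((Submodule.smul_mem_iff _ e).1
    (Submodule.mem_span_pair.2 ⟨t, -p.1, by rw [ht]; module⟩))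
  refine Prod.ext (by_contra fun e => x1 ((Submodule.smul_mem_iff _ e).1
    (Submodule.mem_span_pair.2 ⟨t, 0, by simp [ht, e2]⟩))) e2

namespace An

variable (h : An f₁ s ν)

/-- A two-parameter group of Eichler elements. -/
noncomputable def rt : Multiplicative (F × F) →* (V₁ ≃ₗ[F] V₁) :=
  MonoidHom.mk' (fun a => f₁.ei s (ν a.toAdd) (f₁.q (ν a.toAdd))) fun a b => by
    rw [(qok h.hs (h.hv _)).ei_mul (qok h.hs (h.hv _)), toAdd_mul, map_add, quad_q_add]

theorem rt_eq (p : Multiplicative (F × F)) : h.rt p = WrO.rt h.hs (h.hv p.toAdd) (.ofAdd 1) := by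
  simp [rt, WrO.rt]

theorem mem (p : Multiplicative (F × F)) : h.rt p ∈ f₁.E := ei_mem_E _ _ _

theorem coe (p : F × F) : (h.rt (.ofAdd p) : End F V₁) =
    1 + wd f₁ s (ν p) - f₁.q (ν p) • tv f₁ s s := by
  ext; simp [rt_eq, rt_apply, smul_smul]

theorem pow {G : Type*} [Group G] (u : Multiplicative (F × F) →* G) (a : Multiplicative (F × F)) :
    u a ^ ringChar F = 1 := by
  rw [← map_pow, show a ^ ringChar F = 1 from Multiplicative.toAdd.injective (by
    ext <;> simp), map_one]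

theorem add_neg (σ : Rep F V₁ V) (p : F × F) (w : V) : un σ (h.rt (.ofAdd p)) w +
    un σ (h.rt (.ofAdd (-p))) w = (2 : F) • (w - f₁.q (ν p) • σ (tv f₁ s s) w) := by
  simp [un_apply, -ofAdd_neg, coe, q_neg]; module

end An

theorem _root_.CL.WrO.Nd.mul (h : Nd σ' σ'' g D) (h' : Nd σ σ' k D') : Nd σ σ'' (g * k) (D * D') :=
  fun A v => by
    rw [mul_app, mul_app, h', h]; congr 2

theorem _root_.CL.WrO.Nd.nz (h : Nd σ σ' g D) : Nz σ σ' g := fun A => ⟨_, h A⟩

variable [FiniteDimensional F V₁] [Nontrivial V]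

theorem _root_.CL.WrO.Nd.scalar (h : Nd σ σ g D) (H : ∀ A, Commute (g : End F V) (σ A)) :
    ∃ l : F, ∀ x, D x = l • x := exists_smul_of_mem_span (f := (D : End F V₁)) fun x => by
  rcases eq_or_ne x 0 with rfl | x0
  · simp
  obtain ⟨φ, hφ⟩ := Module.Projective.exists_dual_eq_one F x0
  have := LinearMap.congr_fun (rho_inj σ (a₁ := φ.smulRight x) (LinearMap.ext fun v =>
    app_inv g v ▸ (cm_app H _ _).symm.trans (h _ _))) (D x)
  exact Submodule.mem_span_singleton.2 ⟨_, by simpa [inv_app, hφ] using this⟩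

theorem nd_unip [Nontrivial V₁] (h : Nd σ σ g D) (h' : Nd σ σ g D')
    (n : IsNilpotent ((D : End F V₁) - 1)) (n' : IsNilpotent ((D' : End F V₁) - 1)) : D = D' := by
  obtain ⟨l, hl⟩ := (Nd.mul (Nd.inv h) h').scalar fun A => by simp [← End.one_eq_id]
  have e : ∀ x, D' x = l • D x := fun x => by simpa [app_inv] using congrArg D (hl x)
  obtain ⟨x, x0, hx⟩ : ∃ x, x ≠ 0 ∧ D x = x := by
    by_contra! K
    obtain ⟨x, x0⟩ := exists_ne (0 : V₁)
    obtain ⟨k, hk⟩ := n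
    exact x0 (eq_zero_of_pow_inj (S := ⊤) (fun _ _ => trivial)
      (fun w _ e => by_contra fun w0 => K w w0 (sub_eq_zero.1 e)) hk trivial)
  obtain ⟨k, hk⟩ := n'
  have : ∀ n : ℕ, (((D' : End F V₁) - 1) ^ n) x = (l - 1) ^ n • x := fun n => by
    induction n with
    | zero => simp
    | succ n ih => simp [pow_succ', ih, e, hx, mul_smul, sub_smul, smul_sub, smul_comm l]
  have := (this k).symm
  simp [hk, x0, sub_eq_zero] at this
  exact LinearEquiv.ext fun x => by simp [e, this.1]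

/-- A two-parameter root group normalizing a factor lies in the factor or centralizes it. -/
theorem An.dich [Finite F] [Nontrivial V₁] (h : An f₁ s ν) (h2 : (2 : F) ≠ 0)
    (H : ∀ p, Nz σ σ (un σ' (h.rt p))) :
    (∀ p, ∃ A, σ' (h.rt p) = σ A) ∨ ∀ p A, Commute (σ' (h.rt p)) (σ A) := by
  let u := (un σ').comp h.rt
  have k : ∀ p : F × F, ∃ D, Nd σ σ (u (.ofAdd p)) D ∧ IsNilpotent ((D : End F V₁) - 1) := fun p => by
    obtain ⟨D, hD⟩ := (H (.ofAdd p)).exists_equiv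
    obtain ⟨l, l0, n, hn⟩ := Nd.unip hD (An.pow u _)
    refine ⟨D * LinearEquiv.smulOfNeZero F V₁ l⁻¹ (inv_ne_zero l0), fun A v => (hD A v).trans ?_, n, ?_⟩
    · congr 2
      ext x
      simp [show ∀ x, (LinearEquiv.smulOfNeZero F V₁ l⁻¹ (inv_ne_zero l0))⁻¹ x = l • x from
        fun x => inv_app_eq (by simp [l0]), l0]
    · rw [show ((D * LinearEquiv.smulOfNeZero F V₁ l⁻¹ (inv_ne_zero l0) : V₁ ≃ₗ[F] V₁) : End F V₁) - 1 =
        l⁻¹ • ((D : End F V₁) - l • 1) by ext; simp [smul_sub, l0], smul_pow, hn, smul_zero]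
  choose D hD n using k
  have cm : ∀ p p', Commute (D p) (D p') := fun p p' => mul_inv_eq_iff_eq_mul.1 (nd_unip (by
    simpa [← map_mul, ← map_inv, mul_comm] using ((hD p).mul (hD p')).mul (Nd.inv (hD p))) (hD p') (by
      have := (n p').map ((D p).conjAlgEquiv F)
      rwa [map_sub, map_one] at this) (n p'))
  have ad : ∀ p p', D (p + p') = D p * D p' := fun p p' => nd_unip (hD _) (by
    simpa [ofAdd_add] using (hD p).mul (hD p')) (n _) (by
      have c : Commute (D p : End F V₁) (D p') := congrArg LinearEquiv.toLinearMap (cm p p').eq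
      have c1 := c.sub_right (Commute.one_right _)
      have := Commute.isNilpotent_add ((Commute.refl _).sub_right (Commute.one_right _) |>.mul_left
        (c1.sub_left (Commute.one_left _)).symm) (c1.isNilpotent_mul_left (n p')) (n p)
      rwa [mul_sub, mul_one, sub_add_sub_cancel] at this)
  refine or_iff_not_imp_right.2 fun hc => ?_
  obtain ⟨M, ⟨hM, x, hx, p₁, x1⟩, mn⟩ := (wellFounded_lt (α := Submodule F V₁)).has_min
    {M | (∀ p, ∀ x ∈ M, D p x ∈ M) ∧ ∃ x ∈ M, ∃ p, D p x ≠ x} ⟨⊤, fun _ _ _ => trivial, by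
      by_contra! K
      exact hc fun p => (hD p.toAdd).comm (l := 1) fun x => by simp [K x trivial]⟩
  have fx : ∀ p p', D p' (D p x - x) = D p x - x := fun p p' => by_contra fun e => mn
    (M.map ((D p : End F V₁) - 1)) ⟨by
      rintro p'' _ ⟨y, hy, rfl⟩
      exact ⟨_, hM p'' y hy, by simpa using LinearEquiv.congr_fun (cm p p'').eq y⟩, _, ⟨x, hx, rfl⟩, p', e⟩
    (lt_of_le_of_ne (by rintro _ ⟨y, hy, rfl⟩; exact sub_mem (hM p y hy) hy) fun e => by
      obtain ⟨k, hk⟩ := n p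
      have : ∀ k : ℕ, M.map (((D p : End F V₁) - 1) ^ k) = M := fun k => by
        induction k with
        | zero => simp [End.one_eq_id]
        | succ k ih => rw [pow_succ, End.mul_eq_comp, Submodule.map_comp, e, ih]
      simp [show x = 0 by simpa [hk] using (this k).ge hx] at x1)
  obtain ⟨φ, f1, f0⟩ := CL.Tv.exists_dual_one (F ∙ x) (x := D p₁ x - x) fun e => by
    obtain ⟨t, ht⟩ := Submodule.mem_span_singleton.1 e
    have := fx p₁ p₁
    rw [← ht, map_smul, ← sub_eq_zero, ← smul_sub, ← ht, smul_smul] at this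
    exact x1 (sub_eq_zero.1 (by rw [← ht, show t = 0 by
      simpa [show x ≠ 0 by rintro rfl; simp at x1] using this, zero_smul]))
  replace f0 := f0 x (Submodule.mem_span_singleton_self x)
  have la : ∀ p p', φ (D (p + p') x) = φ (D p x) + φ (D p' x) := fun p p' => by
    simpa [ad, f0, sub_eq_iff_eq_add, add_comm] using congrArg φ (fx p' p)
  have l1 : φ (D p₁ x) = 1 := by simpa [f0] using f1
  let ℓ : F × F →+ F := AddMonoidHom.mk' (fun p => φ (D p x)) la
  obtain ⟨U, τ, hτ⟩ := exists_tn σ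
  choose B hB using fun p => (hD p).kron hτ
  have e1 : ∀ p y, φ (D p x) • (B p y - B (-p) y) =
      -(2 * f₁.q (ν p)) • ct hτ.tp φ (σ' (tv f₁ s s) (τ y x)) := fun p y => by
    have := congrArg (ct hτ.tp φ) (h.add_neg σ' p (τ y x))
    rw [show un σ' _ _ = _ from hB p y x, show un σ' _ _ = _ from hB (-p) y x] at this
    simpa [f0, show φ (D (-p) x) = _ from map_neg ℓ p, ℓ, smul_sub, sub_eq_add_neg, smul_smul]
      using this
  have e2 : ∀ p y, B p y - B (-p) y = (2 : F) • ct hτ.tp φ (σ' (wd f₁ s (ν p)) (τ y (D p₁ x - x))) :=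
    fun p y => by
      have k := fun p => congrArg (ct hτ.tp φ) (hB p y (D p₁ x - x))
      have k1 := k p
      have k2 := k (-p)
      simp only [u, MonoidHom.comp_apply, un_apply, An.coe, fx, ct_apply, f1, one_smul, map_neg,
        q_neg, map_add, map_sub σ', map_smul, map_one, LinearMap.sub_apply, LinearMap.add_apply,
        LinearMap.neg_apply, map_sub (ct _ _)] at k1 k2
      linear_combination (norm := module) k2 - k1
  obtain ⟨p₀, p0, l0⟩ : ∃ p, p ≠ 0 ∧ ℓ p = 0 := by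
    by_contra! K
    have := Nat.card_le_card_of_injective ℓ ((injective_iff_map_eq_zero ℓ).2 fun p => not_imp_not.1 (K p))
    have h1 := Finite.one_lt_card (α := F)
    rw [Nat.card_prod] at this
    nlinarith
  have e3 : ∀ p y, φ (D p x) ≠ 0 → B p y - B (-p) y = 0 := fun p y hp => by
    have := e1 p₀ y
    rw [show φ (D p₀ x) = 0 from l0, zero_smul, eq_comm, smul_eq_zero_iff_right (by
      simpa [h2] using mt (h.an p₀) p0)] at this
    simpa [this, hp] using e1 p y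
  have e4 : ∀ p y, B p y = B (-p) y := fun p y => sub_eq_zero.1 (by
    by_cases hp : φ (D p x) = 0
    · have := e3 (p + p₁) y (by simp [la, hp, l1])
      rwa [e2, map_add, map_add, map_add, LinearMap.add_apply, map_add, smul_add, ← e2, ← e2,
        e3 p₁ y (by simp [l1]), add_zero] at this
    · exact e3 p y hp)
  refine fun p => ⟨D p.toAdd, hτ.eq_rho fun y w => (hB p.toAdd y w).trans ?_⟩
  have := mem_of_sq (H := MulAction.stabilizer (V ≃ₗ[F] V) (τ y (D p₁ x - x))) (odd_ringChar h2)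
    (An.pow u p) (by
      change u p (u (.ofAdd p.toAdd) _) = _
      rw [hB, e4, fx, ← fx p₁ (-p.toAdd), ← hB, fx, ← mul_app, ← map_mul]; simp)
  have e5 := congrArg (ct hτ.tp φ) ((hB p.toAdd y _).symm.trans this)
  simp only [ct_apply, fx, f1, one_smul] at e5
  rw [e5]; rfl


theorem An.inj (h : An f₁ s ν) (hf₁ : f₁.Nondeg) (h2 : (2 : F) ≠ 0) : Function.Injective h.rt :=
  (injective_iff_map_eq_one _).2 fun p e => by_contra fun p1 => by
    rw [h.rt_eq] at e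
    simpa using (rt_inj h.hs (h.hv p.toAdd) hf₁ h2 h.s0 (mt (h.an _) p1)).eq_iff' (map_one _) |>.1 e

omit [Nontrivial V] [FiniteDimensional F V₁] in
theorem not_cyc [Finite F] {G : Type*} [Group G] {u : Multiplicative (F × F) →* G}
    (hu : Function.Injective u) : ¬ IsCyclic u.range := fun hc => by
  have h3 : Nat.card u.range ∣ ringChar F := by
    rw [← IsCyclic.exponent_eq_card]
    exact Monoid.exponent_dvd_of_forall_pow_eq_one (by
      rintro ⟨_, a, rfl⟩; exact Subtype.ext (by simpa using An.pow u a))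
  rw [← Nat.card_congr (MonoidHom.ofInjective hu).toEquiv, Nat.card_congr Multiplicative.toAdd,
    Nat.card_prod] at h3
  have := Fintype.ofFinite F
  obtain ⟨n, hp, hq⟩ := FiniteField.card F (ringChar F)
  have h4 := Nat.le_of_dvd hp.pos h3
  have h5 := Nat.le_self_pow n.ne_zero (ringChar F)
  rw [Nat.card_eq_fintype_card, hq] at h4
  nlinarith [hp.two_le]

omit [Nontrivial V] [FiniteDimensional F V₁] in
theorem pgrp [Finite F] {G : Type*} [Group G] (u : Multiplicative (F × F) →* G) :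
    IsPGroup (ringChar F) u.range := by
  rintro ⟨_, a, rfl⟩
  exact ⟨1, Subtype.ext (by simpa using An.pow u a)⟩

/-- A cubic element normalizing a factor lies in the factor, or its square centralizes it. -/
theorem sm4 [Finite F] [FiniteDimensional F V] (h2 : (2 : F) ≠ 0) (hf : f.Nondeg) (hf₁ : f₁.Nondeg)
    (h3 : 3 ≤ finrank F V₁) (hI : Idx1 f₁) (ad : Ad f f₁ σ) (hr : r ∈ f.O) (h : Nz σ σ r) {α β γ : F}
    (α0 : α ≠ 0) (β0 : β ≠ 0) (e : ∀ v, r⁻¹ v = α • v + β • r v + γ • r (r v)) :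
    (∃ A, (r : End F V) = σ A) ∨ ∀ A, Commute ((r * r : V ≃ₗ[F] V) : End F V) (σ A) := by
  have : Nontrivial V₁ := Module.nontrivial_of_finrank_pos (R := F) (by omega)
  obtain ⟨D, hD, h1⟩ := exists_sim h hr hf hf₁ ad ad
  refine or_iff_not_imp_right.2 fun hc => ?_
  obtain ⟨x, hx⟩ : ∃ x, ∀ α β γ : F, α • x + β • D x + γ • D (D x) = 0 → α = 0 ∧ β = 0 := by
    by_contra! K
    obtain ⟨l, hl⟩ := scalar_of_sing h2 hf₁ (A := (D * D : V₁ ≃ₗ[F] V₁)) h3 fun s hs => by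
      change D (D s) ∈ _
      by_cases h : D s ∈ F ∙ s
      · obtain ⟨t, ht⟩ := Submodule.mem_span_singleton.1 h
        rw [← ht, map_smul]; exact Submodule.smul_mem _ _ h
      have s0 : s ≠ 0 := by rintro rfl; simp at h
      have q1 := (hD.q_eq h2).2 hs
      obtain ⟨α, β, γ, e, n⟩ := K s
      have k : ∀ α β : F, α • s + β • D s = 0 → α = 0 ∧ β = 0 := fun α β e => by
        have : β = 0 := by_contra fun b0 => h ((Submodule.smul_mem_iff _ b0).1
          (Submodule.mem_span_singleton.2 ⟨-α, by linear_combination (norm := module) -e⟩))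
        simpa [this, s0] using e
      have γ0 : γ ≠ 0 := by rintro rfl; simp [k α β (by simpa using e)] at n
      have e1 := congrArg f₁.q (eq_neg_of_add_eq_zero_left e)
      simp [quad_q_add, quad_q_smul, q_neg, hs, q1, (hD.q_eq h2).2 q1,
        show f₁.B s (D s) ≠ 0 from fun e => h (hI _ _ hs q1 e s0)] at e1
      rcases e1 with rfl | rfl
      · exact (Submodule.smul_mem_iff _ γ0).1
          (Submodule.mem_span_singleton.2 ⟨-α, by linear_combination (norm := module) -e⟩)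
      · exact (γ0 (k β γ (D.injective (by simpa using e))).2).elim
    exact hc ((h1.mul h1).comm hl)
  obtain ⟨U, τ, hτ⟩ := exists_tn σ
  obtain ⟨B, hB⟩ := h1.kron hτ
  obtain ⟨D', B', hB'⟩ := hτ.kron h.inv
  obtain ⟨φ, p1, p2⟩ := CL.Tv.exists_dual_one (Submodule.span F {D x, D (D x)}) (x := x) fun e => by
    obtain ⟨a, b, e⟩ := Submodule.mem_span_pair.1 e
    simpa using (hx (-1) a b (by linear_combination (norm := module) e)).1
  obtain ⟨ψ, q1, q2⟩ := CL.Tv.exists_dual_one (Submodule.span F {x, D (D x)}) (x := D x) fun e => by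
    obtain ⟨a, b, e⟩ := Submodule.mem_span_pair.1 e
    simpa using (hx a (-1) b (by linear_combination (norm := module) e)).2
  have e1 : ∀ u, φ (D' x) • B' u = α • u := fun u => by
    simpa [hB, hB', p1, p2 (D x) (Submodule.subset_span (by simp)),
      p2 (D (D x)) (Submodule.subset_span (by simp))] using congrArg (ct hτ.tp φ) (e (τ u x))
  have e2 : ∀ u, ψ (D' x) • B' u = β • B u := fun u => by
    simpa [hB, hB', q1, q2 x (Submodule.subset_span (by simp)),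
      q2 (D (D x)) (Submodule.subset_span (by simp))] using congrArg (ct hτ.tp ψ) (e (τ u x))
  have := hτ.nt
  obtain ⟨u, hu⟩ := exists_ne (0 : U)
  have p0 : φ (D' x) ≠ 0 := fun e => by simpa [e, α0, hu] using (e1 u).symm
  refine ⟨(β⁻¹ * ψ (D' x) * (φ (D' x))⁻¹ * α) • D, hτ.eq_rho fun u y => ?_⟩
  simp [hB, (inv_smul_eq_iff₀ β0).2 (e2 u) |>.symm, (eq_inv_smul_iff₀ p0).2 (e1 u), smul_smul,
    mul_assoc]

variable {I : Type*} [DecidableEq I] {ρ : I → Rep F V₁ V} {J : Finset I} {i j l : I}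
  [FiniteDimensional F V]

/-- The identity is not a combination of four elements moving a factor. -/
theorem no_four (Φ : Fam ρ J 𝒜) (h4 : 4 ≤ finrank F V₁) (hj : j ∈ J) {m : Fin 4 → I}
    (hm : ∀ i, m i ∈ J.erase j) (n : m 0 ≠ m 1) {g : Fin 4 → V ≃ₗ[F] V}
    (p : ∀ i, Nz (ρ j) (ρ (m i)) (g i)) {α : Fin 4 → F} (e : ∀ v, v = ∑ i, α i • g i v) : False := by
  have : Nontrivial V₁ := Module.nontrivial_of_finrank_pos (R := F) (by omega)
  obtain ⟨x, x0⟩ := exists_ne (0 : V₁)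
  choose D hD using fun i => (p i).exists_equiv
  suffices ∀ K ⊆ J.erase j, ∀ ξ : End F V, ξ ≠ 0 → (∀ l ∈ insert j K, ∀ A, Commute ξ (ρ l A)) →
      ¬ ∀ i, m i ∉ K → ∀ w ∈ T (ρ j) (F ∙ x), ξ (g i w) = 0 from
    this _ le_rfl 1 one_ne_zero (fun _ _ _ => Commute.one_left _) fun i h => (h (hm i)).elim
  intro K
  induction K using Finset.induction_on with
  | empty => exact fun _ ξ ξ0 c h => ξ0 (eq_zero_of_T (c j (by simp)) x0 fun w hw => by
      rw [e w]; simp [h _ _ w hw])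
  | insert l K hl ih =>
  intro hK ξ ξ0 c h
  obtain ⟨i₀, h0⟩ : ∃ i, m i ≠ l := by
    by_contra! H
    exact n ((H 0).trans (H 1).symm)
  obtain ⟨φ, f0, f1⟩ := exists_dual_kill (F := F) (fun i => D (i₀.succAbove i) x) (by omega)
  have hl' := hK (Finset.mem_insert_self l K)
  refine ih ((Finset.subset_insert _ _).trans hK) (ρ l (φ.smulRight x) * ξ) (fun e => ξ0
    (eq_zero_of_mul (fun e => rk_ne (ρ l) x0 f0 (by simp [e])) (c l (by simp)) e)) (fun k hk A =>
      Commute.mul_left ?_ (c k ?_ A)) fun i hi w hw => ?_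
  · rcases Finset.mem_insert.1 hk with rfl | hk
    · exact Φ.comm l (Finset.mem_of_mem_erase hl') k hj (Finset.ne_of_mem_erase hl') _ _
    · exact Φ.comm l (Finset.mem_of_mem_erase hl') k (Finset.mem_of_mem_erase (hK
        (Finset.mem_insert_of_mem hk))) (by rintro rfl; exact hl hk) _ _
  · rcases Finset.mem_insert.1 hk with rfl | hk <;> simp [*]
  rcases eq_or_ne (m i) l with rfl | hil
  · obtain ⟨i, rfl⟩ := Fin.exists_succAbove_eq (show i ≠ i₀ by rintro rfl; exact h0 rfl)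
    rw [End.mul_apply, ← cm_app (c _ (by simp)), rk_T (fun y hy => by
      obtain ⟨s, rfl⟩ := Submodule.mem_span_singleton.1 hy
      simp [f1]) _ (Nd.map_T (hD _) hw), map_zero]
  · simp [h i (by simp [hi, hil]) w hw]

/-- A two-parameter root group permuting the factors normalizes them. -/
theorem An.no_move [Finite F] (h : An f₁ s ν) (h2 : (2 : F) ≠ 0) (Φ : Fam ρ J 𝒜)
    (h4 : 4 ≤ finrank F V₁) (H : ∀ p, un σ (h.rt p) ∈ NF ρ J) (hj : j ∈ J) (p : Multiplicative (F × F)) :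
    Nz (ρ j) (ρ j) (un σ (h.rt p)) := by
  let u := (un σ).comp h.rt
  let R := (nor (ρ j)).comap u
  by_contra hp
  obtain ⟨a, rfl⟩ := Multiplicative.ofAdd.surjective p
  replace hp : .ofAdd a ∉ R := hp
  obtain ⟨b, hb, e⟩ : ∃ b, .ofAdd b ∉ R ∧ f₁.q (ν b) ≠ f₁.q (ν a) := by
    by_contra! K
    have k : ∀ r, r ≠ 0 → f₁.q (ν r) = f₁.q (ν a) := fun r r0 => K r fun hr => r0 (h.an r (by
      have e1 := K (a + r) fun e => hp (by simpa using R.div_mem e hr)
      have e2 := K (a - r) fun e => hp (by simpa using R.mul_mem e hr)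
      simp [quad_q_add, q_sub] at e1 e2
      exact mul_left_cancel₀ h2 (by linear_combination e1 + e2)))
    have e1 := k ((1, 0) + (0, 1)) (by simp)
    have e2 := k ((1, 0) - (0, 1)) (by simp)
    rw [map_add, quad_q_add] at e1
    rw [map_sub, q_sub, FormType.quad_π] at e2
    rw [k (1, 0) (by simp), k (0, 1) (by simp)] at e1 e2
    exact hp (h.an a (mul_left_cancel₀ h2 (by linear_combination e1 + e2)) ▸ R.one_mem)
  choose m hm p using fun a => H (.ofAdd a) j hj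
  have k : ∀ a, .ofAdd a ∉ R → m a ∈ J.erase j ∧ m (-a) ∈ J.erase j := fun a ha =>
    ⟨Finset.mem_erase.2 ⟨fun e => ha (by have := p a; rwa [e] at this), hm a⟩, Finset.mem_erase.2
      ⟨fun e => ha (by have := p (-a); rw [e] at this; simpa using R.inv_mem this), hm _⟩⟩
  have e' := mul_ne_zero h2 (sub_ne_zero.2 e)
  refine no_four Φ h4 hj (m := fun i => m (![a, -a, b, -b] i)) (fun i => by
    fin_cases i <;> simp [k a hp, k b hb]) (fun e => hp ?_) (fun i => p _)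
    (α := fun i => (2 * (f₁.q (ν b) - f₁.q (ν a)))⁻¹ * ![f₁.q (ν b), f₁.q (ν b), -f₁.q (ν a),
      -f₁.q (ν a)] i) fun w => ?_
  · have := p (-a)
    rw [← show m a = m (-a) from e] at this
    exact mem_of_sq (H := nor (ρ j)) (odd_ringChar h2) (An.pow u _) (by
      simpa [u, nor] using this.inv.mul (p a))
  · simp only [mul_smul, ← Finset.smul_sum, eq_inv_smul_iff₀ e']
    simp only [Fin.sum_univ_four, Matrix.cons_val]
    linear_combination (norm := module) f₁.q (ν a) • h.add_neg σ b w - f₁.q (ν b) • h.add_neg σ a w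


omit [Nontrivial V]

variable (f₁) in
/-- The dimension condition. -/
def Dm : Prop := 6 ≤ finrank F V₁ ∨ finrank F V₁ = 4 ∧ Idx1 f₁

omit [FiniteDimensional F V₁] [FiniteDimensional F V] in
theorem Dm.four (h : Dm f₁) : 4 ≤ finrank F V₁ := by unfold Dm at h; omega

omit [FiniteDimensional F V₁] [FiniteDimensional F V] in
theorem Dm.three (h : Dm f₁) : 3 ≤ finrank F V₁ := by have := h.four; omega

omit [FiniteDimensional F V₁] [FiniteDimensional F V] in
theorem Dm.idx (h : Dm f₁) : 5 ≤ finrank F V₁ ∨ Idx1 f₁ := Or.imp (by omega) (·.2) h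

variable (f₁ e) in
/-- Elementary elements and reflections. -/
def ER : Prop := e ∈ f₁.E ∨ ∃ b, e = f₁.rf b

variable (f₁ σ S) in
/-- Invariance under the elementary group and the reflections of the factor. -/
def InvO : Prop := ∀ e, ER f₁ e → ∀ ξ ∈ S, σ e * ξ * σ (e⁻¹ : V₁ ≃ₗ[F] V₁) ∈ S

omit [FiniteDimensional F V₁] [FiniteDimensional F V] in
theorem InvO.inv (H : InvO f₁ σ S) : Inv f₁ σ S := fun e he => H e (Or.inl he)

omit [FiniteDimensional F V₁] [FiniteDimensional F V] in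
theorem InvO.lv {P : Set (End F V₁)} (H : InvO f₁ σ' S)
    (h : ∀ A, σ' A ∈ 𝒜 ⊓ Subalgebra.centralizer F (Set.range σ)) : InvO f₁ σ' (WrS.lv σ S P 𝒜) :=
  fun e he η hη => ⟨mul_mem (mul_mem (h _) hη.1) (h _), fun B hB => by
    rw [← mul_assoc, ← mul_assoc, ← (WrS.cen_comm (h e) B).eq, mul_assoc (σ' e)]
    exact H e he _ (hη.2 B hB)⟩

variable [Finite F] (hf₁ : f₁.Nondeg) (h2 : (2 : F) ≠ 0) (hd : Dm f₁)
include hf₁ h2 hd

omit [FiniteDimensional F V] in
/-- The highest weight component of a family of skew operators. -/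
theorem extract_wd' {L : Type*} [AddCommGroup L] [Module F L]
    {M : Submodule F (L →ₗ[F] End F V₁)} (hM : ∀ A, ER f₁ A → ∀ θ ∈ M, Tens.cj A ∘ₗ θ ∈ M)
    {θ : L →ₗ[F] End F V₁} (hθ : θ ∈ M) (H : ∀ y s, f₁.q s = 0 → f₁.B s (θ y s) = 0) {y₀ : L}
    (h0 : ¬ ∃ l : F, ∀ x, θ y₀ x = l • x) : ∃ s v, s ≠ 0 ∧ v ∉ F ∙ s ∧ ∃ θ' ∈ M, ∃ l : L → F,
      l y₀ ≠ 0 ∧ ∀ y, θ' y = l y • wd f₁ s v := by
  have h3 := hd.three
  obtain ⟨p, -, p0, hp⟩ := f₁.quad_iso3 ⊤ (by simpa using h3)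
  have k : ∀ y, ∃ l : F, Sk f₁ (θ y - l • 1) := fun y => by
    obtain ⟨A, hA⟩ := exists_adjL hf₁ (θ y)
    have hA' : ∀ x z, f₁.B (A x) z = f₁.B x (θ y z) := fun x z => by
      rw [f₁.quad_symm, ← hA, f₁.quad_symm]
    obtain ⟨l, hl⟩ := sym_scalar hf₁ h2 (Or.inl hd.four) hp p0 (S := θ y + A)
      (fun x z => by simp [hA, hA', add_comm]) fun x hx => by simp [← hA, H y x hx, f₁.quad_symm x]
    refine ⟨l / 2, fun x z => ?_⟩
    have := congrArg (f₁.B x) (hl z)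
    simp [hA] at this ⊢
    field_simp
    linear_combination 2 * this
  choose l hl using k
  obtain ⟨s, hs, hn⟩ : ∃ s, f₁.q s = 0 ∧ (θ y₀ - l y₀ • 1) s ∉ F ∙ s := by
    by_contra! K
    obtain ⟨μ, hμ⟩ := scalar_of_sing h2 hf₁ h3 K
    exact h0 ⟨μ + l y₀, fun x => by simpa [sub_eq_iff_eq_add, add_smul] using hμ x⟩
  have s0 : s ≠ 0 := by rintro rfl; simp at hn
  have ss := f₁.B_self_eq_zero hs
  obtain ⟨v, v1, v3⟩ := exists_rt hf₁ h3 hs s0
  let w : L → V₁ := fun y => f₁.q v • (θ y - l y • 1) s - f₁.B v ((θ y - l y • 1) s) • v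
  have w1 : ∀ y, f₁.B s (w y) = 0 := fun y => by simp [w, H y s hs, v1, ss]
  have w2 : w y₀ ∉ F ∙ s := fun e => hn (by
    obtain ⟨a, ha⟩ := Submodule.mem_span_singleton.1 e
    have := congrArg (f₁.B v) ha
    simp only [w, map_smul, f₁.B_eq_zero_symm v1, map_sub (f₁.B v), quad_B_self, smul_eq_mul] at this
    have e0 : f₁.B v ((θ y₀ - l y₀ • 1) s) = 0 := mul_left_cancel₀ v3 (by linear_combination this)
    refine (Submodule.smul_mem_iff _ v3).1 ?_
    simpa only [w, e0, zero_smul, sub_zero] using e)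
  have w3 : ∀ y, dd f₁ s v (θ y) = (-2 : F) • wd f₁ s (w y) := fun y => LinearMap.ext fun x => by
    have e := hl y
    rw [← sub_add_cancel (θ y) (l y • 1)]
    simp only [w]
    generalize θ y - l y • 1 = β at e
    have e1 : f₁.B s (β x) = -f₁.B (β s) x := by rw [e, neg_neg]
    have e2 : f₁.B s (β v) = -f₁.B v (β s) := by rw [← e, f₁.quad_symm]
    have e3 : ∀ s, f₁.B s (β s) = 0 := fun s => mul_left_cancel₀ h2 (by
      linear_combination e s s - f₁.quad_symm s (β s))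
    simp only [dd_apply hs v1, wd_apply, map_sub, map_add, map_smul, e1, e2, e3, LinearMap.sub_apply,
      LinearMap.smul_apply, LinearMap.add_apply, End.one_apply, ss, v1, f₁.B_eq_zero_symm v1,
      quad_B_self]
    match_scalars <;> ring
  have m := dd_mem (s := s) (v := v) (fun A hA => hM A (Or.inl hA)) hθ
  obtain ⟨b, b1, b2, b3⟩ : ∃ b, f₁.B s b = 0 ∧ f₁.q b ≠ 0 ∧ f₁.B b (w y₀) ≠ 0 := by
    by_cases e : f₁.q (w y₀) = 0
    swap
    · exact ⟨_, w1 y₀, e, by simp [quad_B_self, h2, e]⟩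
    obtain ⟨t, t1, t2⟩ := hf₁.exists_perp_eq' w2 1
    replace t1 := t1 s (Submodule.mem_span_singleton_self s)
    by_cases e' : f₁.q t = 0
    · exact ⟨w y₀ + t, by simp [w1, t1], by simp [quad_q_add, e, e', t2], by
        simp [f₁.B_self_eq_zero e, f₁.quad_symm (w y₀) t, t2]⟩
    · exact ⟨t, t1, e', by simp [f₁.quad_symm (w y₀) t, t2]⟩
  refine ⟨s, b, s0, fun e => ?_, _, sub_mem m (hM _ (Or.inr ⟨b, rfl⟩) _ m),
    fun y => -2 * ((f₁.q b)⁻¹ * f₁.B b (w y)), by simp [*], fun y => ?_⟩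
  · obtain ⟨a, rfl⟩ := Submodule.mem_span_singleton.1 e
    exact b2 (f₁.q_smul_eq_zero hs a)
  · simp only [LinearMap.sub_apply, LinearMap.comp_apply, w3, map_smul, cj_wd (rf_mem_O b),
      Form.rf_of_perp (f₁.B_eq_zero_symm b1), rf_apply _ (w y), map_sub]
    module

/-- Extraction of an isotypic component. -/
theorem InvO.ext (H : InvO f₁ σ S) (hξ : ξ ∈ S)
    (hn : ¬ ∀ A, Commute ξ (σ A)) : ∃ η, η ≠ 0 ∧ (∀ A, Commute η (σ A)) ∧
      (∀ 𝒜 : Subalgebra F (End F V), (∀ A, σ A ∈ 𝒜) → ξ ∈ 𝒜 → η ∈ 𝒜) ∧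
      ((∀ s, f₁.q s = 0 → σ (tv f₁ s s) * η ∈ S) ∨ ∀ x y, σ (wd f₁ x y) * η ∈ S) := by
  obtain ⟨n, A, η, hi, hc, hm, e⟩ := exists_dec σ ξ
  let M : Submodule F ((Fin n → F) →ₗ[F] End F V₁) :=
    { carrier := {θ | ∑ a, σ (θ (Pi.single a 1)) * η a ∈ S}
      zero_mem' := by simp
      add_mem' := fun ha hb => by simpa [add_mul, Finset.sum_add_distrib] using S.add_mem ha hb
      smul_mem' := fun s _ ha => by simpa [← Finset.smul_sum] using S.smul_mem s ha }
  have hM : ∀ A, ER f₁ A → ∀ θ ∈ M, Tens.cj A ∘ₗ θ ∈ M := fun A hA θ h => by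
    have := H A hA _ h
    simp only [Finset.mul_sum, Finset.sum_mul, WrS.conj_mul _ (hc _)] at this
    exact this
  have h0 : Fintype.linearCombination F A ∈ M := by simpa [M, ← e] using hξ
  have k : ∀ {θ B} (l : Fin n → F) a, θ ∈ M → l a ≠ 0 → (∀ a, θ (Pi.single a 1) = l a • B) →
      ∑ a, l a • η a ≠ 0 ∧ (∀ A, Commute (∑ a, l a • η a) (σ A)) ∧
      (∀ 𝒜 : Subalgebra F (End F V), (∀ A, σ A ∈ 𝒜) → ξ ∈ 𝒜 → ∑ a, l a • η a ∈ 𝒜) ∧
      σ B * ∑ a, l a • η a ∈ S := fun l a h l0 e =>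
    ⟨fun h => l0 (Fintype.linearIndependent_iff.1 hi l h a),
      fun A => Commute.sum_left _ _ _ fun a _ => (hc a A).smul_left _,
      fun 𝒜 h h' => 𝒜.sum_mem fun a _ => 𝒜.smul_mem (hm a 𝒜 h h') _, by
      simpa [M, e, Finset.mul_sum] using h⟩
  by_cases h : ∀ a s, f₁.q s = 0 → f₁.B s (A a s) = 0
  · obtain ⟨a, ha⟩ : ∃ a, ¬ ∃ l : F, ∀ x, A a x = l • x := by
      by_contra! K
      refine hn fun B => e ▸ Commute.sum_left _ _ _ fun a _ => Commute.mul_left ?_ (hc a B)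
      obtain ⟨l, hl⟩ := K a
      simp [show A a = l • 1 from LinearMap.ext hl, Commute.smul_left]
    obtain ⟨s, v, s0, hv, θ, hθ, l, l0, e⟩ := extract_wd' hf₁ h2 hd hM h0
      (fun y s hs => by simp [Fintype.linearCombination_apply, h _ s hs]) (y₀ := Pi.single a 1)
      (by simpa using ha)
    obtain ⟨p1, p2, p3, p4⟩ := k (fun a => l (Pi.single a 1)) a hθ l0 fun _ => e _
    exact ⟨_, p1, p2, p3, Or.inr (skew_all hf₁ h2 hd.three hd.idx
      (R := S.comap ((LinearMap.mulRight F _).comp σ.toLinearMap)) (fun A hA β hβ => by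
        have := H.inv A hA (σ β * _) hβ
        rwa [WrS.conj_mul _ p2] at this) p4 (wd_sk s v) (wd_ne hf₁ s0 hv))⟩
  push Not at h
  obtain ⟨a, s, hs, h⟩ := h
  have s0 : s ≠ 0 := by rintro rfl; simp at h
  obtain ⟨θ, hθ, e⟩ := exists_extract hf₁ h2 hd.three (Or.inl hd.four) hs s0
    (fun A hA => hM A (Or.inl hA)) h0
  obtain ⟨p1, p2, p3, p4⟩ := k (B := tv f₁ s s) (fun a => f₁.B s (A a s)) a hθ h
    fun _ => by ext; simp [e, mul_smul]
  exact ⟨_, p1, p2, p3, Or.inl fun d => H.inv.all_P hf₁ hd.three p2 hs s0 p4⟩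

variable [Nontrivial V]

/-- An invariant commutative space is scalar. -/
theorem cm_scalar' (Φ : Fam ρ J 𝒜) (hS : S ≤ 𝒜.toSubmodule) (H : ∀ l ∈ J, InvO f₁ (ρ l) S)
    (hc : ∀ a ∈ S, ∀ b ∈ S, a * b = b * a) (hξ : ξ ∈ S) : ∃ μ : F, ξ = μ • 1 := by
  by_contra hn
  obtain ⟨j, hj, hj'⟩ := WrS.exists_not_comm Φ (hS hξ) hn
  obtain ⟨η, η0, p1, p2, p3⟩ := (H j hj).ext hf₁ h2 hd hξ hj'
  obtain ⟨s, -, s0, hs⟩ := f₁.quad_iso3 ⊤ (by simpa using hd.three)
  obtain ⟨s', hs', e⟩ := hf₁.exists_partner' hs s0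
  obtain ⟨v, v1, v2, v3⟩ := exists_nonsing_hyp hf₁ hd.three hs hs' e
  obtain ⟨A, B, hA, hB, e1, e2⟩ : ∃ A B, ρ j A * η ∈ S ∧ ρ j B * η ∈ S ∧ tv f₁ s s * (A * B) = 0 ∧
      tv f₁ s s * (B * A) ≠ 0 := by
    have ss := f₁.B_self_eq_zero hs
    rcases p3 with h | h
    · exact ⟨_, _, h s hs, h s' hs', by simp [WrO.tv_mul, ss], fun h => s0 (by
        simpa [e, f₁.quad_symm s] using LinearMap.congr_fun h s')⟩
    · exact ⟨_, _, h s v, h s' v, by ext; simp [wd_apply, ss, v1], fun h => s0 (by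
        simpa [e, wd_apply, v1, v2, f₁.B_eq_zero_symm v2, quad_B_self, h2, v3] using
          LinearMap.congr_fun h s')⟩
  have Φ' := Φ.erase hj
  have m : η ∈ WrS.lv (ρ j) S {A, B} 𝒜 :=
    ⟨WrS.mem_cen (p2 _ (Φ.mem j hj) (hS hξ)) p1, by rintro _ (rfl | rfl) <;> assumption⟩
  obtain ⟨η', m', n⟩ := exists_mul_ne hf₁ h2 hd.three Φ'
    (fun l hl => (H l (Finset.mem_of_mem_erase hl)).inv.lv (Φ'.mem l hl)) m η0
  have := congrArg (ρ j (tv f₁ s s) * ·) (hc _ hB _ (m'.2 A (by simp)))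
  simp only [WrS.mul_mul p1, WrS.mul_mul (WrS.cen_comm m'.1), ← mul_assoc _ (ρ j _), ← map_mul, e1,
    map_zero, zero_mul] at this
  exact n m.1 (eq_zero_of_mul e2 (WrS.cen_comm (mul_mem m.1 m'.1)) this)

/-- An invariant space of skew operators has a skew component in some factor. -/
theorem exists_wd' (hf : f.Nondeg) (ad : ∀ l ∈ J, Ad f f₁ (ρ l)) (Φ : Fam ρ J 𝒜)
    (hS : S ≤ 𝒜.toSubmodule) (H : ∀ l ∈ J, InvO f₁ (ρ l) S) (sk : ∀ a ∈ S, Sk f a) (hξ : ξ ∈ S)
    (h0 : ξ ≠ 0) : ∃ l ∈ J, ∃ η, η ≠ 0 ∧ η ∈ WrS.lv (ρ l) S {B | ∃ x y, B = wd f₁ x y} 𝒜 := by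
  induction J using Finset.strongInduction generalizing 𝒜 S ξ with
  | H J ih =>
  obtain ⟨j, hj, hj'⟩ := WrS.exists_not_comm Φ (hS hξ) fun ⟨_, e⟩ => h0 ((sk ξ hξ).scalar h2 hf e)
  obtain ⟨η, η0, p1, p2, p3⟩ := (H j hj).ext hf₁ h2 hd hξ hj'
  have m := WrS.mem_cen (p2 _ (Φ.mem j hj) (hS hξ)) p1
  rcases p3 with h | h
  swap
  · exact ⟨j, hj, η, η0, m, by rintro _ ⟨x, y, rfl⟩; exact h x y⟩
  obtain ⟨s, -, s0, hs⟩ := f₁.quad_iso3 ⊤ (by simpa using hd.three)
  have Φ' := Φ.erase hj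
  have t0 := tv_ne hf₁ s0 s0
  obtain ⟨l, hl, ζ, ζ0, m1, m2⟩ := ih _ (Finset.erase_ssubset hj)
    (S := WrS.lv (ρ j) S {tv f₁ s s} 𝒜) (fun l hl => ad l (Finset.mem_of_mem_erase hl)) Φ'
    (fun _ h => h.1) (fun l hl => (H l (Finset.mem_of_mem_erase hl)).lv (Φ'.mem l hl))
    (fun a ha => (ad j hj).sk hf hf₁ t0 (tv_adj s s) (WrS.cen_comm ha.1) (sk _ (ha.2 _ rfl)))
    ⟨m, by rintro _ rfl; exact h s hs⟩ η0
  have hl' := Finset.mem_of_mem_erase hl
  have c := Φ.comm j hj l hl' (Finset.ne_of_mem_erase hl).symm (tv f₁ s s)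
  exact ⟨l, hl', ρ j (tv f₁ s s) * ζ, fun e => ζ0 (eq_zero_of_mul t0 (WrS.cen_comm m1.1) e),
    WrS.mem_cen (mul_mem (Φ.mem j hj _) m1.1.1) fun A => (c A).mul_left (WrS.cen_comm m1 A),
    fun B hB => (c B).left_comm ζ ▸ (m2 B hB).2 _ rfl⟩

omit hd [Finite F] in
theorem OB.sum (h4 : finrank F V₁ = 4) (h : OB f₁ a a' b b') :
    (2 * f₁.q a)⁻¹ • tv f₁ a a + (2 * f₁.q a')⁻¹ • tv f₁ a' a' + (2 * f₁.q b)⁻¹ • tv f₁ b b +
      (2 * f₁.q b')⁻¹ • tv f₁ b' b' = 1 := by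
  refine h.ext h2 hf₁ h4 ?_ ?_ ?_ ?_ <;> simp [h.rel, quad_B_self, smul_smul, -mul_inv_rev, h2,
    h.p1.q1, h.p1.q2, h.p2.q1, h.p2.q2]

omit hd in
/-- A skew operator commuting with the reflections of an orthogonal basis in each factor vanishes. -/
theorem sk_zero4 (h4 : finrank F V₁ = 4) (hf : f.Nondeg) (ad : ∀ l ∈ J, Ad f f₁ (ρ l))
    (Φ : Fam ρ J 𝒜) (h : OB f₁ a a' b b') (hξ : ξ ∈ 𝒜) (sk : Sk f ξ)
    (H : ∀ l ∈ J, ∀ x ∈ [a, a', b, b'], Commute ξ (ρ l (tv f₁ x x))) : ξ = 0 := by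
  induction J using Finset.induction_on generalizing 𝒜 ξ with
  | empty => exact (Φ.cent ξ hξ (by simp)).elim fun _ => sk.scalar h2 hf
  | insert j J hj ih =>
  have m := Finset.mem_insert_self j J
  have Φ' := Φ.erase m
  rw [Finset.erase_insert hj] at Φ'
  have k : ∀ x ∈ [a, a', b, b'], f₁.q x ≠ 0 → ρ j (tv f₁ x x) * ξ = 0 := fun x hx x0 => by
    have x1 := ne_of_q x0
    have e1 := cmp_spec (ρ j) (f₁.B x) (f₁.B x) x x ξ
    rw [← tv_eq] at e1
    rw [ih (fun l hl => ad l (Finset.mem_insert_of_mem hl)) Φ'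
      (WrS.mem_cen (cmp_mem (Φ.mem j m) hξ) cmp_comm) ((ad j m).sk hf hf₁ (tv_ne hf₁ x1 x1)
        (tv_adj x x) cmp_comm fun v w => by
          rw [e1]; simp [ad j m _ _ (tv_adj x x), sk _]) fun l hl y hy => (cmp_commute
        (Φ.comm l (Finset.mem_insert_of_mem hl) j m (by rintro rfl; exact hj hl) _)
        (H l (Finset.mem_insert_of_mem hl) y hy).symm).symm, mul_zero, mul_assoc, (H j m x hx).eq,
      ← mul_assoc, ← map_mul, WrO.tv_mul] at e1
    simpa [quad_B_self, h2, x0] using e1.symm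
  rw [← one_mul ξ, ← map_one (ρ j), ← h.sum hf₁ h2 h4]
  simp [add_mul, k, h.p1.q1, h.p1.q2, h.p2.q1, h.p2.q2]

end CL.WrE
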