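/-
Orthogonal tensor powers of a four-dimensional space: the stabilizer of a member.
-/
import Mathlib
import Cfsg.Agent.CLAS.WrE2

set_option autoImplicit false
set_option linter.unusedSectionVars false

namespace CL.WrE

open Module CL.ExtF CL.Tens CL.Witt CL.Witt.Form CL.Root CL.WrO

attribute [-simp] LinearEquiv.coe_inv
attribute [local simp] FormType.quad_σ FormType.quad_ε FormType.quad_π

variable {F : Type*} [Field F] {V₁ V₂ V : Type*} [AddCommGroup V₁] [Module F V₁] [AddCommGroup V₂]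
  [Module F V₂] [AddCommGroup V] [Module F V] {τ : V₁ →ₗ[F] V₂ →ₗ[F] V}
  {X Y : Subgroup (V ≃ₗ[F] V)} {h : IsTensorProduct τ} {f : Form (FormType.quad F) V}
  {f₁ : Form (FormType.quad F) V₁} {f₂ : Form (FormType.quad F) V₂} {c c' d y : V₂}
  {u z : V ≃ₗ[F] V} {θ θ' : V₂ →ₗ[F] V₁ →ₗ[F] V₁} {β : End F V₁}
  [FiniteDimensional F V₁] [FiniteDimensional F V₂]

theorem exists_neg [Finite F] (h2 : (2 : F) ≠ 0) (hf : f₂.Nondeg) (h4 : finrank F V₂ = 4) (hI : Idx1 f₂)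
    (hc : f₂.q c = 0) (c0 : c ≠ 0) : ∃ a a', OP f₂ a a' ∧ (f₂.rf a * f₂.rf a') c = c ∧
      ∀ y, f₂.B c y = 0 → (f₂.rf a * f₂.rf a') y + y ∈ F ∙ c := by
  obtain ⟨c', hc', e⟩ := hf.exists_partner' hc c0
  obtain ⟨a, a1, a2, a3⟩ := exists_nonsing_hyp hf (by omega) hc hc' e
  obtain ⟨a', a0, b1, b2, b3⟩ := exists_perp_three (h := f₂) h4.ge c c' a
  have p : OP f₂ a a' := ⟨a3, fun h => by
    obtain ⟨t, rfl⟩ := Submodule.mem_span_singleton.1 (hI c a' hc h b1 c0)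
    simp [f₂.quad_symm c c', e] at b2
    simp [b2] at a0, b3⟩
  have a4 := f₂.B_eq_zero_symm a1
  have b4 := f₂.B_eq_zero_symm b1
  refine ⟨a, a', p, by simp [p.rr, a4, b4], fun y hy => ?_⟩
  have w1 : f₂.B c ((f₂.rf a * f₂.rf a') y + y) = 0 := by simp [p.rr, hy, a1, b1]
  refine hI c _ hc (by_contra fun h => c0 (hf.right c fun x => ?_)) w1 c0
  obtain ⟨α, β, γ, δ, rfl⟩ := sp4 h2 hf h4 p h
    (by simp [p.rr, p.o, quad_B_self]; field_simp [a3]; ring)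
    (by simp [p.rr, p.o', quad_B_self]; field_simp [p.q2]; ring) c0 a4 b4
    (f₂.B_eq_zero_symm w1) x
  generalize (f₂.rf a * f₂.rf a') y + y = w at w1
  simp [a4, b4, f₂.B_eq_zero_symm w1, f₂.B_self_eq_zero hc]

theorem cm_sym [Finite F] (h2 : (2 : F) ≠ 0) (hf : f₁.Nondeg) (h4 : 4 ≤ finrank F V₁)
    {M : Submodule F (End F V₁)} (H : ∀ p ∈ f₁.E, ∀ ξ ∈ M, Tens.cj p ξ ∈ M)
    (hc : ∀ a ∈ M, ∀ b ∈ M, a * b = b * a) (hβ : β ∈ M)
    (sy : ∀ x y, f₁.B (β x) y = f₁.B x (β y)) : ∃ μ : F, β = μ • 1 := by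
  obtain ⟨p, -, p0, hp⟩ := f₁.quad_iso3 ⊤ (by simp; omega)
  by_cases h : ∀ s, f₁.q s = 0 → f₁.B s (β s) = 0
  · exact (sym_scalar hf h2 (Or.inl h4) hp p0 sy h).imp fun _ h => LinearMap.ext h
  push Not at h
  obtain ⟨s, hs, h⟩ := h
  have s0 : s ≠ 0 := by rintro rfl; simp at h
  obtain ⟨θ, hθ, e⟩ := exists_extract hf h2 (by omega) (Or.inl h4) hs s0 (L := F)
    (M := M.comap (LinearMap.applyₗ 1)) (fun A hA θ h => H A hA _ h)
    (θ := LinearMap.toSpanSingleton F _ β) (by simpa using hβ)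
  obtain ⟨s', hs', e'⟩ := hf.exists_partner' hs s0
  obtain ⟨g, hg, a, a0, eg⟩ := hf.exists_mem_E_apply_eq_smul (big_of_three (by omega)) hs s0 hs'
    (by rintro rfl; simp at e')
  have := LinearMap.congr_fun (hc _ hθ _ (H g hg _ hθ)) s
  simp [Tens.cj_apply, e, ← B_apply_left (E_le_O hg), eg, h, a0, e', f₁.B_self_eq_zero hs,
    f₁.quad_symm s s', s0] at this

variable (X h f f₁ f₂) in
/-- A proper overgroup of the tensor wreath subgroup, seen from a factor of dimension four. -/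
structure SW4 : Prop extends TQ h f f₁ f₂ where
  leO : X ≤ f.O
  R : ∀ {e}, e ∈ f₂.E → kr h 1 e ∈ X
  R2 : ∀ {a a'}, OP f₂ a a' → kr h 1 (f₂.rf a * f₂.rf a') ∈ X
  nt : Nontrivial V₁
  h4 : finrank F V₂ = 4
  idx : Idx1 f₂
  lv : ∀ c, f₂.q c = 0 → c ≠ 0 → ∀ β : End F V₁, Has X (fun v => τ (β (et h f₂ c v)) c) → β = 0
  alt : ((∀ b, kr h 1 (f₂.rf b) ∈ X) ∧ ∀ M : Submodule F (End F V₁),
    (∀ p, kr h p 1 ∈ X → ∀ ξ ∈ M, Tens.cj p ξ ∈ M) → (∀ a ∈ M, ∀ b ∈ M, a * b = b * a) →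
      ∀ ξ ∈ M, ∃ μ : F, ξ = μ • 1) ∨ 4 ≤ finrank F V₁ ∧ ∀ p ∈ f₁.E, kr h p 1 ∈ X
  c1 : ∀ ξ : End F V₁, (∀ p ∈ f₁.E, kr h p 1 ∈ X → Tens.cj p ξ = ξ) → ∃ μ : F, ξ = μ • 1
  d4 : ∀ c, f₂.q c = 0 → c ≠ 0 → ∀ p ∈ f₁.E, ∀ β : End F V₁, ∀ y ∈ X,
    (∀ v, y v = kr h p 1 (v + τ (β (et h f₂ c v)) c)) → kr h p 1 ∈ X

namespace SW4

variable (S : SW4 X h f f₁ f₂) [Finite F] (hc : f₂.q c = 0) (c0 : c ≠ 0)
include S hc c0

theorem cen (hz : z ∈ X) (hW : ∀ v, z v - v ∈ mem τ c) : z = 1 :=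
  have ⟨β, e⟩ := level hc c0 S.toTQ (S.leO hz) hW
  LinearEquiv.ext fun v => by simp [e, S.lv c hc c0 β ⟨z, hz, e⟩]

theorem comm {θ θ' : V₂ →ₗ[F] V₁ →ₗ[F] V₁} (H : Th τ X f₂ c u θ) (H' : Th τ X f₂ c z θ') {y : V₂}
    (hy : f₂.B c y = 0) {P : V₁ →ₗ[F] V₁} (hP : ∀ x x', f₁.B (P x) x' = f₁.B x (P x'))
    (e : ∀ d, f₂.B c d = 0 → θ' d = f₂.B y d • P) (x x' : V₁) :
    f₁.B x (θ y (P x')) = f₁.B (θ y (P x)) x' := by
  have cc := f₂.B_self_eq_zero hc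
  obtain ⟨c', -, h1⟩ := S.nd₂.exists_partner' hc c0
  have h1' : f₂.B c' c = 1 := by rw [f₂.quad_symm, h1]
  have k0 : ∀ w, et h f₂ c w = 0 → z w = w + τ (P (et h f₂ y w)) c := fun w hw =>
    sub_eq_zero.1 (mem_of_perp_pure' (h := h) (S := ⊥)
      (g := ((z : V →ₗ[F] V) - (LinearMap.id + τ.flip c ∘ₗ P ∘ₗ et h f₂ y)).toAddMonoidHom) h1
      (fun x d hd => by simp [H'.app d hd, e d hd]) hw)
  have k1 : ∀ v, z v - v + τ (P (et h f₂ c v)) y ∈ mem τ c := fun v =>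
    S.mem_of_et fun d hd => S.et_eq_zero fun x => by
      have hd' := f₂.B_eq_zero_symm hd
      have := mem_O_B (S.leO H'.mem) (τ x d) v
      rw [H'.app d hd', e d hd'] at this
      simp [S.B_pure (P x) c, S.et_of_fix (S.leO H'.mem) H'.fix] at this
      simp [S.mul, ← this, hP, f₂.quad_symm y d, mul_comm]
  have k2 : ∀ v, ∃ b, z v = v - τ (P (et h f₂ c v)) y + τ b c := fun v =>
    (mem_mem.1 (k1 v)).imp fun b hb => by rw [hb]; abel
  have k3 : ∀ v, et h f₂ c (u v - v) = 0 := fun v => by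
    simp [S.et_of_fix (S.leO H.mem) H.fix]
  have k4 : ∀ v, u (z v) - z (u v) =
      τ (-θ y (P (et h f₂ c v)) - P (et h f₂ y (u v - v))) c := fun v => by
    obtain ⟨b, hb⟩ := k2 v
    have := k0 _ (k3 v)
    rw [map_sub, sub_eq_iff_eq_add] at this
    rw [this, hb]
    generalize et h f₂ y (u v - v) = a
    simp [H.app y hy, H.fix]
    abel
  have k5 := S.cen hc c0 (X.mul_mem (X.inv_mem (X.mul_mem H'.mem H.mem)) (X.mul_mem H.mem H'.mem))
    fun v => by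
      have : ((z * u)⁻¹ * (u * z)) v - v = (z * u)⁻¹ (u (z v) - z (u v)) := by
        rw [map_sub, ← mul_app z u, inv_app]; rfl
      rw [this, k4, inv_app_eq (show (z * u) (τ _ c) = τ _ c by rw [mul_app, H.fix, H'.fix])]
      exact pure_mem _ _
  have k6 := k4 (τ x' c')
  rw [← mul_app u, ← mul_app z, ← inv_mul_eq_one.1 k5, sub_self] at k6
  have k7 := congrArg (fun v => f₁.B x (et h f₂ c' v)) k6
  have k8 := B_apply_left (f.O.inv_mem (S.leO H.mem)) (τ (P x) y) (τ x' c')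
  rw [H.inv.app y hy, inv_inv, S.B_pure (P x) y (u _)] at k8
  simp [h1, h1', S.mul, ← hP] at k7 k8
  linear_combination k7 + k8

/-- The space of actions of the radical. -/
def rad : Submodule F (V₂ →ₗ[F] V₁ →ₗ[F] V₁) where
  carrier := {θ | ∃ u, Th τ X f₂ c u θ}
  zero_mem' := ⟨1, X.one_mem, fun _ => rfl, by simp⟩
  add_mem' := by
    rintro θ θ' ⟨u, H⟩ ⟨u', H'⟩
    exact ⟨u * u', X.mul_mem H.mem H'.mem, fun x => by simp [H.fix, H'.fix], fun y hy x => by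
      simp [H.app y hy, H'.app y hy, H.fix, add_assoc]⟩
  smul_mem' := by
    rintro s θ ⟨u, H⟩
    obtain ⟨a, b, rfl⟩ := exists_eq_sq_sub_sq s
    have k : ∀ a : F, ∃ u, Th τ X f₂ c u (a ^ 2 • θ) := fun a => by
      rcases eq_or_ne a 0 with rfl | a0
      · exact ⟨1, X.one_mem, fun _ => rfl, by simp⟩
      obtain ⟨e, he, e1, e2⟩ := torus S.nd₂ (S.h4.ge.trans' (by omega)) hc c0 a0
      have H' := H.conj (E_le_O he) (S.R he) (pow_ne_zero 2 a0) e1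
      refine ⟨_, H'.mem, H'.fix, fun y hy x => ?_⟩
      obtain ⟨t, ht⟩ := Submodule.mem_span_singleton.1 (e2 (e⁻¹ y) (by
        simp [← B_apply_left (E_le_O he), e1, hy]))
      rw [app_inv, eq_sub_iff_add_eq, ← eq_sub_iff_add_eq'] at ht
      simp [H'.app y hy, ht, H.theta_self h hc c0, Tens.cj_apply]
    obtain ⟨u, H⟩ := k a
    obtain ⟨u', H'⟩ := k b
    exact ⟨u * u'⁻¹, X.mul_mem H.mem H'.inv.mem, fun x => by simp [H.fix, H'.inv.fix],
      fun y hy x => by simp [H.app y hy, H'.inv.app y hy, H.fix, sub_smul]; abel⟩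

theorem th_sym (H : Th τ X f₂ c u θ) (hy : f₂.B c y = 0) (x x' : V₁) :
    f₁.B (θ y x) x' = f₁.B x (θ y x') := by
  simpa using (S.comm hc c0 H (th_ei hc (y := -y) (by simp [hy]) (S.R (ei_mem_E _ _ _))) hy
    (P := LinearMap.id) (fun _ _ => rfl) (fun d _ => by ext; simp) x x').symm

theorem rk_scalar (H : θ ∈ S.rad hc c0) (y1 : f₂.B c y = 0) (y2 : f₂.q y ≠ 0)
    (e : ∀ d, f₂.B c d = 0 → θ d = f₂.B y d • β) : ∃ l : F, β = l • 1 := by
  have e2 : f₂.B y y ≠ 0 := by simp [quad_B_self, y2, S.h2]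
  let M : Submodule F (End F V₁) :=
    { carrier := {β | ∃ θ ∈ S.rad hc c0, ∀ d, f₂.B c d = 0 → θ d = f₂.B y d • β}
      zero_mem' := ⟨0, zero_mem _, by simp⟩
      add_mem' := fun ⟨_, a, ea⟩ ⟨_, b, eb⟩ => ⟨_, add_mem a b, fun d hd => by simp [ea d hd, eb d hd]⟩
      smul_mem' := fun s _ ⟨_, a, ea⟩ => ⟨_, Submodule.smul_mem _ s a, fun d hd => by
        simp [ea d hd, smul_comm s]⟩ }
  have sy : ∀ a ∈ M, ∀ x x', f₁.B (a x) x' = f₁.B x (a x') := fun a ⟨_, ⟨_, H⟩, e⟩ x x' => by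
    simpa [e _ y1, e2] using S.th_sym hc c0 H y1 x x'
  have iv : ∀ p, kr h p 1 ∈ X → ∀ ξ ∈ M, Tens.cj p ξ ∈ M := fun p hk a ⟨_, ⟨_, H⟩, e⟩ =>
    ⟨_, ⟨_, H.conj f₂.O.one_mem hk one_ne_zero (by simp)⟩, fun d hd => by simp [e d hd]⟩
  have cm : ∀ a ∈ M, ∀ b ∈ M, a * b = b * a := fun a ha b hb =>
    LinearMap.ext fun x' => S.nd₁.ext_right fun x => by
      obtain ⟨_, ⟨_, H⟩, e⟩ := id ha
      obtain ⟨_, ⟨_, H'⟩, e'⟩ := id hb
      simpa [e _ y1, e2, sy a ha, sy b hb] using S.comm hc c0 H H' y1 (sy b hb) e' x x'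
  rcases S.alt with ⟨-, h⟩ | ⟨h4, h⟩
  · exact h M iv cm β ⟨θ, H, e⟩
  · exact cm_sym S.h2 S.nd₁ h4 (fun p hp => iv p (h p hp)) cm ⟨θ, H, e⟩ (sy β ⟨θ, H, e⟩)

theorem th_scalar (H : Th τ X f₂ c u θ) (hy : f₂.B c y = 0) : ∃ l : F, θ y = l • 1 := by
  have h0 := H.theta_self h hc c0
  rcases S.alt with ⟨h1, -⟩ | ⟨h4, h1⟩
  · by_cases y0 : f₂.q y = 0
    · obtain ⟨t, rfl⟩ := Submodule.mem_span_singleton.1 (S.idx c y hc y0 hy c0)
      exact ⟨0, by simp [h0]⟩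
    obtain ⟨l, e⟩ := S.rk_scalar hc c0 (β := (f₂.q y)⁻¹ • θ y) (sub_mem ⟨u, H⟩ ⟨_, H.conj (A := 1)
      (rf_mem_O y) (h1 y) one_ne_zero (by simp [Form.rf_of_perp (f₂.B_eq_zero_symm hy)])⟩) hy y0
      fun d _ => by ext; simp [Tens.cj_apply, rf_inv, rf_apply, smul_smul, mul_comm]
    exact ⟨f₂.q y * l, by simp [mul_smul, ← e, y0]⟩
  obtain ⟨p, -, p0, hp⟩ := f₁.quad_iso3 ⊤ (by simp; omega)
  refine (sym_scalar S.nd₁ S.h2 (Or.inl h4) hp p0 (S.th_sym hc c0 H hy) fun s hs =>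
    by_contra fun hn => ?_).imp fun _ h => LinearMap.ext h
  have s0 : s ≠ 0 := by rintro rfl; simp at hn
  obtain ⟨θ', hθ, e⟩ := exists_extract S.nd₁ S.h2 (by omega) (Or.inl h4) hs s0 (M := S.rad hc c0)
    (fun A hA θ ⟨_, H⟩ => ⟨_, by simpa using H.conj f₂.O.one_mem (h1 A hA) one_ne_zero (by simp)⟩) ⟨u, H⟩
  obtain ⟨t, ht⟩ := S.nd₂.exists_rep ((show V₁ →ₗ[F] F from f₁.B s) ∘ₗ θ.flip s)
  have t1 : f₂.B c t = 0 := f₂.B_eq_zero_symm (by simp [ht, h0])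
  obtain ⟨l, hl⟩ := S.rk_scalar hc c0 (β := tv f₁ s s) hθ t1 (fun t0 => by
    obtain ⟨a, rfl⟩ := Submodule.mem_span_singleton.1 (S.idx c t hc t0 t1 c0)
    exact hn (by simpa [hy] using (ht y).symm)) fun d _ => by ext; simp [e, ht, mul_smul]
  exact tv_ne S.nd₁ s0 s0 (by
    rw [hl, show l = 0 by simpa [f₁.B_self_eq_zero hs, s0] using (LinearMap.congr_fun hl s).symm, zero_smul])

/-- The radical is the obvious one. -/
theorem of_QO (hu : u ∈ X) (hq : QO h f₂ c u) :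
    ∃ t, f₂.B c t = 0 ∧ u = kr h 1 (f₂.ei c t (f₂.q t)) := by
  have := S.nt
  obtain ⟨θ, H⟩ := exists_th hc c0 S.toTQ hu hq
  obtain ⟨t, ht, β, e⟩ := split hc c0 S.toTQ H (S.leO hu) fun y => S.th_scalar hc c0 H
  exact ⟨t, ht, (inv_mul_eq_one.1 (S.cen hc c0 (X.mul_mem (X.inv_mem (S.R (ei_mem_E _ _ _))) hu)
    fun v => by simpa [e] using pure_mem _ _)).symm⟩

theorem decomp (hz : z ∈ X) (hW : ∀ w ∈ mem τ c, z w ∈ mem τ c) : ∃ D B, Sim f₁ D ∧ Sim f₂ B ∧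
    kr h D B ∈ f.O ∧ QO h f₂ c ((kr h D B)⁻¹ * z) := by
  have := finiteDimensional h
  have := S.nt
  have cc := f₂.B_self_eq_zero hc
  have zO := S.leO hz
  obtain ⟨D, hD⟩ := exists_left_of_stab h c0 hW
  obtain ⟨c', hc', h1⟩ := S.nd₂.exists_partner' hc c0
  have h1' : f₂.B c' c = 1 := by rw [f₂.quad_symm, h1]
  have cc' := f₂.B_self_eq_zero hc'
  let D' : V₁ →ₗ[F] V₁ := et h f₂ c ∘ₗ (z : V →ₗ[F] V) ∘ₗ τ.flip c'
  have hD' : ∀ x x', f₁.B (D x) (D' x') = f₁.B x x' := fun x x' => by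
    change f₁.B (D x) (et h f₂ c (z (τ x' c'))) = _
    rw [← S.B_pure, ← hD, mem_O_B zO, S.mul, h1, mul_one]
  have e3 : ∀ y, f₂.B c y = 0 → ∃ t, f₂.B c t = 0 ∧ ∀ x, z (τ x y) - τ (D' x) t ∈ mem τ c := by
    intro y hy
    have ok := qok hc hy
    obtain ⟨t, ht, e⟩ := S.of_QO hc c0
      (X.mul_mem (X.mul_mem hz (S.R (ei_mem_E c y (f₂.q y)))) (X.inv_mem hz))
      ⟨fun x => by
        rw [mul_app, mul_app, ← app_inv D x, inv_app_eq (hD _), kr_apply, ok.ei_apply_u, hD]; rfl,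
      fun v hv => by
        have : et h f₂ c (z⁻¹ v) = 0 := S.et_eq_zero fun x => by
          rw [← B_apply_left zO, hD, S.B_pure, hv, map_zero]
        simpa [kr_ei_apply ok, this, app_inv] using hW _ (pure_mem _ _)⟩
    refine ⟨t, ht, fun x => ?_⟩
    have := congrArg (fun k : V ≃ₗ[F] V => k (z (τ x c'))) e
    simp only [mul_app, inv_app, kr_ei_apply ok, kr_ei_apply (qok hc ht), map_sub, map_add, map_smul,
      et_pure, h1, one_smul, FormType.quad_ε] at this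
    refine ⟨D (f₂.B y c' • x + f₂.q y • x) - (et h f₂ t (z (τ x c')) + f₂.q t • D' x), ?_⟩
    simp only [D', LinearMap.flip_apply, map_sub, map_add, map_smul, LinearMap.add_apply,
      LinearMap.smul_apply, LinearMap.comp_apply, LinearEquiv.coe_coe, hD] at this ⊢
    linear_combination (norm := module) -this
  obtain ⟨x0, hx0⟩ := exists_ne (0 : V₁)
  obtain ⟨x1, hx1⟩ := S.nd₁.exists_B_eq hx0 1
  have e4 : ∀ y y' t t' x x', f₂.B c t = 0 → f₂.B c t' = 0 → z (τ x y) - τ (D' x) t ∈ mem τ c →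
      z (τ x' y') - τ (D' x') t' ∈ mem τ c →
      f₁.B (D' x) (D' x') * f₂.B t t' = f₁.B x x' * f₂.B y y' := by
    rintro y y' t t' x x' ht ht' ⟨a, ha⟩ ⟨b, hb⟩
    have := mem_O_B zO (τ x y) (τ x' y')
    rw [← sub_add_cancel (z (τ x y)), ← ha, ← sub_add_cancel (z (τ x' y')), ← hb] at this
    simpa [S.mul, ht', f₂.B_eq_zero_symm ht, cc] using this
  obtain ⟨m, m0, hm⟩ : ∃ m : F, m ≠ 0 ∧ ∀ x, D' x = m • D x := by
    obtain ⟨y, y1, -, y3⟩ := exists_nonsing_hyp S.nd₂ (S.h4.ge.trans' (by omega)) hc hc' h1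
    obtain ⟨t, ht, e⟩ := e3 y y1
    have k := fun x x' => e4 y y t t x x' ht ht (e x) (e x')
    have y4 : f₂.B y y ≠ 0 := by simp [quad_B_self, y3, S.h2]
    have t0 : f₂.B t t ≠ 0 := fun e => y4 (by simpa [e, hx1] using (k x0 x1).symm)
    refine ⟨f₂.B y y / f₂.B t t, div_ne_zero y4 t0, fun x => S.nd₁.ext_left fun w => ?_⟩
    obtain ⟨w, rfl⟩ := LinearMap.injective_iff_surjective.1 ((injective_iff_map_eq_zero D').2
      fun x e => S.nd₁.right x fun x' => by rw [← hD', e, map_zero]) w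
    simp only [B_smul_left, FormType.quad_σ, hD']
    field_simp
    linear_combination k x w
  have hDm : ∀ x y, f₁.B (D x) (D y) = m⁻¹ * f₁.B x y := fun x y => by
    simp [← hD' x y, hm, m0]
  obtain ⟨α, hα⟩ := Module.Projective.exists_dual_eq_one F (show D x0 ≠ 0 by simpa using hx0)
  let B0 : V₂ →ₗ[F] V₂ := cl h α ∘ₗ (z : V →ₗ[F] V) ∘ₗ τ x0
  have hB0 : B0 c = c := by simp [B0, hD, hα]
  have hB : ∀ y, f₂.B c y = 0 → f₂.B c (B0 y) = 0 ∧ ∀ x, z (τ x y) - τ (D x) (B0 y) ∈ mem τ c := by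
    intro y hy
    obtain ⟨t, ht, e⟩ := e3 y hy
    obtain ⟨a, ha⟩ := mem_mem.1 (e x0)
    have e4 : B0 y = m • t + α a • c := by
      have := congrArg (cl h α) ha
      simp only [map_sub, cl_apply, hm, map_smul] at this
      rw [this]; simp [B0, hα]
    refine ⟨by simp [e4, ht, cc], fun x => ?_⟩
    convert Submodule.sub_mem _ (e x) (pure_mem (τ := τ) (α a • D x) c) using 1
    simp [e4, hm]; abel
  have hBm : ∀ y y', f₂.B c y = 0 → f₂.B c y' = 0 → f₂.B (B0 y) (B0 y') = m * f₂.B y y' := by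
    intro y y' hy hy'
    have := e4 y y' (m⁻¹ • B0 y) (m⁻¹ • B0 y') x0 x1 (by simp [(hB y hy).1]) (by simp [(hB y' hy').1])
      (by simpa [hm, smul_smul, m0] using (hB y hy).2 x0)
      (by simpa [hm, smul_smul, m0] using (hB y' hy').2 x1)
    simp [hm, hDm, hx1, m0] at this
    rw [← this]; field_simp
  let π : V₂ →ₗ[F] V₂ := LinearMap.id - (f₂.B c').smulRight c - (f₂.B c).smulRight c'
  have hπ : ∀ y, π y = y - f₂.B c' y • c - f₂.B c y • c' := fun _ => rfl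
  have π1 : ∀ y, f₂.B c (π y) = 0 := fun y => by simp [hπ, h1, cc]
  let B1 : V₂ →ₗ[F] V₂ := π ∘ₗ B0 ∘ₗ π + (f₂.B c').smulRight c + m • (f₂.B c).smulRight c'
  have hB1 : ∀ y, B1 y = B0 (π y) + (f₂.B c' y - f₂.B c' (B0 (π y))) • c +
      (m * f₂.B c y) • c' := fun y => by
    simp only [B1, LinearMap.add_apply, LinearMap.comp_apply, hπ (B0 _),
      (hB _ (π1 y)).1, LinearMap.smul_apply, LinearMap.smulRight_apply]
    module
  have hB2 : ∀ y y', f₂.B (B1 y) (B1 y') = m * f₂.B y y' := fun y y' => by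
    have p1 := (hB _ (π1 y)).1
    have p2 := (hB _ (π1 y')).1
    have p3 := hBm _ _ (π1 y) (π1 y')
    rw [hB1, hB1]
    generalize B0 (π y) = u at *
    generalize B0 (π y') = u' at *
    simp [hπ, h1, h1', p2, f₂.quad_symm c u, f₂.quad_symm c' u, p1, f₂.quad_symm c y,
      f₂.quad_symm c' y, cc, cc'] at p3 ⊢
    linear_combination p3
  let B : V₂ ≃ₗ[F] V₂ := LinearEquiv.ofInjectiveEndo B1 (by
    rw [← LinearMap.ker_eq_bot, eq_bot_iff]
    intro d hd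
    refine S.nd₂ d fun y => ?_
    simpa [LinearMap.mem_ker.1 hd, m0] using hB2 d y)
  have Ba : ∀ d, B d = B1 d := fun _ => rfl
  have Bc : B c = c := by simp [Ba, hB1, hπ, h1', cc]
  have hk : ∀ w ∈ mem τ c, (kr h D B)⁻¹ w ∈ mem τ c := inv_mem_of_stab fun w hw => by
    obtain ⟨x, rfl⟩ := mem_mem.1 hw
    rw [kr_apply, Bc]; exact pure_mem _ _
  have hq : QO h f₂ c ((kr h D B)⁻¹ * z) := by
    refine ⟨fun x => by rw [mul_app, hD]; exact inv_app_eq (by rw [kr_apply, Bc]), fun v hv => ?_⟩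
    refine mem_of_perp_pure' (S := (mem τ c).toAddSubgroup) (g := ((((kr h D B)⁻¹ * z :
      V ≃ₗ[F] V) : V →ₗ[F] V) - LinearMap.id).toAddMonoidHom) h1 (fun x y hy => ?_) hv
    have := hk _ (Submodule.add_mem _ ((hB y hy).2 x)
      (pure_mem (τ := τ) ((f₂.B c' (B0 (π y))) • D x) c))
    have e5 : τ (D x) (B0 y) - τ (f₂.B c' (B0 (π y)) • D x) c = kr h D B (τ x y) := by
      rw [kr_apply, Ba, hB1]; simp [hπ y, hy, hB0, sub_smul]
    rwa [sub_add, e5, map_sub, inv_app] at this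
  have kO : kr h D B ∈ f.O := mem_O_of_B S.h2 fun v w => by
    refine h.inductionOn v (by simp) (fun x d => ?_) fun a b ha hb => by simp [ha, hb]
    refine h.inductionOn w (by simp) (fun x' d' => ?_) fun a b ha hb => by
      simp only [map_add, ha, hb]
    simp only [kr_apply, S.mul, hDm, Ba, hB2]
    field_simp
  exact ⟨D, B, ⟨_, inv_ne_zero m0, hDm⟩, ⟨m, m0, hB2⟩, kO, hq⟩

/-- The stabilizer of a member lies in the Kronecker subgroup. -/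
theorem stab (hz : z ∈ X) (hW : ∀ w ∈ mem τ c, z w ∈ mem τ c) : z ∈ Kron τ := by
  have := S.nt
  have h2 := S.h2
  obtain ⟨D, B, hD, hB, kO, hq⟩ := S.decomp hc c0 hz hW
  have uO := f.O.mul_mem (f.O.inv_mem kO) (S.leO hz)
  have hu : ∀ n e, kr h (D * n * D⁻¹) (B * e * B⁻¹) ∈ X →
      ((kr h D B)⁻¹ * z)⁻¹ * kr h n e * ((kr h D B)⁻¹ * z) ∈ X := fun n e H => by
    convert X.mul_mem (X.mul_mem (X.inv_mem hz) H) hz using 1
    rw [show kr h (D * n * D⁻¹) (B * e * B⁻¹) = kr h D B * kr h n e * (kr h D B)⁻¹ from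
      equiv_ext h fun x y => by simp [kr_inv_apply]]
    group
  obtain ⟨a, a', p, e1, e2⟩ := exists_neg h2 S.nd₂ S.h4 S.idx hc c0
  have hu1 := hu 1 (f₂.rf a * f₂.rf a') (by
    convert S.R2 (Sim.op h2 hB p) using 2
    · simp
    · rw [← Sim.rf h2 hB, ← Sim.rf h2 hB]; group)
  have hu2 : ∀ n, kr h n 1 ∈ X → _ := fun n hn => hu (D⁻¹ * n * D) 1 (by simpa [mul_assoc] using hn)
  suffices (kr h D B)⁻¹ * z ∈ Kron τ by simpa using (Kron τ).mul_mem (kr_mem h D B) this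
  generalize (kr h D B)⁻¹ * z = u at hq uO hu1 hu2
  obtain ⟨θ, H⟩ := exists_th hc c0 S.toTQ (Subgroup.mem_top u) hq
  have h0 := H.theta_self h hc c0
  obtain ⟨t, ht, β, e⟩ := split hc c0 S.toTQ H uO fun y hy => by
    have H' := th_mul H.inv (H.conj (h := h) (A := 1) (mul_mem (rf_mem_O a) (rf_mem_O a')) trivial
      one_ne_zero (by rw [e1, one_smul]))
    obtain ⟨m, hm⟩ := S.th_scalar hc c0 ⟨by
      simpa [mul_assoc] using X.mul_mem hu1 (X.inv_mem (S.R2 p)), H'.fix, H'.app⟩ hy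
    obtain ⟨t, ht⟩ := Submodule.mem_span_singleton.1 (e2 y hy)
    rw [inv_eq_of_mul_eq_one_right p.sq] at hm
    refine ⟨-2⁻¹ * m, ?_⟩
    rw [mul_smul, ← hm, neg_smul, eq_neg_iff_add_eq_zero, ← smul_eq_zero_iff_right h2]
    ext x
    simpa [Tens.cj_apply, h0, h2, two_smul, add_comm] using congrArg (θ · x) ht.symm
  have m := ei_mem_E (f := f₂) c t (f₂.q t)
  have xO := f.O.mul_mem (f.O.inv_mem (S.leO (S.R m))) uO
  have sk := level_sk hc c0 S.toTQ xO e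
  have hx2 : ∀ n, kr h n 1 ∈ X → ((kr h 1 (f₂.ei c t (f₂.q t)))⁻¹ * u)⁻¹ * kr h (D⁻¹ * n * D) 1 *
      ((kr h 1 (f₂.ei c t (f₂.q t)))⁻¹ * u) ∈ X := fun n hn => by
    have := hu2 n hn
    rw [show kr h (D⁻¹ * n * D) 1 = kr h 1 (f₂.ei c t (f₂.q t)) * kr h (D⁻¹ * n * D) 1 *
      (kr h 1 (f₂.ei c t (f₂.q t)))⁻¹ from equiv_ext h fun x y => by simp [kr_inv_apply, app_inv]] at this
    simpa [mul_assoc] using this
  suffices (kr h 1 (f₂.ei c t (f₂.q t)))⁻¹ * u = 1 from inv_mul_eq_one.1 this ▸ kr_mem h _ _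
  generalize (kr h 1 (f₂.ei c t (f₂.q t)))⁻¹ * u = x at e hx2
  have cc := f₂.B_self_eq_zero hc
  have e' : ∀ v, x⁻¹ v = v - τ (β (et h f₂ c v)) c := fun v => inv_app_eq (by simp [e, cc])
  suffices ∃ μ : F, β = μ • 1 from
    this.elim fun _ h => LinearEquiv.ext fun v => by simp [e, sk.scalar h2 S.nd₁ h]
  refine (S.c1 (Tens.cj D β) fun n hn hk => ?_).imp fun μ hμ => LinearMap.ext fun v =>
    D.injective (by simpa [Tens.cj_apply, inv_app] using LinearMap.congr_fun hμ (D v))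
  have nE : D⁻¹ * n * D ∈ f₁.E := by simpa using (Sim.inv hD).conj_E h2 hn
  have e1 : ∀ v, (x⁻¹ * kr h (D⁻¹ * n * D) 1 * x) v = kr h (D⁻¹ * n * D) 1
      (v + τ ((β - Tens.cj (D⁻¹ * n * D)⁻¹ β) (et h f₂ c v)) c) := fun v => by
    generalize D⁻¹ * n * D = n
    have : ∀ v, et h f₂ c (kr h n 1 v) = n (et h f₂ c v) := et_kr n f₂.O.one_mem c
    simp [e, e', this, cc, Tens.cj_apply, app_inv]
    abel
  have := S.lv c hc c0 _ ⟨_, X.mul_mem (X.inv_mem (S.d4 c hc c0 _ nE _ _ (hx2 n hk) e1))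
    (hx2 n hk), fun v => by rw [mul_app, e1, inv_app]⟩
  refine LinearMap.ext fun v => ?_
  simpa [Tens.cj_apply, app_inv, inv_app] using
    congrArg (fun w => n (D w)) (LinearMap.congr_fun (sub_eq_zero.1 this) (D⁻¹ (n⁻¹ v)))

end SW4

end CL.WrE
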