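/-
Tensor powers of even-dimensional orthogonal spaces: rigid factors.
-/
import Mathlib
import Cfsg.Agent.CLAS.WrE3

set_option autoImplicit false
set_option linter.unusedSectionVars false

namespace CL.WrE

open Module CL.ExtF CL.Tens CL.Wr CL.Witt CL.Witt.Form CL.Uniq CL.WrO

attribute [-simp] LinearEquiv.coe_inv
attribute [local simp] FormType.quad_σ FormType.quad_ε FormType.quad_π

variable {F V₁ V : Type*} [Field F] [AddCommGroup V₁] [Module F V₁] [AddCommGroup V] [Module F V]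
  {f : Form (FormType.quad F) V} {f₁ : Form (FormType.quad F) V₁} {σ σ' : Rep F V₁ V}
  {a a' b b' c c' d s v : V₁} {g k r z : V ≃ₗ[F] V} {D e : V₁ ≃ₗ[F] V₁} {X : Subgroup (V ≃ₗ[F] V)}
  {L L' : Submodule F V₁} {A : End F V₁} {ξ η : End F V} {w w' : V} {ν : F × F →ₗ[F] V₁}
  [FiniteDimensional F V₁] [FiniteDimensional F V] [Nontrivial V] [Finite F]
  {I : Type*} [Fintype I] [DecidableEq I] {ρ : I → Rep F V₁ V} {i j l m : I}
  {E' : Subgroup (V ≃ₗ[F] V)}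

theorem rt_ne (hf₁ : f₁.Nondeg) (hs : f₁.q s = 0) (hv : f₁.B s v = 0) (s0 : s ≠ 0) (v0 : v ∉ F ∙ s)
    {t : Multiplicative F} (t1 : t ≠ 1) : rt hs hv t ≠ 1 := fun e => by
  obtain ⟨x, hx⟩ := hf₁.exists_B_eq s0 1
  have := rt_apply hs hv t x
  rw [e, wd_apply, hx, LinearEquiv.coe_one, id] at this
  refine v0 ((Submodule.smul_mem_iff _ (show t.toAdd ≠ 0 from t1)).1
    (Submodule.mem_span_singleton.2 ⟨t.toAdd * f₁.B v x + t.toAdd ^ 2 * f₁.q v, ?_⟩))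
  linear_combination (norm := module) this

theorem notMem_of_q (hs : f₁.q s = 0) (hv : f₁.q v ≠ 0) : v ∉ F ∙ s := fun e => by
  obtain ⟨a, rfl⟩ := Submodule.mem_span_singleton.1 e
  exact hv (f₁.q_smul_eq_zero hs a)

theorem exists_An4 (hf₁ : f₁.Nondeg) (h4 : 4 ≤ finrank F V₁) (hI : Idx1 f₁) (hs : f₁.q s = 0)
    (s0 : s ≠ 0) : ∃ ν, An f₁ s ν := by
  have d1 := hf₁.finrank_add_finrank_perp (F ∙ s)
  rw [finrank_span_singleton s0] at d1
  exact (exists_An hs s0 (M := f₁.perp (F ∙ s)) (fun x => f₁.mem_perp_span_singleton.1) (by omega)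
    fun x hx h => hI s x hs h (f₁.mem_perp_span_singleton.1 hx) s0).imp fun _ h => h.1

theorem An.q1 (h : An f₁ s ν) : f₁.q (ν (1, 0)) ≠ 0 := mt (h.an _) (by simp)

theorem comm_of_nz (h2 : (2 : F) ≠ 0) (hf : f.Nondeg) (hf₁ : f₁.Nondeg) (hd : Dm f₁) (ad : Ad f f₁ σ)
    (ad' : Ad f f₁ σ') (H : ∀ e ∈ f₁.E, Nz σ σ (un σ' e)) (hn : ∀ s v (hs : f₁.q s = 0)
      (hv : f₁.B s v = 0), s ≠ 0 → v ∉ F ∙ s → ¬ ∃ A, σ' (rt hs hv (.ofAdd 1)) = σ A) (A B : End F V₁) :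
    Commute (σ A) (σ' B) := by
  rcases hd with h6 | ⟨h4, hI⟩
  · exact comm_of_Rt hf₁ h2 (Or.inl (by omega)) (fun s v R => ((rt_dich h2 hf hf₁ (Or.inl (by omega))
      ad ad' R fun t => H _ (rt_mem _ _ t)).resolve_left (hn s v _ _ R.s0 R.v0) A).symm) B
  refine comm_of_P hf₁ (by omega) (fun s hs => ?_) B
  rcases eq_or_ne s 0 with rfl | s0
  · simp
  have := nontrivial_of_ne s 0 s0
  obtain ⟨ν, h⟩ := exists_An4 hf₁ h4.ge hI hs s0
  refine comm_P h2 hs (h.hv (1, 0)) h.q1 (t := .ofAdd 1) (by simp) ?_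
  have := ((h.dich h2 fun p => H _ (h.mem p)).resolve_left fun e => hn s _ hs (h.hv (1, 0)) s0
    (notMem_of_q hs h.q1) (by simpa [h.rt_eq] using e (.ofAdd (1, 0)))) (.ofAdd (1, 0)) A
  rw [h.rt_eq] at this
  exact this.symm

variable (f₁) in
/-- The projection onto a non-singular vector. -/
noncomputable def pj (x : V₁) : End F V₁ := (2 * f₁.q x)⁻¹ • tv f₁ x x

theorem pj_mul (h : f₁.B a b = 0) : pj f₁ a * pj f₁ b = 0 := by simp [pj, WrO.tv_mul, h]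

theorem pj_sq (a : V₁) : pj f₁ a * pj f₁ a = pj f₁ a := by
  by_cases h : 2 * f₁.q a = 0 <;> simp [pj, WrO.tv_mul, quad_B_self, smul_smul, -mul_inv_rev, h]

theorem pj_adj (a x y : V₁) : f₁.B (pj f₁ a x) y = f₁.B x (pj f₁ a y) := by
  simp [pj, f₁.quad_symm a x, mul_comm]

theorem Sim.pj (h2 : (2 : F) ≠ 0) (h : Sim f₁ D) (a : V₁) :
    (D : End F V₁) * pj f₁ a = pj f₁ (D a) * D := by
  obtain ⟨m, m0, h⟩ := h
  ext x
  simp [WrE.pj, h, q_sim h2 h, smul_smul]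
  congr 1
  field_simp

theorem Ad.sim (ad : Ad f f₁ σ) {m : F} (h : ∀ x y, f₁.B (D x) (D y) = m * f₁.B x y) (v w : V) :
    f.B (un σ D v) (un σ D w) = m * f.B v w := by
  rw [un_apply, ad _ (m • (D⁻¹ : V₁ ≃ₗ[F] V₁)) fun x y => by simpa [app_inv] using h x (D⁻¹ y)]
  simp [← un_inv_apply, inv_app]

theorem pun_O (h2 : (2 : F) ≠ 0) (ad : Ad f f₁ σ) {P : End F V} (hP : P * P = P)
    (h : ∀ A, Commute P (σ A)) (sy : ∀ v w, f.B (P v) w = f.B v (P w)) (he : e ∈ f₁.O) :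
    pun σ hP h e ∈ f.O := mem_O_of_B h2 fun v w => by
  have pp := LinearMap.congr_fun hP
  have := mem_O_B (ad.un_mem h2 he) (P v) w
  simp only [un_apply, End.mul_apply] at this pp
  simp [pun_apply, sy, pp, ← cm_app h] at this ⊢
  linear_combination this

theorem one_slot [Nontrivial V₁] (hf : f.Nondeg) (hf₁ : f₁.Nondeg) (ad : Ad f f₁ σ)
    (H : ∀ β : End F V, (∀ A, Commute β (σ A)) → ∃ μ : F, β = μ • 1) : ∃ ψ : V₁ ≃ₗ[F] V,
      (∀ A x, σ A (ψ x) = ψ (A x)) ∧ ∃ μ, μ ≠ 0 ∧ ∀ x y, f.B (ψ x) (ψ y) = μ * f₁.B x y := by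
  obtain ⟨U, τ, hτ⟩ := exists_tn σ
  have := hτ.nt
  obtain ⟨u, hu⟩ := exists_ne (0 : U)
  obtain ⟨α, hα⟩ := Module.Projective.exists_dual_eq_one F hu
  obtain ⟨c, hc⟩ := exists_ne (0 : V₁)
  obtain ⟨c', p⟩ := hf₁.exists_B_eq hc 1
  have k : ∀ x y, f.B (τ u x) (τ u y) = f.B (τ u c) (τ u c') * f₁.B x y := fun x y => by
    rw [show τ u x = σ (tv f₁ c' x) (τ u c) by simp [hτ.app, f₁.quad_symm c c', p], ad _ _ (tv_adj _ _),
      hτ.app]
    simp [mul_comm]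
  have sj : Function.Surjective (τ u) := fun v => hτ.tp.inductionOn v ⟨0, by simp⟩ (fun u' x => by
      obtain ⟨μ, e⟩ := H _ (hτ.comm_of_left (lam_app hτ.tp (α.smulRight u')))
      exact ⟨μ • x, by simpa [hα] using (LinearMap.congr_fun e (τ u x)).symm⟩)
    fun _ _ ⟨x, e⟩ ⟨y, e'⟩ => ⟨x + y, by simp [e, e']⟩
  refine ⟨LinearEquiv.ofBijective (τ u) ⟨pure_inj (Tens.flip hτ.tp) hu, sj⟩, fun A x => hτ.app A u x,
    _, fun e => hc (pure_inj (Tens.flip hτ.tp) hu ?_), k⟩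
  simpa using hf (τ u c) fun v => (sj v).elim fun y h => by simp [← h, k c y, e]

variable (f f₁ ρ) in
/-- `f` is a tensor power of the form `f₁`. -/
structure PE : Prop where
  fam : Fam ρ Finset.univ ⊤
  nd : f.Nondeg
  nd₁ : f₁.Nondeg
  h2 : (2 : F) ≠ 0
  ad : ∀ i, Ad f f₁ (ρ i)
  sw : ∀ a b, ∃ p ∈ f.O, ∀ l A v, p (ρ l A v) = ρ (Equiv.swap a b l) A (p v)
  dim : Dm f₁

variable (f f₁ ρ X) in
/-- An overgroup of the wreath product in which the factors are rigid. -/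
structure CE : Prop extends PE f f₁ ρ where
  le : X ≤ f.O
  ge : NF ρ Finset.univ ⊓ f.E ≤ X
  st : ∀ i, St f₁ (ρ i) X
  cn : ∀ m, X ⊓ cen (ρ m) ≤ NF ρ Finset.univ
  loc : ∀ j, ∃ E', LE f f₁ ρ j E'

theorem PE.nt (S : PE f f₁ ρ) : Nontrivial V₁ :=
  Module.nontrivial_of_finrank_pos (R := F) (by have := S.dim.three; omega)

theorem PE.comm (S : PE f f₁ ρ) (h : i ≠ j) (A B : End F V₁) : Commute (ρ i A) (ρ j B) :=
  S.fam.comm i (Finset.mem_univ _) j (Finset.mem_univ _) h A B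

theorem PE.un_mem (S : PE f f₁ ρ) (i : I) (e : V₁ ≃ₗ[F] V₁) : un (ρ i) e ∈ NF ρ Finset.univ :=
  S.fam.un_mem (Finset.mem_univ _) e

theorem PE.exists_slot (S : PE f f₁ ρ) (h3 : dl r ^ 3 = 0) (r1 : r ≠ 1) (H : ∀ j,
    (∃ A, (r : End F V) = ρ j A) ∨ ∀ A, Commute (r : End F V) (ρ j A)) :
    ∃ j A, (r : End F V) = ρ j A := by
  by_contra! K
  obtain ⟨μ, e⟩ := S.fam.cent r trivial fun j _ => (H j).resolve_left (not_exists.2 (K j))
  obtain ⟨v, hv⟩ := exists_ne (0 : V)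
  have := LinearMap.congr_fun h3 v
  rw [dl, e, ← one_smul F (1 : End F V), smul_smul, mul_one, ← sub_smul, smul_pow] at this
  simp [hv, sub_eq_zero] at this
  exact r1 (LinearEquiv.toLinearMap_injective (by simp [e, this, End.one_eq_id]))

namespace PE

variable (S : PE f f₁ ρ)
include S

theorem five (hij : i ≠ j) : 5 ≤ finrank F V := by
  have := S.nt
  obtain ⟨U, τ, hτ⟩ := exists_tn (ρ i)
  obtain ⟨κ, -⟩ := WrS.exists_rep hτ (S.comm hij.symm)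
  obtain ⟨c, hc⟩ := exists_ne (0 : V₁)
  have := hτ.nt
  have h1 := Nat.le_of_dvd finrank_pos (Dvd.intro_left _ (finrank_T κ hc))
  have := S.dim.three
  rw [finrank_eq hτ.tp]
  nlinarith

theorem cmt (hij : i ≠ j) (hg : g ∈ f.O) (hk : k ∈ f.O) : g * k * g⁻¹ * k⁻¹ ∈ f.E := by
  simpa [commutatorElement_def] using S.nd.commutator_O_le_E (f.quad_iso3.idx2 S.nd (S.five hij))
    (Subgroup.commutator_mem_commutator hg hk)

theorem nz_of_stab (hk : k ∈ NF ρ Finset.univ) (hb : b ≠ 0)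
    (h : ∀ w ∈ T (ρ j) (F ∙ b), k w ∈ T (ρ j) (F ∙ b)) : Nz (ρ j) (ρ j) k := by
  obtain ⟨l, hl, p⟩ := hk j (Finset.mem_univ _)
  obtain ⟨D, hD⟩ := p.exists_equiv
  rwa [← show j = l from by_contra fun e => T_ne S.fam (Finset.mem_univ j) hl e
    (by have := S.dim.three; omega) hb fun w hw =>
      app_inv k w ▸ Nd.map_T hD (inv_mem_of_stab h w hw)] at p

theorem mem_NF_of_T (hk : k ∈ NF ρ Finset.univ) (hg : g ∈ cen (ρ j)) (hb : b ≠ 0)
    (h : ∀ w ∈ T (ρ j) (F ∙ b), k w = g w) : g ∈ NF ρ Finset.univ := fun a ha => by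
  rcases eq_or_ne a j with rfl | haj
  · exact ⟨a, ha, nz_of_comm hg⟩
  obtain ⟨n, hn, p⟩ := hk a ha
  have hnj : n ≠ j := by
    rintro rfl
    exact haj (slot_inj S.fam ha hn (by have := S.dim.three; omega) (by
      simpa using (S.nz_of_stab hk hb fun w hw => h w hw ▸ T_comm hg hw).inv.mul p))
  refine ⟨n, hn, fun A => (p A).imp fun A' e => LinearMap.congr_fun (sub_eq_zero.1 (eq_zero_of_T
    (ξ := (g : End F V) * ρ a A - ρ n A' * (g : End F V)) (fun B => ((hg B).mul_left (S.comm haj A B)).sub_left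
      ((S.comm hnj A' B).mul_left (hg B))) hb fun w hw => ?_))⟩
  simp [← h w hw, ← h _ (T_comm (S.comm haj A) hw), e]

theorem cen_le_NF (h : ¬ ∃ l m, l ≠ j ∧ m ≠ j ∧ l ≠ m) : cen (ρ j) ≤ NF ρ Finset.univ :=
  fun g hg l hl => by
  rcases eq_or_ne l j with rfl | hlj
  · exact ⟨l, hl, nz_of_comm hg⟩
  have k : ∀ g ∈ cen (ρ j), ∃ B, (g : End F V) = ρ l B := fun g hg =>
    S.fam.mem_range hl trivial fun i _ hil => by
      rwa [show i = j from by_contra fun e => h ⟨i, l, e, hlj, hil⟩]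
  obtain ⟨B, hB⟩ := k g hg
  obtain ⟨B', hB'⟩ := k _ (inv_mem hg)
  exact ⟨l, hl, fun A => ⟨B * A * B', fun v => by simp [← hB, ← hB', inv_app]⟩⟩

theorem nNF (sk : Sk f η) (η0 : η ≠ 0) (hη : ∀ A, Commute η (ρ l A)) (s0 : s ≠ 0)
    (e : ∀ v, g v = v + ρ l (tv f₁ s s) (η v)) : g ∉ NF ρ Finset.univ := by
  obtain ⟨j, hj, h⟩ := WrS.exists_not_comm S.fam (ξ := η) trivial fun ⟨_, e⟩ =>
    η0 (sk.scalar S.h2 S.nd e)
  obtain ⟨B, hB⟩ := not_forall.1 h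
  exact WrO.nNF S.fam S.dim.three (Finset.mem_univ l) hj (by rintro rfl; exact h hη) s0
    (B_ne S.nd₁ s0) hη hB e

theorem exists_lev (L : LE f f₁ ρ j E') (hl : l ≠ j) (sk : Sk f η) (h1 : ∀ A, Commute η (ρ l A))
    (h2 : ∀ A, Commute η (ρ j A)) (hs : f₁.q s = 0) : Has E' fun v => ρ l (tv f₁ s s) (η v) := by
  have h0 : ∀ v, ρ l (tv f₁ s s) (η (ρ l (tv f₁ s s) v)) = 0 := fun v => by
    simp [cm_app h1, rho_mul, WrO.tv_mul, f₁.B_self_eq_zero hs]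
  obtain ⟨g, hg, e⟩ := exists_quad S.h2 ((S.ad l).sk_mul sk h1 s) fun v => h0 _
  refine ⟨g, L.lev g ⟨hg, fun A => ?_⟩ fun v => by simp [e, h0], e⟩
  rw [show (g : End F V) = 1 + ρ l (tv f₁ s s) * η from LinearMap.ext e]
  exact (Commute.one_left _).add_left ((S.comm hl _ A).mul_left (h2 A))

theorem sw' (a b : I) : ∃ p ∈ NF ρ Finset.univ ⊓ f.O,
    ∀ l A v, p (ρ l A v) = ρ (Equiv.swap a b l) A (p v) :=
  have ⟨p, hp, e⟩ := S.sw a b
  ⟨p, ⟨fun l _ => ⟨_, Finset.mem_univ _, fun A => ⟨A, e l A⟩⟩, hp⟩, e⟩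

theorem cu (h : i ≠ j) (A B : V₁ ≃ₗ[F] V₁) : Commute (un (ρ i) A) (un (ρ j) B) :=
  LinearEquiv.toLinearMap_injective (S.comm h _ _).eq

theorem sw_mem (hij : i ≠ j) (he : e ∈ f₁.O) : un (ρ j) e * (un (ρ i) e)⁻¹ ∈ f.E := by
  obtain ⟨p, hp, h⟩ := S.sw i j
  have := S.cmt hij hp ((S.ad i).un_mem S.h2 he)
  rwa [show p * un (ρ i) e * p⁻¹ = un (ρ j) e from mul_inv_eq_of_eq_mul
    (LinearEquiv.ext fun w => by simp [un_apply, h])] at this

theorem simO (i j : I) (hD : Sim f₁ D) : un (ρ i) D * (un (ρ j) D)⁻¹ ∈ f.O := by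
  obtain ⟨m, m0, h⟩ := hD
  refine mem_O_of_B S.h2 fun v w => mul_left_cancel₀ m0 ?_
  rw [mul_app, mul_app, Ad.sim (S.ad i) h, ← Ad.sim (S.ad j) h, app_inv, app_inv, mul_comm]

theorem two (hm : m ≠ j) (h : ∀ l, l ≠ j → l = m) : ∃ τ : V₁ →ₗ[F] V₁ →ₗ[F] V, Tn (ρ j) τ ∧
    (∀ A x y, ρ m A (τ x y) = τ (A x) y) ∧ ∃ μ, μ ≠ 0 ∧
      ∀ x y x' y', f.B (τ x y) (τ x' y') = μ * f₁.B x x' * f₁.B y y' := by
  have := S.nt
  obtain ⟨U, τ, hτ⟩ := exists_tn (ρ j)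
  have := hτ.nt
  obtain ⟨fU, Q⟩ := (S.ad j).exists_TQ S.h2 S.nd S.nd₁ hτ
  obtain ⟨κ, hκ⟩ := WrS.exists_rep hτ (S.comm hm)
  obtain ⟨c, hc⟩ := exists_ne (0 : V₁)
  obtain ⟨c', e⟩ := S.nd₁.exists_B_eq hc 1
  obtain ⟨ψ, h1, μ, μ0, h2⟩ := one_slot (σ := κ) Q.nd₁ S.nd₁ (fun A A' H u u' => by
    simpa [hκ, Q.mul, e] using S.ad m A A' H (τ u c) (τ u' c')) fun β H =>
      (S.fam.cent (lam hτ.tp β) trivial fun l _ A => by
        rcases eq_or_ne l j with rfl | hl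
        · exact hτ.comm_of_left (lam_app _ β) A
        · exact h l hl ▸ ext_of hτ.tp fun u x => by simp [hκ, cm_app H]).imp fun μ e =>
      rho_inj (lam hτ.tp) (by simp [e])
  exact ⟨τ ∘ₗ ψ, ⟨hτ.tp.comp_linearEquiv ψ, fun A u x => hτ.app A _ x⟩, fun A x y => by simp [hκ, h1],
    μ, μ0, fun x y x' y' => by simp [Q.mul, h2]⟩

variable (h4 : finrank F V₁ = 4)
include h4

theorem R2 (hij : i ≠ j) (ha : f₁.q a ≠ 0) (hb : f₁.q b ≠ 0) : un (ρ j) (f₁.rf a * f₁.rf b) ∈ f.E := by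
  obtain ⟨D, hD, rfl⟩ := exists_sim_to S.h2 S.nd₁ h4 hb ha
  convert S.cmt hij (S.simO j i hD) ((S.ad j).un_mem S.h2 (rf_mem_O b)) using 1
  rw [← Sim.rf S.h2 hD, mul_assoc (un _ D), (S.cu hij D _).inv_left.eq]
  simp [← map_inv, rf_inv, mul_assoc, ← mul_assoc (un (ρ i) D⁻¹), ← map_mul]

theorem yE (hij : i ≠ j) (ha : f₁.q a ≠ 0) (hb : f₁.q b ≠ 0) :
    un (ρ i) (f₁.rf a) * un (ρ j) (f₁.rf b) ∈ f.E := by
  have := mul_mem (S.R2 h4 hij.symm ha hb) (S.sw_mem hij (rf_mem_O b))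
  rwa [← (S.cu hij _ _).inv_left.eq, map_mul, mul_assoc, mul_inv_cancel_left] at this

theorem rfE (hl : l ≠ j) (hm : m ≠ j) (hlm : l ≠ m) (d : V₁) : un (ρ j) (f₁.rf d) ∈ f.E := by
  have := S.nt
  have hP : ∀ x, ρ m (pj f₁ x) * ρ m (pj f₁ x) = ρ m (pj f₁ x) := fun x => by rw [← map_mul, pj_sq]
  have k : ∀ {x y}, OP f₁ x y → pun (ρ j) (hP x) (S.comm hm _) (f₁.rf d) *
      pun (ρ j) (hP y) (S.comm hm _) (f₁.rf d) ∈ f.E := fun {x y} p => by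
    obtain ⟨D, hD, rfl⟩ := exists_sim_to S.h2 S.nd₁ h4 p.q2 p.q1
    convert S.cmt hl (S.simO m l hD) (pun_O S.h2 (S.ad j) (hP y) (S.comm hm _)
      (S.ad m _ _ (pj_adj y)) (rf_mem_O d)) using 1
    rw [← map_inv (pun _ _ _), rf_inv, mul_left_inj, eq_mul_inv_iff_mul_eq]
    ext v
    simp [pun_apply, un_apply, un_inv_apply, cm_app (S.comm hlm.symm _), cm_app (S.comm hl _),
      cm_app (S.comm hm _), show ∀ w, ρ m D (ρ m (pj f₁ y) w) = ρ m (pj f₁ (D y)) (ρ m D w) from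
        fun w => by rw [rho_mul, rho_mul, Sim.pj S.h2 hD]]
  obtain ⟨a, ha⟩ := exists_q_ne S.nd₁
  obtain ⟨a', p, -⟩ := exists_Z S.h2 S.nd₁ h4 ha
  obtain ⟨b, b', o, -⟩ := exists_OB S.h2 S.nd₁ h4 p
  convert mul_mem (k p) (k o.p2) using 1
  ext v
  have := congrArg (fun A => ρ m A (ρ j (f₁.rf d) v - v))
    (show pj f₁ a + pj f₁ a' + pj f₁ b + pj f₁ b' = 1 from o.sum S.nd₁ S.h2 h4)
  simp [pun_apply, un_apply, cm_app (S.comm hm _), rho_mul (ρ m), pj_mul, o.rel] at this ⊢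
  linear_combination (norm := module) -this

end PE

namespace CE

variable (S : CE f f₁ X ρ)
include S

theorem gs (i : I) : GS f f₁ (ρ i) X :=
  have := S.nt
  ⟨S.ad i, S.st i, fun e he => S.ge ⟨S.un_mem i e, (S.ad i).un_mem_E S.h2 S.nd S.nd₁ he⟩⟩

variable (G : GS f f₁ σ X)
include G

theorem uniq (hc : f₁.q c = 0) (c0 : c ≠ 0) (d0 : d ≠ 0) (h : T σ (F ∙ c) = T (ρ j) (F ∙ d)) :
    Nz σ (ρ j) 1 := fun A => by
  refine (S.fam.mem_range (Finset.mem_univ j) trivial fun k _ hkj => ?_).imp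
    fun _ e v => LinearMap.congr_fun e v
  have st := fun A w hw => h.ge (T_comm (S.comm hkj A) (h.le (x := w) hw))
  refine comm_of_nz S.h2 S.nd S.nd₁ S.dim G.ad (S.ad k) (fun e he => G.st c hc c0 _
    ((S.gs k).R _ he) (st _)) (fun s v hs hv s0 v0 ⟨B, hB⟩ => ?_) A
  obtain ⟨w, hw, w0⟩ := exists_mem_T σ c0
  obtain ⟨μ, hμ⟩ := Submodule.mem_span_singleton.1 (show B c ∈ F ∙ c from by_contra fun e =>
    w0 ((un (ρ k) (rt hs hv (.ofAdd 1))).injective (by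
      simpa [un_apply] using T_disj e (st _ w hw) (hB ▸ WrS.rho_T B hw))))
  have k1 : ∀ w ∈ T σ (F ∙ c), ρ k (dl (rt hs hv (.ofAdd 1))) w = (μ - 1) • w := fun w hw => by
    simpa [dl, hB, sub_smul, sub_eq_zero] using hw (B - μ • 1) fun x hx => by
      obtain ⟨a, rfl⟩ := Submodule.mem_span_singleton.1 hx
      simp [← hμ]
  have k2 := LinearMap.congr_fun (congrArg (ρ k) (rt_cube hs hv (.ofAdd 1))) w
  simp [pow_succ, k1 w hw, w0] at k2
  exact rt_ne S.nd₁ hs hv s0 v0 (t := .ofAdd 1) (by simp) (LinearEquiv.toLinearMap_injective (sub_eq_zero.1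
    (rho_inj (ρ k) ((eq_zero_of_T (S.comm hkj (dl _)) d0 fun w hw => by
      simpa [k2] using k1 w (h.ge hw)).trans (map_zero _).symm))))

theorem fin (hs : f₁.q s = 0) (s0 : s ≠ 0) (hv : f₁.B s v = 0) (v0 : f₁.q v ≠ 0)
    (h : σ (rt hs hv (.ofAdd 1)) = ρ j A) : Nz σ (ρ j) 1 := by
  obtain ⟨d, d0, e⟩ := T_eq_of (σ := σ) (σ' := ρ j) (A := -(2 * f₁.q v)⁻¹ • (A - 1) ^ 2) s0
    (B_ne S.nd₁ s0) (by
      have := un_rt_sq (σ := σ) hs hv (.ofAdd 1)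
      rw [dl, coe_un, h] at this
      simp [this, smul_smul, -mul_inv_rev, S.h2, v0, tv_eq])
  exact S.uniq G hs s0 d0 e

theorem recogA (h : An f₁ s ν) (H : ∀ p, un σ (h.rt p) ∈ NF ρ Finset.univ) : ∃ j, Nz σ (ρ j) 1 := by
  have := S.nt
  obtain ⟨j, A, e⟩ := S.exists_slot (r := un σ (h.rt (.ofAdd (1, 0))))
    (by rw [dl_un, ← map_pow, h.rt_eq, rt_cube, map_zero])
    (fun e => by simpa using (h.inj S.nd₁ S.h2).eq_iff' (map_one _) |>.1 ((un_inj σ).eq_iff' (map_one _) |>.1 e))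
    fun j => (h.dich S.h2 (h.no_move S.h2 S.fam S.dim.four H (Finset.mem_univ j))).imp (· _) (· _)
  rw [h.rt_eq] at e
  exact ⟨j, S.fin G h.hs h.s0 (h.hv _) h.q1 e⟩

omit G in
theorem iso (hc : f₁.q c = 0) (hc' : f₁.q c' = 0) (e0 : f₁.B c c' = 0) :
    ∀ x ∈ Submodule.span F {c, c'}, ∀ y ∈ Submodule.span F {c, c'}, f₁.B x y = 0 := fun x hx y hy => by
  obtain ⟨a, b, rfl⟩ := Submodule.mem_span_pair.1 hx
  obtain ⟨a', b', rfl⟩ := Submodule.mem_span_pair.1 hy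
  simp [e0, f₁.B_eq_zero_symm e0, f₁.B_self_eq_zero hc, f₁.B_self_eq_zero hc']

theorem recogL (h5 : 5 ≤ finrank F V₁) (hc : f₁.q c = 0) (c0 : c ≠ 0) (hc' : f₁.q c' = 0)
    (e0 : f₁.B c c' = 0) (hz : z ∈ X) (hN : z ∈ NF ρ Finset.univ) (z1 : z ≠ 1)
    (hW : ∀ v, z v - v ∈ T σ (Submodule.span F {c, c'})) : ∃ j, Nz σ (ρ j) 1 := by
  have := S.nt
  have iW := fun w w' => T_perp (w := w) (w' := w') S.nd₁ G.ad (S.iso hc hc' e0)
  have h0 := fun v => fix_of_perp S.nd (S.le hz) hW fun w hw => iW w _ hw (hW v)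
  obtain ⟨j, A, e⟩ := S.exists_slot (by ext v; simp [pow_succ, dl_apply, -map_sub, h0]) z1 fun j =>
    sm2 S.h2 (nm2 S.h2 S.fam S.dim.three hN h0 (Finset.mem_univ j)) h0
  have e' : ∀ v, z v - v = ρ j (A - 1) v := fun v => by simp [← e]
  obtain ⟨x, hx⟩ : ∃ x, (A - 1) x ≠ 0 := by
    by_contra! H
    exact z1 (LinearEquiv.ext fun v => sub_eq_zero.1 (by simp [e', show A - 1 = 0 from LinearMap.ext H]))
  obtain ⟨φ, hφ⟩ := Module.Projective.exists_dual_eq_one F hx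
  have le : T (ρ j) (F ∙ (A - 1) x) ≤ T σ (Submodule.span F {c, c'}) := fun w hw => by
    have := hW (ρ j (φ.smulRight x) w)
    rwa [e', rho_mul, show (A - 1) * φ.smulRight x = φ.smulRight ((A - 1) x) by ext; simp [smul_sub],
      rk_self hφ hw] at this
  obtain ⟨y, hy, y0⟩ := CL.Root.exists_nonsing_perp S.nd₁ (Submodule.span F {c, c'}) (by
    have := CL.Tv.finrank_span_pair_le (F := F) c c'
    omega)
  have hy' := f₁.mem_perp_span_pair.1 hy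
  obtain ⟨D, hD⟩ := (S.st j _ (sing_of_T S.h2 S.nd (S.ad j) fun w hw w' hw' =>
    iW w w' (le hw) (le hw')) hx _ (G.R _ (rt_mem hc hy'.1 (.ofAdd 1))) fun w hw => by
      rwa [un_apply, fix_T (fun x hx => by
        obtain ⟨a, b, rfl⟩ := Submodule.mem_span_pair.1 hx
        simp [rt_apply, wd_apply, e0, f₁.B_self_eq_zero hc, f₁.B_eq_zero_symm hy'.1,
          f₁.B_eq_zero_symm hy'.2]) (le hw)]).exists_equiv
  obtain ⟨U, τ, hτ⟩ := exists_tn (ρ j)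
  obtain ⟨B, hB⟩ := Nd.kron hτ hD
  have e1 : ∀ u, φ ((A - 1) (D x)) • B u = u := fun u => by
    have := fix_of_perp S.nd (S.le hz) hW fun w hw => T_perp S.nd₁ G.ad (fun a ha b hb => by
      obtain ⟨s, t, rfl⟩ := Submodule.mem_span_pair.1 hb
      simp [hy a ha, S.iso hc hc' e0 a ha c (Submodule.subset_span (by simp))]) hw
      (rt_sub_mem hc hy'.1 (.ofAdd 1) (τ u x))
    rw [← sub_eq_zero, e', map_sub, sub_eq_zero, hB, hτ.app, hτ.app] at this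
    simpa [-LinearMap.sub_apply, hφ] using congrArg (ct hτ.tp φ) this
  have := hτ.nt
  obtain ⟨u, hu⟩ := exists_ne (0 : U)
  have p0 : φ ((A - 1) (D x)) ≠ 0 := fun e => hu (by rw [← e1 u, e, zero_smul])
  exact ⟨j, S.fin G hc c0 hy'.1 y0 (A := (φ ((A - 1) (D x)))⁻¹ • (D : End F V₁)) (hτ.eq_rho fun u y => by
    simp [← un_apply, hB, (eq_inv_smul_iff₀ p0).2 (e1 u), -LinearMap.sub_apply])⟩

theorem recog (H : ∀ e ∈ f₁.E, un σ e ∈ NF ρ Finset.univ) : ∃ j, Nz σ (ρ j) 1 := by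
  obtain ⟨s, -, s0, hs⟩ := f₁.quad_iso3 ⊤ (by simpa using S.dim.three)
  rcases S.dim with h6 | ⟨h4, hI⟩
  · obtain ⟨v, R⟩ := exists_Rt S.nd₁ (Or.inl (by omega)) hs s0
    exact S.recogL G (by omega) hs s0 (R.q.resolve_right (by omega))
      R.hv (G.R _ (rt_mem _ _ (.ofAdd 1))) (H _ (rt_mem _ _ _))
      (fun e => R.ne S.nd₁ (by simp) ((un_inj σ).eq_iff' (map_one _) |>.1 e)) (rt_sub_mem _ _ _)
  · obtain ⟨ν, h⟩ := exists_An4 S.nd₁ h4.ge hI hs s0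
    exact S.recogA G h fun _ => H _ (h.mem _)

omit G

theorem K (hg : g ∈ X) (h : Nz (ρ i) (ρ j) g) : g ∈ NF ρ Finset.univ := fun k _ => by
  rcases eq_or_ne k i with rfl | hki
  · exact ⟨j, Finset.mem_univ _, h⟩
  have G := (S.gs k).cj S.le hg
  obtain ⟨l, hl⟩ := S.recog G fun e he => S.cn j ⟨G.R e he, fun B => by
    obtain ⟨B', e'⟩ := h.inv B
    rw [show ρ j B = g.conjAlgEquiv F (ρ i B') from LinearMap.ext fun v =>
      (app_inv g _).symm.trans (congrArg g (e' v))]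
    exact (commute_cj (S.comm hki e B').symm).symm⟩
  exact ⟨l, Finset.mem_univ _, by simpa using hl.mul nz_cj⟩

theorem K' (hg : g ∈ X) (h : ∃ j, Nz (Wr.cj g (ρ i)) (ρ j) 1) : g ∈ NF ρ Finset.univ :=
  h.elim fun _ h => S.K hg (by simpa using h.mul nz_cj)

theorem nrmG (h : An f₁ s ν) (m : I) : NrmG X (NF ρ Finset.univ) ((un (ρ m)).comp h.rt).range :=
  fun _ hg H => S.K' hg (S.recogA ((S.gs m).cj S.le hg) h fun t => H _ ⟨t, rfl⟩)

section Five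

variable (h5 : 5 ≤ finrank F V₁) (hc : f₁.q c = 0) (c0 : c ≠ 0) (hc' : f₁.q c' = 0)
  (e0 : f₁.B c c' = 0)
include h5 hc c0 hc' e0

omit h5 c0 in
theorem fix (hz : z ∈ X) (hW : ∀ v, z v - v ∈ T (ρ i) (Submodule.span F {c, c'}))
    (hw : w ∈ T (ρ i) (Submodule.span F {c, c'})) : z w = w :=
  fix_of_perp S.nd (S.le hz) hW fun _ h => T_perp S.nd₁ (S.ad i) (S.iso hc hc' e0) h hw

theorem nrmB (hz : z ∈ X) (z1 : z ≠ 1) (hW : ∀ v, z v - v ∈ T (ρ i) (Submodule.span F {c, c'})) :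
    Nrm X (NF ρ Finset.univ) z :=
  ⟨hz, S.K hz (S.st i c hc c0 z hz fun w hw => by
      rwa [S.fix hc hc' e0 hz hW (T_mono (Submodule.span_mono (by simp)) hw)]),
    fun g hg e => S.K' hg (S.recogL ((S.gs i).cj S.le hg) h5 hc c0 hc' e0
      (X.mul_mem (X.mul_mem hg hz) (X.inv_mem hg)) e (by simpa using z1) fun v => mem_T_cj.2 (by
        simpa [inv_app] using hW (g⁻¹ v)))⟩

theorem cm_le {G : Submodule F V} (h1 : T (ρ i) (Submodule.span F {c, c'}) ≤ G)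
    (OP : ∀ v ∈ G, v ∈ f.perp (T (ρ i) (Submodule.span F {c, c'})) →
      v ∈ T (ρ i) (Submodule.span F {c, c'}))
    (NB : ∀ e, T (ρ i) (F ∙ e) ≤ G → e ∈ Submodule.span F {c, c'}) (hz : z ∈ Wr.cm X G)
    (hk : z ∈ NF ρ Finset.univ) (v : V) : z v - v ∈ T (ρ i) (Submodule.span F {c, c'}) := by
  have := S.nt
  obtain ⟨y, hy, y2⟩ : ∃ y ∈ f₁.perp (Submodule.span F {c, c'}), y ∉ Submodule.span F {c, c'} := by
    by_contra! H
    have h1 := Submodule.finrank_mono (show f₁.perp _ ≤ _ from H)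
    have h2 := S.nd₁.finrank_add_finrank_perp (Submodule.span F {c, c'})
    have h3 := CL.Tv.finrank_span_pair_le (F := F) c c'
    omega
  have m1 : c ∈ Submodule.span F {c, c'} := Submodule.subset_span (by simp)
  generalize Submodule.span F {c, c'} = L at *
  have py : ∀ w ∈ T (ρ i) L, ∀ v ∈ T (ρ i) (F ∙ y), f.B w v = 0 := fun w hw v hv =>
    T_perp S.nd₁ (S.ad i) (fun a ha b hb => by
      obtain ⟨t, rfl⟩ := Submodule.mem_span_singleton.1 hb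
      simp [hy a ha]) hw hv
  have my := Submodule.mem_span_singleton_self (R := F) y
  obtain ⟨m, -, h⟩ := hk i (Finset.mem_univ _)
  obtain ⟨D, hD⟩ := h.exists_equiv
  have k : ∀ x ∈ L, T (ρ m) (F ∙ D x) ≤ G := fun x hx w hw => by
    exact app_inv z w ▸ cm_map hz (h1 (T_mono ((Submodule.span_singleton_le_iff_mem _ _).2 hx)
      (by simpa [inv_app] using (Nd.inv hD).map_T hw)))
  rcases eq_or_ne i m with rfl | him
  swap
  · obtain ⟨φ, hφ⟩ := Module.Projective.exists_dual_eq_one F c0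
    refine (rk_ne (ρ i) (c := y) (ψ := φ) (by rintro rfl; simp at y2) (by rintro rfl; simp at hφ)
      (eq_zero_of_T (S.comm him _) (show D c ≠ 0 by simpa using c0) fun w hw => T_bot (ρ := ρ i) ?_)).elim
    have := T_inf (OP _ (k c m1 (T_comm (S.comm him _) hw)) fun w' h => py w' h _ (rk_mem_T my φ w))
      (rk_mem_T my φ w)
    rwa [disjoint_iff.1 ((Submodule.disjoint_span_singleton' (by rintro rfl; simp at y2)).2 y2)] at this
  obtain ⟨U, τ, hτ⟩ := exists_tn (ρ i)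
  obtain ⟨B, hB⟩ := Nd.kron hτ hD
  have hW := inv_mem_of_stab fun w => hτ.map_T (z := z) hB fun x hx => NB _ (k x hx)
  obtain ⟨t, ht⟩ := hτ.scal (B := B) (y := D y) (fun u => hB u y ▸ OP _ (hz.2 _) fun w hw => by
    rw [map_sub, py w hw _ (hτ.pure_T u my), ← app_inv z w, mem_O_B (S.le hz.1),
      py _ (hW w hw) _ (hτ.pure_T u my), sub_self]) y2
  have e : ∀ v, z v - v = ρ i (t • (D : End F V₁) - 1) v := fun v => by
    simp [← hτ.eq_rho (ξ := z) (A := t • (D : End F V₁)) fun u x => by simp [hB, ht], -map_smul]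
  exact e v ▸ rho_mem_T (fun x => NB _ (T_le_of (fun v => e v ▸ hz.2 v) x)) v

omit h5 hc c0 hc' e0 in
/-- Overgroups of `O_k ≀ S_t` for `k ≥ 6`. -/
theorem le6 (h6 : 6 ≤ finrank F V₁) (i : I) : X ≤ NF ρ Finset.univ :=
  fun g₀ hg₀ => by_contra fun hn₀ => by
  have h5 : 5 ≤ finrank F V₁ := by omega
  have := S.nt
  have := finite_equiv F V
  obtain ⟨c, -, c0, hc⟩ := f₁.quad_iso3 ⊤ (by simp; omega)
  obtain ⟨c', R⟩ := exists_Rt S.nd₁ (Or.inl h5) hc c0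
  have hc' := R.q.resolve_right (by omega)
  have e0 := R.hv
  set L := Submodule.span F {c, c'} with hL
  set W := T (ρ i) L with hW
  have : Nonempty {g // g ∈ X ∧ g ∉ NF ρ Finset.univ} := ⟨⟨g₀, hg₀, hn₀⟩⟩
  obtain ⟨⟨g, hg, hn⟩, mx⟩ := Finite.exists_max fun g : {g // g ∈ X ∧ g ∉ NF ρ Finset.univ} =>
    finrank F (W ⊓ W.map (g.1 : V →ₗ[F] V) : Submodule F V)
  set U := W.map (g : V →ₗ[F] V) with hU
  have key : ∀ s ∈ X, g⁻¹ * s * g ∉ NF ρ Finset.univ → (∀ w ∈ W, w ∈ U → s w = w) → ∀ v ∈ U,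
      s v = v → v ∈ W := fun s hs n h v hv e => by
    refine ((Submodule.eq_of_le_of_finrank_le (S₁ := W ⊓ U) (S₂ := LinearMap.ker (dl s) ⊓ U)
      (fun w hw => ⟨sub_eq_zero.2 (h w hw.1 hw.2), hw.2⟩) (le_trans ?_ (mx ⟨g⁻¹ * s * g,
      X.mul_mem (X.mul_mem (X.inv_mem hg) hs) hg, n⟩))).ge
      ⟨sub_eq_zero.2 e, hv⟩).1
    rw [← LinearEquiv.finrank_map_eq g⁻¹]
    refine Submodule.finrank_mono ?_
    rintro _ ⟨_, ⟨h1, w, hw, rfl⟩, rfl⟩
    simp only [LinearEquiv.coe_coe, inv_app] at h1 ⊢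
    exact ⟨hw, w, hw, by simp [show s (g w) = g w from sub_eq_zero.1 h1, inv_app]⟩
  have nr : ∀ {c c'} (R : Rt f₁ c c') (t : Multiplicative F), t ≠ 1 →
      Nrm X (NF ρ Finset.univ) (un (ρ i) (rt R.hs R.hv t)) := fun R t t1 =>
    S.nrmB h5 R.hs R.s0 (R.q.resolve_right (by omega)) R.hv ((S.gs i).R _ (rt_mem _ _ t))
      (fun e => R.ne S.nd₁ t1 ((un_inj _).eq_iff' (map_one _) |>.1 e)) (rt_sub_mem _ _ t)
  have n1 := nr R (.ofAdd 1) (by simp)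
  have n2 := nr R (.ofAdd (-1)) (by simp)
  have a1 := rt_sub_mem (σ := ρ i) R.hs R.hv
  have iL := S.iso hc hc' e0
  have iW : ∀ w ∈ W, ∀ w' ∈ W, f.B w w' = 0 := fun w hw w' => T_perp S.nd₁ (S.ad i) iL hw
  have OP : ∀ v ∈ W ⊔ U, v ∈ f.perp W → v ∈ W := fun v hv e => by
    obtain ⟨a, ha, b, hb, rfl⟩ := Submodule.mem_sup.1 hv
    exact W.add_mem ha (key _ n1.memX (n1.conj_notMem hg hn) (fun w hw _ => S.fix hc hc' e0 n1.memX (a1 _) hw) b hb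
      (fix_of_perp S.nd (S.le n1.memX) (a1 _) fun w hw => by simpa [iW w hw a ha] using e w hw))
  have NB : ∀ e, T (ρ i) (F ∙ e) ≤ W ⊔ U → e ∈ L := fun e he => by
    obtain ⟨d, d0, d1, d2⟩ : ∃ d, d ≠ 0 ∧ d ∈ L ∧ f₁.B d e = 0 := by
      by_cases H : f₁.B c e = 0
      · exact ⟨c, c0, Submodule.subset_span (by simp), H⟩
      · refine ⟨c' - (f₁.B c' e / f₁.B c e) • c, fun e => R.v0 ?_, Submodule.mem_span_pair.2
          ⟨-(f₁.B c' e / f₁.B c e), 1, by module⟩, by simp [H]⟩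
        rw [sub_eq_zero.1 e]
        exact Submodule.smul_mem _ _ (Submodule.mem_span_singleton_self c)
    have hd : f₁.q d = 0 := mul_left_cancel₀ S.h2 (by rw [← quad_B_self, iL d d1 d d1, mul_zero])
    have m1 : ∀ y ∈ f₁.perp (L ⊔ F ∙ e), f₁.B d y = 0 := fun y hy => hy d (Submodule.mem_sup_left d1)
    obtain ⟨y, hy, n⟩ : ∃ y, ∃ hy : y ∈ f₁.perp (L ⊔ F ∙ e),
        g⁻¹ * un (ρ i) (rt hd (m1 y hy) (.ofAdd 1)) * g ∉ NF ρ Finset.univ := by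
      by_contra! H
      obtain ⟨ν, h, m⟩ := exists_An hd d0 m1 (by
        have h1 := S.nd₁.finrank_add_finrank_perp (L ⊔ F ∙ e)
        have h2 := Submodule.finrank_add_le_finrank_add_finrank L (F ∙ e)
        have h3 : finrank F L ≤ 2 := CL.Tv.finrank_span_pair_le (F := F) c c'
        have h4 : finrank F (F ∙ e) ≤ 1 := finrank_span_le_card _ |>.trans (by simp)
        omega) fun y hy q => by_contra fun y1 =>
          (nr ⟨hd, m1 y hy, d0, y1, Or.inl q⟩ _ (by simp)).conj_notMem hg hn (H y hy)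
      refine hn (inv_mem_iff.1 (S.nrmG h i _ (X.inv_mem hg) ?_))
      rintro _ ⟨p, rfl⟩
      simpa [h.rt_eq] using H _ (m _)
    have fx : ∀ w ∈ T (ρ i) (L ⊔ F ∙ e), un (ρ i) (rt hd (m1 y hy) (.ofAdd 1)) w = w := fun w hw =>
      fix_T (fun x hx => by
        have : f₁.B d x = 0 := by
          obtain ⟨a, ha, b, hb, rfl⟩ := Submodule.mem_sup.1 hx
          obtain ⟨t, rfl⟩ := Submodule.mem_span_singleton.1 hb
          simp [iL d d1 a ha, d2]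
        simp [rt_apply, wd_apply, this, f₁.B_eq_zero_symm (hy x hx)]) hw
    refine mem_of_T_le (ρ := ρ i) fun w hw => ?_
    obtain ⟨a, ha, b, hb, rfl⟩ := Submodule.mem_sup.1 (he hw)
    exact W.add_mem ha (key _ ((S.gs i).R _ (rt_mem _ _ _)) n (fun w hw _ => fx w
      (T_mono le_sup_left hw)) b hb (by
        simpa [fx a (T_mono le_sup_left ha)] using fx _ (T_mono le_sup_right hw)))
  obtain ⟨a, ha, b, hb, s, hs, s', hs', ha', ne, e⟩ := exists_two (Y := Wr.cm X (W ⊔ U))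
    (g := g * un (ρ i) (rt R.hs R.hv (.ofAdd 1)) * g⁻¹) (fun _ a => a.1) n1 n2
    ⟨n1.memX, fun v => Submodule.mem_sup_left (a1 _ v)⟩
    ⟨n2.memX, fun v => Submodule.mem_sup_left (a1 _ v)⟩
    (fun e => R.ne S.nd₁ (t := .ofAdd 1 / .ofAdd (-1)) (by
      simpa [← ofAdd_add, one_add_one_eq_two] using S.h2) (by rw [map_div, un_inj _ e, div_self']))
    ⟨X.mul_mem (X.mul_mem hg n1.memX) (X.inv_mem hg), fun v =>
      Submodule.mem_sup_right ⟨_, a1 _ (g⁻¹ v), (dl_conj v).symm⟩⟩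
    fun e => hn (n1.of_conj g hg e)
  have k1 : ∀ s ∈ ({un (ρ i) (rt R.hs R.hv (.ofAdd 1)), un (ρ i) (rt R.hs R.hv (.ofAdd (-1)))} : Set _),
      Nrm X (NF ρ Finset.univ) s ∧ ∀ v, s v - v ∈ W := by
    rintro _ (rfl | rfl)
    exacts [⟨n1, a1 _⟩, ⟨n2, a1 _⟩]
  have k2 : ∀ a ∈ Wr.cm X (W ⊔ U), ∀ s, (Nrm X (NF ρ Finset.univ) s ∧ ∀ v, s v - v ∈ W) →
      a * s * a⁻¹ ∈ Wr.cm X (W ⊔ U) := fun a ha s hs => Subgroup.mul_mem _ (Subgroup.mul_mem _ ha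
    ⟨hs.1.memX, fun v => Submodule.mem_sup_left (hs.2 v)⟩) (Subgroup.inv_mem _ ha)
  have k3 : ∀ s ∈ X, (∀ v, s v - v ∈ W) → ∀ v, s (s v - v) = s v - v := fun s hs H v =>
    S.fix hc hc' e0 hs H (H v)
  have hz := Subgroup.mul_mem _ (Subgroup.inv_mem _ (k2 a ha s (k1 s hs))) (k2 b hb s' (k1 s' hs'))
  have hW := S.cm_le h5 hc c0 hc' e0 le_sup_left OP NB hz e
  refine ha' ((k1 s hs).1.of_conj a ha.1 ((S.nrmB h5 hc c0 hc' e0 hz.1
    (by rwa [Ne, inv_mul_eq_one]) hW).of_comm_conj (k2 a ha s (k1 s hs)).1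
    (comm_conj_of_fix (conj_fix (k3 _ (k1 s hs).1.memX (k1 s hs).2) a) (k3 _ hz.1 hW) ?_)))
  rw [mul_inv_cancel_left]
  exact conj_fix (k3 _ (k1 s' hs').1.memX (k1 s' hs').2) b

end Five

end CE

end CL.WrE
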