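/-
Tensor powers of even-dimensional orthogonal spaces: a proper overgroup has rigid factors.
-/
import Mathlib
import Cfsg.Agent.CLAS.WrE4

set_option autoImplicit false
set_option linter.unusedSectionVars false

namespace CL.WrE

open Module CL.ExtF CL.Tens CL.Wr CL.Witt CL.Witt.Form CL.Uniq CL.WrO

attribute [-simp] LinearEquiv.coe_inv
attribute [local simp] FormType.quad_σ FormType.quad_ε FormType.quad_π

variable {F V₁ V : Type*} [Field F] [AddCommGroup V₁] [Module F V₁] [AddCommGroup V] [Module F V]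
  {f : Form (FormType.quad F) V} {f₁ : Form (FormType.quad F) V₁} {σ σ' : Rep F V₁ V}
  {a a' b b' c c' d s v : V₁} {g k r z : V ≃ₗ[F] V} {D e : V₁ ≃ₗ[F] V₁} {X : Subgroup (V ≃ₗ[F] V)}
  {L L' : Submodule F V₁} {A : End F V₁} {ξ η : End F V} {w w' : V} {ν : F × F →ₗ[F] V₁}
  [FiniteDimensional F V₁] [FiniteDimensional F V] [Nontrivial V] [Finite F]
  {I : Type*} [Fintype I] [DecidableEq I] {ρ : I → Rep F V₁ V} {i j l m : I}
  {E' : Subgroup (V ≃ₗ[F] V)}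

variable (f f₁ ρ X) in
/-- A proper overgroup of the wreath product. -/
structure AE : Prop extends PE f f₁ ρ where
  le : X ≤ f.O
  ge : NF ρ Finset.univ ⊓ f.E ≤ X
  ne : ¬ f.E ≤ X
  loc : ∀ j, ∃ E', LE f f₁ ρ j E'

theorem PE.rfE' (S : PE f f₁ ρ) (h4 : finrank F V₁ = 4) (hl : l ≠ i) (hm : m ≠ i) (hlm : l ≠ m) (j : I)
    (d : V₁) : un (ρ j) (f₁.rf d) ∈ f.E := by
  rcases eq_or_ne i j with rfl | h
  · exact S.rfE h4 hl hm hlm d
  rcases eq_or_ne l j with rfl | h'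
  exacts [S.rfE h4 h hlm.symm hm.symm d, S.rfE h4 h h' hl.symm d]

theorem ER.O (h : ER f₁ e) : e ∈ f₁.O := by
  rcases h with h | ⟨b, rfl⟩
  exacts [E_le_O h, rf_mem_O b]

theorem PE.sk_lev (S : PE f f₁ ρ) (hX : X ≤ f.O) (hs : f₁.q s = 0) (s0 : s ≠ 0)
    (hη : ∀ A, Commute η (ρ i A)) (h : Has X fun v => ρ i (tv f₁ s s) (η v)) : Sk f η :=
  (S.ad i).sk S.nd S.nd₁ (tv_ne S.nd₁ s0 s0) (tv_adj s s) hη (sk_of_has hX h fun v => by
    simp [cm_app hη, rho_mul, WrO.tv_mul, f₁.B_self_eq_zero hs])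

namespace AE

variable (S : AE f f₁ X ρ)
include S

theorem R (i : I) (he : e ∈ f₁.E) : un (ρ i) e ∈ X :=
  have := S.nt
  S.ge ⟨S.un_mem i e, (S.ad i).un_mem_E S.h2 S.nd S.nd₁ he⟩

theorem cmt (hij : i ≠ j) (hg : g ∈ NF ρ Finset.univ ⊓ f.O) (hk : k ∈ NF ρ Finset.univ ⊓ f.O) :
    g * k * g⁻¹ * k⁻¹ ∈ X :=
  S.ge ⟨mul_mem (mul_mem (mul_mem hg.1 hk.1) ((NF _ _).inv_mem hg.1)) ((NF _ _).inv_mem hk.1),
    S.toPE.cmt hij hg.2 hk.2⟩

theorem no_lev (hη : η ∈ Lv f₁ (ρ j) X) (η0 : η ≠ 0) : X ⊓ cen (ρ j) ≤ NF ρ Finset.univ := by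
  obtain ⟨E', L⟩ := S.loc j
  exact (L.ih _ (inf_le_inf_right _ S.le) fun g h => ⟨S.ge ⟨h.1, (L.le h.2).1⟩, (L.le h.2).2⟩).resolve_left
    fun h => S.ne (L.full X S.le (h.trans inf_le_left) η hη η0)

theorem not_cen (hη : η ∈ Lv f₁ (ρ l) X) (η0 : η ≠ 0) (hl : l ≠ j) (h : ∀ A, Commute η (ρ j A)) :
    ¬ X ⊓ cen (ρ j) ≤ NF ρ Finset.univ := fun H => by
  obtain ⟨s, -, s0, hs⟩ := f₁.quad_iso3 ⊤ (by simpa using S.dim.three)
  obtain ⟨g, hg, e⟩ := hη.2 s hs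
  refine S.nNF (S.sk_lev S.le hs s0 hη.1 ⟨g, hg, e⟩) η0 hη.1 s0 e (H ⟨hg, fun A => ?_⟩)
  rw [show (g : End F V) = 1 + ρ l (tv f₁ s s) * η from LinearMap.ext e]
  exact (Commute.one_left _).add_left ((S.comm hl _ A).mul_left (h A))

theorem inv_lv (hl : l ≠ i) : InvO f₁ (ρ l) (Lv f₁ (ρ i) X) := fun e he η hη => by
  have c := S.comm hl
  refine ⟨fun A => ((c _ A).mul_left (hη.1 A)).mul_left (c _ A), fun s hs =>
    ((hη.2 (e s) (by rwa [mem_O_q he.O])).conj (S.ge ⟨mul_mem (S.un_mem l e) ((NF _ _).inv_mem (S.un_mem i e)),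
      S.sw_mem hl.symm he.O⟩)).congr fun w => ?_⟩
  have e1 := WrO.tv_conj (inv_mem he.O) (e s) (e s)
  rw [inv_app, inv_inv] at e1
  simp only [mul_inv_rev, inv_inv, mul_app, un_apply, un_inv_apply, cm_app hη.1, cm_app (c _),
    rho_mul (ρ i), ← mul_assoc, e1, End.mul_apply]

theorem brk (hl : l ≠ i) {β γ : End F V}
    (hβ : β ∈ WrS.lv (ρ l) (Lv f₁ (ρ i) X) {B | ∃ x y, B = wd f₁ x y}
      (⊤ ⊓ Subalgebra.centralizer F (Set.range (ρ i))))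
    (hγ : γ ∈ WrS.lv (ρ l) (Lv f₁ (ρ i) X) {B | ∃ x y, B = wd f₁ x y}
      (⊤ ⊓ Subalgebra.centralizer F (Set.range (ρ i)))) : β * γ - γ * β ∈ Lv f₁ (ρ l) X := by
  have k : ∀ c d, f₁.q c = 0 → f₁.q d = 0 → ρ i (tv f₁ c c * tv f₁ d d) * (β * γ) -
      ρ i (tv f₁ d d * tv f₁ c c) * (γ * β) ∈ Lv f₁ (ρ l) X := fun c d hc hd => by
    have b1 := WrS.cen_comm hβ.1
    have c1 := WrS.cen_comm hγ.1
    refine ⟨fun A => ((S.comm hl.symm _ A).mul_left ((b1 A).mul_left (c1 A))).sub_left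
      ((S.comm hl.symm _ A).mul_left ((c1 A).mul_left (b1 A))), fun s hs => ?_⟩
    rcases eq_or_ne s 0 with rfl | s0
    · exact Has.zero.congr fun v => by simp
    obtain ⟨v, v1, v0⟩ := exists_rt S.nd₁ S.dim.three hs s0
    have w2 : wd f₁ s v * wd f₁ s v = -(2 * f₁.q v) • tv f₁ s s := by
      ext; simp [wd_apply, v1, f₁.B_eq_zero_symm v1, f₁.B_self_eq_zero hs, quad_B_self, smul_smul,
        mul_comm]
    have w4 : wd f₁ s v * tv f₁ s s = 0 := by ext; simp [wd_apply, f₁.B_eq_zero_symm v1, f₁.B_self_eq_zero hs]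
    have b2 := cm_app (WrS.cen_comm hβ.1.1)
    have c2 := cm_app (WrS.cen_comm hγ.1.1)
    have il := fun A => cm_app (S.comm hl.symm A)
    have := has_comm (N := ρ i (tv f₁ c c) * (ρ l (wd f₁ s v) * ((-(2 * f₁.q v))⁻¹ • β)))
      (M := ρ i (tv f₁ d d) * (ρ l (wd f₁ s v) * γ))
      (((Submodule.smul_mem _ _ hβ).2 _ ⟨s, v, rfl⟩).2 c hc) ((hγ.2 _ ⟨s, v, rfl⟩).2 d hd)
      (by ext; simp [← il, b2, rho_mul, WrO.tv_mul, f₁.B_self_eq_zero hc])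
      (by ext; simp [← il, c2, rho_mul, WrO.tv_mul, f₁.B_self_eq_zero hd])
      (by ext; simp [il, cm_app b1, cm_app c1, rho_mul (ρ l), w2, w4])
      (by ext; simp [il, cm_app b1, cm_app c1, rho_mul (ρ l), w2, w4])
    refine this.congr fun x => ?_
    simp [il, cm_app b1, cm_app c1, rho_mul (ρ l), w2, b2, c2, smul_smul, -mul_inv_rev, S.h2, v0,
      sub_eq_add_neg]
  simpa using one_mem_of_sy S.nd₁ S.h2 S.dim.three (M := (Lv f₁ (ρ l) X).comap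
    ((LinearMap.mulRight F (β * γ - γ * β)).comp (ρ i).toLinearMap)) fun c d hc hd h => by
      rw [Submodule.mem_comap, ← Submodule.smul_mem_iff _ h]
      convert add_mem (k c d hc hd) (k d c hd hc) using 1
      simp [WrO.tv_mul, f₁.quad_symm c d, mul_sub, add_mul, smul_sub]
      abel

/-- The central level is trivial. -/
theorem lv_zero (hη : η ∈ Lv f₁ (ρ i) X) : η = 0 := by_contra fun η0 => by
  obtain ⟨s, -, s0, hs⟩ := f₁.quad_iso3 ⊤ (by simpa using S.dim.three)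
  have Φ := S.fam.erase (Finset.mem_univ i)
  have iv : ∀ l ∈ Finset.univ.erase i, _ := fun l hl => S.inv_lv (Finset.ne_of_mem_erase hl)
  obtain ⟨l, hl, β, β0, hβ⟩ := exists_wd' S.nd₁ S.h2 S.dim S.nd (fun l _ => S.ad l) Φ
    (S := Lv f₁ (ρ i) X) (fun _ h => WrS.mem_cen trivial h.1) iv (fun a h => S.sk_lev S.le hs s0 h.1 (h.2 s hs)) hη η0
  have hl' := Finset.ne_of_mem_erase hl
  obtain ⟨μ, rfl⟩ := cm_scalar' S.nd₁ S.h2 S.dim (Φ.erase hl) (S := WrS.lv (ρ l) (Lv f₁ (ρ i) X)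
    {B | ∃ x y, B = wd f₁ x y} (⊤ ⊓ Subalgebra.centralizer F (Set.range (ρ i))))
    (fun _ h => h.1) (fun m hm =>
    (iv m (Finset.mem_of_mem_erase hm)).lv ((Φ.erase hl).mem m hm)) (fun a ha b hb =>
      sub_eq_zero.1 (by_contra fun e => S.not_cen (S.brk hl' ha hb) e hl' (WrS.cen_comm
        (sub_mem (mul_mem ha.1.1 hb.1.1) (mul_mem hb.1.1 ha.1.1))) (S.no_lev hη η0))) hβ
  obtain ⟨v, -, v0⟩ := exists_rt S.nd₁ S.dim.three hs s0
  have w := hβ.2 _ ⟨s, v, rfl⟩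
  rw [mul_smul_comm, mul_one, Submodule.smul_mem_iff _ (by rintro rfl; simp at β0)] at w
  have w0 : ρ l (wd f₁ s v) ≠ 0 := fun e =>
    wd_ne S.nd₁ s0 (notMem_of_q hs v0) (rho_inj _ (e.trans (map_zero _).symm))
  obtain ⟨m, hmi, hml⟩ : ∃ m, m ≠ i ∧ m ≠ l := by
    by_contra! h
    obtain ⟨E', L⟩ := S.loc i
    exact S.ne (L.full X S.le (fun g hg => S.ge ⟨S.cen_le_NF (fun ⟨a, b, ha, hb, hab⟩ =>
      hab ((h a ha).trans (h b hb).symm)) (L.le hg).2, (L.le hg).1⟩) η hη η0)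
  obtain ⟨p, hp, e⟩ := S.sw' i m
  obtain ⟨p', hp', e'⟩ := S.sw' i l
  refine S.not_cen w w0 hmi.symm (S.comm hml.symm _) (S.no_lev (lv_conj (S.cmt hmi hp hp')
    (fun A v => ?_) hη) fun e => η0 (LinearMap.ext fun v => ?_))
  · obtain ⟨v, rfl⟩ := (p' * p).surjective v
    have e1 := e l A v
    have e2 := e' l A
    rw [Equiv.swap_apply_of_ne_of_ne hl' hml.symm] at e1
    rw [Equiv.swap_apply_right] at e2
    simp only [mul_app, ← e2 (p v), inv_app, ← e1]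
    rw [e2, e, Equiv.swap_apply_left]
  · generalize p * p' * p⁻¹ * p'⁻¹ = g at e
    simpa [inv_app] using LinearMap.congr_fun e (g v)

theorem cn (m : I) : X ⊓ cen (ρ m) ≤ NF ρ Finset.univ := by
  by_cases h : ∃ l j, l ≠ m ∧ j ≠ m ∧ l ≠ j
  swap
  · exact inf_le_right.trans (S.cen_le_NF h)
  obtain ⟨l, j, hl, hj, hlj⟩ := h
  obtain ⟨E', L⟩ := S.loc m
  obtain ⟨s, -, s0, hs⟩ := f₁.quad_iso3 ⊤ (by simpa using S.dim.three)
  obtain ⟨v, -, v0⟩ := exists_rt S.nd₁ S.dim.three hs s0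
  refine (L.ih _ (inf_le_inf_right _ S.le) fun g h =>
    ⟨S.ge ⟨h.1, (L.le h.2).1⟩, (L.le h.2).2⟩).resolve_left fun H => wd_ne S.nd₁ s0 (notMem_of_q hs v0)
      (rho_inj (ρ j) ((S.lv_zero (i := l) ⟨S.comm hlj.symm _, fun d hd => ?_⟩).trans (map_zero _).symm))
  exact (S.exists_lev L hl ((S.ad j).sk' (wd_sk s v)) (S.comm hlj.symm _) (S.comm hj _) hd).imp
    fun _ h => ⟨(H h.1).1, h.2⟩

theorem lv0 (hc : f₁.q c = 0) (c0 : c ≠ 0) (hη : ∀ A, Commute η (ρ i A))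
    (h : Has X fun v => ρ i (tv f₁ c c) (η v)) : η = 0 := by
  have cj : ∀ {g}, g ∈ f₁.E → Has X fun v => ρ i (tv f₁ (g c) (g c)) (η v) := fun hg =>
    (h.conj (S.R i hg)).congr fun v => by
      rw [un_apply, un_inv_apply, cm_app hη, rho_mul, rho_mul, WrO.tv_conj (E_le_O hg)]
  refine S.lv_zero ⟨hη, fun d hd => ?_⟩
  rcases eq_or_ne d 0 with rfl | d0
  · exact Has.zero.congr fun v => by simp
  obtain ⟨g, hg, rfl⟩ := exists_trans S.h2 S.nd₁ S.dim.four S.dim.idx hc c0 hd d0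
  exact cj hg

theorem d4 (h4 : finrank F V₁ = 4) (L : LE f f₁ ρ i E') (hc : f₁.q c = 0) (c0 : c ≠ 0) (hg : g ∈ E')
    (hη : ∀ A, Commute η (ρ i A)) (hk : k ∈ X) (e : ∀ v, k v = g (v + ρ i (tv f₁ c c) (η v))) :
    g ∈ X := by
  have cc := f₁.B_self_eq_zero hc
  let Γ : Subgroup (V ≃ₗ[F] V) :=
    { carrier := {g | g ∈ f.O ⊓ cen (ρ i) ∧ ∃ η : End F V, (∀ A, Commute η (ρ i A)) ∧ ∃ k ∈ X,
        ∀ v, k v = g (v + ρ i (tv f₁ c c) (η v))}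
      one_mem' := ⟨one_mem _, 0, fun _ => Commute.zero_left _, 1, one_mem _, by simp⟩
      mul_mem' := fun {a b} ⟨h, η, c1, x, c2, c3⟩ ⟨h', ζ, d1, y, d2, d3⟩ => ⟨mul_mem h h',
        (b⁻¹ : V ≃ₗ[F] V) * η * b + ζ, fun A => ((((cen _).inv_mem h'.2 A).mul_left (c1 A)).mul_left
          (h'.2 A)).add_left (d1 A), x * y, mul_mem c2 d2, fun v => by
          have := cm_app h'.2
          simp only [LinearEquiv.coe_coe] at this
          simp [c3, d3, this, cm_app c1, rho_mul, WrO.tv_mul, cc, app_inv]; abel⟩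
      inv_mem' := fun {a} ⟨h, η, c1, x, c2, c3⟩ => ⟨inv_mem h, -((a : End F V) * η * (a⁻¹ : V ≃ₗ[F] V)),
        fun A => (((h.2 A).mul_left (c1 A)).mul_left ((cen _).inv_mem h.2 A)).neg_left, x⁻¹,
        inv_mem c2, fun v => inv_app_eq (by
          have := cm_app h.2
          have := cm_app ((cen _).inv_mem h.2)
          simp only [LinearEquiv.coe_coe] at *
          simp [*, cm_app c1, rho_mul, WrO.tv_mul, app_inv, inv_app])⟩ }
  suffices Γ ≤ NF ρ Finset.univ from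
    S.ge ⟨this ⟨⟨E_le_O (L.le hg).1, (L.le hg).2⟩, η, hη, k, hk, e⟩, (L.le hg).1⟩
  by_cases h : ∃ l m, l ≠ i ∧ m ≠ i ∧ l ≠ m
  swap
  · exact fun γ hγ => S.cen_le_NF h hγ.1.2
  obtain ⟨l, m, hl, hm, hlm⟩ := h
  refine (L.ih Γ (fun _ h => h.1) fun γ h => ⟨⟨E_le_O (L.le h.2).1, (L.le h.2).2⟩, 0,
    fun _ => Commute.zero_left _, γ, S.ge ⟨h.1, (L.le h.2).1⟩, by simp⟩).resolve_left fun H => ?_
  have := S.nt
  obtain ⟨a, ha⟩ := exists_q_ne S.nd₁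
  obtain ⟨a', p, q⟩ := exists_Z S.h2 S.nd₁ h4 ha
  obtain ⟨b, b', o, -⟩ := exists_OB S.h2 S.nd₁ h4 p
  obtain ⟨r, hr, ra⟩ := S.nd₁.witt_vector (ne_of_q ha) (ne_of_q p.q2) q.symm
  have hP : ρ l (pj f₁ a) * ρ l (pj f₁ a) = ρ l (pj f₁ a) := by rw [← map_mul, pj_sq]
  have pm : ∀ A ∈ f₁.O, pun (ρ m) hP (S.comm hlm _) A ∈ f.O ⊓ cen (ρ i) := fun A hA =>
    ⟨pun_O S.h2 (S.ad m) hP _ (S.ad l _ _ (pj_adj a)) hA, fun B => LinearMap.ext fun v => by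
      simp [pun_apply, cm_app (S.comm hl _), cm_app (S.comm hm _)]⟩
  have m0 := L.cmt l m hl hm hlm (Subgroup.commutator_mem_commutator (pm _ (rf_mem_O a)) (pm r hr))
  rw [← map_commutatorElement, commutatorElement_def, rf_inv, mul_assoc, mul_assoc, ← mul_assoc r,
    Sim.rf S.h2 (sim_of_O hr), ra] at m0
  obtain ⟨h, η, hη, x, hx, e⟩ := H m0
  have e1 : ∀ v, (pun (ρ m) hP (S.comm hlm _) (f₁.rf a * f₁.rf a')) v = _ := pun_apply hP (S.comm hlm _)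
  generalize pun (ρ m) hP (S.comm hlm _) (f₁.rf a * f₁.rf a') = D at h e e1
  obtain rfl : η = 0 := sk_zero4 S.nd₁ S.h2 h4 S.nd (fun l _ => S.ad l)
    (S.fam.erase (Finset.mem_univ i)) o (WrS.mem_cen trivial hη)
    (S.sk_lev le_rfl hc c0 hη ⟨_, mul_mem (inv_mem h.1) (S.le hx), fun v => by
      rw [mul_app, e, inv_app]⟩) fun j hj y hy => by
    have hj := Finset.ne_of_mem_erase hj
    obtain ⟨y0, c1, c2⟩ : f₁.q y ≠ 0 ∧ Commute (f₁.rf y : End F V₁) (f₁.rf a * f₁.rf a' : V₁ ≃ₗ[F] V₁) ∧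
        Commute (f₁.rf y : End F V₁) (pj f₁ a) := by
      have := o.rel
      have := o.p1.q1
      have := o.p1.q2
      have := o.p2.q1
      have := o.p2.q2
      simp only [List.mem_cons, List.not_mem_nil, or_false] at hy
      rcases hy with rfl | rfl | rfl | rfl <;>
      refine ⟨‹_›, o.ext S.h2 S.nd₁ h4 ?_ ?_ ?_ ?_, o.ext S.h2 S.nd₁ h4 ?_ ?_ ?_ ?_⟩ <;>
      simp [pj, rf_self, Form.rf_of_perp, *]
    have m1 : un (ρ j) (f₁.rf y) ∈ X := S.ge ⟨S.un_mem _ _, S.rfE' h4 hl hm hlm j y⟩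
    have k : ∀ n B, Commute (f₁.rf y : End F V₁) B → ∀ v, un (ρ j) (f₁.rf y) (ρ n B v) =
        ρ n B (un (ρ j) (f₁.rf y) v) := fun n B h => LinearMap.congr_fun (Commute.eq (by
      rcases eq_or_ne j n with hn | hn
      exacts [hn ▸ h.map (ρ j), S.comm hn _ B] : Commute (ρ j (f₁.rf y)) (ρ n B)))
    have c3 : ∀ v, un (ρ j) (f₁.rf y) (D v) = D (un (ρ j) (f₁.rf y) v) := fun v => by
      simp only [e1, map_add, map_sub, k l _ c2, k m _ c1]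
    have c4 : Commute η (ρ j (f₁.rf y)) := by
      refine conj_eq_iff.1 (sub_eq_zero.1 (S.lv0 hc c0 (fun A => (((S.comm hj _ A).mul_left
        (hη A)).mul_left (S.comm hj _ A)).sub_left (hη A)) ⟨_, X.mul_mem (X.inv_mem hx)
        (X.mul_mem (X.mul_mem m1 hx) (X.inv_mem m1)), fun v => inv_app_eq ?_⟩))
      change _ = un (ρ j) (f₁.rf y) (x ((un (ρ j) (f₁.rf y))⁻¹ v))
      rw [e, e, c3, map_add (un _ _), app_inv, un_apply, cm_app (S.comm hj _)]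
      simp [cm_app hη, rho_mul (ρ i), WrO.tv_mul, cc, un_inv_apply]; abel
    simpa [show tv f₁ y y = f₁.q y • (1 - (f₁.rf y : End F V₁)) by
      ext; simp [rf_apply, smul_smul, y0]] using ((Commute.one_right _).sub_right c4).smul_right _
  obtain rfl : x = D := LinearEquiv.ext fun v => by simp [e]
  refine WrO.nNF S.fam S.dim.three (Finset.mem_univ l) (Finset.mem_univ m) hlm
    (ψ := (2 * f₁.q a)⁻¹ • f₁.B a) (ξ := ρ m ((f₁.rf a * f₁.rf a' : V₁ ≃ₗ[F] V₁) - 1)) (B := tv f₁ a b)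
    (ne_of_q ha) (smul_ne_zero (inv_ne_zero (mul_ne_zero S.h2 ha)) (B_ne S.nd₁ (ne_of_q ha)))
    (S.comm hlm.symm _) (fun e => ne_of_q o.p2.q1 ?_)
    (fun v => by simp [e1, pj, smul_rk, tv_eq, smul_sub]) (S.cn i ⟨hx, h.2⟩)
  simpa [rf_self ha, Form.rf_of_perp, o.rel, quad_B_self, ha, S.h2, ← neg_add', ← two_mul] using
    LinearMap.congr_fun (rho_inj _ ((map_mul _ _ _).trans (e.eq.trans (map_mul _ _ _).symm))) a

end AE

theorem PE.dimV (S : PE f f₁ ρ) (l : I) : 4 ≤ finrank F V ∧ (5 ≤ finrank F V ∨ Idx1 f) := by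
  by_cases h : ∃ m, m ≠ l
  · have := S.five h.choose_spec
    exact ⟨by omega, Or.inl this⟩
  have := S.nt
  push Not at h
  obtain ⟨ψ, -, μ, μ0, e⟩ := one_slot S.nd S.nd₁ (S.ad l) fun β H => S.fam.cent β trivial fun m _ =>
    h m ▸ H
  rw [← ψ.finrank_eq]
  refine ⟨S.dim.four, S.dim.idx.imp_right fun hI u w hu hw o u0 => ?_⟩
  obtain ⟨u, rfl⟩ := ψ.surjective u
  obtain ⟨w, rfl⟩ := ψ.surjective w
  have k : ∀ x, f.q (ψ x) = 0 → f₁.q x = 0 := fun x hx => by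
    simpa [quad_B_self, hx, μ0, S.h2] using e x x
  obtain ⟨t, rfl⟩ := Submodule.mem_span_singleton.1 (hI u w (k u hu) (k w hw) (by simpa [e, μ0] using o)
    (by simpa using u0))
  exact Submodule.mem_span_singleton.2 ⟨t, by simp⟩

variable {U : Type*} [AddCommGroup U] [Module F U] {fU : Form (FormType.quad F) U}
  {τ : U →ₗ[F] V₁ →ₗ[F] V} {p : U ≃ₗ[F] U} {κ : {l // l ≠ j} → Rep F V₁ U}

variable (f f₁ ρ fU κ) in
/-- The cofactor of the `j`-th factor. -/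
structure LF (hτ : Tn (ρ j) τ) : Prop extends PE f f₁ ρ where
  Q : TQ hτ.tp f fU f₁
  app : ∀ l A, ρ l.1 A = lam hτ.tp (κ l A)

theorem PE.exists_LF (S : PE f f₁ ρ) (hτ : Tn (ρ j) τ) : ∃ fU κ, LF f f₁ ρ fU κ hτ := by
  have := S.nt
  obtain ⟨fU, Q⟩ := (S.ad j).exists_TQ S.h2 S.nd S.nd₁ hτ
  choose κ hκ using fun l : {l // l ≠ j} => WrS.exists_rep hτ (S.comm l.2)
  exact ⟨fU, κ, S, Q, fun l A => ext_of hτ.tp fun u x => by simp [hκ]⟩

namespace LF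

variable {hτ : Tn (ρ j) τ} (S : LF f f₁ ρ fU κ hτ)
include S

theorem comm' (β : End F U) (A : End F V₁) : Commute (lam hτ.tp β) (ρ j A) :=
  hτ.comm_of_left (lam_app _ β) A

theorem exists_lam (h : ∀ A, Commute ξ (ρ j A)) : ∃ β, ξ = lam hτ.tp β :=
  have := S.nt
  (hτ.exists_left h).imp fun β e => ext_of hτ.tp fun u x => by simp [e]

theorem lv_eq (β : End F U) (c : V₁) (v : V) :
    ρ j (tv f₁ c c) (lam hτ.tp β v) = τ (β (et hτ.tp f₁ c v)) c :=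
  LinearMap.congr_fun (ext_of hτ.tp (f := ρ j (tv f₁ c c) * lam hτ.tp β)
    (g := τ.flip c ∘ₗ β ∘ₗ et hτ.tp f₁ c) fun u x => by simp [hτ.app]) v

variable [FiniteDimensional F U] [Nontrivial U]

theorem adU : Ad f fU (lam hτ.tp) := ad_of (tn_rep (Tens.flip hτ.tp)) S.Q.flip

theorem exists_un (hg : g ∈ f.O ⊓ cen (ρ j)) : ∃ p ∈ fU.O, un (lam hτ.tp) p = g := by
  have := S.nt
  obtain ⟨c, hc⟩ := exists_ne (0 : V₁)
  obtain ⟨c', e⟩ := S.nd₁.exists_B_eq hc 1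
  obtain ⟨B, hB⟩ := hτ.exists_left hg.2
  refine ⟨LinearEquiv.ofInjectiveEndo B ((injective_iff_map_eq_zero B).2 fun u hu =>
    pure_inj hτ.tp hc (g.injective (by simpa [hu] using hB u c))), mem_O_of_B S.h2 fun u u' => ?_,
    equiv_ext hτ.tp fun u x => (lam_app _ _ u x).trans (hB u x).symm⟩
  have := mem_O_B hg.1 (τ u c) (τ u' c')
  rw [show g _ = _ from hB u c, show g _ = _ from hB u' c'] at this
  simpa [S.Q.mul, e] using this

theorem po : PE fU f₁ κ := by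
  have := S.nt
  obtain ⟨c, hc⟩ := exists_ne (0 : V₁)
  obtain ⟨c', e⟩ := S.nd₁.exists_B_eq hc 1
  refine ⟨⟨fun _ _ _ => trivial, fun a _ b _ h A B => rho_inj (lam hτ.tp) (by
      rw [map_mul, map_mul, ← S.app, ← S.app, (S.comm (Subtype.coe_injective.ne h) A B).eq]),
    fun β _ H => ?_⟩, S.Q.nd₁, S.nd₁, S.h2, fun l A A' H u u' => ?_, fun a b => ?_, S.dim⟩
  · refine (S.fam.cent (lam hτ.tp β) trivial fun l _ A => ?_).imp fun μ e =>
      rho_inj (lam hτ.tp) (by simp [e])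
    rcases eq_or_ne l j with rfl | hl
    · exact S.comm' β A
    · exact S.app ⟨l, hl⟩ A ▸ (H _ (Finset.mem_univ _) A).map _
  · simpa [S.app, S.Q.mul, e] using S.ad l A A' H (τ u c) (τ u' c')
  · obtain ⟨g, hg, H⟩ := S.sw a b
    obtain ⟨p, hp, rfl⟩ := S.exists_un ⟨hg, fun A => LinearMap.ext fun v => by
      simpa [Equiv.swap_apply_of_ne_of_ne a.2.symm b.2.symm] using H j A v⟩
    refine ⟨p, hp, fun l A u => pure_inj hτ.tp hc ?_⟩
    have := H l A (τ u c)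
    rw [← Subtype.coe_injective.map_swap] at this
    simpa [S.app, un_apply] using this

theorem mem_NF : un (lam hτ.tp) p ∈ NF ρ Finset.univ ↔ p ∈ NF κ Finset.univ := by
  have := S.nt
  obtain ⟨c, hc⟩ := exists_ne (0 : V₁)
  refine ⟨fun h l _ => ?_, fun h l hl => ?_⟩
  · obtain ⟨m, hm, H⟩ := h l (Finset.mem_univ _)
    have hj : m ≠ j := by
      rintro rfl
      exact l.2 (slot_inj S.fam (Finset.mem_univ _) hm (by have := S.dim.three; omega) (by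
        simpa using (nz_of_comm (g := un (lam hτ.tp) p) (S.comm' p)).inv.mul H))
    refine ⟨⟨m, hj⟩, Finset.mem_univ _, fun A => (H A).imp fun A' e u => pure_inj hτ.tp hc ?_⟩
    simpa [S.app l, S.app ⟨m, hj⟩, un_apply] using e (τ u c)
  rcases eq_or_ne l j with rfl | hj
  · exact ⟨l, hl, nz_of_comm (S.comm' p)⟩
  obtain ⟨m, -, H⟩ := h ⟨l, hj⟩ (Finset.mem_univ _)
  refine ⟨m, Finset.mem_univ _, fun A => (H A).imp fun A' e v => ?_⟩
  rw [S.app ⟨l, hj⟩, S.app, un_apply, un_apply, rho_mul, rho_mul, show (p : End F U) * κ _ A =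
    κ m A' * p from LinearMap.ext e]

theorem un_un (l : {l // l ≠ j}) (e : V₁ ≃ₗ[F] V₁) : un (lam hτ.tp) (un (κ l) e) = un (ρ l) e :=
  LinearEquiv.toLinearMap_injective (S.app l e).symm

theorem le (H : ∀ Y, NF κ Finset.univ ⊓ fU.E ≤ Y → Y ≤ fU.O → fU.E ≤ Y ∨ Y ≤ NF κ Finset.univ) :
    LE f f₁ ρ j (fU.E.map (un (lam hτ.tp))) := by
  have := S.nt
  refine ⟨?_, fun g hg => ?_, fun l hl e he => ⟨_, (S.po.ad ⟨l, hl⟩).un_mem_E S.h2 S.Q.nd₁ S.nd₁ he,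
    S.un_un _ e⟩, fun g hg h0 => ?_, fun l m hl hm h => Subgroup.commutator_le.2 fun g hg k hk => ?_,
    fun Y hY h => ?_, fun X hX h η hη η0 => ?_⟩
  · rintro _ ⟨p, hp, rfl⟩
    exact ⟨S.adU.un_mem_E S.h2 S.nd S.Q.nd₁ hp, S.comm' p⟩
  · rintro _ ⟨p, hp, rfl⟩
    obtain ⟨k, hk, rfl⟩ := S.exists_un hg
    exact ⟨_, conj_mem_E hk hp, by simp⟩
  · obtain ⟨p, hp, rfl⟩ := S.exists_un hg
    obtain ⟨c, hc⟩ := exists_ne (0 : V₁)
    exact ⟨p, mem_E_of_quad S.h2 S.Q.nd₁ hp fun u => pure_inj hτ.tp hc (by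
      simpa [un_apply] using h0 (τ u c)), rfl⟩
  · obtain ⟨p, hp, rfl⟩ := S.exists_un hg
    obtain ⟨q, hq, rfl⟩ := S.exists_un hk
    exact ⟨_, S.po.cmt (i := ⟨l, hl⟩) (j := ⟨m, hm⟩) (by simpa using h) hp hq, by
      simp [commutatorElement_def]⟩
  · refine (H (Y.comap (un (lam hτ.tp))) (fun p hp => h ⟨S.mem_NF.2 hp.1, p, hp.2, rfl⟩)
      fun p hp => ?_).imp Subgroup.map_le_iff_le_comap.2 fun h g hg => ?_
    · obtain ⟨q, hq, e⟩ := S.exists_un (hY hp)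
      exact un_inj _ e ▸ hq
    · obtain ⟨p, -, rfl⟩ := S.exists_un (hY hg)
      exact S.mem_NF.2 (h hg)
  obtain ⟨β, rfl⟩ := S.exists_lam hη.1
  obtain ⟨c, -, c0, hc⟩ := f₁.quad_iso3 ⊤ (by simpa using S.dim.three)
  have hβ : β ∈ lvO X hτ.tp f₁ := fun d hd => (hη.2 d hd).congr (S.lv_eq β d)
  obtain ⟨z, hz, e⟩ := hβ c hc
  have sk := level_sk hc c0 S.Q (hX hz) e
  have β0 : β ≠ 0 := by rintro rfl; simp at η0
  obtain ⟨l, -, -⟩ := WrS.exists_not_comm S.po.fam (ξ := β) trivial fun ⟨_, e⟩ =>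
    β0 (sk.scalar S.h2 S.Q.nd₁ e)
  obtain ⟨h4, hI⟩ := S.po.dimV l
  refine S.Q.E_le_of_rad (by omega) hc c0 fun x y d hd => ?_
  obtain ⟨t, ht, e⟩ := skew_all S.Q.nd₁ S.h2 (by omega) hI
    (R := lvO X hτ.tp f₁) (fun A hA γ hγ c hc => ((hγ c hc).conj (h ⟨A, hA, un_lam _ A⟩)).congr
      fun v => by rw [et_kr_inv _ f₁.O.one_mem, kr_apply]; rfl) hβ sk β0 x y d hd
  have ok : f.EichOK (τ x d) (τ y d) 0 :=
    ⟨S.Q.q0 _ hd, by simp [S.Q.mul, f₁.B_self_eq_zero hd], by simp [S.Q.q0 _ hd]⟩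
  refine ⟨0, ok, ?_⟩
  convert ht using 1
  ext v
  simp [ok.ei_apply, e, wd_apply, S.Q.B_pure, add_sub_assoc]

theorem st (L : LE f f₁ ρ j (fU.E.map (un (lam hτ.tp)))) (A : AE f f₁ X ρ) (hij : i ≠ j) :
    St f₁ (ρ j) X := by
  have := S.nt
  have lv : ∀ c, f₁.q c = 0 → c ≠ 0 → ∀ β : End F U,
      Has X (fun v => τ (β (et hτ.tp f₁ c v)) c) → β = 0 := fun c hc c0 β h => rho_inj (lam hτ.tp)
    ((A.lv0 hc c0 (S.comm' β) (h.congr fun v => (S.lv_eq β c v).symm)).trans (map_zero _).symm)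
  have uE := fun l e => (S.po.ad l).un_mem_E (e := e) S.h2 S.Q.nd₁ S.nd₁
  have uk : ∀ l e, kr hτ.tp (un (κ l) e) 1 = un (ρ l) e := fun l e => by rw [← un_lam, S.un_un]
  intro s hs s0 z hz h
  refine nz_of_kron hτ ?_
  rw [hτ.T_span] at h
  rcases S.dim with h6 | ⟨h4, hI⟩
  · exact SW.stab ⟨S.Q, A.le, fun he => hτ.un_eq _ ▸ A.R j he, inferInstance, Or.inl (by omega), lv,
      fun M H hc ξ => cm_scalar S.nd₁ S.h2 (Or.inl (by omega)) S.po.fam (fun _ _ => trivial)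
        (fun l _ e he => H (un (κ l) e) (uE l e he) (uk l e ▸ A.R _ he)) hc,
      fun h3 => by omega⟩ hs s0 hz h
  refine SW4.stab ⟨S.Q, A.le, fun he => hτ.un_eq _ ▸ A.R j he,
    fun p => hτ.un_eq _ ▸ A.ge ⟨S.un_mem _ _, S.R2 h4 hij p.q1 p.q2⟩, inferInstance, h4, hI, lv, ?_,
    fun ξ H => S.po.fam.cent ξ trivial fun l _ B => (Subalgebra.mem_centralizer_iff F).1
      (genE S.nd₁ S.h2 S.dim.three ((Subalgebra.centralizer F {ξ}).comap (κ l)) (fun e he => by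
        rintro _ rfl
        exact (conj_eq_iff.1 (H (un (κ l) e) (uE l e he) (uk l e ▸ A.R _ he))).eq) B) ξ rfl,
    fun c hc c0 p hp β y hy e => A.d4 h4 L hc c0 ⟨p, hp, un_lam _ p⟩ (S.comm' β) hy
      fun v => by rw [e, S.lv_eq]⟩ hs s0 hz h
  by_cases h : ∃ l m, l ≠ j ∧ m ≠ j ∧ l ≠ m
  · obtain ⟨l, m, hl, hm, hlm⟩ := h
    have k : ∀ n b, un (ρ n) (f₁.rf b) ∈ X := fun n b =>
      A.ge ⟨S.un_mem n _, S.toPE.rfE' h4 hl hm hlm n b⟩
    refine Or.inl ⟨fun b => hτ.un_eq _ ▸ k j b, fun M H hc ξ => cm_scalar' S.nd₁ S.h2 S.dim S.po.fam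
      (fun _ _ => trivial) (fun l _ e he => H (un (κ l) e) (uk l e ▸ ?_)) hc⟩
    rcases he with he | ⟨b, rfl⟩
    exacts [A.R _ he, k _ b]
  · exact Or.inr ⟨(S.po.dimV ⟨i, hij⟩).1, fun p hp => by
      rw [← un_lam]
      exact A.ge ⟨S.cen_le_NF h (S.comm' p), S.adU.un_mem_E S.h2 S.nd S.Q.nd₁ hp⟩⟩

end LF

theorem PE.not_le (S : PE f f₁ ρ) (hij : i ≠ j) : ¬ f.E ≤ NF ρ Finset.univ := fun H => by
  obtain ⟨s, -, s0, hs⟩ := f₁.quad_iso3 ⊤ (by simpa using S.dim.three)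
  obtain ⟨v, -, v0⟩ := exists_rt S.nd₁ S.dim.three hs s0
  have sk := (S.ad j).sk' (wd_sk s v)
  have h1 := S.comm hij.symm (wd f₁ s v)
  have h0 : ∀ w, ρ i (tv f₁ s s) (ρ j (wd f₁ s v) (ρ i (tv f₁ s s) w)) = 0 := fun w => by
    simp [cm_app h1, rho_mul, WrO.tv_mul, f₁.B_self_eq_zero hs]
  obtain ⟨g, hg, e⟩ := exists_quad S.h2 ((S.ad i).sk_mul sk h1 s) fun v => h0 _
  exact S.nNF sk (fun e => wd_ne S.nd₁ s0 (notMem_of_q hs v0) (rho_inj _ (e.trans (map_zero _).symm))) h1 s0 e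
    (H (mem_E_of_quad S.h2 S.nd hg fun v => by simp [e, h0]))

end CL.WrE
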