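/-
Tensor powers of a four-dimensional orthogonal space: centralizers of distinguished involutions.
-/
import Mathlib
import Cfsg.Agent.CLAS.WrE5

set_option autoImplicit false
set_option linter.unusedSectionVars false

namespace CL.WrE

open Module CL.ExtF CL.Tens CL.Wr CL.Witt CL.Witt.Form CL.Uniq CL.WrO

attribute [-simp] LinearEquiv.coe_inv
attribute [local simp] FormType.quad_σ FormType.quad_ε FormType.quad_π

variable {F V₁ V : Type*} [Field F] [AddCommGroup V₁] [Module F V₁] [AddCommGroup V] [Module F V]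
  {f : Form (FormType.quad F) V} {f₁ : Form (FormType.quad F) V₁} {σ σ' : Rep F V₁ V}
  {a a' b b' c c' d s v : V₁} {g k r z : V ≃ₗ[F] V} {D e : V₁ ≃ₗ[F] V₁} {X : Subgroup (V ≃ₗ[F] V)}
  {L L' : Submodule F V₁} {A : End F V₁} {ξ η : End F V} {w w' : V} {ν : F × F →ₗ[F] V₁}
  [FiniteDimensional F V₁] [FiniteDimensional F V] [Nontrivial V] [Finite F]
  {I : Type*} [Fintype I] [DecidableEq I] {ρ : I → Rep F V₁ V} {i j l m : I}
  {E' : Subgroup (V ≃ₗ[F] V)}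

theorem sing_alt (h2 : (2 : F) ≠ 0) (hf₁ : f₁.Nondeg) (h4 : finrank F V₁ = 4) (hI : Idx1 f₁) (a b : V₁) :
    (∃ s, s ≠ 0 ∧ f₁.q s = 0 ∧ f₁.B s a = 0 ∧ f₁.B s b = 0) ∨
      ∃ α β : F, α • b - β • a ≠ 0 ∧ f₁.q (α • b - β • a) = 0 := by
  refine or_iff_not_imp_right.2 fun H => ?_
  push Not at H
  have k0 : ∀ u, ∃ s, s ≠ 0 ∧ f₁.q s = 0 ∧ f₁.B s u = 0 := fun u => by
    have d1 := hf₁.finrank_add_finrank_perp (F ∙ u)
    have d2 : finrank F (F ∙ u) ≤ 1 := finrank_span_le_card _ |>.trans (by simp)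
    obtain ⟨s, hs, s0, h⟩ := f₁.quad_iso3 (f₁.perp (F ∙ u)) (by omega)
    exact ⟨s, s0, h, f₁.B_eq_zero_symm (f₁.mem_perp_span_singleton.1 hs)⟩
  rcases eq_or_ne a 0 with rfl | a0
  · simpa using k0 b
  have ha : f₁.q a ≠ 0 := by simpa using H 0 (-1) (by simpa using a0)
  obtain ⟨t, ht⟩ : ∃ t : F, f₁.B a (b - t • a) = 0 :=
    ⟨f₁.B a b / (2 * f₁.q a), by simp [quad_B_self]; field_simp; ring⟩
  by_cases e : b - t • a = 0
  · exact (k0 a).imp fun s h => ⟨h.1, h.2.1, h.2.2, by simp [sub_eq_zero.1 e, h.2.2]⟩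
  have p : OP f₁ a (b - t • a) := ⟨ha, by simpa using H 1 t (by simpa using e), ht⟩
  obtain ⟨c, c', o, -⟩ := exists_OB h2 hf₁ h4 p
  have k := o.rel
  have hn : ¬ IsSquare (-(f₁.q a * f₁.q (b - t • a))) := fun ⟨r, hr⟩ => by
    have e : f₁.q a • b - (f₁.q a * t - r) • a = r • a + f₁.q a • (b - t • a) := by module
    refine H (f₁.q a) (f₁.q a * t - r) (fun h => ?_) (by
      rw [e, quad_q_add, quad_q_smul, quad_q_smul]; simp [-map_sub, ht]; linear_combination -f₁.q a * hr)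
    simpa [e, -map_sub, p.o', quad_B_self, h2, ha, p.q2] using congrArg (f₁.B (b - t • a)) h
  obtain ⟨r, hr⟩ : IsSquare (-(f₁.q c * f₁.q c')) := by_contra fun h => disc4 h2 hI o (by
    simpa using sq_mul_of_not hn h)
  refine ⟨r • c + f₁.q c • c', fun h => ?_, by
    simp [quad_q_add, quad_q_smul, k]; linear_combination -f₁.q c * hr, by simp [k], ?_⟩
  · simpa [k, quad_B_self, h2, o.p2.q1, o.p2.q2] using congrArg (f₁.B c') h
  · rw [← sub_add_cancel b (t • a), map_add]; simp [-map_sub, k]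

theorem rt_rf (hs : f₁.q s = 0) (hv : f₁.B s v = 0) (v0 : f₁.q v ≠ 0) :
    rt hs hv (.ofAdd 1) = f₁.rf v * f₁.rf (v + f₁.q v • s) := LinearEquiv.ext fun x => by
  simp [rt_apply, rf_apply, wd_apply, quad_q_add, quad_q_smul, hs, f₁.B_eq_zero_symm hv, quad_B_self]
  match_scalars <;> field_simp <;> ring

theorem OP.mem_T (h2 : (2 : F) ≠ 0) (p : OP f₁ a a') (h : un σ (f₁.rf a * f₁.rf a') w = -w) :
    w = σ (pj f₁ a) w + σ (pj f₁ a') w := by
  rw [un_apply, show ((f₁.rf a * f₁.rf a' : V₁ ≃ₗ[F] V₁) : End F V₁) = 1 - (2 : F) • (pj f₁ a + pj f₁ a') by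
    ext x; rw [LinearEquiv.coe_coe, p.rr]; simp [pj]; match_scalars <;> field_simp] at h
  refine smul_right_injective _ h2 ?_
  simp at h ⊢
  linear_combination (norm := module) h

theorem OB.neg' (h2 : (2 : F) ≠ 0) (hf₁ : f₁.Nondeg) (h4 : finrank F V₁ = 4) (o : OB f₁ a a' b b')
    (x : V₁) : (f₁.rf b * f₁.rf b') x = -(f₁.rf a * f₁.rf a') x := by
  rw [← o.symm.neg h2 hf₁ h4, ← mul_app (f₁.rf a * f₁.rf a'), o.p1.sq]; rfl

theorem OB.un_neg (h2 : (2 : F) ≠ 0) (hf₁ : f₁.Nondeg) (h4 : finrank F V₁ = 4) (o : OB f₁ a a' b b')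
    (w : V) : un σ (f₁.rf b * f₁.rf b') w = -un σ (f₁.rf a * f₁.rf a') w := by
  rw [un_apply, un_apply, show ((f₁.rf b * f₁.rf b' : V₁ ≃ₗ[F] V₁) : End F V₁) =
    -((f₁.rf a * f₁.rf a' : V₁ ≃ₗ[F] V₁) : End F V₁) from LinearMap.ext (o.neg' h2 hf₁ h4), map_neg]
  rfl

namespace PE

variable (S : PE f f₁ ρ) (h4 : finrank F V₁ = 4) (o : OB f₁ a a' b b')
include S h4 o

theorem cm_symm (h : Commute k (un σ (f₁.rf a * f₁.rf a'))) : Commute k (un σ (f₁.rf b * f₁.rf b')) :=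
  LinearEquiv.ext fun w => by
    simp only [mul_app, o.un_neg S.h2 S.nd₁ h4, map_neg]; exact congrArg _ (LinearEquiv.congr_fun h w)

theorem nd_comm (hk : k ∈ NF ρ Finset.univ) (hO : k ∈ f.O) (h : Commute k (un (ρ j) (f₁.rf a * f₁.rf a'))) :
    ∃ D, Sim f₁ D ∧ Nd (ρ j) (ρ j) k D ∧ Commute D (f₁.rf a * f₁.rf a') := by
  have := S.nt
  obtain ⟨l, -, p⟩ := hk j (Finset.mem_univ _)
  obtain ⟨D, hD, h1⟩ := exists_sim p hO S.nd S.nd₁ (S.ad _) (S.ad _)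
  have e := h1.un (f₁.rf a * f₁.rf a')
  rw [h.eq, mul_inv_cancel_right] at e
  obtain rfl : l = j := by_contra fun hl => ne_of_q o.p2.q1 (by
    have := S.comm hl (D * (f₁.rf a * f₁.rf a') * D⁻¹ : V₁ ≃ₗ[F] V₁) (tv f₁ a b)
    rw [← coe_un, ← e, coe_un] at this
    simpa [rf_self o.p1.q1, Form.rf_of_perp, o.rel, quad_B_self, o.p1.q1, S.h2, eq_neg_iff_add_eq_zero,
      ← add_smul, ← two_mul] using LinearMap.congr_fun (rho_inj _ ((map_mul _ _ _).trans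
        (this.eq.trans (map_mul _ _ _).symm))) a)
  exact ⟨D, hD, h1, mul_inv_eq_iff_eq_mul.1 (un_inj _ e).symm⟩

theorem pel (hk : k ∈ NF ρ Finset.univ) (hO : k ∈ f.O) (h : Commute k (un (ρ j) (f₁.rf a * f₁.rf a')))
    (hp : k ^ ringChar F = 1) : k ∈ cen (ρ j) := by
  have := S.nt
  obtain ⟨D, hD, h1, c⟩ := S.nd_comm h4 o hk hO h
  obtain ⟨l, l0, n, hn⟩ := h1.unip hp
  have k : ∀ {a a'}, OP f₁ a a' → Commute D (f₁.rf a * f₁.rf a') → D a = l • a ∧ D a' = l • a' :=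
    fun {a a'} p c => by
      obtain ⟨α, β, e1⟩ := p.of_neg S.h2 (x := D a) (by rw [← mul_app, ← c.eq, mul_app, p.rr1 S.h2, map_neg])
      obtain ⟨γ, δ, e2⟩ := p.of_neg S.h2 (x := D a') (by rw [← mul_app, ← c.eq, mul_app, p.rr2 S.h2, map_neg])
      exact fix2 S.h2 hD l0 hn p e1 e2
  have k1 := k o.p1 c
  have k2 := k o.p2 (LinearEquiv.ext fun x => by
    simp only [mul_app D, mul_app _ D, o.neg' S.h2 S.nd₁ h4, map_neg]
    exact congrArg _ (LinearEquiv.congr_fun c x))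
  exact h1.comm (LinearMap.congr_fun (o.ext S.h2 S.nd₁ h4 (A := (D : End F V₁)) (B := l • 1)
    k1.1 k1.2 k2.1 k2.2))

end PE

theorem OP.T_iff (h2 : (2 : F) ≠ 0) (p : OP f₁ a a') :
    w ∈ T σ (Submodule.span F {a, a'}) ↔ un σ (f₁.rf a * f₁.rf a') w = -w :=
  ⟨fun h => by
    simpa [un_apply, add_eq_zero_iff_eq_neg] using h ((f₁.rf a * f₁.rf a' : V₁ ≃ₗ[F] V₁) + 1) fun x hx => by
      obtain ⟨α, β, rfl⟩ := Submodule.mem_span_pair.1 hx
      simp [rf_self, Form.rf_of_perp, p.q1, p.q2, p.o, p.o']; abel,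
  fun h => p.mem_T h2 h ▸ add_mem
    (rho_mem_T (fun x => Submodule.mem_span_pair.2 ⟨_, 0, by simp [pj, smul_smul]; rfl⟩) w)
    (rho_mem_T (fun x => Submodule.mem_span_pair.2 ⟨0, _, by simp [pj, smul_smul]; rfl⟩) w)⟩

theorem OP.stab (h2 : (2 : F) ≠ 0) (p : OP f₁ a a') (h : Commute k (un σ (f₁.rf a * f₁.rf a')))
    (w : V) (hw : w ∈ T σ (Submodule.span F {a, a'})) : k w ∈ T σ (Submodule.span F {a, a'}) :=
  (p.T_iff h2).2 (by rw [← mul_app, ← h.eq, mul_app, (p.T_iff h2).1 hw, map_neg])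

/-- The pointwise stabilizer. -/
def fx (P : Subgroup (V ≃ₗ[F] V)) (W : Submodule F V) : Subgroup (V ≃ₗ[F] V) where
  carrier := {k | k ∈ P ∧ ∀ w ∈ W, k w = w}
  one_mem' := ⟨P.one_mem, fun _ _ => rfl⟩
  mul_mem' ha hb := ⟨P.mul_mem ha.1 hb.1, fun w hw => by rw [mul_app, hb.2 w hw, ha.2 w hw]⟩
  inv_mem' ha := ⟨P.inv_mem ha.1, fun w hw => inv_app_eq (ha.2 w hw)⟩

theorem fx_conj {P : Subgroup (V ≃ₗ[F] V)} {W : Submodule F V} (hW : ∀ k ∈ P, ∀ w ∈ W, k w ∈ W)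
    (hg : g ∈ P) (hk : k ∈ fx P W) : g * k * g⁻¹ ∈ fx P W :=
  ⟨P.mul_mem (P.mul_mem hg hk.1) (P.inv_mem hg), fun w hw => by
    rw [mul_app, mul_app, hk.2 _ (hW _ (P.inv_mem hg) w hw), app_inv]⟩

theorem mem_cz : k ∈ X ⊓ Subgroup.centralizer {z} ↔ k ∈ X ∧ Commute k z :=
  and_congr_right fun _ => Subgroup.mem_centralizer_singleton_iff

namespace CE

variable (S : CE f f₁ X ρ)
include S

section

variable (h : An f₁ s ν) {P : Subgroup (V ≃ₗ[F] V)} {W : Submodule F V} (hP : P ≤ X)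
  (hR : ∀ p, un (ρ m) (h.rt p) ∈ P) (hW : ∀ k ∈ P, ∀ w ∈ W, k w ∈ W)
include hP hR hW

theorem fx_le (h1 : ∀ k ∈ P, k ∈ NF ρ Finset.univ → k ^ ringChar F = 1 → k ∈ cen (ρ j)) (hb : b ≠ 0)
    (hT : T (ρ j) (F ∙ b) ≤ W) : fx P W ≤ NF ρ Finset.univ := by
  have := finite_equiv F V
  have : Fact (ringChar F).Prime := ⟨CharP.char_is_prime F _⟩
  refine ker_le (X := P) (fun g hg => S.nrmG h m g (hP hg)) (by rintro _ ⟨p, rfl⟩; exact S.un_mem _ _)
    (pgrp _) (by rintro _ ⟨p, rfl⟩; exact hR p)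
    (by rintro _ ⟨a, rfl⟩ _ ⟨b, rfl⟩; rw [← map_mul, mul_comm, map_mul])
    (not_cyc ((un_inj _).comp (h.inj S.nd₁ S.h2))) ?_ (fun _ h => h.1) (fun _ hg _ => fx_conj hW hg)
    fun k hk kN hp => LinearEquiv.toLinearMap_injective (sub_eq_zero.1 (eq_zero_of_T
      (fun A => (h1 k hk.1 kN hp A).sub_left (Commute.one_left _)) hb fun w hw => by
        simp [hk.2 w (hT hw)]))
  rintro _ ⟨p, rfl⟩ r1 g hg e
  rw [MonoidHom.comp_apply, h.rt_eq] at e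
  exact S.K (hP hg) (S.st m s h.hs h.s0 g (hP hg) (stab_of_comm S.nd₁ h.s0 (comm_P S.h2 h.hs (h.hv _)
    (mt (h.an _) fun e => r1 (by rw [show p = 1 from e, map_one])) (by simp) (congrArg LinearEquiv.toLinearMap e))))

theorem of_mod (hK : fx P W ≤ NF ρ Finset.univ) (hk : k ∈ P) (H : ∀ p, ∃ g ∈ P, g ∈ NF ρ Finset.univ ∧
    ∀ w ∈ W, k (un (ρ m) (h.rt p) w) = g (k w)) : k ∈ NF ρ Finset.univ := by
  refine S.nrmG h m k (hP hk) ?_
  rintro _ ⟨p, rfl⟩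
  obtain ⟨g, hg, gN, e⟩ := H p
  simpa using mul_mem gN (hK ⟨P.mul_mem (P.inv_mem hg) (P.mul_mem (P.mul_mem hk (hR p)) (P.inv_mem hk)),
    fun w hw => by rw [mul_app, mul_app, mul_app, e _ (hW _ (P.inv_mem hk) w hw), app_inv, inv_app]⟩)

end

variable (h4 : finrank F V₁ = 4) (hI : Idx1 f₁) (o : OB f₁ a a' b b') (hm : m ≠ j)
include h4 hI o hm

theorem ker_slot (hk : k ∈ fx (X ⊓ Subgroup.centralizer {un (ρ j) (f₁.rf a * f₁.rf a')})
    (T (ρ j) (Submodule.span F {a, a'}))) : k ∈ NF ρ Finset.univ ∧ ∃ A, (k : End F V) = ρ j A := by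
  have := S.nt
  obtain ⟨s, -, s0, hs⟩ := f₁.quad_iso3 ⊤ (by simp [h4])
  obtain ⟨ν, h⟩ := exists_An4 S.nd₁ h4.ge hI hs s0
  have kN := S.fx_le h inf_le_left (fun p => mem_cz.2 ⟨(S.gs m).R _ (h.mem p), S.cu hm _ _⟩)
    (fun k hk => o.p1.stab S.h2 (mem_cz.1 hk).2)
    (fun k hk kN => S.pel h4 o kN (S.le hk.1) (mem_cz.1 hk).2) (ne_of_q o.p1.q1)
    (T_mono (Submodule.span_mono (by simp))) hk
  obtain ⟨D, -, hD, -⟩ := S.nd_comm h4 o kN (S.le hk.1.1) (mem_cz.1 hk.1).2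
  obtain ⟨U, τ, hτ⟩ := exists_tn (ρ j)
  obtain ⟨B, hB⟩ := hD.kron hτ
  obtain ⟨t, ht⟩ := hτ.scal (L := ⊥) (B := B) (y := D a) (x := a) (fun u => by
    simp [← hB, hk.2 _ (hτ.pure_T (x := a) u (Submodule.subset_span (by simp)))]) (by simpa using ne_of_q o.p1.q1)
  exact ⟨kN, t • (D : End F V₁), hτ.eq_rho fun u x => by simp [hB, ht]⟩

theorem red (H : ∀ y ∈ X, Commute y (un (ρ j) (f₁.rf a * f₁.rf a')) → (∀ e ∈ f₁.O, un (ρ j) e ∈ X →
    e a = a ∧ e a' = a' ∨ e b = b ∧ e b' = b' → Commute y (un (ρ j) e)) → y ∈ NF ρ Finset.univ)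
    (hg : g ∈ X) (c : Commute g (un (ρ j) (f₁.rf a * f₁.rf a'))) : g ∈ NF ρ Finset.univ := by
  obtain ⟨s, -, s0, hs⟩ := f₁.quad_iso3 ⊤ (by simp [h4])
  obtain ⟨ν, h⟩ := exists_An4 S.nd₁ h4.ge hI hs s0
  refine S.nrmG h m g hg ?_
  rintro _ ⟨p, rfl⟩
  have k : ∀ {a a' b b'}, OB f₁ a a' b b' → Commute g (un (ρ j) (f₁.rf a * f₁.rf a')) → ∀ e ∈ f₁.O,
      un (ρ j) e ∈ X → e a = a ∧ e a' = a' → Commute (g * un (ρ m) (h.rt p) * g⁻¹) (un (ρ j) e) :=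
    fun {a a' b b'} o c e he eX e1 => by
      obtain ⟨-, A, hA⟩ := S.ker_slot h4 hI o hm (fx_conj (fun k hk => o.p1.stab S.h2 (mem_cz.1 hk).2)
        (mem_cz.2 ⟨X.inv_mem hg, c.inv_left⟩) ⟨mem_cz.2 ⟨eX, Commute.map (mul_inv_eq_iff_eq_mul.1 (by
          rw [← conj_mul, Sim.rf S.h2 (sim_of_O he), Sim.rf S.h2 (sim_of_O he), e1.1, e1.2])) _⟩,
        fun w => fix_T fun x hx => by
          obtain ⟨α, β, rfl⟩ := Submodule.mem_span_pair.1 hx
          simp [e1]⟩)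
      have : Commute (un (ρ m) (h.rt p)) (g⁻¹ * un (ρ j) e * g⁻¹⁻¹) :=
        LinearEquiv.toLinearMap_injective (hA ▸ S.comm hm _ A).eq
      simpa [mul_assoc] using this.conj g
  exact H _ (X.mul_mem (X.mul_mem hg ((S.gs m).R _ (h.mem p))) (X.inv_mem hg))
    ((c.mul_left (S.cu hm _ _)).mul_left c.inv_left) fun e he eX h =>
      h.elim (k o c e he eX) (k o.symm (S.cm_symm h4 o c) e he eX)

theorem cenA {t : F} (t0 : t ≠ 0) (t1 : t ^ 2 ≠ 1) (q : f₁.q a' = f₁.q a) (hg : g ∈ X)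
    (c : Commute g (un (ρ j) (f₁.rf a * f₁.rf a'))) : g ∈ NF ρ Finset.univ := by
  refine S.red h4 hI o hm (fun y hy _ H => ?_) hg c
  obtain ⟨c, c', hc, hc', e, h⟩ := hyp4 S.h2 S.nd₁ h4 hI o q
  have c0 : c ≠ 0 := by rintro rfl; simp at e
  have k : ∀ t : F, f₁.q (c - t • c') = -(t * f₁.B c c') := fun t => by
    simp [q_sub, quad_q_smul, hc, hc']
  have e1 : ((f₁.rf (c - (1 : F) • c') * f₁.rf (c - t • c') : V₁ ≃ₗ[F] V₁) : End F V₁) - 1 =
      ((t - 1) / f₁.B c c') • tv f₁ c' c + ((t⁻¹ - 1) / f₁.B c c') • tv f₁ c c' := by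
    ext x
    simp only [LinearMap.sub_apply, LinearEquiv.coe_coe, mul_app, rf_apply, k]
    simp [f₁.B_self_eq_zero hc, f₁.B_self_eq_zero hc', f₁.quad_symm c c']
    match_scalars <;> field_simp <;> ring
  have e2 : ∀ x, f₁.B c x = 0 ∧ f₁.B c' x = 0 →
      (f₁.rf (c - (1 : F) • c') * f₁.rf (c - t • c')) x = x := fun x h => by
    simpa [h, sub_eq_zero] using LinearMap.congr_fun e1 x
  have c1 := (show Commute (y : End F V) _ from congrArg LinearEquiv.toLinearMap (H _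
    (mul_mem (rf_mem_O _) (rf_mem_O _)) (S.ge ⟨S.un_mem _ _, S.R2 h4 hm (by rw [k]; simp [e])
      (by simp [k, e, t0])⟩) (h.symm.imp (fun h => ⟨e2 _ (h _ o.rel.2.2.1 o.rel.2.2.2.1),
        e2 _ (h _ o.rel.2.2.2.2.1 o.rel.2.2.2.2.2)⟩) fun h => ⟨e2 _ (h _ o.o1 o.o3),
          e2 _ (h _ o.o2 o.o4)⟩)).eq).sub_right (Commute.one_right _)
  rw [coe_un, ← map_one (ρ j), ← map_sub, e1] at c1
  have c2 := (c1.mul_right c1).sub_right (c1.smul_right (t⁻¹ - 1))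
  rw [← map_mul, ← map_smul (ρ j), ← map_sub, show _ - _ = ((t - 1) * (t - t⁻¹) / f₁.B c c') • tv f₁ c' c by
    ext x
    simp [f₁.B_self_eq_zero hc, f₁.B_self_eq_zero hc', f₁.quad_symm c c']
    match_scalars <;> field_simp <;> ring, map_smul, Commute.smul_right_iff₀ (div_ne_zero (mul_ne_zero
      (sub_ne_zero.2 (by rintro rfl; simp at t1)) (sub_ne_zero.2 fun e => t1 (by
        rw [sq]; nth_rewrite 2 [e]; simp [t0]))) e)] at c2
  refine S.K hy (S.st j c hc c0 y hy fun w hw => ?_)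
  obtain ⟨w, rfl⟩ := exists_rk (B_ne S.nd₁ (show c' ≠ 0 by rintro rfl; simp at e)) hw
  rw [← tv_eq, show y _ = _ from LinearMap.congr_fun c2.eq w]
  exact rk_mem_T (Submodule.mem_span_singleton_self c) _ _

theorem cenB (hl : l ≠ j) (hlm : l ≠ m) (hg : g ∈ X)
    (c : Commute g (un (ρ j) (f₁.rf a * f₁.rf a'))) : g ∈ NF ρ Finset.univ := by
  refine S.red h4 hI o hm (fun k hk kz H => ?_) hg c
  replace H := H _ (rf_mem_O a) (S.ge ⟨S.un_mem _ _, S.rfE h4 hl hm hlm a⟩)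
    (Or.inr ⟨Form.rf_of_perp o.o1, Form.rf_of_perp o.o2⟩)
  obtain ⟨E', L⟩ := S.loc j
  obtain ⟨s, -, s0, hs⟩ := f₁.quad_iso3 ⊤ (by simp [h4])
  obtain ⟨ν, h⟩ := exists_An4 S.nd₁ h4.ge hI hs s0
  have a0 := ne_of_q o.p1.q1
  let P := X ⊓ Subgroup.centralizer {un (ρ j) (f₁.rf a * f₁.rf a')} ⊓
    Subgroup.centralizer {un (ρ j) (f₁.rf a)}
  have cP : ∀ g ∈ X, g ∈ cen (ρ j) → g ∈ P := fun g hg h => mem_cz.2 ⟨mem_cz.2 ⟨hg,
    LinearEquiv.toLinearMap_injective (h _).eq⟩, LinearEquiv.toLinearMap_injective (h _).eq⟩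
  have hW : ∀ k ∈ P, ∀ w ∈ T (ρ j) (F ∙ a), k w ∈ T (ρ j) (F ∙ a) := fun k hk =>
    stab_of_ht S.h2 o.p1.q1 (LinearEquiv.ext fun w => by
      simpa [un_apply, show (ht f₁ a : End F V₁) = -(f₁.rf a : End F V₁) from rfl] using
        LinearEquiv.congr_fun (mem_cz.1 hk).2.eq w)
  have c1 : ∀ n, n ≠ j → ∀ k ∈ P, _ → k ∈ NF ρ Finset.univ := fun n hn k =>
    have hR := fun p => cP _ ((S.gs n).R _ (h.mem p)) (S.comm hn _)
    S.of_mod h (inf_le_left.trans inf_le_left) hR hW (S.fx_le h (inf_le_left.trans inf_le_left) hR hW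
      (fun k hk kN => S.pel h4 o kN (S.le hk.1.1) (mem_cz.1 hk.1).2) a0 le_rfl)
  let Γ : Subgroup (V ≃ₗ[F] V) :=
    { carrier := {γ | γ ∈ f.O ⊓ cen (ρ j) ∧ ∃ c ∈ P, ∀ w ∈ T (ρ j) (F ∙ a), c w = γ w}
      one_mem' := ⟨one_mem _, 1, one_mem _, fun _ _ => rfl⟩
      mul_mem' := fun ⟨h, c, c1, c3⟩ ⟨h', d, d1, d3⟩ => ⟨mul_mem h h', c * d, mul_mem c1 d1,
        fun w hw => by rw [mul_app, d3 w hw]; exact c3 _ (T_comm h'.2 hw)⟩
      inv_mem' := fun ⟨h, c, c1, c3⟩ => ⟨inv_mem h, c⁻¹, inv_mem c1, fun w hw =>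
        inv_app_eq ((c3 _ (T_comm ((cen _).inv_mem h.2) hw)).trans (app_inv _ _))⟩ }
  have hΓ : Γ ≤ NF ρ Finset.univ := by
    refine (L.ih Γ (fun _ h => h.1) fun γ h => ⟨⟨E_le_O (L.le h.2).1, (L.le h.2).2⟩, γ,
      cP _ (S.ge ⟨h.1, (L.le h.2).1⟩) (L.le h.2).2, fun _ _ => rfl⟩).resolve_left fun H => ?_
    have sk := (S.ad m).sk' (wd_sk s (ν (1, 0)))
    obtain ⟨γ, hγ, e⟩ := S.exists_lev L hl sk (S.comm hlm.symm _) (S.comm hm _) hs
    obtain ⟨h', c, c2, c3⟩ := H hγ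
    refine S.nNF sk (fun e => wd_ne S.nd₁ s0 (notMem_of_q hs h.q1) (rho_inj _ (e.trans (map_zero _).symm)))
      (S.comm hlm.symm _) s0 e (S.mem_NF_of_T (c1 l hl c c2 fun t =>
        ⟨_, cP _ ((S.gs l).R _ (h.mem t)) (S.comm hl _), S.un_mem _ _, fun w hw => ?_⟩) h'.2 a0 c3)
    rw [c3 w hw, un_apply, c3 _ (T_comm (S.comm hl _) hw), e, e, un_apply, map_add]
    simp only [cm_app (S.comm hlm.symm _), rho_mul]
    congr 3
    ext x
    simp [h.rt_eq, rt_apply, wd_apply, f₁.B_self_eq_zero hs, h.hv, f₁.B_eq_zero_symm (h.hv _)]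
  have kP : k ∈ P := mem_cz.2 ⟨mem_cz.2 ⟨hk, kz⟩, H⟩
  obtain ⟨γ, h', e⟩ := exists_cen S.h2 S.nd S.nd₁ (S.ad j) o.p1.q1 (S.le hk) (hW k kP)
  have m1 := hΓ ⟨h', k, kP, e⟩
  refine c1 m hm k kP fun t => ?_
  have m2 := L.le (L.conj γ h' _ (L.un m hm _ (h.mem t)))
  have m3 := mul_mem (mul_mem m1 (S.un_mem m (h.rt t))) (inv_mem m1)
  exact ⟨_, cP _ (S.ge ⟨m3, m2.1⟩) m2.2, m3, fun w hw => by
    rw [e w hw, mul_app, mul_app, inv_app]; exact e _ (T_comm (S.comm hm _) hw)⟩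

section Two

variable {τ : V₁ →ₗ[F] V₁ →ₗ[F] V} (hτ : Tn (ρ j) τ) (hρ : ∀ A x y, ρ m A (τ x y) = τ (A x) y) {μ : F}
  (μ0 : μ ≠ 0) (hB : ∀ x y x' y', f.B (τ x y) (τ x' y') = μ * f₁.B x x' * f₁.B y y') (h3 : (3 : F) = 0)
include hτ

omit h4 hI hm in
theorem dec (hw : w ∈ T (ρ j) (Submodule.span F {a, a'})) : ∃ x y, w = τ x a + τ y a' := by
  have k : ∀ a, ∃ x, τ x a = ρ j (pj f₁ a) w := fun a => mem_mem.1 (hτ.T_span a ▸ rho_mem_T
    (fun x => Submodule.mem_span_singleton.2 ⟨_, by simp [pj, smul_smul]; rfl⟩) w)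
  obtain ⟨x, hx⟩ := k a
  obtain ⟨y, hy⟩ := k a'
  exact ⟨x, y, by rw [hx, hy]; exact o.p1.mem_T S.h2 ((o.p1.T_iff S.h2).1 hw)⟩

include hρ μ0 hB h3

theorem st2 (hs : f₁.q s = 0) (s0 : s ≠ 0) (hg : g ∈ X) (c : Commute g (un (ρ j) (f₁.rf a * f₁.rf a')))
    (h1 : g (τ s a) ∈ Submodule.span F {τ s a, τ s a'})
    (h1' : g (τ s a') ∈ Submodule.span F {τ s a, τ s a'}) : g ∈ NF ρ Finset.univ := by
  have := finite_equiv F V
  have hp : Fact (ringChar F).Prime := ⟨CharP.char_is_prime F _⟩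
  obtain ⟨ν, h⟩ := exists_An4 S.nd₁ h4.ge hI hs s0
  have gW : ∀ w ∈ Submodule.span F {τ s a, τ s a'}, g w ∈ Submodule.span F {τ s a, τ s a'} :=
    fun w hw => by
      obtain ⟨α, β, rfl⟩ := Submodule.mem_span_pair.1 hw
      simpa using add_mem (Submodule.smul_mem _ α h1) (Submodule.smul_mem _ β h1')
  have st := fun k (hk : k ∈ X ⊓ Subgroup.centralizer {un (ρ j) (f₁.rf a * f₁.rf a')}) =>
    o.p1.stab S.h2 (mem_cz.1 hk).2
  have hR : ∀ p, (∀ w ∈ Submodule.span F {τ s a, τ s a'}, un (ρ m) (h.rt p) w = w) ∧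
      ∀ w ∈ T (ρ j) (Submodule.span F {a, a'}), (∀ w' ∈ Submodule.span F {τ s a, τ s a'}, f.B w' w = 0) →
        un (ρ m) (h.rt p) w - w ∈ Submodule.span F {τ s a, τ s a'} := fun p => ⟨fun w hw => by
      obtain ⟨α, β, rfl⟩ := Submodule.mem_span_pair.1 hw
      simp [un_apply, hρ, h.rt_eq, rt_apply, wd_apply, f₁.B_self_eq_zero hs, f₁.B_eq_zero_symm (h.hv _)],
    fun w hw H => by
      obtain ⟨x, y, rfl⟩ := S.dec o hτ hw
      have e1 := H (τ s a) (Submodule.subset_span (by simp))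
      have e2 := H (τ s a') (Submodule.subset_span (by simp))
      simp [hB, o.rel, quad_B_self, μ0, S.h2, o.p1.q1, o.p1.q2] at e1 e2
      exact Submodule.mem_span_pair.2 ⟨-f₁.B (ν p.toAdd) x, -f₁.B (ν p.toAdd) y, by
        simp [un_apply, hρ, h.rt_eq, rt_apply, wd_apply, e1, e2]; abel⟩⟩
  generalize Submodule.span F {τ s a, τ s a'} = W at *
  let P : Subgroup (V ≃ₗ[F] V) :=
    { carrier := {k | k ∈ X ⊓ Subgroup.centralizer {un (ρ j) (f₁.rf a * f₁.rf a')} ∧ (∀ w ∈ W, k w = w) ∧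
        ∀ w ∈ T (ρ j) (Submodule.span F {a, a'}), (∀ w' ∈ W, f.B w' w = 0) → k w - w ∈ W}
      one_mem' := ⟨one_mem _, fun _ _ => rfl, by simp⟩
      mul_mem' := fun {k k'} hk hk' => ⟨mul_mem hk.1 hk'.1, fun w hw => by
        rw [mul_app, hk'.2.1 w hw, hk.2.1 w hw], fun w hw H => by
          have := hk.2.1 _ (hk'.2.2 w hw H)
          rw [map_sub, sub_eq_iff_eq_add] at this
          simpa [this, add_sub_assoc] using add_mem (hk'.2.2 w hw H) (hk.2.2 w hw H)⟩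
      inv_mem' := fun {k} hk => ⟨inv_mem hk.1, fun w hw => inv_app_eq (hk.2.1 w hw), fun w hw H => by
        have := inv_app_eq (hk.2.1 _ (hk.2.2 w hw H))
        rw [map_sub, inv_app, sub_eq_iff_eq_add, ← sub_eq_iff_eq_add'] at this
        simpa [← this] using neg_mem (hk.2.2 w hw H)⟩ }
  have RP : ∀ p, un (ρ m) (h.rt p) ∈ P := fun p =>
    ⟨mem_cz.2 ⟨(S.gs m).R _ (h.mem p), S.cu hm _ _⟩, hR p⟩
  have hP : P ≤ NF ρ Finset.univ := le_of_quot (S.nrmG h m) (by rintro _ ⟨p, rfl⟩; exact S.un_mem _ _)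
    (pgrp _) (fun _ h => h.1.1) (by rintro _ ⟨p, rfl⟩; exact RP p)
    (fun k hk => (S.ker_slot h4 hI o hm hk).1) (fun c hc k => fx_conj st hc.1) fun k hk =>
      ⟨pow_mem hk.1 _, fun w hw => by
        have e2 := hk.2.1 _ (hk.2.2 _ (sub_mem (st k hk.1 w hw) hw) fun w' hw' => by
          rw [map_sub, ← hk.2.1 w' hw', mem_O_B (S.le hk.1.1), hk.2.1 w' hw', sub_self])
        rw [(Nat.prime_dvd_prime_iff_eq hp.out Nat.prime_three).1 ((ringChar.spec F 3).1 (by simpa using h3))]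
        simp only [map_sub, pow_three', mul_app] at e2 ⊢
        linear_combination (norm := module) e2 + h3 • (k (k w) - k w)⟩
  refine S.nrmG h m g hg ?_
  rintro _ ⟨p, rfl⟩
  have m1 := mem_cz.2 ⟨hg, c⟩
  have gW' := inv_mem_of_stab gW
  refine hP ⟨mul_mem (mul_mem m1 (RP p).1) (inv_mem m1), fun w hw => by
    rw [mul_app, mul_app, MonoidHom.comp_apply, (hR p).1 _ (gW' w hw), app_inv], fun w hw H => ?_⟩
  simpa [app_inv] using gW _ ((hR p).2 _ (st _ (inv_mem m1) w hw) fun w' hw' => by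
    rw [← B_apply_left (S.le hg), H _ (gW w' hw')])

theorem refl_mem (h1 : ∀ t : F, t ≠ 0 → t ^ 2 = 1) (q : f₁.q a' = f₁.q a) (hk : k ∈ X)
    (c : Commute k (un (ρ j) (f₁.rf a * f₁.rf a'))) {x y : V₁} (q0 : f.q (τ x a + τ y a') ≠ 0)
    (e : ∀ w ∈ T (ρ j) (Submodule.span F {a, a'}),
      k w = (f.rf (τ x a + τ y a') * f.rf (τ y a - τ x a')) w) : k ∈ NF ρ Finset.univ := by
  have h2 := S.h2
  have a0 := o.p1.q1
  have m1 : ∀ u, τ u a ∈ T (ρ j) (Submodule.span F {a, a'}) := fun u =>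
    hτ.pure_T u (Submodule.subset_span (by simp))
  have m2 : ∀ u, τ u a' ∈ T (ρ j) (Submodule.span F {a, a'}) := fun u =>
    hτ.pure_T u (Submodule.subset_span (by simp))
  have k0 : ∀ x y, f.q (τ x a + τ y a') = 2 * μ * f₁.q a * (f₁.q x + f₁.q y) ∧
      f.q (τ y a - τ x a') = 2 * μ * f₁.q a * (f₁.q x + f₁.q y) ∧
      f.B (τ x a + τ y a') (τ y a - τ x a') = 0 := fun x y =>
    ⟨mul_left_cancel₀ h2 (by rw [← quad_B_self]; simp [hB, o.rel, quad_B_self, q]; ring),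
      mul_left_cancel₀ h2 (by rw [← quad_B_self]; simp [hB, o.rel, quad_B_self, q]; ring),
      by simp [hB, o.rel, quad_B_self, q, f₁.quad_symm x y]⟩
  have k1 : ∀ x y, f.q (τ x a + τ y a') ≠ 0 → OP f (τ x a + τ y a') (τ y a - τ x a') := fun x y h =>
    ⟨h, by rwa [(k0 x y).2.1, ← (k0 x y).1], (k0 x y).2.2⟩
  have k2 : ∀ s, f₁.q s = 0 → s ≠ 0 → ∀ x y, f₁.B s x = 0 → f₁.B s y = 0 → (∀ w ∈ T (ρ j)
      (Submodule.span F {a, a'}), k w = (f.rf (τ x a + τ y a') * f.rf (τ y a - τ x a')) w) →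
      k ∈ NF ρ Finset.univ := fun s hs s0 x y e1 e2 e => S.st2 h4 hI o hm hτ hρ μ0 hB h3 hs s0 hk c
    (by simp [e _ (m1 s), Form.rf_of_perp, hB, f₁.B_eq_zero_symm e1, f₁.B_eq_zero_symm e2,
      Submodule.mem_span_of_mem])
    (by simp [e _ (m2 s), Form.rf_of_perp, hB, f₁.B_eq_zero_symm e1, f₁.B_eq_zero_symm e2,
      Submodule.mem_span_of_mem])
  rcases sing_alt h2 S.nd₁ h4 hI x y with ⟨s, s0, hs, e1, e2⟩ | ⟨α, β, s0, hs⟩
  · exact k2 s hs s0 x y e1 e2 e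
  have e1 : α • (τ x a + τ y a') + β • (τ y a - τ x a') = τ (α • x + β • y) a + τ (α • y - β • x) a' := by
    simp; module
  have e2 : α • (τ y a - τ x a') - β • (τ x a + τ y a') = τ (α • y - β • x) a - τ (α • x + β • y) a' := by
    simp; module
  have q1 : f.q (α • (τ x a + τ y a') + β • (τ y a - τ x a')) ≠ 0 := by
    rw [quad_q_add, quad_q_smul, quad_q_smul, (k0 x y).2.1, ← (k0 x y).1]
    simp only [map_smul, B_smul_left, (k0 x y).2.2, smul_zero, mul_zero, add_zero, ← add_mul]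
    refine mul_ne_zero (fun e => ?_) q0
    by_cases ha : α = 0 <;> by_cases hb : β = 0 <;> simp [one_add_one_eq_two, *] at e s0
  rw [(rr_rot h2 (k1 x y q0) ((k0 x y).2.1.trans (k0 x y).1.symm) q1).1, e1, e2] at e
  rw [e1] at q1
  generalize α • y - β • x = s at *
  generalize α • x + β • y = v at *
  by_cases g0 : f₁.B s v = 0
  · exact k2 s hs s0 v s g0 (f₁.B_self_eq_zero hs) e
  have p := k1 v s q1
  have v0 : f₁.q v ≠ 0 := fun e => q1 (by simp [k0, e, hs])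
  have y1 : ∀ u, k (τ u a) = τ u a - (f₁.B v u / f₁.q v) • (τ v a + τ s a') -
      (f₁.B s u / f₁.q v) • (τ s a - τ v a') := fun u => by
    rw [e _ (m1 u), p.rr, (k0 v s).1, (k0 v s).2.1]
    simp only [hB, o.rel, quad_B_self, hs, map_add, map_sub, LinearMap.add_apply, LinearMap.sub_apply,
      add_zero]
    congr 2 <;> [congr 1; skip] <;> field_simp <;> ring
  have y2 : ∀ u, k (τ u a') = τ u a' - (f₁.B s u / f₁.q v) • (τ v a + τ s a') -
      (-f₁.B v u / f₁.q v) • (τ s a - τ v a') := fun u => by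
    rw [e _ (m2 u), p.rr, (k0 v s).1, (k0 v s).2.1]
    simp only [hB, o.rel, quad_B_self, hs, q, map_add, map_sub, LinearMap.add_apply, LinearMap.sub_apply,
      add_zero]
    congr 2 <;> [congr 1; skip] <;> field_simp <;> ring
  have n1 : ∀ u, un (ρ j) (f₁.rf a' * f₁.rf b) (τ u a) = τ u a := fun u => by
    simp [un_apply, hτ.app, Form.rf_of_perp, o.rel]
  have n2 : ∀ u, un (ρ j) (f₁.rf a' * f₁.rf b) (τ u a') = -τ u a' := fun u => by
    simp [un_apply, hτ.app, Form.rf_of_perp, o.rel, rf_self o.p1.q2]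
  have r1 : ∀ u y, f₁.B b y = 0 → (un (ρ m) (f₁.rf v) * un (ρ j) (f₁.rf b)) (τ u y) =
      τ u y - (f₁.B v u / f₁.q v) • τ v y := fun u y h => by
    simp [un_apply, hτ.app, hρ, Form.rf_of_perp h, rf_apply v, div_eq_inv_mul]
  have nX : un (ρ j) (f₁.rf a' * f₁.rf b) ∈ X := S.ge ⟨S.un_mem _ _, S.R2 h4 hm o.p1.q2 o.p2.q1⟩
  have nc : Commute (un (ρ j) (f₁.rf a' * f₁.rf b)) (un (ρ j) (f₁.rf a * f₁.rf a')) := Commute.map
    (((show Commute _ _ from rf_comm o.p1.o').mul_right (Commute.refl _)).mul_left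
      ((show Commute _ _ from rf_comm o.rel.2.2.1).mul_right (rf_comm o.rel.2.2.2.2.1))) _
  have rX : un (ρ m) (f₁.rf v) * un (ρ j) (f₁.rf b) ∈ X :=
    S.ge ⟨mul_mem (S.un_mem _ _) (S.un_mem _ _), S.yE h4 hm v0 o.p2.q1⟩
  have rc : Commute (un (ρ m) (f₁.rf v) * un (ρ j) (f₁.rf b)) (un (ρ j) (f₁.rf a * f₁.rf a')) :=
    (S.cu hm _ _).mul_left (Commute.map
      ((show Commute _ _ from rf_comm o.rel.2.2.1).mul_right (rf_comm o.rel.2.2.2.2.1)) _)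
  replace r1 := And.intro (fun u => r1 u a o.rel.2.2.1) fun u => r1 u a' o.rel.2.2.2.2.1
  generalize un (ρ j) (f₁.rf a' * f₁.rf b) = n at *
  generalize un (ρ m) (f₁.rf v) * un (ρ j) (f₁.rf b) = r at *
  obtain ⟨γ, hγ, g1⟩ : ∃ γ, f₁.B s v / f₁.q v = γ ∧ γ ^ 2 = 1 := ⟨_, rfl, h1 _ (div_ne_zero g0 v0)⟩
  have g2 : f₁.B v v / f₁.q v = 2 := by simp [quad_B_self, v0]
  have d1 : (r * (n * k * n) * k) (τ s a) = γ • τ s a' := by
    simp only [mul_app, y1, y2, n1, n2, r1, map_sub, map_add, map_smul, map_neg, f₁.quad_symm s v, hγ,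
      g2, neg_div, f₁.B_self_eq_zero hs, zero_div]
    match_scalars <;> grind
  have d2 : (r * (n * k * n) * k) (τ s a') = -γ • τ s a := by
    simp only [mul_app, y1, y2, n1, n2, r1, map_sub, map_add, map_smul, map_neg, f₁.quad_symm s v, hγ,
      g2, neg_div, f₁.B_self_eq_zero hs, zero_div]
    match_scalars <;> grind
  have dX := mul_mem (mul_mem rX (mul_mem (mul_mem nX hk) nX)) hk
  have dc := (rc.mul_left ((nc.mul_left c).mul_left nc)).mul_left c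
  obtain ⟨D, -, hD, -⟩ := S.nd_comm h4 o (S.st2 h4 hI o hm hτ hρ μ0 hB h3 hs s0 dX dc
    (d1 ▸ Submodule.smul_mem _ _ (Submodule.subset_span (by simp)))
    (d2 ▸ Submodule.smul_mem _ _ (Submodule.subset_span (by simp)))) (S.le dX) dc
  obtain ⟨u, u0, u1, u2⟩ := exists_perp_two (h := f₁) (by omega) v s
  have p1 := hD.map_T (hτ.pure_T u (Submodule.mem_span_singleton_self a))
  have p2 := hD.map_T (hτ.pure_T s (Submodule.mem_span_singleton_self a))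
  rw [show (r * (n * k * n) * k) (τ u a) = τ u a by simp [y1, n1, r1, u1, u2]] at p1
  rw [d1, ← map_smul] at p2
  obtain ⟨t, ht⟩ := Submodule.mem_span_singleton.1 (hτ.mem_of_pure_T u0 p1)
  obtain ⟨t', ht'⟩ := Submodule.mem_span_singleton.1 (hτ.mem_of_pure_T s0 p2)
  have := congrArg (f₁.B a') (show t' • a = (t * γ) • a' by
    rw [mul_smul, ← ht', smul_comm, ht])
  simp [o.rel, quad_B_self, h2, o.p1.q2, show γ ≠ 0 by rintro rfl; simp at g1] at this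
  simp [this, (ne_of_q a0).symm] at ht

end Two

theorem cenC (h : ∀ l, l ≠ j → l = m) (h1 : ∀ t : F, t ≠ 0 → t ^ 2 = 1) (q : f₁.q a' = f₁.q a)
    (hg : g ∈ X) (c : Commute g (un (ρ j) (f₁.rf a * f₁.rf a'))) : g ∈ NF ρ Finset.univ := by
  obtain ⟨τ, hτ, hρ, μ, μ0, hB⟩ := S.two hm h
  have h2 := S.h2
  have a0 := o.p1.q1
  have q2 : f₁.q (a + a') = 2 * f₁.q a := by simp [quad_q_add, q, o.p1.o, two_mul]
  have st := o.p1.stab h2 c
  have m1 : ∀ u, τ u a ∈ T (ρ j) (Submodule.span F {a, a'}) := fun u =>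
    hτ.pure_T u (Submodule.subset_span (by simp))
  have hO := mul_mem (rf_mem_O (f := f₁) a) (rf_mem_O (a + a'))
  have w1 : (f₁.rf a * f₁.rf (a + a')) b = b ∧ (f₁.rf a * f₁.rf (a + a')) b' = b' := by
    simp [Form.rf_of_perp, o.rel]
  have w2 : ∀ x y, un (ρ j) (f₁.rf a * f₁.rf (a + a')) (τ x a + τ y a') = τ y a - τ x a' := fun x y => by
    simp [un_apply, hτ.app, rf_apply, q2, q, o.rel, quad_B_self]
    match_scalars <;> field_simp <;> ring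
  obtain ⟨-, A, hA⟩ := S.ker_slot h4 hI o.symm hm (fx_conj (fun k hk => o.p2.stab h2 (mem_cz.1 hk).2)
    (mem_cz.2 ⟨X.inv_mem hg, (S.cm_symm h4 o c).inv_left⟩) ⟨mem_cz.2 ⟨S.ge ⟨S.un_mem _ _, S.R2 h4 hm a0
      (q2 ▸ mul_ne_zero h2 a0)⟩, Commute.map (mul_inv_eq_iff_eq_mul.1 (by
        rw [← conj_mul, Sim.rf h2 (sim_of_O hO), Sim.rf h2 (sim_of_O hO), w1.1, w1.2])) _⟩,
      fun w => fix_T fun x hx => by
        obtain ⟨α, β, rfl⟩ := Submodule.mem_span_pair.1 hx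
        simp [Form.rf_of_perp, o.rel]⟩)
  have k : ∀ u, f₁.q u ≠ 0 → g * (un (ρ m) (f₁.rf u) * un (ρ j) (f₁.rf b)) * g⁻¹ ∈ NF ρ Finset.univ :=
    fun u hu => by
      obtain ⟨x, y, e⟩ := S.dec o hτ (st _ (m1 u))
      have e1 : τ y a - τ x a' = g (τ u (A a)) := by
        rw [← w2, ← e, ← hτ.app, ← hA]; simp [app_inv]
      obtain ⟨α, β, e2⟩ := Submodule.mem_span_pair.1 (hτ.mem_of_pure_T (x := A a) (ne_of_q hu) (by
        rw [← inv_app g (τ u _), ← e1]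
        exact o.p1.stab h2 c.inv_left _ (sub_mem (m1 y) (hτ.pure_T x (Submodule.subset_span (by simp))))))
      have q3 : ∀ a, f.q (τ u a) = 2 * μ * f₁.q u * f₁.q a := fun a =>
        mul_left_cancel₀ h2 (by rw [← quad_B_self]; simp [hB, quad_B_self]; ring)
      have p : OP f (τ u a) (τ u a') := ⟨by simp [*], by simp [*], by simp [hB, o.rel]⟩
      have e3 : f.B (g (τ u a)) (g (τ u (A a))) = 0 := by
        rw [e, ← e1]; simp [hB, o.rel, quad_B_self, q, f₁.quad_symm x y]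
      rw [mem_O_B (S.le hg), ← e2] at e3
      obtain rfl : α = 0 := by simpa [p.o, quad_B_self, h2, p.q1] using e3
      rw [← e2, zero_smul, zero_add, map_smul, map_smul] at e1
      have q4 : f.q (τ x a + τ y a') ≠ 0 := by rw [← e, mem_O_q (S.le hg)]; exact p.q1
      refine S.refl_mem h4 hI o hm hτ hρ μ0 hB (by linear_combination h1 2 h2) h1 q (mul_mem (mul_mem hg
        (S.ge ⟨mul_mem (S.un_mem _ _) (S.un_mem _ _), S.yE h4 hm hu o.p2.q1⟩)) (inv_mem hg))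
        ((c.mul_left ((S.cu hm _ _).mul_left (Commute.map ((show Commute _ _ from
          rf_comm o.rel.2.2.1).mul_right (rf_comm o.rel.2.2.2.2.1)) _))).mul_left c.inv_left) q4
        fun w hw => ?_
      rw [e1, ← e, rf_smul (by
        rintro rfl
        exact ne_of_q q4 ((un (ρ j) (f₁.rf a * f₁.rf (a + a'))).injective (by rw [w2, e1]; simp))),
        ← Sim.rf h2 (sim_of_O (S.le hg)), ← Sim.rf h2 (sim_of_O (S.le hg)), conj_mul, mul_app, mul_app,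
        mul_app _ g⁻¹, mul_app g]
      obtain ⟨x, y, e⟩ := S.dec o hτ (o.p1.stab h2 c.inv_left w hw)
      rw [e, p.rr]
      simp [un_apply, hτ.app, hρ, Form.rf_of_perp, o.rel, rf_apply u, q3, hB, quad_B_self, q]
      match_scalars <;> field_simp
  obtain ⟨s, -, s0, hs⟩ := f₁.quad_iso3 ⊤ (by simp [h4])
  obtain ⟨ν, h⟩ := exists_An4 S.nd₁ h4.ge hI hs s0
  refine S.nrmG h m g hg ?_
  rintro _ ⟨p, rfl⟩
  rcases eq_or_ne p 1 with rfl | p1
  · simp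
  have v0 : f₁.q (ν p.toAdd) ≠ 0 := mt (h.an _) p1
  convert mul_mem (k _ v0) (k (ν p.toAdd + f₁.q (ν p.toAdd) • s) (by
    simpa [quad_q_add, quad_q_smul, hs, f₁.B_eq_zero_symm (h.hv _)] using v0)) using 1
  rw [conj_mul, (S.cu hm _ _).symm.mul_mul_mul_comm, ← map_mul, ← map_mul, rf_mul_self, map_one,
    mul_one, ← rt_rf hs (h.hv _) v0, ← h.rt_eq]
  rfl

omit o in
/-- The centralizer of a distinguished involution permutes the factors. -/
theorem cenZ (he : e ∈ Zr f₁) (hg : g ∈ X) (c : Commute g (un (ρ j) e)) : g ∈ NF ρ Finset.univ := by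
  obtain ⟨a, a', p, q, rfl⟩ := he
  obtain ⟨b, b', o, -⟩ := exists_OB S.h2 S.nd₁ h4 p
  by_cases h : ∃ l, l ≠ j ∧ l ≠ m
  · exact h.elim fun l h => S.cenB h4 hI o hm h.1 h.2 hg c
  by_cases h1 : ∃ t : F, t ≠ 0 ∧ t ^ 2 ≠ 1
  · exact h1.elim fun t h => S.cenA h4 hI o hm h.1 h.2 q hg c
  push Not at h h1
  exact S.cenC h4 hI o hm h h1 q hg c

end CE

end CL.WrE
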