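/-
Maximality of the stabilizer of a decomposition as a tensor power of an even-dimensional orthogonal
space.
-/
import Mathlib
import Cfsg.Agent.CLAS.WrE6

set_option autoImplicit false
set_option linter.unusedSectionVars false

namespace CL.WrE

open Module CL.ExtF CL.Tens CL.Wr CL.Witt CL.Witt.Form CL.Uniq CL.WrO

attribute [-simp] LinearEquiv.coe_inv
attribute [local simp] FormType.quad_σ FormType.quad_ε FormType.quad_π

variable {F V₁ V : Type*} [Field F] [AddCommGroup V₁] [Module F V₁] [AddCommGroup V] [Module F V]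
  {f : Form (FormType.quad F) V} {f₁ : Form (FormType.quad F) V₁} {σ σ' : Rep F V₁ V}
  {a a' b b' c c' d s v : V₁} {g k r z : V ≃ₗ[F] V} {D e : V₁ ≃ₗ[F] V₁} {X : Subgroup (V ≃ₗ[F] V)}
  {L L' : Submodule F V₁} {A : End F V₁} {ξ η : End F V} {w w' : V} {ν : F × F →ₗ[F] V₁}
  [FiniteDimensional F V₁] [FiniteDimensional F V] [Nontrivial V] [Finite F]
  {I : Type*} [Fintype I] [DecidableEq I] {ρ : I → Rep F V₁ V} {i j l m : I}
  {E' : Subgroup (V ≃ₗ[F] V)}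

theorem Rot.comm (h2 : (2 : F) ≠ 0) {w : V₁ ≃ₗ[F] V₁} (R : Rot f₁ e w) (h : Commute k (un σ (e * e))) :
    Commute k (un σ w) := by
  obtain ⟨κ, k0, k2, e1⟩ := R.tr
  obtain ⟨a, b, p, rfl⟩ := R.op
  have e2 := congrArg LinearEquiv.toLinearMap p.sq
  generalize f₁.rf a * f₁.rf b = w at *
  have e3 : ((e * e : V₁ ≃ₗ[F] V₁) : End F V₁) + ((e * e)⁻¹ : V₁ ≃ₗ[F] V₁) =
      (2 : F) • 1 + (2 * κ * (κ + 2)) • (1 - (w : End F V₁)) := LinearMap.ext fun x => by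
    have e4 := LinearMap.congr_fun e1
    have e5 := e4 (e x + e⁻¹ x)
    have e6 := congrArg w (e4 x)
    have e7 := LinearMap.congr_fun e2 x
    simp [app_inv, inv_app] at e4 e5 e6 e7 ⊢
    rw [e7] at e6
    linear_combination (norm := module) e5 + (2 + κ) • e4 x - κ • e6
  have c := (show Commute (k : End F V) _ from congrArg LinearEquiv.toLinearMap h.eq).add_right
    (show Commute (k : End F V) _ from congrArg LinearEquiv.toLinearMap h.inv_right.eq)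
  rw [← map_inv, coe_un, coe_un, ← map_add, e3, map_add, map_smul, map_smul, map_sub, map_one] at c
  refine LinearEquiv.toLinearMap_injective (Commute.eq ?_)
  have := (Commute.one_right _).sub_right ((Commute.smul_right_iff₀ (a := 2 * κ * (κ + 2))
    (by simp [*])).1 (by simpa using c.sub_right ((Commute.one_right _).smul_right (2 : F))))
  rwa [sub_sub_cancel] at this

theorem exists_adm (h2 : (2 : F) ≠ 0) (hf₁ : f₁.Nondeg) (h4 : finrank F V₁ = 4) (hI : Idx1 f₁) {μ : F}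
    (hμ : ¬ IsSquare μ) (hD : ∀ x y, f₁.B (D x) (D y) = μ * f₁.B x y) (e1 : ∀ x, D (D x) = μ • x)
    (e2 : ∀ x y, f₁.B (D x) y = f₁.B x (D y)) : ∃ b c w, OP f₁ b (D b) ∧ OP f₁ c (D c) ∧
      Rot f₁ (f₁.rf b * f₁.rf c) w ∧ ¬ Commute (f₁.rf b * f₁.rf (D b)) (f₁.rf c * f₁.rf (D c)) := by
  have μ0 : μ ≠ 0 := by rintro rfl; simp at hμ
  have eq := q_sim h2 hD
  have k1 : ∀ b, b ≠ 0 → f₁.B b (D b) = 0 → OP f₁ b (D b) := fun b b0 h => by
    have : f₁.q b ≠ 0 := fun e => by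
      obtain ⟨t, ht⟩ := Submodule.mem_span_singleton.1 (hI b (D b) e (by simp [eq, e]) h b0)
      exact hμ ⟨t, smul_left_injective F b0 (by simp only [← e1, ← ht, map_smul, smul_smul])⟩
    exact ⟨this, by simp [*], h⟩
  have k2 : ∀ W : Submodule F V₁, 3 ≤ finrank F W → ∃ b ∈ W, b ≠ 0 ∧ OP f₁ b (D b) := fun W h =>
    ((ofSymm h2 (f₁.B.compl₂ (D : End F V₁)) fun x y => (f₁.quad_symm _ _).trans (e2 x y)).quad_iso3
      W h).imp fun b h => ⟨h.1, h.2.1, k1 b h.2.1 ((div_eq_zero_iff.1 h.2.2).resolve_right h2)⟩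
  obtain ⟨b, -, b0, p⟩ := k2 ⊤ (by simp [h4])
  have q1 := p.q1
  obtain ⟨c, hc, p', n⟩ : ∃ c, c ∉ Submodule.span F {b, D b} ∧ OP f₁ c (D c) ∧
      ¬ IsSquare (f₁.q b * f₁.q c) := by
    have d1 := hf₁.finrank_add_finrank_perp (F ∙ (b + D b))
    have d2 : finrank F (F ∙ (b + D b)) ≤ 1 := finrank_span_le_card _ |>.trans (by simp)
    obtain ⟨c, c1, c0, p'⟩ := k2 (f₁.perp (F ∙ (b + D b))) (by omega)
    have c2 : c ∉ Submodule.span F {b, D b} := fun e => by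
      obtain ⟨α, β, rfl⟩ := Submodule.mem_span_pair.1 e
      have e3 := f₁.mem_perp_span_singleton.1 c1
      have e4 := p'.o
      simp [p.o, p.o', e1, eq, quad_B_self] at e3 e4
      have e5 : α = -(β * μ) := mul_right_cancel₀ (mul_ne_zero h2 q1) (by linear_combination e3)
      have : β = 0 := by
        have : 2 * 2 * f₁.q b * μ ^ 2 * β ^ 2 = 0 := by rw [e5] at e4; linear_combination -e4
        simpa [h2, q1, μ0] using this
      simp [e5, this] at c0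
    by_cases n : IsSquare (f₁.q b * f₁.q c)
    · refine ⟨D c, fun e => c2 ?_, Sim.op h2 ⟨μ, μ0, hD⟩ p', fun ⟨s, hs⟩ => hμ ?_⟩
      · obtain ⟨α, β, e⟩ := Submodule.mem_span_pair.1 e
        exact Submodule.mem_span_pair.2 ⟨β, α / μ, D.injective (by
          simp [← e, e1, smul_smul, μ0, add_comm])⟩
      · obtain ⟨r, hr⟩ := n
        have r0 : r ≠ 0 := by rintro rfl; simp [q1, p'.q1] at hr
        exact ⟨s / r, by rw [eq] at hs; field_simp; linear_combination hs - μ * hr⟩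
    · exact ⟨c, c2, p', n⟩
  have o : f₁.B b c ≠ 0 := fun o => by
    have e3 : f₁.B b (c - (f₁.B b (D c) / (2 * μ * f₁.q b)) • D b) = 0 := by simp [o, p.o]
    have e4 : f₁.B b (D (c - (f₁.B b (D c) / (2 * μ * f₁.q b)) • D b)) = 0 := by
      simp [e1, quad_B_self]; field_simp; ring
    have p2 := k1 (c - (f₁.B b (D c) / (2 * μ * f₁.q b)) • D b) (fun e => hc
      (Submodule.mem_span_pair.2 ⟨0, _, by rw [sub_eq_zero.1 e, zero_smul, zero_add]⟩)) (by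
        simp [p'.o, hD, e1, o, f₁.B_eq_zero_symm o, p.o'])
    exact disc4 h2 hI ⟨p, p2, e3, e4, (e2 _ _).trans e4, by rw [hD, e3, mul_zero]⟩
      (by rw [eq, eq]; generalize f₁.q (_ - _) = y; exact ⟨μ * f₁.q b * y, by ring⟩)
  obtain ⟨t, a, t0, o', rfl⟩ : ∃ t a, t ≠ 0 ∧ f₁.B b a = 0 ∧ c = t • b + a :=
    ⟨f₁.B b c / (2 * f₁.q b), c - (f₁.B b c / (2 * f₁.q b)) • b, by simp [*], by
      simp [quad_B_self, h2, q1], by simp⟩
  have e3 : f₁.q (t • b + a) = t ^ 2 * f₁.q b + f₁.q a := by simp [quad_q_add, quad_q_smul, o']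
  refine ⟨b, _, _, p, p', rot h2 ⟨q1, fun e => n ⟨t * f₁.q b, by rw [e3, e]; ring⟩, o'⟩ t0 p'.q1
    fun e => n ⟨2 * t * f₁.q b, by rw [e3, ← e]; ring⟩, fun H => hc ?_⟩
  generalize t • b + a = c at *
  obtain ⟨α, β, e⟩ := p.of_neg h2 (x := (f₁.rf c * f₁.rf (D c)) b) (by
    rw [← mul_app, H.eq, mul_app, p.rr1 h2, map_neg])
  rw [p'.rr] at e
  have e4 := congrArg D e
  simp only [map_sub, map_add, map_smul, e1] at e4
  have l0 : (f₁.q c)⁻¹ * f₁.B c b ≠ 0 := by simp [p'.q1, f₁.quad_symm b c, o]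
  generalize (f₁.q c)⁻¹ * f₁.B c b = l at *
  generalize (f₁.q (D c))⁻¹ * f₁.B (D c) b = l' at *
  refine (Submodule.smul_mem_iff _ (show l ^ 2 - μ * l' ^ 2 ≠ 0 from fun h => ?_)).1
    (Submodule.mem_span_pair.2 ⟨l * (1 - α) + l' * β * μ, -l * β - l' * (1 - α), by
      linear_combination (norm := module) l • e - l' • e4⟩)
  have : l' ≠ 0 := by rintro rfl; simp [l0] at h
  exact hμ ⟨l / l', by field_simp; linear_combination -h⟩

theorem nd_un (σ : Rep F V₁ V) (e : V₁ ≃ₗ[F] V₁) : Nd σ σ (un σ e) e := fun A v => by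
  rw [un_apply, un_apply, rho_mul, rho_mul]; congr 2; ext; simp [inv_app]

theorem nd_one (h : g ∈ cen σ) : Nd σ σ g 1 := fun A v => by
  simpa [← End.one_eq_id] using cm_app h A v

theorem PE.not_cen (S : PE f f₁ ρ) (h4 : finrank F V₁ = 4) (p : OP f₁ a a') :
    un σ (f₁.rf a * f₁.rf a') ∉ cen σ := fun h => by
  obtain ⟨l, hl⟩ := (nd_un σ _).scalar h
  obtain ⟨b, b', o, -⟩ := exists_OB S.h2 S.nd₁ h4 p
  have e1 := hl a
  have e2 := hl b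
  rw [mul_app, Form.rf_of_perp o.o3, Form.rf_of_perp o.o1, ← sub_eq_zero] at e2
  rw [p.rr1 S.h2, show l = 1 from (sub_eq_zero.1 ((smul_eq_zero_iff_left (ne_of_q o.p2.q1)).1 (by
    rwa [sub_smul, one_smul]))).symm] at e1
  simpa [neg_eq_iff_add_eq_zero, ← two_smul F, S.h2, ne_of_q p.q1] using e1

namespace CE

variable (S : CE f f₁ X ρ) (h4 : finrank F V₁ = 4) (hI : Idx1 f₁) [Nontrivial I]
include S h4 hI

theorem cenV (p : OP f₁ a a') (hg : g ∈ X) (c : Commute g (un (ρ j) (f₁.rf a * f₁.rf a'))) :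
    g ∈ NF ρ Finset.univ := by
  obtain ⟨m, hm⟩ := exists_ne j
  obtain ⟨e, he, h⟩ := pm_Zr S.h2 S.nd₁ h4 hI p
  refine S.cenZ h4 hI hm he hg (h.elim (fun h => h ▸ c) fun h => LinearEquiv.ext fun w => ?_)
  have := LinearEquiv.congr_fun c w
  simp only [mul_app, un_apply, h] at this
  simpa [un_apply] using this

omit hI in
theorem rrX (ha : f₁.q a ≠ 0) (hb : f₁.q b ≠ 0) (j : I) : un (ρ j) (f₁.rf a * f₁.rf b) ∈ X :=
  S.ge ⟨S.un_mem _ _, S.R2 h4 (exists_ne j).choose_spec ha hb⟩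

theorem rot_mem {w : V₁ ≃ₗ[F] V₁} (R : Rot f₁ e w) (hg : g ∈ X)
    (h : Nz (ρ j) (ρ j) (g⁻¹ * un (ρ i) e * g)) : g ∈ NF ρ Finset.univ := by
  obtain ⟨m, hm⟩ := exists_ne j
  obtain ⟨s, -, s0, hs⟩ := f₁.quad_iso3 ⊤ (by simp [h4])
  obtain ⟨ν, H⟩ := exists_An4 S.nd₁ h4.ge hI hs s0
  obtain ⟨α, α0, e1⟩ := R.cub
  obtain ⟨a, b, p, rfl⟩ := R.op
  obtain ⟨c, d, hc, hd, e2⟩ := R.rr
  have k : ∀ n, (∀ A, Commute (g⁻¹ * un (ρ i) e * g * (g⁻¹ * un (ρ i) e * g) : V ≃ₗ[F] V).toLinearMap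
      (ρ n A)) → g ∈ NF ρ Finset.univ := fun n h => S.nrmG H n g hg (by
    rintro _ ⟨t, rfl⟩
    refine S.cenV h4 hI (j := i) p (mul_mem (mul_mem hg ((S.gs n).R _ (H.mem t))) (inv_mem hg))
      (R.comm S.h2 ?_)
    simpa [mul_assoc] using (show Commute _ (un (ρ n) (H.rt t)) from
      LinearEquiv.toLinearMap_injective (h _).eq).symm.conj g)
  refine (sm4 S.h2 S.nd S.nd₁ S.dim.three hI (S.ad j) (S.le (mul_mem (mul_mem (inv_mem hg)
    (e2 ▸ S.rrX h4 hc hd i)) hg)) h α0 (neg_ne_zero.2 α0) (γ := 1) fun v => ?_).elim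
    (fun ⟨A, h⟩ => k m fun B => ?_) (k j)
  · simp [un_inv_apply, un_apply, e1, app_inv, inv_app]
  · rw [LinearEquiv.coe_toLinearMap_mul, h]
    exact (S.comm hm.symm _ _).mul_left (S.comm hm.symm _ _)

theorem delta (hg : g * g = 1) (h : Nd (ρ i) (ρ i) g D) {μ : F} (μ0 : μ ≠ 0)
    (hD : ∀ x y, f₁.B (D x) (D y) = μ * f₁.B x y) :
    (∀ x, D (D x) = μ • x) ∧ ∀ x y, f₁.B (D x) y = f₁.B x (D y) := by
  obtain ⟨l, hl⟩ := (h.mul h).scalar fun A => hg ▸ Commute.one_left _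
  have e := sym_of_sq S.h2 S.nd₁ h4 hI ⟨μ, μ0, hD⟩ hl
  exact ⟨fun x => S.nd₁.ext_left fun y => by simp [hD, e], e⟩

theorem nd_of (p : OP f₁ a a') (hg : g ∈ X) (c : Commute g (un (ρ j) (f₁.rf a * f₁.rf a'))) :
    ∃ D, Sim f₁ D ∧ Nd (ρ j) (ρ j) g D :=
  have ⟨_, _, o, _⟩ := exists_OB S.h2 S.nd₁ h4 p
  (S.nd_comm h4 o (S.cenV h4 hI p hg c) (S.le hg) c).imp fun _ h => ⟨h.1, h.2.1⟩

theorem sq_mem (p : OP f₁ a a') (hg : g ∈ X)
    (h : Nd (ρ i) (ρ i) (g * un (ρ j) (f₁.rf a * f₁.rf a') * g⁻¹) D) {μ : F} (μ0 : μ ≠ 0)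
    (hD : ∀ x y, f₁.B (D x) (D y) = μ * f₁.B x y) (hμ : IsSquare μ) : g ∈ NF ρ Finset.univ := by
  obtain ⟨e1, e2⟩ := S.delta h4 hI (by rw [conj_mul, ← map_mul, p.sq]; simp) h μ0 hD
  obtain ⟨r, rfl⟩ := hμ
  have r0 := (mul_ne_zero_iff.1 μ0).1
  obtain ⟨u, u', p', q, ε, f1, f2⟩ := eig_pair S.h2 S.nd₁ h4 hI (A := r⁻¹ • (D : End F V₁))
    (fun x y => by simp [e2]) fun x => by simp [e1, smul_smul, r0]
  have q2 : f₁.q ((1 : F) • u + u') = 2 * f₁.q u := by simp [quad_q_add, q, p'.o, two_mul]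
  have q3 := mul_ne_zero S.h2 p'.q1
  rw [LinearMap.smul_apply, inv_smul_eq_iff₀ r0, smul_smul, LinearEquiv.coe_coe] at f1 f2
  have ε0 : r * ε ≠ 0 := fun e => ne_of_q p'.q1 (by simpa [e] using f1)
  have c := h.un (f₁.rf u * f₁.rf ((1 : F) • u + u'))
  rw [← conj_mul (b := D), Sim.rf S.h2 ⟨_, μ0, hD⟩, Sim.rf S.h2 ⟨_, μ0, hD⟩, map_add, map_smul, f1, f2,
    smul_comm, ← smul_add, rf_smul ε0, rf_smul ε0, mul_inv_eq_iff_eq_mul] at c
  refine S.rot_mem h4 hI (j := j) (rot S.h2 p' one_ne_zero (q2 ▸ q3) fun e => q3 (by linear_combination e + q)) hg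
    ((S.nd_of h4 hI p (mul_mem (mul_mem (inv_mem hg) (S.rrX h4 p'.q1 (q2 ▸ q3) i)) hg) ?_).elim
      fun _ h => h.2.nz)
  simpa [mul_assoc] using (show Commute _ _ from c).symm.conj g⁻¹

theorem no_swap (p : OP f₁ a a') (hg : g ∈ X) (hl : l ≠ i) :
    ¬ Nz (ρ i) (ρ l) (g * un (ρ j) (f₁.rf a * f₁.rf a') * g⁻¹) := fun h => by
  obtain ⟨D, hD⟩ := h.exists_equiv
  obtain ⟨b, b', o, -⟩ := exists_OB S.h2 S.nd₁ h4 p
  have xX := S.rrX h4 p.q1 p.q2 j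
  have x2 : un (ρ j) (f₁.rf a * f₁.rf a') * un (ρ j) (f₁.rf a * f₁.rf a') = 1 := by
    rw [← map_mul, p.sq, map_one]
  have e1 := Nd.un hD
  obtain ⟨x, ex⟩ : ∃ x, x = un (ρ j) (f₁.rf a * f₁.rf a') := ⟨_, rfl⟩
  rw [← ex] at e1 x2 xX
  let δ : (V₁ ≃ₗ[F] V₁) →* (V ≃ₗ[F] V) :=
    MonoidHom.mk' (fun e => g⁻¹ * (un (ρ i) e * un (ρ l) (D * e * D⁻¹)) * g) fun e e' => by
      rw [← conj_mul, map_mul, map_mul, ← (S.cu hl _ _).mul_mul_mul_comm]; group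
  have e2 : ∀ e, δ e = g⁻¹ * un (ρ i) e * g * x * (g⁻¹ * un (ρ i) e * g) * x := fun e => by
    change g⁻¹ * (un (ρ i) e * un (ρ l) (D * e * D⁻¹)) * g = _
    rw [← e1, conj_inv, inv_eq_of_mul_eq_one_right x2]; group
  have cx : ∀ e, Commute (δ e) x := fun e => by
    have : δ e = x * (g⁻¹ * un (ρ i) e * g) * x * (g⁻¹ * un (ρ i) e * g) := by
      change g⁻¹ * (un (ρ i) e * un (ρ l) (D * e * D⁻¹)) * g = _
      rw [← (S.cu hl _ _).eq, ← e1, conj_inv, inv_eq_of_mul_eq_one_right x2]; group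
    change _ = _
    nth_rewrite 2 [this]
    rw [e2, mul_assoc _ x x, x2]
    simp [← mul_assoc, x2]
  have dX : ∀ e, un (ρ i) e ∈ X → δ e ∈ X := fun e he => by
    have := mul_mem (mul_mem (inv_mem hg) he) hg
    exact e2 e ▸ mul_mem (mul_mem (mul_mem this xX) this) xX
  have dc : f₁.E ≤ (cen (ρ j)).comap δ := E_le_iff'.2 fun s v t ok => by
    have m := dX _ ((S.gs i).R _ (ei_mem_E s v t))
    refine S.pel h4 o (S.cenV h4 hI p m (ex ▸ cx _)) (S.le m) (ex ▸ cx _) ?_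
    simpa [rt, show f₁.q v = t from ok.ha.symm] using pow_ringChar (δ.comp (rt ok.hu ok.huv)) (.ofAdd 1)
  obtain ⟨s, -, s0, hs⟩ := f₁.quad_iso3 ⊤ (by simp [h4])
  obtain ⟨s', hs', e3⟩ := S.nd₁.exists_partner' hs s0
  obtain ⟨v, v1, v2, v0⟩ := exists_nonsing_hyp S.nd₁ S.dim.three hs hs' e3
  have p' : OP f₁ (f₁.q v • s + s') v := ⟨by simp [quad_q_add, quad_q_smul, *], v0, by simp [*]⟩
  have dι : δ (f₁.rf (f₁.q v • s + s') * f₁.rf v) ∈ cen (ρ j) := dc (by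
    rw [rf_mul_rf_eq_ei hs hs' e3 v1 v2 v0]
    exact mul_mem (mul_mem (ei_mem_E _ _ _) (ei_mem_E _ _ _)) (ei_mem_E _ _ _))
  have m := mul_mem (mul_mem (inv_mem hg) (S.rrX h4 p'.q1 p'.q2 i)) hg
  have nc := S.not_cen (σ := ρ i) h4 p'
  have e4 := p'.sq
  generalize f₁.rf (f₁.q v • s + s') * f₁.rf v = ι at *
  have e5 : g⁻¹ * un (ρ i) ι * g * x * (g⁻¹ * un (ρ i) ι * g)⁻¹ = δ ι * x := by
    rw [e2, mul_assoc _ x x, x2, mul_one, mul_right_inj, inv_eq_iff_mul_eq_one]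
    simp [mul_assoc, show ∀ z, un (ρ i) ι * (un (ρ i) ι * z) = z from fun z => by
      rw [← mul_assoc, ← map_mul, e4, map_one, one_mul]]
  obtain ⟨n, -, hn⟩ := S.sq_mem h4 hI p m (i := j) (D := 1 * (f₁.rf a * f₁.rf a')) (by
    rw [← ex, e5, ex]; exact (nd_one dι).mul (nd_un _ _)) one_ne_zero (fun x y => by
      rw [one_mul, one_mul, mem_O_B (mul_mem (rf_mem_O _) (rf_mem_O _))]) IsSquare.one j (Finset.mem_univ _)
  obtain ⟨B, hB⟩ := hn.exists_equiv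
  have e6 := Nd.un hB (f₁.rf a * f₁.rf a')
  rw [← ex, e5] at e6
  rcases eq_or_ne n j with rfl | hn
  · rw [ex, ← eq_mul_inv_iff_mul_eq, ← map_inv, ← map_mul] at e6
    obtain ⟨t, ht⟩ := (nd_un _ _).scalar (e6 ▸ dι)
    have e7 : ∀ w, δ ι w = t • w := fun w => by
      rw [e6, un_apply, show (_ : End F V₁) = t • 1 from LinearMap.ext ht]; simp
    have e8 : g * δ ι * g⁻¹ ∈ cen (ρ i) := fun A => LinearMap.ext fun w => by simp [e7, app_inv]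
    exact nc (by simpa [δ, mul_assoc] using mul_mem e8 (inv_mem (show un (ρ l) (D * ι * D⁻¹) ∈ cen (ρ i)
      from S.comm hl _)))
  · refine S.not_cen (σ := ρ j) h4 p (ex ▸ (mul_mem_cancel_left dι).1 ?_)
    rw [e6]; exact S.comm hn _

theorem nrmZ (p : OP f₁ a a') : Nrm X (NF ρ Finset.univ) (un (ρ j) (f₁.rf a * f₁.rf a')) :=
  ⟨S.rrX h4 p.q1 p.q2 j, S.un_mem _ _, fun g hg hy => by_contra fun hn => by
  have := S.nt
  have yX := mul_mem (mul_mem hg (S.rrX h4 p.q1 p.q2 j)) (inv_mem hg)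
  obtain ⟨y, ey⟩ : ∃ y, y = g * un (ρ j) (f₁.rf a * f₁.rf a') * g⁻¹ := ⟨_, rfl⟩
  have k : ∀ i, ∃ D, Nd (ρ i) (ρ i) y D ∧ Sim f₁ D ∧ (∀ b, f₁.rf (D (D b)) = f₁.rf b) ∧ ∃ b c w,
      OP f₁ b (D b) ∧ OP f₁ c (D c) ∧ Rot f₁ (f₁.rf b * f₁.rf c) w ∧
        ¬ Commute (f₁.rf b * f₁.rf (D b)) (f₁.rf c * f₁.rf (D c)) := fun i => by
    obtain ⟨l, -, h⟩ := hy i (Finset.mem_univ _)
    obtain rfl : l = i := by_contra fun e => S.no_swap h4 hI p hg e h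
    obtain ⟨D, ⟨μ, μ0, hD⟩, h⟩ := exists_sim h (S.le yX) S.nd S.nd₁ (S.ad _) (S.ad _)
    obtain ⟨e1, e2⟩ := S.delta h4 hI (by rw [conj_mul, ← map_mul, p.sq]; simp) h μ0 hD
    exact ⟨D, ey ▸ h, ⟨μ, μ0, hD⟩, fun b => by rw [e1, rf_smul μ0], exists_adm S.h2 S.nd₁ h4 hI
      (fun e => hn (S.sq_mem h4 hI p hg h μ0 hD e)) hD e1 e2⟩
  have k1 : ∀ {i D b}, Nd (ρ i) (ρ i) y D → Sim f₁ D → (∀ b, f₁.rf (D (D b)) = f₁.rf b) → OP f₁ b (D b) →
      Commute (un (ρ i) (f₁.rf b * f₁.rf (D b))) y ∧ ∃ B μ, Nd (ρ j) (ρ j)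
        (g⁻¹ * un (ρ i) (f₁.rf b * f₁.rf (D b)) * g) B ∧ μ ≠ 0 ∧ ¬ IsSquare μ ∧
          ∀ x y, f₁.B (B x) (B y) = μ * f₁.B x y := fun {i D b} h hD e p' => by
    have c := h.un (f₁.rf b * f₁.rf (D b))
    rw [← conj_mul (b := D), Sim.rf S.h2 hD, Sim.rf S.h2 hD, e, ← rf_comm p'.o, mul_inv_eq_iff_eq_mul] at c
    obtain ⟨B, ⟨μ, μ0, hB⟩, h⟩ := S.nd_of h4 hI p (j := j) (mul_mem (mul_mem (inv_mem hg)
      (S.rrX h4 p'.q1 p'.q2 i)) hg) (by simpa [ey, mul_assoc] using (show Commute _ _ from c).symm.conj g⁻¹)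
    exact ⟨c.symm, B, μ, h, μ0, fun e => hn ((inv_mem_iff (x := g)).1 (S.sq_mem h4 hI p' (inv_mem hg)
      (by rwa [inv_inv]) μ0 hB e)), hB⟩
  have i1 : ∀ i b, (un (ρ i) (f₁.rf b))⁻¹ = un (ρ i) (f₁.rf b) := fun i b => by rw [← map_inv, rf_inv]
  obtain ⟨l, hl⟩ := exists_ne j
  obtain ⟨D, h, hD, e, b, c, w, p1, p2, R, nc⟩ := k j
  obtain ⟨D', h', hD', e', d, -, -, p3, -⟩ := k l
  obtain ⟨c3, B', μ', h3, m3, n3, s3⟩ := k1 h' hD' e' p3
  have k2 : ∀ {b}, OP f₁ b (D b) → ∃ n B, Nd (ρ j) (ρ n) (g⁻¹ * (un (ρ j) (f₁.rf b) * un (ρ l) (f₁.rf d)) * g) B ∧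
      g⁻¹ * (un (ρ j) (f₁.rf b * f₁.rf (D b)) * (un (ρ l) (f₁.rf d * f₁.rf (D' d)) * y)) * g =
        un (ρ n) (B * (f₁.rf a * f₁.rf a') * B⁻¹) := fun {b} p' => by
    obtain ⟨-, B, μ, h1, m1, n1, s1⟩ := k1 h hD e p'
    have e1 : g⁻¹ * (un (ρ j) (f₁.rf b) * un (ρ l) (f₁.rf d)) * g * un (ρ j) (f₁.rf a * f₁.rf a') *
        (g⁻¹ * (un (ρ j) (f₁.rf b) * un (ρ l) (f₁.rf d)) * g)⁻¹ =
        g⁻¹ * (un (ρ j) (f₁.rf b * f₁.rf (D b)) * (un (ρ l) (f₁.rf d * f₁.rf (D' d)) * y)) * g := by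
      rw [map_mul _ (f₁.rf b), mul_assoc (un _ (f₁.rf b)), ← mul_assoc (un _ (f₁.rf (D b))),
        (S.cu hl.symm (f₁.rf (D b)) _).eq, map_mul _ (f₁.rf d), ← Sim.rf S.h2 hD, ← Sim.rf S.h2 hD',
        ← h.un, ← h'.un, mul_inv_rev, mul_inv_rev, mul_inv_rev, i1, i1, ey]
      group
    obtain ⟨n, -, hn⟩ := S.sq_mem h4 hI p (mul_mem (mul_mem (inv_mem hg) (S.ge ⟨mul_mem (S.un_mem _ _)
      (S.un_mem _ _), S.yE h4 hl.symm p'.q1 p3.q1⟩)) hg) (i := j) (D := B * (B' * (f₁.rf a * f₁.rf a')))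
      (by rw [e1]; convert h1.mul (h3.mul (nd_un _ _)) using 1; rw [ey]; group) (mul_ne_zero m1 m3)
      (fun x y => by rw [mul_app B, mul_app B, s1, mul_app B', mul_app B', s3,
        mem_O_B (mul_mem (rf_mem_O _) (rf_mem_O _)), mul_assoc]) (sq_mul_of_not n1 n3) j (Finset.mem_univ _)
    obtain ⟨B, hB⟩ := hn.exists_equiv
    exact ⟨n, B, hB, e1 ▸ Nd.un hB _⟩
  obtain ⟨n, B, h1, e1⟩ := k2 p1
  obtain ⟨n', C, h2, e2⟩ := k2 p2
  rcases eq_or_ne n n' with rfl | hn'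
  · refine hn (S.rot_mem h4 hI R hg (i := j) (j := j) ?_)
    convert (h1.inv.mul h2).nz using 1
    rw [← (S.cu hl _ (f₁.rf b)).eq, ← (S.cu hl _ (f₁.rf c)).eq, map_mul]
    nth_rewrite 1 [← i1 j b]
    group
  have c0 := (S.cu hn' (B * (f₁.rf a * f₁.rf a') * B⁻¹) (C * (f₁.rf a * f₁.rf a') * C⁻¹)).conj g
  rw [← e1, ← e2] at c0
  have c1 := fun {b} (p' : OP f₁ b (D b)) => ((S.cu hl.symm _ (f₁.rf d * f₁.rf (D' d))).mul_right
    (k1 h hD e p').1).symm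
  generalize un (ρ l) (f₁.rf d * f₁.rf (D' d)) * y = t at c0 c1
  refine nc (un_inj (ρ j) (mul_right_cancel (b := t * t) ?_))
  rw [map_mul _ (_ * _), map_mul _ (_ * _), ← (c1 p2).mul_mul_mul_comm, ← (c1 p1).mul_mul_mul_comm]
  simpa [mul_assoc] using c0.eq⟩

/-- Overgroups of `O₄⁻ ≀ S_t`. -/
theorem le4 : X ≤ NF ρ Finset.univ := by
  have := S.nt
  have := finite_equiv F V
  have H : IS X (NF ρ Finset.univ) fun l => un (ρ l) '' Zr f₁ := by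
    refine ⟨?_, ?_, fun g hg H l => ?_, ?_, ?_, ?_, ?_⟩
    · rintro l _ ⟨_, ⟨a, a', p, -, rfl⟩, rfl⟩
      exact S.nrmZ h4 hI p
    · rintro l _ ⟨_, ⟨a, a', p, -, rfl⟩, rfl⟩
      rw [← map_mul, p.sq, map_one]
    · obtain ⟨n, -, p⟩ := H l (Finset.mem_univ _)
      obtain ⟨D, h1, h⟩ := exists_sim p (S.le hg) S.nd S.nd₁ (S.ad _) (S.ad _)
      exact ⟨n, by rintro _ ⟨e, he, rfl⟩; exact ⟨_, Zr.perm S.h2 h1 he, (h.un e).symm⟩⟩
    · rintro l n h _ ⟨e, -, rfl⟩ _ ⟨e', -, rfl⟩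
      exact S.cu h _ _
    · rintro l _ ⟨e, he, rfl⟩ _ ⟨e', he', rfl⟩ h c
      exact ⟨_, Zr.mul S.h2 S.nd₁ h4 hI he he' (mt (congrArg _) h) (un_inj (ρ l) (by simpa using c.eq)),
        map_mul _ _ _⟩
    · rintro l _ ⟨e, he, rfl⟩
      obtain ⟨z, hz, h, c⟩ := Zr.two S.h2 S.nd₁ h4 he
      exact ⟨_, ⟨z, hz, rfl⟩, (un_inj _).ne h, c.map _⟩
    · rintro l _ ⟨e, he, rfl⟩ h
      exact Zr.nc S.h2 S.nd₁ h4 hI he fun z hz => un_inj (ρ l) (by simpa using (h _ ⟨z, hz, rfl⟩).eq)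
  obtain ⟨a, ha⟩ := exists_q_ne S.nd₁
  obtain ⟨a', p, q⟩ := exists_Z S.h2 S.nd₁ h4 ha
  obtain ⟨i, j, hij⟩ := exists_pair_ne I
  exact H.le hij ⟨_, ⟨a, a', p, q, rfl⟩, rfl⟩ ⟨_, ⟨a, a', p, q, rfl⟩, rfl⟩

omit h4 hI in
theorem le_NF : X ≤ NF ρ Finset.univ :=
  S.dim.elim (S.le6 · (Classical.arbitrary I)) fun h => S.le4 h.1 h.2

end CE

universe u v

/-- The tensor wreath subgroup is maximal among the subgroups of `O` not containing `Ω`. -/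
theorem main {V₁ : Type*} [AddCommGroup V₁] [Module F V₁] [FiniteDimensional F V₁]
    {f₁ : Form (FormType.quad F) V₁} (n : ℕ) : ∀ {I : Type v} [Fintype I] [DecidableEq I] {V : Type u}
    [AddCommGroup V] [Module F V] [FiniteDimensional F V] [Nontrivial V] {f : Form (FormType.quad F) V}
    {ρ : I → Rep F V₁ V}, Fintype.card I = n → PE f f₁ ρ → ∀ X, NF ρ Finset.univ ⊓ f.E ≤ X →
      X ≤ f.O → f.E ≤ X ∨ X ≤ NF ρ Finset.univ := by
  induction n using Nat.strong_induction_on with | _ n ih =>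
  intro I _ _ V _ _ _ _ f ρ hn S X h1 h2
  refine or_iff_not_imp_left.2 fun h3 => ?_
  have := S.nt
  rcases subsingleton_or_nontrivial I with h | h
  · intro g _ l hl
    have k : ∀ g : V ≃ₗ[F] V, ∃ B, (g : End F V) = ρ l B := fun g =>
      S.fam.mem_range hl trivial fun i _ hil => absurd (h.elim i l) hil
    obtain ⟨B, hB⟩ := k g
    obtain ⟨B', hB'⟩ := k g⁻¹
    exact ⟨l, hl, fun A => ⟨B * A * B', fun v => by simp [← hB, ← hB', inv_app]⟩⟩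
  have L : ∀ j, ∃ E', LE f f₁ ρ j E' ∧ (AE f f₁ X ρ → St f₁ (ρ j) X) := fun j => by
    obtain ⟨U, τ, hτ⟩ := exists_tn (ρ j)
    obtain ⟨fU, κ, D⟩ := S.exists_LF hτ
    have := hτ.nt
    have L := D.le (ih _ (hn ▸ Fintype.card_subtype_lt (x := j) (by simp)) rfl D.po)
    exact ⟨_, L, fun A => D.st L A (exists_ne j).choose_spec⟩
  have A : AE f f₁ X ρ := ⟨S, h2, h1, h3, fun j => (L j).imp fun _ h => h.1⟩
  exact CE.le_NF ⟨S, h2, h1, fun j => (L j).elim fun _ h => h.2 A, A.cn, A.loc⟩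

open Matrix Cfsg Cfsg.Geo CL.Tv CL.Root in
/-- The stabilizer of a decomposition `O_k ⊗ ⋯ ⊗ O_k` with `k` even is maximal in `Ω`. -/
theorem wreath_e_maximal {F : Type*} [Field F] [Fintype F] {ι : Type} [Fintype ι] [DecidableEq ι]
    (hodd : Odd (Fintype.card F)) {Q : (ι → F) → F}
    (hQ : IsNondegenerateQuadraticForm Q) {k t : ℕ} (ht : 2 ≤ t) (hke : Even k)
    (e : ι ≃ (Fin t → Fin k)) (P : GL ι F) {f₁ : (Fin k → F) → (Fin k → F) → F} (hf₁ : IsSymmetricForm f₁)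
    (hk : 6 ≤ k ∨ 4 ≤ k ∧ ¬ IsPlusTypeOn (fun v => f₁ v v) ⊤)
    (hT : IsTensorPowerFormStructure id (QuadraticMap.polar Q) f₁ e P) :
    IsMaximalIn (omegaGL Q) (tensorWreathSubgroup k t e P ⊓ omegaGL Q) := by
  obtain ⟨c₀, -, H⟩ := form_pure (σ := RingHom.id F) (bilin_eq_gram hf₁.bilinear) hT
  have h2 := FGL.two_ne_zero_of_odd hodd
  have : NeZero k := ⟨by omega⟩
  have : NeZero t := ⟨by omega⟩
  have : Nonempty ι := ⟨e.symm 0⟩
  have T := ptT e P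
  have ext : ∀ A B A' B' : End F (ι → F), (∀ xs ys, (quadOfGeo hQ).B (A ((crd e P ∘ pi0) xs))
      (B ((crd e P ∘ pi0) ys)) = (quadOfGeo hQ).B (A' ((crd e P ∘ pi0) xs)) (B' ((crd e P ∘ pi0) ys))) →
      ∀ v w, (quadOfGeo hQ).B (A v) (B w) = (quadOfGeo hQ).B (A' v) (B' w) := fun A B A' B' H v w =>
    LinearMap.congr_fun₂ (T.ext
      (f := (bilin hQ.polar_bilinear).compl₁₂ A B) (g := (bilin hQ.polar_bilinear).compl₁₂ A' B')
      fun xs => T.ext (H xs)) v w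
  have nd : (ofSymm h2 (bilin hf₁.bilinear) fun x y => hf₁.symm y x).Nondeg :=
    fun x hx => by_contra fun x0 => ((hf₁.nondegenerate x x0).2).elim fun y hy => hy (hx y)
  have S : PE (quadOfGeo hQ) (ofSymm h2 (bilin hf₁.bilinear) fun x y => hf₁.symm y x) (rhoT e P) := by
    refine ⟨T.fam, quadOfGeo_nondeg hQ, nd, h2,
      fun i A A' h => ext _ 1 1 _ fun xs ys => ?_, fun a b => ?_, ?_⟩
    · simp only [End.one_apply, T.app, quadOfGeo_B, H]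
      congr 1
      refine Finset.prod_congr rfl fun j _ => ?_
      rcases eq_or_ne j i with rfl | e
      · simp only [Function.update_self]; exact h _ _
      · simp [e]
    · obtain ⟨g, -, g2, g3⟩ := T.exists_perm (Equiv.swap a b)
      refine ⟨g, mem_O_of_B h2 (ext g g 1 1 fun xs ys => ?_), fun l A v => by
        simpa using g3 (Equiv.swap a b l) A v⟩
      simp only [LinearEquiv.coe_coe, g2, End.one_apply, quadOfGeo_B, H]
      exact congrArg _ (Equiv.prod_comp (Equiv.swap a b) fun j => f₁ (xs j) (ys j))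
    · rw [Nat.even_iff] at hke
      by_cases h : 6 ≤ k
      · exact Or.inl (by simpa using h)
      have h' := hk.resolve_left h
      exact Or.inr ⟨by simp; omega, (idx_of_minus (by omega) nd (fun x hx =>
        (div_eq_zero_iff.1 hx).resolve_right h2) fun _ => h'.2).resolve_left (by simp; omega)⟩
  have hij : (0 : Fin t) ≠ ⟨1, ht⟩ := by simp [Fin.ext_iff]
  exact isMaximalIn_of_act (mem_omegaGL_iff_E (quadOfGeo_nondeg hQ) (by simpa using S.five hij))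
    (mem_wreath_iff (by omega) (by omega) e P) (S.not_le hij) fun K h1 h2 ⟨g, hg, hg'⟩ =>
      (main _ rfl S K h1 (h2.trans E_le_O)).resolve_right fun h => hg' (h hg)

end CL.WrE
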