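/-
Tensor powers of a symplectic space of dimension 2 or 4 in characteristic two: the stabilizer of the
decomposition lies in the normalizer of a Clifford space.
-/
import Mathlib
import Cfsg.Agent.CLAS.WrS5

set_option autoImplicit false
set_option linter.unusedSectionVars false
set_option maxHeartbeats 200000

namespace CL.WrN

open Module CL.ExtF CL.Tens CL.Wr CL.WrS CL.Witt CL.Witt.Form CL.Root Function

attribute [-simp] LinearEquiv.coe_inv
attribute [local simp] FormType.alt_σ FormType.alt_ε alt_B_self FormType.quad_σ FormType.quad_ε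
  FormType.alt_π FormType.quad_π

variable {F : Type*} [Field F] {V₁ V : Type*} [AddCommGroup V₁] [Module F V₁] [AddCommGroup V]
  [Module F V] {f₁ : Form (FormType.alt F) V₁} {S : Submodule F (End F V₁)}

/-- A Clifford space of operators of the factor. -/
structure Cl (f₁ : Form (FormType.alt F) V₁) (S : Submodule F (End F V₁)) : Prop where
  sim : ∀ (D : V₁ ≃ₗ[F] V₁) (κ : F), κ ≠ 0 → (∀ x y, f₁.B x y = κ * f₁.B (D x) (D y)) →
    ∀ a ∈ S, (D : End F V₁) * a * (D⁻¹ : V₁ ≃ₗ[F] V₁) ∈ S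
  adj : ∀ a ∈ S, ∀ x y, f₁.B (a x) y = f₁.B x (a y)
  sq : ∀ a ∈ S, ∃ μ : F, a * a = μ • 1
  gen : ∀ R : Subalgebra F (End F V₁), (∀ a ∈ S, a ∈ R) → ∀ A, A ∈ R
  nil : ∃ n ∈ S, n ≠ 0 ∧ n * n = 0

section Alg
variable {A : Type*} [Ring A] [Algebra F A] (h2 : (2 : F) = 0)
include h2

theorem add_self' {M : Type*} [AddCommGroup M] [Module F M] (x : M) : x + x = 0 := by
  rw [← two_smul F, h2, zero_smul]

theorem neg_eq' {M : Type*} [AddCommGroup M] [Module F M] (x : M) : -x = x :=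
  neg_eq_of_add_eq_zero_left (add_self' h2 x)

omit h2 in
theorem anti {R : Submodule F A} (H : ∀ a ∈ R, ∃ μ : F, a * a = μ • 1) {a b : A} (ha : a ∈ R)
    (hb : b ∈ R) : ∃ μ : F, a * b + b * a = μ • 1 := by
  obtain ⟨μ, h1⟩ := H a ha
  obtain ⟨ν, h3⟩ := H b hb
  obtain ⟨κ, h4⟩ := H _ (R.add_mem ha hb)
  refine ⟨κ - μ - ν, ?_⟩
  rw [sub_smul, sub_smul, ← h1, ← h3, ← h4]
  noncomm_ring

omit h2 in
theorem sq_of_span {s : Set A} (h1 : ∀ a ∈ s, ∃ μ : F, a * a = μ • 1)
    (h3 : ∀ a ∈ s, ∀ b ∈ s, ∃ μ : F, a * b + b * a = μ • 1) :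
    ∀ a ∈ Submodule.span F s, ∃ μ : F, a * a = μ • 1 := by
  have k : ∀ a ∈ Submodule.span F s, ∀ b ∈ Submodule.span F s, ∃ μ : F, a * b + b * a = μ • 1 := by
    intro a ha b hb
    induction ha, hb using Submodule.span_induction₂ with
    | mem_mem a b ha hb => exact h3 a ha b hb
    | zero_left => exact ⟨0, by simp⟩
    | zero_right => exact ⟨0, by simp⟩
    | add_left a b c _ _ _ p q =>
      obtain ⟨μ, p⟩ := p; obtain ⟨ν, q⟩ := q
      exact ⟨μ + ν, by rw [add_smul, ← p, ← q]; noncomm_ring⟩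
    | add_right a b c _ _ _ p q =>
      obtain ⟨μ, p⟩ := p; obtain ⟨ν, q⟩ := q
      exact ⟨μ + ν, by rw [add_smul, ← p, ← q]; noncomm_ring⟩
    | smul_left r a b _ _ p =>
      obtain ⟨μ, p⟩ := p
      exact ⟨r * μ, by rw [mul_smul, ← p]; simp⟩
    | smul_right r a b _ _ p =>
      obtain ⟨μ, p⟩ := p
      exact ⟨r * μ, by rw [mul_smul, ← p]; simp⟩
  intro a ha
  induction ha using Submodule.span_induction with
  | mem a ha => exact h1 a ha
  | zero => exact ⟨0, by simp⟩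
  | add a b ha hb p q =>
    obtain ⟨μ, p⟩ := p; obtain ⟨ν, q⟩ := q
    obtain ⟨κ, r⟩ := k a ha b hb
    exact ⟨μ + ν + κ, by rw [add_smul, add_smul, ← p, ← q, ← r]; noncomm_ring⟩
  | smul r a _ p =>
    obtain ⟨μ, p⟩ := p
    exact ⟨r * r * μ, by rw [smul_mul_smul_comm, p, smul_smul]⟩

theorem sieg_sq {v w : A} (hc : Commute v w) (hw : w * w = 0) : (1 + v * w) * (1 + v * w) = 1 := by
  have : v * w * (v * w) = 0 := by rw [hc.symm.mul_mul_mul_comm, hw, mul_zero]
  rw [add_mul, mul_add, mul_add, this]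
  simp [add_assoc, add_self' h2]

theorem sieg_conj {v w u : A} {μ α β : F} (hc : Commute v w) (hw : w * w = 0) (hv : v * v = μ • 1)
    (h1 : u * v + v * u = α • 1) (h3 : u * w + w * u = β • 1) :
    (1 + v * w) * u * (1 + v * w) = u + β • v + (α + β * μ) • w := by
  have e1 : u * v = v * u + α • 1 := by rw [← h1, add_comm (u * v), ← add_assoc, add_self' h2, zero_add]
  have e2 : u * w = w * u + β • 1 := by rw [← h3, add_comm (u * w), ← add_assoc, add_self' h2, zero_add]
  have e3 : u * (v * w) = v * w * u + β • v + α • w := by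
    rw [← mul_assoc, e1, add_mul, mul_assoc, e2]; simp [mul_add, mul_assoc]
  have e4 : v * w * (v * w) = 0 := by rw [hc.symm.mul_mul_mul_comm, hw, mul_zero]
  have e5 : v * w * v = μ • w := by rw [mul_assoc, ← hc.eq, ← mul_assoc, hv]; simp
  have e6 : v * w * u * (v * w) = (β * μ) • w := by
    rw [mul_assoc (v * w), e3, mul_add, mul_add, ← mul_assoc, e4, mul_smul_comm, e5, mul_smul_comm,
      mul_assoc, hw]
    simp [smul_smul]
  rw [add_mul, add_mul, mul_add, mul_add, e6, one_mul, mul_one, mul_one, e3, add_smul]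
  linear_combination (norm := abel) add_self' h2 (v * w * u)

omit h2 in
theorem sieg_comm {x y w : A} (hx : x * x = 1) (h1 : Commute x w) (h3 : Commute y w)
    (hw : w * w = 0) : x * (1 + y * w) * x * (1 + y * w) = 1 + (x * y * x + y) * w := by
  have e1 : x * (1 + y * w) * x = 1 + x * y * x * w := by
    rw [mul_add, add_mul, mul_one, hx, mul_assoc (x * y), h1.eq]; simp [mul_assoc]
  have e2 : x * y * x * w * (y * w) = 0 := by
    rw [mul_assoc _ w, ← mul_assoc w, ← h3.eq, mul_assoc y w, hw, mul_zero, mul_zero]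
  rw [e1, add_mul, mul_add, mul_add, e2]
  simp only [add_mul, one_mul, mul_one, add_zero]
  abel

end Alg

section Small
variable [FiniteDimensional F V₁] (hf : f₁.Nondeg) (h2 : (2 : F) = 0)
include hf h2

theorem B_comm (x y : V₁) : f₁.B y x = f₁.B x y := by rw [f₁.alt_symm, neg_eq' h2]

/-- Self-adjoint operators. -/
def selfAdj (f₁ : Form (FormType.alt F) V₁) : Submodule F (End F V₁) where
  carrier := {a | ∀ x y, f₁.B (a x) y = f₁.B x (a y)}
  zero_mem' := by simp
  add_mem' ha hb x y := by simp [ha x y, hb x y]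
  smul_mem' s _ ha x y := by simp [ha x y]

theorem cl_two (hd : finrank F V₁ = 2) : Cl f₁ (selfAdj f₁) := by
  have : Nontrivial V₁ := Module.nontrivial_of_finrank_pos (R := F) (by omega)
  obtain ⟨c, hc⟩ := exists_ne (0 : V₁)
  obtain ⟨d, p⟩ := hf.exists_B_eq hc 1
  have m : ∀ c, tv f₁ c c ∈ selfAdj f₁ := fun c x y => by simp [B_comm hf h2 c x, mul_comm]
  refine ⟨fun D κ _ h a ha x y => ?_, fun a ha => ha, fun a ha => ⟨f₁.B (a c) (a d), ?_⟩,
    fun R H => gen hf R fun c => H _ (m c), _, m c, tv_ne hf hc hc, by simp [WrS.tv_mul]⟩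
  · obtain ⟨x, rfl⟩ := D.surjective x
    obtain ⟨y, rfl⟩ := D.surjective y
    have := ha x y
    rw [h, h x] at this
    simpa [inv_app, ‹κ ≠ 0›] using this
  · have e : ∀ x, x = f₁.B c x • d - f₁.B d x • c := fun x => by
      simpa [p] using (LinearMap.congr_fun (tv_sub hf hd c d) x).symm
    refine LinearMap.ext fun x => hf.ext_right fun y => ?_
    rw [End.mul_apply, ← ha, e x, e y]
    simp only [map_sub, map_smul, LinearMap.sub_apply, LinearMap.smul_apply, smul_eq_mul,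
      End.one_apply, alt_B_self, p, f₁.alt_symm c d, f₁.alt_symm (a c) (a d), FormType.alt_σ,
      map_smulₛₗ, RingHom.id_apply]
    ring

theorem B_four (hd : finrank F V₁ = 4) : ∃ c c' d d', f₁.B c c' = 1 ∧ f₁.B d c' = 0 ∧ f₁.B c d = 0 ∧
    d ≠ 0 ∧ ∀ x y, f₁.B x y = f₁.B c x * f₁.B c' y - f₁.B c' x * f₁.B c y +
      (f₁.B d x * f₁.B d' y - f₁.B d' x * f₁.B d y) := by
  obtain ⟨c, c', d, d', p1, p2, p3, p4, p5, p6⟩ := exists_hyp2 hf (by omega)
  refine ⟨c, c', d, d', p1, f₁.B_eq_zero_symm p4, p5, by rintro rfl; simp at p2, fun x y => ?_⟩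
  let L : V₁ →ₗ[F] (F × F) × F × F := ((f₁.B c).prod (f₁.B c')).prod ((f₁.B d).prod (f₁.B d'))
  have hL : ∀ a b a' b' : F, L (a • c' - b • c + (a' • d' - b' • d)) = ((a, b), a', b') := by
    intro a b a' b'
    simp [L, p1, p2, p3, p4, p5, p6, f₁.alt_symm c c', f₁.alt_symm d d', f₁.alt_symm c d',
      f₁.alt_symm c' d, f₁.alt_symm c d, f₁.alt_symm c' d']
  have inj : Injective L := (LinearMap.injective_iff_surjective_of_finrank_eq_finrank
    (by simp [hd])).2 fun ⟨⟨a, b⟩, a', b'⟩ => ⟨_, hL a b a' b'⟩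
  have e : x = f₁.B c x • c' - f₁.B c' x • c + (f₁.B d x • d' - f₁.B d' x • d) :=
    inj (by rw [hL]; rfl)
  conv_lhs => rw [e]
  simp

/-- The five-dimensional Clifford space. -/
def five (f₁ : Form (FormType.alt F) V₁) : Submodule F (End F V₁) :=
  Submodule.span F {a | ∃ c d, f₁.B c d = 0 ∧ a = sa f₁ 1 c d}

theorem five_alt {a : End F V₁} (ha : a ∈ five f₁) (x : V₁) : f₁.B (a x) x = 0 := by
  induction ha using Submodule.span_induction with
  | mem a ha =>
    obtain ⟨c, d, -, rfl⟩ := ha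
    simp only [sa, one_smul, LinearMap.add_apply, WrS.tv_apply, map_add, map_smulₛₗ, FormType.alt_σ,
      LinearMap.smul_apply, smul_eq_mul]
    linear_combination f₁.B c x * f₁.B d x * h2
  | zero => simp
  | add a b _ _ p q => simp [p, q]
  | smul r a _ p => simp [p]

theorem cl_four (hd : finrank F V₁ = 4) : Cl f₁ (five f₁) := by
  obtain ⟨c, c', d, d', p1, p2, p3, d0, p4⟩ := B_four hf h2 hd
  have m : ∀ c d, f₁.B c d = 0 → sa f₁ 1 c d ∈ five f₁ := fun c d h =>
    Submodule.subset_span ⟨c, d, h, rfl⟩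
  refine ⟨fun D κ k0 h a ha => ?_, fun a ha x y => ?_, sq_of_span ?_ ?_,
    fun R H => gen hf R fun y => ?_, _, m c d p3, fun e => d0 ?_, sa_sq p3⟩
  · induction ha using Submodule.span_induction with
    | mem a ha =>
      obtain ⟨x, y, h0, rfl⟩ := ha
      convert (five f₁).smul_mem κ (m (D x) (D y) (by simpa [k0, h0] using (h x y).symm)) using 1
      refine LinearMap.ext fun z => ?_
      obtain ⟨z, rfl⟩ := D.surjective z
      simp [sa, inv_app, h x z, h y z, smul_smul]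
    | zero => simp
    | add a b _ _ p q => simpa [mul_add, add_mul] using (five f₁).add_mem p q
    | smul r a _ p => simpa using (five f₁).smul_mem r p
  · have := five_alt hf h2 ha (x + y)
    simp only [map_add, LinearMap.add_apply, five_alt hf h2 ha, f₁.alt_symm x (a y)] at this
    linear_combination this
  · rintro _ ⟨x, y, h, rfl⟩
    exact ⟨0, by rw [sa_sq h, zero_smul]⟩
  · rintro _ ⟨x, y, h, rfl⟩ _ ⟨x', y', h', rfl⟩
    refine ⟨f₁.B x y' * f₁.B y x' + f₁.B x x' * f₁.B y y', LinearMap.ext fun u =>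
      hf.ext_right fun w => ?_⟩
    have q1 : f₁.B x y * (f₁.B x' y' * f₁.B u w - f₁.B x' u * f₁.B y' w + f₁.B x' w * f₁.B y' u)
        - f₁.B x x' * (f₁.B y y' * f₁.B u w - f₁.B y u * f₁.B y' w + f₁.B y w * f₁.B y' u)
        + f₁.B x y' * (f₁.B y x' * f₁.B u w - f₁.B y u * f₁.B x' w + f₁.B y w * f₁.B x' u)
        - f₁.B x u * (f₁.B y x' * f₁.B y' w - f₁.B y y' * f₁.B x' w + f₁.B y w * f₁.B x' y')
        + f₁.B x w * (f₁.B y x' * f₁.B y' u - f₁.B y y' * f₁.B x' u + f₁.B y u * f₁.B x' y') = 0 := by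
      simp only [p4 x, p4 y, p4 x', p4 y', p4 u]
      ring
    simp only [sa, one_smul, LinearMap.add_apply, End.mul_apply, WrS.tv_apply, map_add, map_smulₛₗ,
      FormType.alt_σ, LinearMap.smul_apply, smul_eq_mul, End.one_apply, RingHom.id_apply,
      B_comm hf h2 x x', B_comm hf h2 y x', B_comm hf h2 x y', B_comm hf h2 y y', B_comm hf h2 _ w]
    rw [h, h'] at q1
    linear_combination q1 + (f₁.B x u * f₁.B y x' * f₁.B y' w + f₁.B x y' * f₁.B y u * f₁.B x' w
      + f₁.B x x' * f₁.B y w * f₁.B y' u + f₁.B x w * f₁.B y y' * f₁.B x' u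
      - f₁.B x y' * f₁.B y x' * f₁.B u w) * h2
  · obtain ⟨x, z, q1, q2, q3⟩ := exists_hyp hf (by omega) y
    have := R.mul_mem (H _ (m x y (f₁.B_eq_zero_symm q1))) (H _ (m z y (f₁.B_eq_zero_symm q2)))
    rwa [sa_mul q1 q2, q3, one_mul, one_smul] at this
  · simpa [sa, p1, p2] using LinearMap.congr_fun e c'

end Small

variable {I : Type*} [Fintype I] [DecidableEq I] {ρ : I → Rep F V₁ V} {π : (I → V₁) → V}
  {f : Form (FormType.quad F) V} {i j : I} {c₀ : F}

variable (ρ S) in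
/-- The Clifford space of the tensor power. -/
def CU : Submodule F (End F V) := Submodule.span F {u | ∃ i, ∃ a ∈ S, u = ρ i a}

theorem mem_CU (i : I) {a : End F V₁} (ha : a ∈ S) : ρ i a ∈ CU S ρ :=
  Submodule.subset_span ⟨i, a, ha, rfl⟩

/-- The normalizer of a space of operators. -/
def NU [Finite F] [FiniteDimensional F V] (R : Submodule F (End F V)) : Subgroup (V ≃ₗ[F] V) :=
  let M : Submonoid (V ≃ₗ[F] V) :=
    { carrier := {g | ∀ u ∈ R, g.conjAlgEquiv F u ∈ R}
      one_mem' := fun _ h => h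
      mul_mem' := fun ha hb u hu => ha _ (hb u hu) }
  { M with
    inv_mem' := fun {g} hg =>
      have := finite_equiv F V
      Submonoid.powers_le.2 (show g ∈ M from hg)
        (mem_powers_iff_mem_zpowers.2 (Subgroup.inv_mem _ (Subgroup.mem_zpowers g))) }

variable (f₁ S ρ π f c₀) in
/-- The data of the tensor power. -/
structure PN : Prop extends PT ρ π, Cl f₁ S where
  two : (2 : F) = 0
  nd : f.Nondeg
  nd₁ : f₁.Nondeg
  mul : ∀ xs ys, f.B (π xs) (π ys) = c₀ * ∏ i, f₁.B (xs i) (ys i)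
  c0 : c₀ ≠ 0
  q0 : ∀ xs, f.q (π xs) = 0
  big : 9 ≤ finrank F V
  third : ∀ i j : I, (∃ l, l ≠ i ∧ l ≠ j) ∨ ∀ a ∈ S, ∀ x, f₁.B (a x) x = 0

namespace PN

variable [FiniteDimensional F V₁] [Nontrivial V₁] [FiniteDimensional F V] [Finite F]
  (N : PN f₁ S ρ π f c₀)
include N

theorem nt : Nontrivial V := Module.nontrivial_of_finrank_pos (R := F) (by have := N.big; omega)

theorem adjV (i : I) {A : End F V₁} (H : ∀ x y, f₁.B (A x) y = f₁.B x (A y)) (v w : V) :
    f.B (ρ i A v) w = f.B v (ρ i A w) := by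
  refine LinearMap.congr_fun (N.ext (f := f.B w ∘ₗ ρ i A) (g := f.B (ρ i A w)) fun xs => ?_) v
    |> fun h => by rw [f.quad_symm, f.quad_symm (ρ i A w)]; exact h
  refine LinearMap.congr_fun (N.ext (f := f.B (ρ i A (π xs))) (g := f.B (π xs) ∘ₗ ρ i A)
    fun ys => ?_) w |> fun h => by
      rw [LinearMap.comp_apply, f.quad_symm, f.quad_symm (π xs)]; exact h
  simp only [LinearMap.comp_apply, N.app, N.mul]
  congr 1
  refine Finset.prod_congr rfl fun j _ => ?_
  rcases eq_or_ne j i with rfl | e <;> simp [*]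

theorem sqU : ∀ u ∈ CU S ρ, ∃ μ : F, u * u = μ • 1 := by
  refine sq_of_span ?_ ?_
  · rintro _ ⟨i, a, ha, rfl⟩
    obtain ⟨μ, h⟩ := N.sq a ha
    exact ⟨μ, by rw [← map_mul, h, map_smul, map_one]⟩
  · rintro _ ⟨i, a, ha, rfl⟩ _ ⟨j, b, hb, rfl⟩
    rcases eq_or_ne i j with rfl | e
    · obtain ⟨μ, h⟩ := anti N.sq ha hb
      exact ⟨μ, by rw [← map_mul, ← map_mul, ← map_add, h, map_smul, map_one]⟩
    · exact ⟨0, by rw [(N.comm e a b).eq, add_self' N.two, zero_smul]⟩

theorem scalar {ξ : End F V} (H : ∀ u ∈ CU S ρ, Commute ξ u) : ∃ μ : F, ξ = μ • 1 :=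
  N.fam.cent ξ trivial fun i _ A => Commute.symm (N.gen
    ((Subalgebra.centralizer F {ξ}).comap (ρ i)) (fun a ha _ h => h ▸ (H _ (mem_CU i ha)).eq) A ξ
    rfl).symm

theorem NF_le [Nonempty I] (h2 : 2 ≤ finrank F V₁) : NF ρ Finset.univ ⊓ f.O ≤ NU (CU S ρ) := by
  have := N.nt
  rintro g ⟨hg, hO⟩ u hu
  obtain ⟨σ, D, H⟩ := (N.mem_NF_iff h2).1 hg
  obtain ⟨c, hc⟩ := exists_ne (0 : V₁)
  obtain ⟨d, p⟩ := N.nd₁.exists_B_eq hc 1
  induction hu using Submodule.span_induction with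
  | zero => simp
  | add a b _ _ p q => simpa using (CU S ρ).add_mem p q
  | smul r a _ p => simpa using (CU S ρ).smul_mem r p
  | mem u hu =>
    obtain ⟨i, a, ha, rfl⟩ := hu
    obtain ⟨i, rfl⟩ := σ.surjective i
    have k : ∀ x y, f₁.B x y =
        (∏ l ∈ Finset.univ.erase i, f₁.B (D l c) (D l d)) * f₁.B (D i x) (D i y) := fun x y => by
      have := mem_O_B hO (π (update (fun _ => c) (σ i) x)) (π (update (fun _ => d) (σ i) y))
      rw [H, H, N.mul, N.mul, mul_right_inj' N.c0, ← Finset.mul_prod_erase _ _ (Finset.mem_univ i),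
        ← Finset.mul_prod_erase _ _ (Finset.mem_univ (σ i)), Finset.prod_eq_one (s := .erase _ (σ i))
          fun l hl => by simp [Finset.ne_of_mem_erase hl, p]] at this
      simp only [update_self, mul_one] at this
      rw [← this, mul_comm]
      congr 1
      exact Finset.prod_congr rfl fun l hl => by simp [Finset.ne_of_mem_erase hl]
    convert mem_CU i (N.sim (D i) _ (fun e => by simpa [e, p] using k c d) k a ha) using 1
    refine LinearMap.ext fun v => ?_
    obtain ⟨v, rfl⟩ := g.surjective v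
    simpa using N.nz_of H i a v

theorem sieg (hij : i ≠ j) {a n : End F V₁} (ha : a ∈ S) (hn : n ∈ S) (h0 : n * n = 0) :
    ∃ g ∈ f.O ⊓ NU (CU S ρ), (g : End F V) = 1 + ρ i a * ρ j n := by
  have hc := N.comm hij a n
  have hw : ρ j n * ρ j n = 0 := by rw [← map_mul, h0, map_zero]
  have e := sieg_sq N.two hc hw
  have ad : ∀ v w, f.B (ρ i a (ρ j n v)) w = f.B v (ρ i a (ρ j n w)) := fun v w => by
    rw [N.adjV i (N.adj a ha), N.adjV j (N.adj n hn), cm_app (fun A => (N.comm hij A n).symm)]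
  refine ⟨LinearEquiv.ofLinearMap _ _ e e, ⟨f.isIsom_of_span f _ N.span (fun x _ y _ => ?_) ?_,
    fun u hu => ?_⟩, rfl⟩
  · have := congrArg (f.B x) (LinearMap.congr_fun e y)
    simp only [End.mul_apply, LinearMap.add_apply, End.one_apply, map_add] at this
    simpa [ad, add_assoc] using this
  · rintro _ ⟨xs, rfl⟩
    change f.q (π xs + ρ i a (ρ j n (π xs))) = _
    rw [quad_q_add, ← N.adjV i (N.adj a ha), N.app, N.app, N.app, N.q0, N.q0, N.mul]
    rcases N.third i j with ⟨l, h1, h2⟩ | h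
    · rw [Finset.prod_eq_zero (Finset.mem_univ l) (by simp [h1, h2])]; simp
    · rw [Finset.prod_eq_zero (Finset.mem_univ i) (by simp [hij, h a ha])]; simp
  · obtain ⟨μ, h1⟩ := N.sqU _ (mem_CU i ha)
    obtain ⟨α, h2⟩ := anti N.sqU hu (mem_CU i ha)
    obtain ⟨β, h3⟩ := anti N.sqU hu (mem_CU j hn)
    exact (sieg_conj N.two hc hw h1 h2 h3 ▸ (CU S ρ).add_mem ((CU S ρ).add_mem hu
      ((CU S ρ).smul_mem _ (mem_CU i ha))) ((CU S ρ).smul_mem _ (mem_CU j hn)) :
        (1 + ρ i a * ρ j n) * u * (1 + ρ i a * ρ j n) ∈ _)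

theorem not_NF (hij : i ≠ j) {m n : End F V₁} (n0 : n ≠ 0) (h0 : n * n = 0) {g : V ≃ₗ[F] V}
    (e : (g : End F V) = 1 + ρ i m * ρ j n) (hg : g ∈ NF ρ Finset.univ) (A : End F V₁) :
    Commute m A := by
  have := N.nt
  have hw : ρ j n * ρ j n = 0 := by rw [← map_mul, h0, map_zero]
  have z : ∀ B, ρ i B * ρ j n = 0 → B = 0 := fun B h => by_contra fun hB =>
    n0 (rho_inj (ρ j) ((eq_zero_of_mul hB (fun C => N.comm hij.symm n C) h).trans (map_zero _).symm))
  obtain ⟨l, -, h⟩ := hg i (Finset.mem_univ i)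
  have h' : ∀ A, ∃ A', (1 + ρ i m * ρ j n) * ρ i A = ρ l A' * (1 + ρ i m * ρ j n) := fun A =>
    (h A).imp fun A' H => e ▸ LinearMap.ext H
  rcases eq_or_ne l i with rfl | hl
  · obtain ⟨A', h⟩ := h' A
    rw [add_mul, mul_add, mul_assoc, ← (N.comm hij A n).eq, ← mul_assoc, ← mul_assoc, ← map_mul,
      ← map_mul, one_mul, mul_one] at h
    obtain rfl : A = A' := sub_eq_zero.1 (z _ (by
      have := congrArg (· * ρ j n) h
      simp only [add_mul, mul_assoc, hw, mul_zero, add_zero] at this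
      rw [map_sub, sub_mul, this, sub_self]))
    exact sub_eq_zero.1 (z _ (by rw [map_sub, sub_mul, add_left_cancel h, sub_self]))
  · obtain ⟨A', h⟩ := h' m
    have c : Commute (1 + ρ i m * ρ j n) (ρ i m) :=
      (Commute.one_left _).add_left ((Commute.refl _).mul_left (N.comm hij m n).symm)
    have := congrArg (· * (1 + ρ i m * ρ j n)) (c.eq.symm.trans h)
    simp only [mul_assoc, sieg_sq N.two (N.comm hij m n) hw, mul_one] at this
    refine rho_inj (ρ i) ?_
    rw [map_mul, map_mul, this, (N.comm hl A' A).eq]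

open scoped commutatorElement in
theorem exists_new (hij : i ≠ j) : ∃ g ∈ f.E ⊓ NU (CU S ρ), g ∉ NF ρ Finset.univ := by
  have := N.nt
  obtain ⟨n, hn, n0, h0⟩ := N.nil
  have ns : ¬ ∀ A, Commute n A := fun H => by
    obtain ⟨c, hc⟩ := DFunLike.ne_iff.1 n0
    obtain ⟨φ, h⟩ := Module.Projective.exists_dual_eq_one F hc
    have := LinearMap.congr_fun (H (φ.smulRight c)).eq (n c)
    simp only [End.mul_apply, LinearMap.smulRight_apply, h, one_smul] at this
    rw [← End.mul_apply n n, h0] at this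
    exact hc (by simpa using this)
  obtain ⟨a, ha, hna⟩ : ∃ a ∈ S, ¬ Commute n a := by
    by_contra! H
    exact ns fun A => N.gen (Subalgebra.centralizer F {n}) (fun a ha _ h => h ▸ (H a ha).eq) A n rfl
  obtain ⟨α, hα⟩ := anti N.sq hn ha
  have α0 : α ≠ 0 := by
    rintro rfl
    exact hna ((eq_neg_of_add_eq_zero_left (hα.trans (zero_smul _ _))).trans (neg_eq' N.two _))
  have e : (1 + n) * (1 + n) = 1 := by
    rw [add_mul, mul_add, mul_add, h0]; simp [add_assoc, add_self' N.two]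
  let D : V₁ ≃ₗ[F] V₁ := LinearEquiv.ofLinearMap _ _ e e
  have ad : ∀ x y, f₁.B ((1 + n) x) y = f₁.B x ((1 + n) y) := fun x y => by simp [N.adj n hn]
  have hD : un (ρ i) D ∈ f.O := f.isIsom_of_span f _ N.span (fun x _ y _ => by
      change f.B (ρ i (1 + n) x) (ρ i (1 + n) y) = _
      rw [N.adjV i ad, rho_mul, e, map_one, End.one_apply]) (by
    rintro _ ⟨xs, rfl⟩
    change f.q (ρ i (1 + n) _) = _
    rw [N.app, N.q0, N.q0])
  have e1 : (1 + n) * a * (1 + n) + a = α • (1 + n) := by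
    have : n * a = a * n + α • 1 := by
      rw [← hα, add_comm (n * a), ← add_assoc, add_self' N.two, zero_add]
    rw [add_mul, add_mul, mul_add, mul_add, this, add_mul _ _ n, mul_assoc a n n, h0]
    simp only [one_mul, mul_one, smul_add, zero_add, mul_zero, smul_mul_assoc]
    linear_combination (norm := abel) add_self' N.two a + add_self' N.two (a * n)
  have m1 : α • (1 + n) ∈ S := e1 ▸ S.add_mem (N.sim D 1 one_ne_zero (fun x y => by
    change _ = 1 * f₁.B ((1 + n) x) ((1 + n) y)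
    rw [ad, ← End.mul_apply, e, one_mul, End.one_apply]) a ha) ha
  obtain ⟨g, hg, eg⟩ := N.sieg hij ha hn h0
  obtain ⟨k, hk, ek⟩ := N.sieg hij m1 hn h0
  have hw : ρ j n * ρ j n = 0 := by rw [← map_mul, h0, map_zero]
  have gi : g⁻¹ = g := inv_eq_of_mul_eq_one_right (LinearEquiv.toLinearMap_injective (by
    rw [LinearEquiv.coe_toLinearMap_mul, eg, sieg_sq N.two (N.comm hij a n) hw]; rfl))
  have kc : k = ⁅un (ρ i) D, g⁆ := LinearEquiv.toLinearMap_injective (by
    rw [commutatorElement_def, gi, ek, ← e1]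
    change _ = ρ i (1 + n) * g * ρ i (1 + n) * g
    rw [eg, sieg_comm (by rw [← map_mul, e, map_one]) (N.comm hij _ n) (N.comm hij a n) hw,
      map_add, map_mul, map_mul])
  refine ⟨k, ⟨kc ▸ N.nd.commutator_O_le_E ((quad_iso3 f).idx2 N.nd (by have := N.big; omega))
    (Subgroup.commutator_mem_commutator hD hg.1), hk.2⟩, fun h => ns fun A => ?_⟩
  have := (N.not_NF hij n0 h0 ek h A).eq
  simp only [smul_mul_assoc, mul_smul_comm, add_mul, mul_add, one_mul, mul_one] at this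
  exact add_left_cancel (smul_right_injective _ α0 this)

theorem not_le : ¬ f.E ≤ NU (CU S ρ) := fun H => by
  obtain ⟨a, a', b, b', qa, -, p1, qb, -, p4, p2, -, p3, p5⟩ :=
    (quad_iso3 f).idx2 N.nd (by have := N.big; omega)
  have ok : f.EichOK a b 0 := ⟨qa, p2, by simp [qb]⟩
  have fx : ∀ x, f.B a x = 0 → f.B b x = 0 → f.ei a b 0 x = x := fun x h1 h2 => by
    simp [ok.ei_apply, h1, h2]
  have ex : ∀ φ : Fin 4 → End F V, ∃ x, x ≠ 0 ∧ ∀ l, f.B a (φ l x) = 0 ∧ f.B b (φ l x) = 0 := by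
    intro φ
    obtain ⟨w, hw, h0⟩ := Submodule.exists_mem_ne_zero_of_ne_bot (LinearMap.ker_ne_bot_of_finrank_lt
      (f := LinearMap.pi fun l => (f.B a ∘ₗ φ l).prod (f.B b ∘ₗ φ l))
      (by have := N.big; simp [finrank_pi_fintype]; omega))
    exact ⟨w, h0, fun l => ⟨congrArg (· l |>.1) hw, congrArg (· l |>.2) hw⟩⟩
  set s := f.ei a b 0 with hs
  have cm : ∀ u ∈ CU S ρ, s.conjAlgEquiv F u = u := fun u hu => by
    have my := (CU S ρ).sub_mem (H (ei_mem_E a b 0) u hu) hu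
    have ky : ∀ x, (f.B a x = 0 ∧ f.B b x = 0) → (f.B a (u x) = 0 ∧ f.B b (u x) = 0) →
        (s.conjAlgEquiv F u - u) x = 0 := fun x h1 h2 => by
      have : s.symm x = x := s.symm_apply_eq.2 (fx x h1.1 h1.2).symm
      simp [this, fx _ h2.1 h2.2]
    obtain ⟨μ, h⟩ := N.scalar (ξ := s.conjAlgEquiv F u - u) fun z hz => by
      obtain ⟨μ, h⟩ := anti N.sqU my hz
      obtain ⟨x, x0, hx⟩ := ex ![1, u, z, u * z]
      have := LinearMap.congr_fun h x
      rw [LinearMap.add_apply, End.mul_apply, End.mul_apply, ky x (hx 0) (hx 1),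
        ky (z x) (hx 2) (hx 3)] at this
      obtain rfl : μ = 0 := by simpa [x0] using this.symm
      exact (eq_neg_of_add_eq_zero_left (h.trans (zero_smul _ _))).trans (neg_eq' N.two _)
    obtain ⟨x, x0, hx⟩ := ex ![1, u, 1, 1]
    have := ky x (hx 0) (hx 1)
    obtain rfl : μ = 0 := by simpa [h, x0] using this
    exact sub_eq_zero.1 (h.trans (zero_smul _ _))
  obtain ⟨μ, h⟩ := N.scalar (ξ := s) fun u hu => LinearMap.ext fun v => by
    simpa using LinearMap.congr_fun (cm u hu) (s v)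
  have h1 := congrArg (f.B · b') (LinearMap.congr_fun h a')
  simp [hs, ok.ei_apply, p1, p4, p5, f.B_eq_zero_symm p3] at h1

theorem main (hij : i ≠ j) (h2 : 2 ≤ finrank F V₁) :
    ∃ K, NF ρ Finset.univ ⊓ f.E < K ∧ K < f.E := by
  have : Nonempty I := ⟨i⟩
  obtain ⟨g, hg, hg'⟩ := N.exists_new hij
  exact ⟨f.E ⊓ NU (CU S ρ), lt_of_le_not_ge (fun g h => ⟨h.2, N.NF_le h2 ⟨h.1, E_le_O h.2⟩⟩)
    fun h => hg' (h hg).1, lt_of_le_not_ge inf_le_left fun h => N.not_le fun g hg => (h hg).2⟩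

end PN

open Matrix Cfsg Cfsg.Geo CL.Tv in
theorem wreath_om_not_maximal {F : Type*} [Field F] [Fintype F] {ι : Type} [Fintype ι]
    [DecidableEq ι] (hn : 13 ≤ Fintype.card ι) {Q : (ι → F) → F}
    (hQ : IsNondegenerateQuadraticForm Q) {k t : ℕ} (ht : 2 ≤ t) (hk : k ≤ 4)
    (ho : ¬ Odd (Fintype.card F)) (e : ι ≃ (Fin t → Fin k)) (P : GL ι F)
    {f₁ : (Fin k → F) → (Fin k → F) → F} (hf₁ : IsSymplecticForm f₁)
    (hT : IsTensorPowerFormStructure id (QuadraticMap.polar Q) f₁ e P)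
    (hp : ∀ xs : Fin t → Fin k → F, Q ((P : Matrix ι ι F) *ᵥ
      ((fun a : Fin t → Fin k => ∏ i, xs i (a i)) ∘ e)) = 0) :
    ∃ K, tensorWreathSubgroup k t e P ⊓ omegaGL Q < K ∧ K < omegaGL Q := by
  obtain ⟨c₀, c0, H⟩ := form_pure (σ := RingHom.id F) (bilin_eq_gram hf₁.bilinear) hT
  have nd : (ofAlt (bilin hf₁.bilinear) hf₁.alternating).Nondeg := fun x hx => by_contra fun x0 => by
    obtain ⟨y, hy⟩ := (hf₁.nondegenerate x x0).2
    exact hy (hx y)
  obtain ⟨m, hm⟩ := nd.even_finrank_alt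
  rw [finrank_fin_fun] at hm
  have e1 : Fintype.card ι = k ^ t := by simp [Fintype.card_congr e]
  have k2 : 2 ≤ k := by
    by_contra h
    rw [show k = 0 by omega, zero_pow (by omega)] at e1
    omega
  have h2 : (2 : F) = 0 := by
    by_contra h
    exact ho (Nat.odd_iff.2 (FiniteField.odd_card_of_char_ne_two fun e =>
      h (by simpa [e] using ringChar.spec F 2)))
  have : Nonempty (Fin k) := ⟨⟨0, by omega⟩⟩
  obtain ⟨S, N⟩ : ∃ S, PN (ofAlt (bilin hf₁.bilinear) hf₁.alternating) S (rhoT e P)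
      (crd e P ∘ pi0) (quadOfGeo hQ) c₀ := by
    have big : 9 ≤ finrank F (ι → F) := by rw [finrank_fintype_fun_eq_card]; omega
    rcases (by omega : k = 2 ∨ k = 4) with rfl | rfl
    · refine ⟨_, ptT e P, cl_two nd h2 (by simp), h2, quadOfGeo_nondeg hQ, nd, H, c0, hp, big,
        fun i j => Or.inl (by_contra fun h => ?_)⟩
      push Not at h
      have := Finset.card_le_card (show Finset.univ ⊆ ({i, j} : Finset (Fin t)) from fun l _ => by
        simpa [or_iff_not_imp_left] using h l)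
      have h3 := Finset.card_le_two (a := i) (b := j)
      obtain rfl : t = 2 := by simp at this; omega
      omega
    · exact ⟨_, ptT e P, cl_four nd h2 (by simp), h2, quadOfGeo_nondeg hQ, nd, H, c0, hp, big,
        fun i j => Or.inr fun a ha => five_alt nd h2 ha⟩
  obtain ⟨K, h1, h3⟩ := N.main (i := ⟨0, by omega⟩) (j := ⟨1, by omega⟩) (Fin.ne_of_val_ne (by simp)) (by simpa)
  have a1 : tensorWreathSubgroup k t e P ⊓ omegaGL Q =
      (NF (rhoT e P) Finset.univ ⊓ (quadOfGeo hQ).E).comap (actE ι F).toMonoidHom :=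
    Subgroup.ext fun g => and_congr (mem_wreath_iff k2 (by omega) e P g)
      (mem_omegaGL_iff_E (quadOfGeo_nondeg hQ) (by omega) g)
  have a2 : omegaGL Q = (quadOfGeo hQ).E.comap (actE ι F).toMonoidHom :=
    Subgroup.ext fun g => mem_omegaGL_iff_E (quadOfGeo_nondeg hQ) (by omega) g
  rw [a1, a2]
  exact ⟨K.comap (actE ι F).toMonoidHom, (Subgroup.comap_lt_comap_of_surjective (actE ι F).surjective).2 h1,
    (Subgroup.comap_lt_comap_of_surjective (actE ι F).surjective).2 h3⟩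

end CL.WrN
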