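/-
Transvections in quasisimple irreducible linear groups: the basic calculus.
-/
import Cfsg.Agent.CLAS.MHSubB

set_option autoImplicit false

namespace CL.Zs

open Matrix Cfsg.Geo CL.Dk CL.PGL2 CL.Asch
open scoped MatrixGroups

variable {F : Type*} [Field F] {ι : Type} [Fintype ι] [DecidableEq ι]

section Vec

omit [DecidableEq ι] in
theorem ne_left {φ x : ι → F} (h : φ ⬝ᵥ x ≠ 0) : φ ≠ 0 := by
  rintro rfl; simp at h

omit [DecidableEq ι] in
theorem ne_right {φ x : ι → F} (h : φ ⬝ᵥ x ≠ 0) : x ≠ 0 := by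
  rintro rfl; simp at h

theorem exists_dot' {φ : ι → F} (h : φ ≠ 0) : ∃ x : ι → F, φ ⬝ᵥ x ≠ 0 := by
  obtain ⟨i, hi⟩ := Function.ne_iff.1 h
  exact ⟨Pi.single i 1, by simpa using hi⟩

theorem exists_dot {x : ι → F} (h : x ≠ 0) : ∃ φ : ι → F, φ ⬝ᵥ x ≠ 0 := by
  obtain ⟨φ, hφ⟩ := exists_dot' h
  exact ⟨φ, by rwa [dotProduct_comm]⟩

theorem eq_zero_of_dot {φ : ι → F} (h : ∀ v, φ ⬝ᵥ v = 0) : φ = 0 := by
  by_contra h0
  obtain ⟨v, hv⟩ := exists_dot' h0
  exact hv (h v)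

theorem ext_dot {φ ψ : ι → F} (h : ∀ v, φ ⬝ᵥ v = ψ ⬝ᵥ v) : φ = ψ :=
  sub_eq_zero.1 (eq_zero_of_dot fun v => by rw [sub_dotProduct, h, sub_self])

theorem ext_dot' {x y : ι → F} (h : ∀ φ, φ ⬝ᵥ x = φ ⬝ᵥ y) : x = y :=
  ext_dot fun v => by rw [dotProduct_comm, h, dotProduct_comm]

theorem dual_eq_dot (φ : Module.Dual F (ι → F)) (v : ι → F) :
    (fun j => φ (Pi.single j 1)) ⬝ᵥ v = φ v := by
  rw [LinearMap.pi_apply_eq_sum_univ φ v, dotProduct]
  refine Finset.sum_congr rfl fun j _ => ?_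
  rw [smul_eq_mul, mul_comm]
  congr 2
  funext l
  rw [Pi.single_apply]
  simp only [eq_comm]

/-- separation of a vector from a subspace -/
theorem exists_sep (W : Submodule F (ι → F)) {x : ι → F} (hx : x ∉ W) :
    ∃ φ : ι → F, φ ⬝ᵥ x = 1 ∧ ∀ w ∈ W, φ ⬝ᵥ w = 0 := by
  obtain ⟨φ, h1, h2⟩ := Tv.exists_dual_one W hx
  exact ⟨_, (dual_eq_dot φ x).trans h1, fun w hw => (dual_eq_dot φ w).trans (h2 w hw)⟩

omit [DecidableEq ι] in
theorem dot_span {S : Set (ι → F)} {φ v : ι → F} (h : ∀ x ∈ S, φ ⬝ᵥ x = 0)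
    (hv : v ∈ Submodule.span F S) : φ ⬝ᵥ v = 0 := by
  induction hv using Submodule.span_induction with
  | mem y hy => exact h y hy
  | zero => exact dotProduct_zero _
  | add y z _ _ h1 h2 => rw [dotProduct_add, h1, h2, add_zero]
  | smul c y _ h1 => rw [dotProduct_smul, h1, smul_zero]

theorem span_eq_top {S : Set (ι → F)} (h : ∀ φ : ι → F, (∀ x ∈ S, φ ⬝ᵥ x = 0) → φ = 0) :
    Submodule.span F S = ⊤ := by
  refine eq_top_iff.2 fun v _ => ?_
  by_contra hv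
  obtain ⟨φ, h1, h2⟩ := exists_sep _ hv
  rw [h φ fun x hx => h2 x (Submodule.subset_span hx), zero_dotProduct] at h1
  exact zero_ne_one h1

/-- the vectors killed by a set of linear forms -/
def ann (S : Set (ι → F)) : Submodule F (ι → F) where
  carrier := {v | ∀ φ ∈ S, φ ⬝ᵥ v = 0}
  add_mem' := fun {a b} ha hb φ hφ => by rw [dotProduct_add, ha φ hφ, hb φ hφ, add_zero]
  zero_mem' := fun φ _ => dotProduct_zero _
  smul_mem' := fun c a ha φ hφ => by rw [dotProduct_smul, ha φ hφ, smul_zero]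

/-- dual systems of vectors and linear forms -/
def DualB {κ : Type} [DecidableEq κ] (b β : κ → ι → F) : Prop :=
  ∀ i j, β i ⬝ᵥ b j = if i = j then 1 else 0

theorem DualB.mul_eq {b β : ι → ι → F} (h : DualB b β) : (Matrix.of β) * (Matrix.of b)ᵀ = 1 := by
  ext i j
  rw [one_apply, ← h i j]
  rfl

theorem DualB.mul_eq' {b β : ι → ι → F} (h : DualB b β) : (Matrix.of b)ᵀ * (Matrix.of β) = 1 :=
  mul_eq_one_comm.1 h.mul_eq

/-- the base change matrix -/
def DualB.gl {b β : ι → ι → F} (h : DualB b β) : GL ι F :=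
  ⟨(Matrix.of b)ᵀ, Matrix.of β, h.mul_eq', h.mul_eq⟩

theorem DualB.sum_eq {b β : ι → ι → F} (h : DualB b β) (v : ι → F) :
    v = ∑ i, (β i ⬝ᵥ v) • b i := by
  have := congrArg (· *ᵥ v) h.mul_eq'
  simp only [one_mulVec, ← mulVec_mulVec] at this
  rw [mulVec_transpose] at this
  refine this.symm.trans ?_
  ext j
  simp [vecMul, dotProduct, mulVec, Finset.sum_apply]

omit [DecidableEq ι] in
theorem DualB.flip {κ : Type} [DecidableEq κ] {b β : κ → ι → F} (h : DualB b β) : DualB β b :=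
  fun i j => by rw [dotProduct_comm, h]; simp only [eq_comm]

theorem DualB.entry {b β : ι → ι → F} (h : DualB b β) (A : Matrix ι ι F) (i j : ι) :
    conjAlgHom h.gl⁻¹ A i j = β i ⬝ᵥ (A *ᵥ b j) := by
  change ((Matrix.of β) * A * (Matrix.of b)ᵀ) i j = _
  rw [Matrix.mul_assoc]
  rfl

/-- a spanning set contains a basis -/
theorem exists_dualB {S : Set (ι → F)} (h : Submodule.span F S = ⊤) :
    ∃ b β : ι → ι → F, DualB b β ∧ ∀ i, b i ∈ S := by
  obtain ⟨t, ht, h1, h2⟩ := exists_linearIndependent F S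
  let B := Module.Basis.mk h2 (by rw [Subtype.range_coe, h1, h])
  let e := B.indexEquiv (Pi.basisFun F ι)
  let B' := B.reindex e
  refine ⟨B', fun i j => B'.coord i (Pi.single j 1), fun i j => ?_, fun i => ?_⟩
  · rw [dual_eq_dot, Module.Basis.coord_apply, B'.repr_self, Finsupp.single_apply]
    simp only [eq_comm]
  · simp only [B', B, Module.Basis.reindex_apply, Module.Basis.mk_apply]
    exact ht (e.symm i).2

end Vec

/-! ### action of matrices -/

/-- the action of an invertible matrix on vectors -/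
abbrev ac (g : GL ι F) (v : ι → F) : ι → F := (g : Matrix ι ι F) *ᵥ v

theorem ac_mul (g h : GL ι F) (v : ι → F) : ac (g * h) v = ac g (ac h v) := by
  simp [ac, mulVec_mulVec]

theorem ac_one (v : ι → F) : ac 1 v = v := by simp [ac]

theorem ac_inv_ac (g : GL ι F) (v : ι → F) : ac g⁻¹ (ac g v) = v := by
  rw [← ac_mul, inv_mul_cancel, ac_one]

theorem ac_ac_inv (g : GL ι F) (v : ι → F) : ac g (ac g⁻¹ v) = v := by
  rw [← ac_mul, mul_inv_cancel, ac_one]

theorem ac_add (g : GL ι F) (v w : ι → F) : ac g (v + w) = ac g v + ac g w := mulVec_add _ _ _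

theorem ac_sub (g : GL ι F) (v w : ι → F) : ac g (v - w) = ac g v - ac g w := mulVec_sub _ _ _

theorem ac_smul (g : GL ι F) (c : F) (v : ι → F) : ac g (c • v) = c • ac g v := mulVec_smul _ _ _

theorem ac_zero (g : GL ι F) : ac g 0 = 0 := mulVec_zero _

theorem ac_injective (g : GL ι F) : Function.Injective (ac g) := fun v w h => by
  rw [← ac_inv_ac g v, h, ac_inv_ac]

theorem ac_ne_zero (g : GL ι F) {v : ι → F} (hv : v ≠ 0) : ac g v ≠ 0 := fun h =>
  hv (ac_injective g (h.trans (ac_zero g).symm))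

theorem ac_inv_eq {g : GL ι F} {v w : ι → F} (h : ac g v = w) : ac g⁻¹ w = v := by
  rw [← h, ac_inv_ac]

theorem ext_ac {g h : GL ι F} (H : ∀ v, ac g v = ac h v) : g = h :=
  Units.ext (Matrix.toLin'.injective (LinearMap.ext H))

/-- the dual action on linear forms -/
abbrev dc (g : GL ι F) (φ : ι → F) : ι → F := φ ᵥ* ((g⁻¹ : GL ι F) : Matrix ι ι F)

theorem dc_dot (g : GL ι F) (φ v : ι → F) : dc g φ ⬝ᵥ v = φ ⬝ᵥ ac g⁻¹ v := by
  rw [dc, ac, dotProduct_mulVec]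

theorem dc_dot_ac (g : GL ι F) (φ v : ι → F) : dc g φ ⬝ᵥ ac g v = φ ⬝ᵥ v := by
  rw [dc_dot, ac_inv_ac]

theorem dc_ne_zero (g : GL ι F) {φ : ι → F} (h : φ ≠ 0) : dc g φ ≠ 0 := by
  obtain ⟨x, hx⟩ := exists_dot' h
  exact ne_left (x := ac g x) (by rwa [dc_dot_ac])

theorem dc_eq_of {g : GL ι F} {φ ψ : ι → F} (h : ∀ v, ψ ⬝ᵥ ac g v = φ ⬝ᵥ v) : dc g φ = ψ :=
  ext_dot fun v => by rw [dc_dot, ← h, ac_ac_inv]

omit [DecidableEq ι] in
theorem vmv_mulVec (w φ v : ι → F) : vecMulVec w φ *ᵥ v = (φ ⬝ᵥ v) • w := by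
  ext i
  simp [mulVec, vecMulVec_apply, dotProduct, Finset.mul_sum, mul_comm, mul_left_comm]

/-- `g` is the map `v ↦ v + φ(v) x` -/
def IsT (g : GL ι F) (x φ : ι → F) : Prop := ∀ v, ac g v = v + (φ ⬝ᵥ v) • x

/-- `K` contains the transvection `v ↦ v + φ(v) x` -/
def TV (K : Subgroup (GL ι F)) (x φ : ι → F) : Prop := φ ⬝ᵥ x = 0 ∧ ∃ g ∈ K, IsT g x φ

namespace IsT
variable {g h : GL ι F} {x x' u φ φ' θ : ι → F}

theorem unique (h1 : IsT g x φ) (h2 : IsT h x φ) : g = h := ext_ac fun v => (h1 v).trans (h2 v).symm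

theorem smul_iff (c : F) : IsT g (c • x) φ ↔ IsT g x (c • φ) := by
  simp only [IsT, smul_dotProduct, smul_smul, smul_eq_mul, mul_comm]

theorem conj (h1 : IsT g x φ) (k : GL ι F) : IsT (k * g * k⁻¹) (ac k x) (dc k φ) := by
  intro v
  rw [ac_mul, ac_mul, h1, ac_add, ac_ac_inv, ac_smul, dc_dot]

theorem inv (h1 : IsT g x φ) (h0 : φ ⬝ᵥ x = 0) : IsT g⁻¹ x (-φ) := by
  intro v
  apply ac_injective g
  rw [ac_ac_inv, ac_add, ac_smul, h1, h1, h0, neg_dotProduct]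
  module

theorem mul_right (h1 : IsT g x φ) (h2 : IsT h x φ') (h0 : φ ⬝ᵥ x = 0) :
    IsT (g * h) x (φ + φ') := by
  intro v
  rw [ac_mul, h2, ac_add, ac_smul, h1, h1, h0, add_dotProduct]
  module

theorem mul_left (h1 : IsT g x φ) (h2 : IsT h x' φ) (h0 : φ ⬝ᵥ x' = 0) :
    IsT (g * h) (x + x') φ := by
  intro v
  rw [ac_mul, h2, ac_add, ac_smul, h1, h1, h0]
  module

theorem dc_eq (h1 : IsT g u θ) (h0 : θ ⬝ᵥ u = 0) (φ : ι → F) : dc g φ = φ - (φ ⬝ᵥ u) • θ := by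
  apply ext_dot
  intro v
  rw [dc_dot, h1.inv h0 v]
  simp only [dotProduct_add, dotProduct_smul, smul_dotProduct, sub_dotProduct, smul_eq_mul,
    neg_dotProduct]
  ring

theorem conj' (h1 : IsT g x φ) (h2 : IsT h u θ) (h0 : θ ⬝ᵥ u = 0) :
    IsT (h * g * h⁻¹) (x + (θ ⬝ᵥ x) • u) (φ - (φ ⬝ᵥ u) • θ) := by
  have := h1.conj h
  rwa [h2 x, h2.dc_eq h0] at this

theorem eq_one_iff (h1 : IsT g x φ) : g = 1 ↔ x = 0 ∨ φ = 0 := by
  constructor
  · rintro rfl
    by_contra hc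
    push Not at hc
    obtain ⟨v, hv⟩ := exists_dot' hc.2
    have := h1 v
    rw [ac_one, left_eq_add, smul_eq_zero] at this
    exact this.elim hv hc.1
  · intro hc
    apply ext_ac
    intro v
    rw [h1, ac_one]
    rcases hc with rfl | rfl <;> simp

theorem coe_eq (h1 : IsT g x φ) : (g : Matrix ι ι F) = 1 + vecMulVec x φ := by
  apply Matrix.toLin'.injective
  apply LinearMap.ext
  intro v
  simp only [toLin'_apply]
  rw [add_mulVec, one_mulVec, vmv_mulVec]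
  exact h1 v

theorem not_scalar (h1 : IsT g x φ) (h0 : φ ⬝ᵥ x = 0) (hx : x ≠ 0) (hφ : φ ≠ 0) :
    g ∉ scalars ι F := by
  obtain ⟨i, -⟩ := Function.ne_iff.1 hx
  have : Nonempty ι := ⟨i⟩
  rw [mem_scalars']
  rintro ⟨c, hc⟩
  have e : ∀ v, ac g v = c • v := fun v => by rw [ac, hc, smul_mulVec, one_mulVec]
  have e1 := e x
  rw [h1, h0, zero_smul, add_zero] at e1
  have hc1 : c = 1 := smul_left_injective F hx (by simpa using e1.symm)
  obtain ⟨v, hv⟩ := exists_dot' hφ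
  have e2 := e v
  rw [h1, hc1, one_smul, add_eq_left, smul_eq_zero] at e2
  exact e2.elim hv hx

/-- two descriptions of the same transvection -/
theorem eq_smul (h1 : IsT g x φ) (h2 : IsT g u θ) (hx : x ≠ 0) (hφ : φ ≠ 0) :
    ∃ c : F, c ≠ 0 ∧ x = c • u ∧ θ = c • φ := by
  have e : ∀ v, (φ ⬝ᵥ v) • x = (θ ⬝ᵥ v) • u := fun v => add_left_cancel ((h1 v).symm.trans (h2 v))
  obtain ⟨v, hv⟩ := exists_dot' hφ
  have e1 : x = ((θ ⬝ᵥ v) / (φ ⬝ᵥ v)) • u := by
    rw [div_eq_inv_mul, ← smul_smul, ← e, smul_smul, inv_mul_cancel₀ hv, one_smul]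
  have hu : u ≠ 0 := by rintro rfl; exact hx (by rw [e1, smul_zero])
  refine ⟨_, fun h => hx (by rw [e1, h, zero_smul]), e1, ext_dot fun w => ?_⟩
  have := e w
  rw [e1, smul_smul] at this
  rw [← smul_left_injective F hu this, smul_dotProduct, smul_eq_mul, mul_comm]

end IsT

theorem isT_of_coe {g : GL ι F} {x φ : ι → F} (h : (g : Matrix ι ι F) = 1 + vecMulVec x φ) :
    IsT g x φ := by
  intro v
  rw [ac, h, add_mulVec, one_mulVec, vmv_mulVec]

theorem isT_one (x : ι → F) : IsT 1 x 0 := fun v => by simp [ac_one]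

theorem TV.conj {K : Subgroup (GL ι F)} {x φ : ι → F} (h : TV K x φ) {g : GL ι F} (hg : g ∈ K) :
    TV K (ac g x) (dc g φ) := by
  obtain ⟨h0, t, ht, h1⟩ := h
  exact ⟨by rw [dc_dot_ac, h0], _, K.mul_mem (K.mul_mem hg ht) (K.inv_mem hg), h1.conj g⟩

/-- the inverse transpose automorphism -/
def itr : GL ι F →* GL ι F where
  toFun g := ⟨((g⁻¹ : GL ι F) : Matrix ι ι F)ᵀ, (g : Matrix ι ι F)ᵀ,
    by rw [← transpose_mul, Units.mul_inv, transpose_one],
    by rw [← transpose_mul, Units.inv_mul, transpose_one]⟩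
  map_one' := Units.ext (by simp)
  map_mul' g h := Units.ext (by simp)

theorem ac_itr (g : GL ι F) (v : ι → F) : ac (itr g) v = dc g v := mulVec_transpose _ _

theorem itr_itr (g : GL ι F) : itr (itr g) = g := Units.ext (transpose_transpose _)

theorem IsT.itr {g : GL ι F} {x φ : ι → F} (h : IsT g x φ) : IsT (itr g⁻¹) φ x := by
  refine isT_of_coe ?_
  change ((g⁻¹⁻¹ : GL ι F) : Matrix ι ι F)ᵀ = _
  rw [inv_inv, h.coe_eq, transpose_add, transpose_one, transpose_vecMulVec]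

theorem tv_comap_itr (K : Subgroup (GL ι F)) : TV (K.comap itr) = fun φ x => TV K x φ := by
  funext φ x
  apply propext
  constructor
  · rintro ⟨h0, g, hg, h1⟩
    exact ⟨by rwa [dotProduct_comm], _, by rw [map_inv]; exact K.inv_mem hg, h1.itr⟩
  · rintro ⟨h0, g, hg, h1⟩
    refine ⟨by rwa [dotProduct_comm], _, ?_, h1.itr⟩
    rw [Subgroup.mem_comap, itr_itr]
    exact K.inv_mem hg

theorem itr_mem_scalars {g : GL ι F} (h : g ∈ scalars ι F) : itr g ∈ scalars ι F := by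
  rcases isEmpty_or_nonempty ι with _ | _
  · rw [Subsingleton.elim (itr g) 1]; exact one_mem _
  obtain ⟨c, hc⟩ := mem_scalars'.1 ((scalars ι F).inv_mem h)
  exact mem_scalars'.2 ⟨c, by
    change ((g⁻¹ : GL ι F) : Matrix ι ι F)ᵀ = _
    rw [hc, transpose_smul, transpose_one]⟩

/-- an irreducible group without proper non-central normal subgroups -/
structure QS (K : Subgroup (GL ι F)) : Prop where
  irr : Irr K
  gen : ∀ M : Subgroup (GL ι F), NormBy K M → ∀ g ∈ K, g ∈ M → g ∉ scalars ι F → K ≤ M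
  nonab : ¬ ∀ a ∈ K, ∀ b ∈ K, a * b = b * a

theorem QS.flip {K : Subgroup (GL ι F)} (h : QS K) : QS (K.comap itr) where
  irr W hW := by
    rcases h.irr (ann W) (fun g hg v hv φ hφ => by
      have := hv _ (hW (itr g⁻¹) (by rw [Subgroup.mem_comap, itr_itr]; exact K.inv_mem hg) φ hφ)
      change ac _ _ ⬝ᵥ v = 0 at this
      rwa [ac_itr, dc_dot, inv_inv] at this) with e | e
    · refine Or.inr (eq_top_iff.2 fun v _ => ?_)
      by_contra hv
      obtain ⟨φ, h1, h2⟩ := exists_sep _ hv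
      have : φ ∈ ann (W : Set (ι → F)) := fun w hw => by rw [dotProduct_comm]; exact h2 w hw
      rw [e, Submodule.mem_bot] at this
      rw [this, zero_dotProduct] at h1
      exact zero_ne_one h1
    · exact Or.inl ((Submodule.eq_bot_iff _).2 fun φ hφ =>
        eq_zero_of_dot fun v => (e.ge Submodule.mem_top : v ∈ ann W) φ hφ)
  gen M hM g hg hgM hs := by
    have := h.gen (M.comap itr) (fun a ha x hx => by
      rw [Subgroup.mem_comap, map_mul, map_mul, map_inv]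
      exact hM _ (by rwa [Subgroup.mem_comap, itr_itr]) _ hx) (itr g) hg
      (by rwa [Subgroup.mem_comap, itr_itr]) (fun e => hs (itr_itr g ▸ itr_mem_scalars e))
    intro a ha
    have := this ha
    rwa [Subgroup.mem_comap, itr_itr] at this
  nonab H := h.nonab fun a ha b hb => by
    have := congrArg itr (H (itr a) (by rwa [Subgroup.mem_comap, itr_itr]) (itr b)
      (by rwa [Subgroup.mem_comap, itr_itr]))
    simpa only [map_mul, itr_itr] using this

/-- a nontrivial transvection -/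
def NT (T : (ι → F) → (ι → F) → Prop) (x φ : ι → F) : Prop := T x φ ∧ x ≠ 0 ∧ φ ≠ 0

/-- an invariant class of transvections generates -/
theorem QS.le_of_class {K : Subgroup (GL ι F)} (hK : QS K) {C : (ι → F) → (ι → F) → Prop}
    (hC : ∀ x φ, C x φ → TV K x φ) (hc : ∀ x φ, C x φ → ∀ g ∈ K, C (ac g x) (dc g φ))
    {x φ : ι → F} (h : NT C x φ) {M : Subgroup (GL ι F)}
    (hM : ∀ g ∈ K, ∀ y η, C y η → IsT g y η → g ∈ M) : K ≤ M := by
  obtain ⟨h0, t, ht, h1⟩ := hC _ _ h.1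
  refine (hK.gen (Subgroup.closure {g | g ∈ K ∧ ∃ y η, C y η ∧ IsT g y η}) (fun a ha b hb => ?_) t ht
    (Subgroup.subset_closure ⟨ht, x, φ, h.1, h1⟩) (h1.not_scalar h0 h.2.1 h.2.2)).trans
    ((Subgroup.closure_le _).2 fun g ⟨hg, y, η, h2, h3⟩ => hM g hg y η h2 h3)
  induction hb using Subgroup.closure_induction with
  | mem g hg =>
    obtain ⟨hg, y, η, h2, h3⟩ := hg
    exact Subgroup.subset_closure ⟨K.mul_mem (K.mul_mem ha hg) (K.inv_mem ha), _, _,
      hc _ _ h2 a ha, h3.conj a⟩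
  | one => simp
  | mul g k _ _ h1 h2 =>
    have := mul_mem h1 h2
    rwa [show a * g * a⁻¹ * (a * k * a⁻¹) = a * (g * k) * a⁻¹ by group] at this
  | inv g _ h1 =>
    have := inv_mem h1
    rwa [show (a * g * a⁻¹)⁻¹ = a * g⁻¹ * a⁻¹ by group] at this

/-- a subspace invariant under an invariant class of transvections is trivial -/
theorem QS.inv_class {K : Subgroup (GL ι F)} (hK : QS K) {C : (ι → F) → (ι → F) → Prop}
    (hC : ∀ x φ, C x φ → TV K x φ) (hc : ∀ x φ, C x φ → ∀ g ∈ K, C (ac g x) (dc g φ))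
    {x φ : ι → F} (h : NT C x φ) (W : Submodule F (ι → F))
    (hW : ∀ y η, C y η → ∀ v ∈ W, η ⬝ᵥ v ≠ 0 → y ∈ W) : W = ⊥ ∨ W = ⊤ := by
  have := hK.le_of_class hC hc h (M := subspaceStabilizer W) fun g _ y η h1 h2 => by
    rw [Tv.mem_stab_iff]
    intro v hv
    rw [Tv.act_apply, show (g : Matrix ι ι F) *ᵥ v = _ from h2 v]
    by_cases e : η ⬝ᵥ v = 0
    · rwa [e, zero_smul, add_zero]
    · exact W.add_mem hv (W.smul_mem _ (hW y η h1 v hv e))
  exact hK.irr W fun g hg v hv => Tv.mem_stab_iff.1 (this hg) v hv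

/-- in an invariant class there is a transvection avoiding a given point and hyperplane -/
theorem QS.exists_class {K : Subgroup (GL ι F)} (hK : QS K) {C : (ι → F) → (ι → F) → Prop}
    (hC : ∀ x φ, C x φ → TV K x φ) (hc : ∀ x φ, C x φ → ∀ g ∈ K, C (ac g x) (dc g φ))
    {x φ : ι → F} (h : NT C x φ) {ψ v : ι → F} (hψ : ψ ≠ 0) (hv : v ≠ 0) :
    ∃ u θ, C u θ ∧ ψ ⬝ᵥ u ≠ 0 ∧ θ ⬝ᵥ v ≠ 0 := by
  obtain ⟨u0, θ0, h1, h2, h3⟩ : ∃ u θ, C u θ ∧ θ ≠ 0 ∧ ψ ⬝ᵥ u ≠ 0 := by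
    by_contra hn
    push Not at hn
    rcases hK.inv_class hC hc h (Submodule.span F {u | ∃ θ, C u θ ∧ θ ≠ 0})
      (fun y η h1 v _ e => Submodule.subset_span ⟨η, h1, ne_left e⟩) with e | e
    · exact h.2.1 ((Submodule.eq_bot_iff _).1 e x (Submodule.subset_span ⟨φ, h.1, h.2.2⟩))
    · refine hψ (eq_zero_of_dot fun w => dot_span ?_ (e.ge Submodule.mem_top))
      rintro u ⟨θ, h1, h2⟩
      exact hn u θ h1 h2
  by_contra hn
  push Not at hn
  have := hK.le_of_class hC hc h (M := subspaceStabilizer (ann {θ | ∃ u, C u θ ∧ ψ ⬝ᵥ u ≠ 0}))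
    fun g hg y η h1 h2 => by
      rw [Tv.mem_stab_iff]
      rintro w hw θ ⟨u, h3, h4⟩
      rw [Tv.act_apply]
      by_cases e : ψ ⬝ᵥ y = 0
      · have := hw (dc g⁻¹ θ) ⟨_, hc _ _ h3 g⁻¹ (K.inv_mem hg), by
          rwa [h2.inv (hC _ _ h1).1, dotProduct_add, dotProduct_smul, e, smul_zero, add_zero]⟩
        rwa [dc_dot, inv_inv] at this
      · rw [show (g : Matrix ι ι F) *ᵥ w = _ from h2 w, hw η ⟨y, h1, e⟩, zero_smul, add_zero]
        exact hw θ ⟨u, h3, h4⟩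
  rcases hK.irr _ fun g hg v hv => Tv.mem_stab_iff.1 (this hg) v hv with e | e
  · refine hv ((Submodule.eq_bot_iff _).1 e v ?_)
    rintro θ ⟨u, h3, h4⟩
    exact hn u θ h3 h4
  · exact h2 (eq_zero_of_dot fun w =>
      (e.ge Submodule.mem_top : w ∈ ann {θ | ∃ u, C u θ ∧ ψ ⬝ᵥ u ≠ 0}) θ0 ⟨u0, h1, h3⟩)

end CL.Zs
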