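/-
The system of transvections of a quasisimple irreducible linear group.
-/
import Cfsg.Agent.CLAS.Zs1

set_option autoImplicit false

namespace CL.Zs

open Matrix Cfsg.Geo CL.Dk CL.PGL2 CL.Asch
open scoped MatrixGroups

variable {F : Type*} [Field F] {ι : Type} [Fintype ι] [DecidableEq ι]

/-! ### the action on a line -/

/-- `g` acts on the span of `x` and `u` by the matrix `m` -/
def Acts (g : GL ι F) (x u : ι → F) (m : Matrix (Fin 2) (Fin 2) F) : Prop :=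
  ac g x = m 0 0 • x + m 1 0 • u ∧ ac g u = m 0 1 • x + m 1 1 • u

theorem Acts.mul {g h : GL ι F} {x u : ι → F} {m n : Matrix (Fin 2) (Fin 2) F}
    (h1 : Acts g x u m) (h2 : Acts h x u n) : Acts (g * h) x u (m * n) := by
  constructor
  · rw [ac_mul, h2.1, ac_add, ac_smul, ac_smul, h1.1, h1.2]
    simp only [mul_apply, Fin.sum_univ_two]
    module
  · rw [ac_mul, h2.2, ac_add, ac_smul, ac_smul, h1.1, h1.2]
    simp only [mul_apply, Fin.sum_univ_two]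
    module

theorem acts_one (x u : ι → F) : Acts 1 x u 1 := by simp [Acts, ac_one]

theorem Acts.pow {g : GL ι F} {x u : ι → F} {m : Matrix (Fin 2) (Fin 2) F}
    (h1 : Acts g x u m) (n : ℕ) : Acts (g ^ n) x u (m ^ n) := by
  induction n with
  | zero => simpa using acts_one x u
  | succ n ih => rw [pow_succ, pow_succ]; exact ih.mul h1

theorem Acts.inv {g : GL ι F} {x u : ι → F} {m n : Matrix (Fin 2) (Fin 2) F}
    (h1 : Acts g x u m) (h : m * n = 1) : Acts g⁻¹ x u n := by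
  have e : ∀ i j, m i 0 * n 0 j + m i 1 * n 1 j = (1 : Matrix (Fin 2) (Fin 2) F) i j := by
    intro i j
    rw [← h, mul_apply, Fin.sum_univ_two]
  have e00 := e 0 0
  have e01 := e 0 1
  have e10 := e 1 0
  have e11 := e 1 1
  simp only [one_apply_eq, ne_eq, zero_ne_one, not_false_eq_true, one_apply_ne, one_ne_zero]
    at e00 e01 e10 e11
  constructor <;> apply ac_inv_eq <;> rw [ac_add, ac_smul, ac_smul, h1.1, h1.2]
  · calc _ = (m 0 0 * n 0 0 + m 0 1 * n 1 0) • x + (m 1 0 * n 0 0 + m 1 1 * n 1 0) • u := by module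
      _ = x := by rw [e00, e10]; simp
  · calc _ = (m 0 0 * n 0 1 + m 0 1 * n 1 1) • x + (m 1 0 * n 0 1 + m 1 1 * n 1 1) • u := by module
      _ = u := by rw [e01, e11]; simp

/-- the matrices induced by `K` on the span of `x` and `u` -/
def plane (K : Subgroup (GL ι F)) (x u : ι → F) : Subgroup (GL (Fin 2) F) where
  carrier := {m | ∃ g ∈ K, Acts g x u m}
  mul_mem' := by
    rintro m n ⟨g, hg, h1⟩ ⟨h, hh, h2⟩
    exact ⟨g * h, K.mul_mem hg hh, h1.mul h2⟩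
  one_mem' := ⟨1, K.one_mem, acts_one x u⟩
  inv_mem' := by
    rintro m ⟨g, hg, h1⟩
    exact ⟨g⁻¹, K.inv_mem hg, h1.inv (Units.mul_inv m)⟩

/-- the projectivities induced by `K` on the line through `x` and `u` -/
def planeP (K : Subgroup (GL ι F)) (x u : ι → F) : Subgroup PGL(2, F) :=
  (plane K x u).map ProjGenLinGroup.mk

theorem ofMat_mem_planeP {K : Subgroup (GL ι F)} {x u : ι → F} {g : GL ι F} (hg : g ∈ K)
    {m : Matrix (Fin 2) (Fin 2) F} (hm : m.det ≠ 0) (h : Acts g x u m) :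
    ofMat m hm ∈ planeP K x u :=
  ⟨GeneralLinearGroup.mkOfDetNeZero m hm, ⟨g, hg, h⟩, rfl⟩

theorem exists_of_mem_planeP {K : Subgroup (GL ι F)} {x u : ι → F}
    {m : Matrix (Fin 2) (Fin 2) F} {hm : m.det ≠ 0} (h : ofMat m hm ∈ planeP K x u) :
    ∃ c : F, c ≠ 0 ∧ ∃ g ∈ K, Acts g x u (c • m) := by
  obtain ⟨n, ⟨g, hg, h1⟩, e⟩ := h
  rw [← ofMat_coe n n.det_ne_zero, eq_comm, ofMat_eq_iff] at e
  obtain ⟨c, hc⟩ := e
  refine ⟨c, ?_, g, hg, hc ▸ h1⟩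
  rintro rfl
  apply n.det_ne_zero
  rw [← hc]; simp

theorem exists_of_aff_mem [Finite F] {K : Subgroup (GL ι F)} {x u : ι → F} {a : F}
    (h : aff 1 a ∈ planeP K x u) : ∃ g ∈ K, ac g x = x ∧ ac g u = u + a • x := by
  obtain ⟨c, hc, g, hg, h1⟩ := exists_of_mem_planeP h
  obtain ⟨n, hn, hn'⟩ := MH.exists_pow_trick hc
  have h2 := h1.pow n
  have e : ∀ k : ℕ, (!![((1 : Fˣ) : F), a; 0, 1] : Matrix (Fin 2) (Fin 2) F) ^ k =
      !![1, k * a; 0, 1] := by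
    intro k
    induction k with
    | zero => ext i j; fin_cases i <;> fin_cases j <;> simp
    | succ k ih =>
      rw [pow_succ, ih]
      ext i j; fin_cases i <;> fin_cases j <;> simp [mul_apply, Fin.sum_univ_two]
      ring
  rw [_root_.smul_pow, hn, one_smul, e, hn'] at h2
  refine ⟨g ^ n, K.pow_mem hg n, by simpa using h2.1, ?_⟩
  rw [h2.2]; simp [add_comm]

theorem exists_of_low_mem [Finite F] {K : Subgroup (GL ι F)} {x u : ι → F} {a : F}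
    (h : low a ∈ planeP K x u) : ∃ g ∈ K, ac g u = u ∧ ac g x = x + a • u := by
  obtain ⟨c, hc, g, hg, h1⟩ := exists_of_mem_planeP h
  obtain ⟨n, hn, hn'⟩ := MH.exists_pow_trick hc
  have h2 := h1.pow n
  have e : ∀ k : ℕ, (!![1, 0; a, 1] : Matrix (Fin 2) (Fin 2) F) ^ k = !![1, 0; k * a, 1] := by
    intro k
    induction k with
    | zero => ext i j; fin_cases i <;> fin_cases j <;> simp
    | succ k ih =>
      rw [pow_succ, ih]
      ext i j; fin_cases i <;> fin_cases j <;> simp [mul_apply, Fin.sum_univ_two]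
      ring
  rw [_root_.smul_pow, hn, one_smul, e, hn'] at h2
  refine ⟨g ^ n, K.pow_mem hg n, by simpa using h2.2, ?_⟩
  rw [h2.1]; simp

theorem aff_mem_planeP {K : Subgroup (GL ι F)} {x u : ι → F} {a : F} {g : GL ι F}
    (hg : g ∈ K) (h1 : ac g x = x) (h2 : ac g u = u + a • x) : aff 1 a ∈ planeP K x u :=
  ofMat_mem_planeP hg _ ⟨by simpa using h1, by rw [h2]; simp [add_comm]⟩

theorem low_mem_planeP {K : Subgroup (GL ι F)} {x u : ι → F} {a : F} {g : GL ι F}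
    (hg : g ∈ K) (h1 : ac g u = u) (h2 : ac g x = x + a • u) : low a ∈ planeP K x u :=
  ofMat_mem_planeP hg _ ⟨by rw [h2]; simp, by simpa using h1⟩

/-- the elements of `K` fixing a set of vectors -/
def fixV (K : Subgroup (GL ι F)) (S : Set (ι → F)) : Subgroup (GL ι F) where
  carrier := {g | g ∈ K ∧ ∀ w ∈ S, ac g w = w}
  mul_mem' := by
    rintro g h ⟨h1, h2⟩ ⟨h3, h4⟩
    exact ⟨K.mul_mem h1 h3, fun w hw => by rw [ac_mul, h4 w hw, h2 w hw]⟩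
  one_mem' := ⟨K.one_mem, fun w _ => ac_one w⟩
  inv_mem' := by
    rintro g ⟨h1, h2⟩
    exact ⟨K.inv_mem h1, fun w hw => ac_inv_eq (h2 w hw)⟩

/-- the elements of `K` fixing a set of linear forms -/
def fixD (K : Subgroup (GL ι F)) (S : Set (ι → F)) : Subgroup (GL ι F) where
  carrier := {g | g ∈ K ∧ ∀ ψ ∈ S, ∀ v, ψ ⬝ᵥ ac g v = ψ ⬝ᵥ v}
  mul_mem' := by
    rintro g h ⟨h1, h2⟩ ⟨h3, h4⟩
    exact ⟨K.mul_mem h1 h3, fun ψ hψ v => by rw [ac_mul, h2 ψ hψ, h4 ψ hψ]⟩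
  one_mem' := ⟨K.one_mem, fun ψ _ v => by rw [ac_one]⟩
  inv_mem' := by
    rintro g ⟨h1, h2⟩
    exact ⟨K.inv_mem h1, fun ψ hψ v => by rw [← h2 ψ hψ, ac_ac_inv]⟩

theorem isT_of_plane {g : GL ι F} {x φ u θ y η : ι → F} (h1 : φ ⬝ᵥ x = 0) (h2 : θ ⬝ᵥ u = 0)
    (e1 : φ ⬝ᵥ u ≠ 0) (e2 : θ ⬝ᵥ x ≠ 0)
    (hz : ∀ w, φ ⬝ᵥ w = 0 → θ ⬝ᵥ w = 0 → ac g w = w + (η ⬝ᵥ w) • y)
    (hx : ac g x = x + (η ⬝ᵥ x) • y) (hu : ac g u = u + (η ⬝ᵥ u) • y) : IsT g y η := by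
  intro v
  have := hz (v - (θ ⬝ᵥ v / θ ⬝ᵥ x) • x - (φ ⬝ᵥ v / φ ⬝ᵥ u) • u)
    (by simp only [dotProduct_sub, dotProduct_smul, smul_eq_mul, h1]; field_simp; ring)
    (by simp only [dotProduct_sub, dotProduct_smul, smul_eq_mul, h2]; field_simp; ring)
  rw [ac_sub, ac_sub, ac_smul, ac_smul, hx, hu] at this
  simp only [dotProduct_sub, dotProduct_smul, smul_eq_mul] at this
  linear_combination (norm := module) this

theorem pair_tv [Finite F] {K : Subgroup (GL ι F)} {x φ u θ : ι → F} (h1 : TV K x φ)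
    (h2 : TV K u θ) (hm : (φ ⬝ᵥ u) * (θ ⬝ᵥ x) ≠ 0) :
    (∃ k : Subfield F, (φ ⬝ᵥ u) * (θ ⬝ᵥ x) ∈ k ∧ (∀ a : F, TV K x (a • φ) ↔ a ∈ k) ∧
      ∀ b : F, TV K u (b • θ) ↔ b ∈ k) ∨
    ((2 : F) = 0 ∧ (∀ a : F, TV K x (a • φ) → a = 0 ∨ a = 1) ∧
      ∀ b : F, TV K u (b • θ) → b = 0 ∨ b = 1) ∨
    ((3 : F) = 0 ∧ ((φ ⬝ᵥ u) * (θ ⬝ᵥ x)) ^ 2 = -1 ∧ (∀ a : F, TV K x (a • φ) → a ^ 3 = a) ∧
      ∀ b : F, TV K u (b • θ) → b ^ 3 = b) := by
  set m := (φ ⬝ᵥ u) * (θ ⬝ᵥ x) with hmdef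
  have hθx : θ ⬝ᵥ x ≠ 0 := right_ne_zero_of_mul hm
  have hφu : φ ⬝ᵥ u ≠ 0 := left_ne_zero_of_mul hm
  let H := planeP (fixV K {w | φ ⬝ᵥ w = 0 ∧ θ ⬝ᵥ w = 0}) x ((θ ⬝ᵥ x) • u)
  have hA : ∀ a : F, TV K x (a • φ) ↔ aff 1 (a * m) ∈ H := by
    intro a
    constructor
    · rintro ⟨-, g, hg, hr⟩
      refine aff_mem_planeP (g := g) ⟨hg, fun w hw => ?_⟩ ?_ ?_
      · rw [hr]; simp [hw.1]
      · rw [hr]; simp [h1.1]
      · rw [hr]; simp only [smul_dotProduct, dotProduct_smul, smul_eq_mul, hmdef]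
        congr 2; ring
    · intro h
      obtain ⟨g, ⟨hg, hw⟩, e1, e2⟩ := exists_of_aff_mem h
      refine ⟨by simp [h1.1], g, hg, isT_of_plane h1.1 h2.1 hφu hθx (fun w a1 a2 => ?_) ?_ ?_⟩
      · rw [hw w ⟨a1, a2⟩]; simp [a1]
      · rw [e1]; simp [h1.1]
      · refine smul_right_injective _ hθx ?_
        simp only [← ac_smul, e2, smul_dotProduct, smul_eq_mul, hmdef]
        module
  have hB : ∀ b : F, TV K u (b • θ) ↔ low b ∈ H := by
    intro b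
    constructor
    · rintro ⟨-, g, hg, hr⟩
      refine low_mem_planeP (g := g) ⟨hg, fun w hw => ?_⟩ ?_ ?_
      · rw [hr]; simp [hw.2]
      · rw [hr]; simp [h2.1]
      · rw [hr]; simp only [smul_dotProduct, smul_eq_mul, smul_smul]
    · intro h
      obtain ⟨g, ⟨hg, hw⟩, e1, e2⟩ := exists_of_low_mem h
      refine ⟨by simp [h2.1], g, hg, isT_of_plane h1.1 h2.1 hφu hθx (fun w a1 a2 => ?_) ?_ ?_⟩
      · rw [hw w ⟨a1, a2⟩]; simp [a2]
      · rw [e2]; simp only [smul_dotProduct, smul_eq_mul, smul_smul]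
      · refine smul_right_injective _ hθx ?_
        simp only [← ac_smul, e1]
        simp [h2.1]
  have a1 : aff 1 m ∈ H := by
    have := (hA 1).1 (by rwa [one_smul])
    rwa [one_mul] at this
  have b1 : low 1 ∈ H := (hB 1).1 (by rwa [one_smul])
  rcases MH.pair_pgl H b1 hm a1 with ⟨k, k1, k2⟩ | ⟨k0, k1, k2⟩ | ⟨k0, k3, k1, k2⟩
  · have hmk := (k1 m).1 a1
    refine Or.inl ⟨k, hmk, fun a => ?_, fun b => (hB b).trans (k2 b)⟩
    rw [hA, k1]
    refine ⟨fun h => ?_, fun h => k.mul_mem h hmk⟩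
    have := k.mul_mem h (k.inv_mem hmk)
    rwa [mul_assoc, mul_inv_cancel₀ hm, mul_one] at this
  · refine Or.inr (Or.inl ⟨k0, fun a ha => ?_, fun b hb => k2 b ((hB b).1 hb)⟩)
    rcases k1 _ ((hA a).1 ha) with h | h
    · exact Or.inl ((mul_eq_zero.1 h).resolve_right hm)
    · exact Or.inr (mul_right_cancel₀ hm (by rw [h, one_mul]))
  · refine Or.inr (Or.inr ⟨k0, k3, fun a ha => ?_,
      fun b hb => MH.cube_eq_self_iff.2 (k2 b ((hB b).1 hb))⟩)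
    rw [MH.cube_eq_self_iff]
    rcases k1 _ ((hA a).1 ha) with h | h | h
    · exact Or.inl ((mul_eq_zero.1 h).resolve_right hm)
    · exact Or.inr (Or.inl (mul_right_cancel₀ hm (by rw [h, one_mul])))
    · exact Or.inr (Or.inr (mul_right_cancel₀ hm (by rw [h, neg_one_mul])))

/-! ### vocabulary -/

/-- `T` is the set of transvections of a quasisimple irreducible group, and is non-trivial -/
structure TS (T : (ι → F) → (ι → F) → Prop) : Prop where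
  grp : ∃ K : Subgroup (GL ι F), QS K ∧ T = TV K
  ex : ∃ x φ, NT T x φ

/-- the transvection group of the flag `(x, φ)` is `k φ` -/
def Big (T : (ι → F) → (ι → F) → Prop) (k : Subfield F) (x φ : ι → F) : Prop :=
  ∀ a : F, T x (a • φ) ↔ a ∈ k

/-- all transvection groups are defined over `k` -/
structure RM (T : (ι → F) → (ι → F) → Prop) (k : Subfield F) : Prop where
  big : ∀ {x φ}, NT T x φ → Big T k x φ
  mem : ∀ {x φ u θ}, T x φ → T u θ → (φ ⬝ᵥ u) * (θ ⬝ᵥ x) ∈ k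

/-- the point `x` is the centre of transvections with two different axes -/
def TwoAx (T : (ι → F) → (ι → F) → Prop) (x : ι → F) : Prop :=
  ∃ φ φ', T x φ ∧ T x φ' ∧ φ ≠ 0 ∧ ∀ c : F, φ' ≠ c • φ

/-- every centre has only one axis -/
def Uni (T : (ι → F) → (ι → F) → Prop) : Prop := ∀ x, x ≠ 0 → ¬ TwoAx T x

def Kill (T : (ι → F) → (ι → F) → Prop) : Prop :=
  ∀ x u θ, x ≠ 0 → TwoAx T x → T u θ → θ ⬝ᵥ x ≠ 0 → ∃ ψ, ψ ≠ 0 ∧ T x ψ ∧ ψ ⬝ᵥ u = 0

/-- incidence of centres and axes is symmetric -/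
def Sym (T : (ι → F) → (ι → F) → Prop) : Prop :=
  ∀ x φ u θ, NT T x φ → NT T u θ → φ ⬝ᵥ u = 0 → θ ⬝ᵥ x = 0

/-- all transvection groups have order three -/
def Small3 (T : (ι → F) → (ι → F) → Prop) : Prop :=
  ∀ x φ (a : F), NT T x φ → T x (a • φ) → a ^ 3 = a

/-- all transvection groups have order two -/
def Small2 (T : (ι → F) → (ι → F) → Prop) : Prop :=
  ∀ x φ (a : F), NT T x φ → T x (a • φ) → a = 0 ∨ a = 1

/-- the transvections are not realised over a proper subfield -/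
def NoRat (T : (ι → F) → (ι → F) → Prop) : Prop := ∀ (k : Subfield F) (b β : ι → ι → F),
  DualB b β → (∀ x φ, T x φ → ∀ i j, (β i ⬝ᵥ x) * (φ ⬝ᵥ b j) ∈ k) → k = ⊤

omit [DecidableEq ι] in
theorem conj_ne_left {x u θ : ι → F} (hx : x ≠ 0) (h : θ ⬝ᵥ u = 0) : x + (θ ⬝ᵥ x) • u ≠ 0 := by
  intro e
  have h1 : θ ⬝ᵥ (x + (θ ⬝ᵥ x) • u) = 0 := by rw [e, dotProduct_zero]
  rw [dotProduct_add, dotProduct_smul, h, smul_zero, add_zero] at h1
  rw [h1, zero_smul, add_zero] at e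
  exact hx e

omit [DecidableEq ι] in
theorem conj_ne_right {φ u θ : ι → F} (hx : φ ≠ 0) (h : θ ⬝ᵥ u = 0) : φ - (φ ⬝ᵥ u) • θ ≠ 0 := by
  intro e
  have h1 : (φ - (φ ⬝ᵥ u) • θ) ⬝ᵥ u = 0 := by rw [e, zero_dotProduct]
  rw [sub_dotProduct, smul_dotProduct, h, smul_zero, sub_zero] at h1
  rw [h1, zero_smul, sub_zero] at e
  exact hx e

omit [Fintype ι] [DecidableEq ι] in
theorem NT.flip {T : (ι → F) → (ι → F) → Prop} {x φ : ι → F} (h : NT T x φ) :
    NT (fun φ x => T x φ) φ x := ⟨h.1, h.2.2, h.2.1⟩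

omit [DecidableEq ι] in
theorem Sym.flip {T : (ι → F) → (ι → F) → Prop} (h : Sym T) : Sym (fun φ x => T x φ) :=
  fun φ x θ u h1 h2 e => by
    rw [dotProduct_comm] at e ⊢
    exact h _ _ _ _ h2.flip h1.flip e

omit [DecidableEq ι] in
theorem NoRat.flip [DecidableEq ι] {T : (ι → F) → (ι → F) → Prop} (h : NoRat T) :
    NoRat (fun φ x => T x φ) := fun k b β hb H => h k β b hb.flip fun x φ hx i j => by
  rw [mul_comm, dotProduct_comm, dotProduct_comm (b i)]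
  exact H φ x hx j i

omit [Fintype ι] [DecidableEq ι] in
theorem Uni.eq {T : (ι → F) → (ι → F) → Prop} {x φ φ' : ι → F} (h : Uni T) (h1 : NT T x φ)
    (h2 : T x φ') : ∃ c : F, φ' = c • φ := by
  by_contra hn
  push Not at hn
  exact h x h1.2.1 ⟨φ, φ', h1.1, h2, h1.2.2, hn⟩

namespace TS

variable {T : (ι → F) → (ι → F) → Prop} (S : TS T) {x x' u y φ φ' θ η : ι → F}
include S

theorem flip : TS (fun φ x => T x φ) where
  grp := by
    obtain ⟨K, hK, rfl⟩ := S.grp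
    exact ⟨_, hK.flip, (tv_comap_itr K).symm⟩
  ex := let ⟨x, φ, h⟩ := S.ex; ⟨φ, x, h.flip⟩

theorem dot (h : T x φ) : φ ⬝ᵥ x = 0 := by
  obtain ⟨K, -, rfl⟩ := S.grp
  exact h.1

theorem smul (c : F) : T (c • x) φ ↔ T x (c • φ) := by
  obtain ⟨K, -, rfl⟩ := S.grp
  simp only [TV, IsT.smul_iff, dotProduct_smul, smul_dotProduct]

theorem zero (x : ι → F) : T x 0 := by
  obtain ⟨K, -, rfl⟩ := S.grp
  exact ⟨zero_dotProduct x, 1, K.one_mem, isT_one x⟩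

theorem zero_left (φ : ι → F) : T 0 φ := S.flip.zero φ

theorem add_right (h : T x φ) (h' : T x φ') : T x (φ + φ') := by
  obtain ⟨K, -, rfl⟩ := S.grp
  obtain ⟨h1, g, hg, h2⟩ := h
  obtain ⟨h3, g', hg', h4⟩ := h'
  exact ⟨by rw [add_dotProduct, h1, h3, add_zero], _, K.mul_mem hg hg', h2.mul_right h4 h1⟩

theorem add_left (h : T x φ) (h' : T x' φ) : T (x + x') φ := S.flip.add_right h h'

theorem neg (h : T x φ) : T x (-φ) := by
  obtain ⟨K, -, rfl⟩ := S.grp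
  obtain ⟨h1, g, hg, h2⟩ := h
  exact ⟨by rw [neg_dotProduct, h1, neg_zero], _, K.inv_mem hg, h2.inv h1⟩

theorem neg_left (h : T x φ) : T (-x) φ := S.flip.neg h

theorem sub_right (h : T x φ) (h' : T x φ') : T x (φ - φ') := by
  rw [sub_eq_add_neg]; exact S.add_right h (S.neg h')

theorem sub_left (h : T x φ) (h' : T x' φ) : T (x - x') φ := S.flip.sub_right h h'

theorem conj (h : T x φ) (h' : T u θ) : T (x + (θ ⬝ᵥ x) • u) (φ - (φ ⬝ᵥ u) • θ) := by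
  obtain ⟨K, -, rfl⟩ := S.grp
  obtain ⟨h3, g', hg', h4⟩ := h'
  have := h.conj hg'
  rwa [h4 x, h4.dc_eq h3] at this

theorem NT_conj (h : NT T x φ) (h' : T u θ) : NT T (x + (θ ⬝ᵥ x) • u) (φ - (φ ⬝ᵥ u) • θ) :=
  ⟨S.conj h.1 h', conj_ne_left h.2.1 (S.dot h'), conj_ne_right h.2.2 (S.dot h')⟩

theorem NT_smul {c : F} (hc : c ≠ 0) (h : NT T x φ) : NT T (c • x) (c⁻¹ • φ) :=
  ⟨by rw [S.smul, smul_smul, mul_inv_cancel₀ hc, one_smul]; exact h.1, smul_ne_zero hc h.2.1,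
    smul_ne_zero (inv_ne_zero hc) h.2.2⟩

theorem pair [Finite F] (h : T x φ) (h' : T u θ) (hm : (φ ⬝ᵥ u) * (θ ⬝ᵥ x) ≠ 0) :
    (∃ k : Subfield F, (φ ⬝ᵥ u) * (θ ⬝ᵥ x) ∈ k ∧ Big T k x φ ∧ Big T k u θ) ∨
    ((2 : F) = 0 ∧ (∀ a : F, T x (a • φ) → a = 0 ∨ a = 1) ∧
      ∀ b : F, T u (b • θ) → b = 0 ∨ b = 1) ∨
    ((3 : F) = 0 ∧ ((φ ⬝ᵥ u) * (θ ⬝ᵥ x)) ^ 2 = -1 ∧ (∀ a : F, T x (a • φ) → a ^ 3 = a) ∧
      ∀ b : F, T u (b • θ) → b ^ 3 = b) := by
  obtain ⟨K, -, rfl⟩ := S.grp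
  exact pair_tv h h' hm

theorem comm_left (h : T x φ) (h' : T u θ) (h0 : φ ⬝ᵥ u = 0) : T u ((θ ⬝ᵥ x) • φ) := by
  have := S.conj h h'
  rw [h0, zero_smul, sub_zero] at this
  have := S.sub_left this h
  rwa [add_sub_cancel_left, S.smul] at this

theorem comm_right (h : T x φ) (h' : T u θ) (h0 : θ ⬝ᵥ x = 0) : T x ((φ ⬝ᵥ u) • θ) := by
  have := S.conj h h'
  rw [h0, zero_smul, add_zero] at this
  have := S.sub_right h this
  rwa [sub_sub_cancel] at this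

/-- irreducibility -/
theorem inv (W : Submodule F (ι → F)) (hW : ∀ y η, NT T y η → ∀ v ∈ W, η ⬝ᵥ v ≠ 0 → y ∈ W) :
    W = ⊥ ∨ W = ⊤ := by
  obtain ⟨K, hK, rfl⟩ := S.grp
  obtain ⟨x, φ, h⟩ := S.ex
  refine hK.inv_class (fun _ _ h => h) (fun _ _ h _ hg => h.conj hg) h W fun y η h1 v hv e => ?_
  by_cases hy : y = 0
  · rw [hy]; exact W.zero_mem
  · exact hW y η ⟨h1, hy, ne_left e⟩ v hv e

/-- there is a transvection avoiding a given hyperplane and a given point -/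
theorem avoid {ψ v : ι → F} (hψ : ψ ≠ 0) (hv : v ≠ 0) :
    ∃ u θ, NT T u θ ∧ ψ ⬝ᵥ u ≠ 0 ∧ θ ⬝ᵥ v ≠ 0 := by
  obtain ⟨K, hK, rfl⟩ := S.grp
  obtain ⟨x, φ, h⟩ := S.ex
  obtain ⟨u, θ, h1, h2, h3⟩ :=
    hK.exists_class (fun _ _ h => h) (fun _ _ h _ hg => h.conj hg) h hψ hv
  exact ⟨u, θ, ⟨h1, ne_right h2, ne_left h3⟩, h2, h3⟩

/-- the centres outside a hyperplane span -/
theorem eq_zero_of_centres {ψ ξ : ι → F} (hψ : ψ ≠ 0)
    (h : ∀ u θ, NT T u θ → ψ ⬝ᵥ u ≠ 0 → ξ ⬝ᵥ u = 0) : ξ = 0 := by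
  by_contra hξ
  obtain ⟨x, φ, h0⟩ := S.ex
  obtain ⟨u, θ, h1, h2, -⟩ := S.avoid hψ h0.2.1
  obtain ⟨y, η, h3, h4, h5⟩ := S.avoid hξ h1.2.1
  have e : ψ ⬝ᵥ y = 0 := by
    by_contra e
    exact h4 (h y η h3 e)
  have := h _ _ (S.NT_conj h1 h3.1) (by
    rwa [dotProduct_add, dotProduct_smul, e, smul_zero, add_zero])
  rw [dotProduct_add, dotProduct_smul, h u θ h1 h2, zero_add, smul_eq_mul] at this
  exact mul_ne_zero h5 h4 this

/-- the axes missing a point span -/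
theorem eq_zero_of_axes {w v : ι → F} (hw : w ≠ 0)
    (h : ∀ u θ, NT T u θ → θ ⬝ᵥ w ≠ 0 → θ ⬝ᵥ v = 0) : v = 0 :=
  S.flip.eq_zero_of_centres hw fun θ u h1 e => by
    rw [dotProduct_comm] at e ⊢
    exact h u θ h1.flip e

theorem sym_of_uni (h : Uni T) : Sym T := by
  intro x φ u θ h1 h2 e
  by_contra e'
  refine h u h2.2.1 ⟨θ, _, h2.1, S.comm_left h1.1 h2.1 e, h2.2.2, fun c hc => ?_⟩
  have := congrArg (· ⬝ᵥ x) hc
  simp only [smul_dotProduct, S.dot h1.1, smul_eq_mul, mul_zero] at this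
  rw [(mul_eq_zero.1 this.symm).resolve_right e', zero_smul, smul_eq_zero] at hc
  exact hc.elim e' h1.2.2

theorem small2_flip (h : Small2 T) : Small2 (fun φ x => T x φ) :=
  fun φ x a h1 h2 => h x φ a h1.flip ((S.smul a).1 h2)

theorem small3_flip (h : Small3 T) : Small3 (fun φ x => T x φ) :=
  fun φ x a h1 h2 => h x φ a h1.flip ((S.smul a).1 h2)

theorem rm_flip {k : Subfield F} (h : RM T k) : RM (fun φ x => T x φ) k where
  big h1 a := (S.smul a).trans (h.big h1.flip a)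
  mem h1 h2 := by
    rw [dotProduct_comm, mul_comm, dotProduct_comm]
    exact h.mem h1 h2

/-- a commutator in the unipotent radical of the stabiliser of a flag -/
theorem op {w ω w' ω' : ι → F} {ξ : F} (hξ : ξ ≠ 0) (a1 : η ⬝ᵥ y = 0) (a2 : η ⬝ᵥ w = 0)
    (a3 : η ⬝ᵥ w' = 0) (a4 : ω ⬝ᵥ y = 0) (a5 : ω' ⬝ᵥ y = 0)
    (h1 : T (w + y) (ω + η)) (h2 : T (ξ • w + y) (ξ⁻¹ • ω + η))
    (h3 : T (w' + y) (ω' + η)) (h4 : T (ξ • w' + y) (ξ⁻¹ • ω' + η)) :
    T y (((1 - ξ) * (1 - ξ⁻¹) * (ω ⬝ᵥ w' - ω' ⬝ᵥ w)) • η) := by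
  obtain ⟨K, -, rfl⟩ := S.grp
  have key : ∀ {w ω : ι → F}, η ⬝ᵥ w = 0 → ω ⬝ᵥ y = 0 → TV K (w + y) (ω + η) →
      TV K (ξ • w + y) (ξ⁻¹ • ω + η) → ω ⬝ᵥ w = 0 ∧ ∃ g ∈ K,
        (∀ v, ac g v = v + ((1 - ξ) * η ⬝ᵥ v) • w + ((1 - ξ⁻¹) * ω ⬝ᵥ v) • y) ∧
        ∀ v, ac g⁻¹ v = v - ((1 - ξ) * η ⬝ᵥ v) • w - ((1 - ξ⁻¹) * ω ⬝ᵥ v) • y := by
    rintro w ω a2 a4 ⟨b1, g, hg, b2⟩ ⟨b3, g', hg', b4⟩
    have a6 : ω ⬝ᵥ w = 0 := by
      simpa only [add_dotProduct, dotProduct_add, a1, a2, a4, add_zero] using b1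
    have e : ∀ v, ac (g * g'⁻¹) v =
        v + ((1 - ξ) * η ⬝ᵥ v) • w + ((1 - ξ⁻¹) * ω ⬝ᵥ v) • y := fun v => by
      rw [ac_mul, b4.inv b3, b2]
      simp only [add_dotProduct, dotProduct_add, neg_dotProduct, smul_dotProduct, dotProduct_smul,
        a1, a2, a4, a6, smul_eq_mul, mul_zero, add_zero]
      match_scalars <;> field_simp <;> ring
    refine ⟨a6, _, K.mul_mem hg (K.inv_mem hg'), e, fun v => ac_inv_eq ?_⟩
    rw [e]
    simp only [dotProduct_sub, dotProduct_smul, a1, a2, a4, a6, smul_eq_mul, mul_zero, sub_zero]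
    module
  obtain ⟨a6, g, hg, e1, e2⟩ := key a2 a4 h1 h2
  obtain ⟨a7, g', hg', e3, e4⟩ := key a3 a5 h3 h4
  refine ⟨by rw [smul_dotProduct, a1, smul_zero], g * g' * g⁻¹ * g'⁻¹,
    K.mul_mem (K.mul_mem (K.mul_mem hg hg') (K.inv_mem hg)) (K.inv_mem hg'), fun v => ?_⟩
  rw [ac_mul, ac_mul, ac_mul, e4, e2, e3, e1]
  simp only [dotProduct_sub, dotProduct_add, dotProduct_smul, smul_dotProduct, a1, a2, a3, a4, a5,
    a6, a7, smul_eq_mul, mul_zero, sub_zero, add_zero]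
  module

/-- an abelian normal subgroup cannot exist -/
theorem endgame (Ω : Set (Matrix ι ι F)) (hc : ∀ a ∈ Ω, ∀ b ∈ Ω, a * b = b * a)
    (hi : ∀ y η, NT T y η → ∀ a ∈ Ω, (1 + vecMulVec y η) * a * (1 - vecMulVec y η) ∈ Ω)
    (h1 : NT T x φ) (h2 : NT T u θ) (hm : φ ⬝ᵥ u ≠ 0) (hm' : θ ⬝ᵥ x ≠ 0)
    {a b : Matrix ι ι F} (ha : a ∈ Ω) (hb : b ∈ Ω) {c d : F}
    (e : (1 + vecMulVec x φ) * (1 + vecMulVec u θ) = 1 + c • a + d • b) : False := by
  obtain ⟨K, hK, rfl⟩ := S.grp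
  -- the centraliser of `Ω` and of its centraliser
  have inv : ∀ g ∈ K, ∀ a ∈ Ω, (g : Matrix ι ι F) * a * ((g⁻¹ : GL ι F) : Matrix ι ι F) ∈ Ω := by
    let M : Subgroup (GL ι F) :=
      { carrier := {g | (∀ a ∈ Ω, (g : Matrix ι ι F) * a * ((g⁻¹ : GL ι F) : Matrix ι ι F) ∈ Ω) ∧
          ∀ a ∈ Ω, ((g⁻¹ : GL ι F) : Matrix ι ι F) * a * (g : Matrix ι ι F) ∈ Ω}
        mul_mem' := fun {g h} hg hh => ⟨fun a ha => by
            have := hg.1 _ (hh.1 a ha)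
            rw [_root_.mul_inv_rev, Units.val_mul, Units.val_mul]
            simpa only [Matrix.mul_assoc] using this,
          fun a ha => by
            have := hh.2 _ (hg.2 a ha)
            rw [_root_.mul_inv_rev, Units.val_mul, Units.val_mul]
            simpa only [Matrix.mul_assoc] using this⟩
        one_mem' := ⟨fun a ha => by simpa using ha, fun a ha => by simpa using ha⟩
        inv_mem' := fun {g} hg => ⟨fun a ha => by rw [inv_inv]; exact hg.2 a ha,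
          fun a ha => by rw [inv_inv]; exact hg.1 a ha⟩ }
    have := hK.le_of_class (C := NT (TV K)) (fun _ _ h => h.1)
      (fun _ _ h g hg => ⟨h.1.conj hg, ac_ne_zero g h.2.1, dc_ne_zero g h.2.2⟩) ⟨h1, h1.2⟩
      (M := M) fun g _ y η b1 b2 => by
        have b3 := (b2.inv b1.1.1).coe_eq
        rw [vecMulVec_neg, ← sub_eq_add_neg] at b3
        refine ⟨fun a ha => ?_, fun a ha => ?_⟩
        · rw [b3, b2.coe_eq]; exact hi y η b1 a ha
        · have := hi y (-η) ⟨S.neg b1.1, b1.2.1, neg_ne_zero.2 b1.2.2⟩ a ha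
          rw [vecMulVec_neg, ← sub_eq_add_neg, sub_neg_eq_add] at this
          rw [b3, b2.coe_eq]; exact this
    exact fun g hg => (this hg).1
  let A : Subalgebra F (Matrix ι ι F) := Algebra.adjoin F Ω
  have hA : ∀ a ∈ A, ∀ b ∈ A, a * b = b * a := fun a ha b hb =>
    Algebra.commute_of_mem_adjoin_of_forall_mem_commute hb fun b hb =>
      (Algebra.commute_of_mem_adjoin_of_forall_mem_commute ha fun a ha => hc b hb a ha).symm
  have hAi : ∀ g ∈ K, ∀ a ∈ A, conjAlgHom g a ∈ A := fun g hg a ha => by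
    have : A ≤ A.comap (conjAlgHom g) := Algebra.adjoin_le fun a ha =>
      Algebra.subset_adjoin (inv g hg a ha)
    exact this ha
  let M : Subgroup (GL ι F) := Subgroup.closure {g | (g : Matrix ι ι F) ∈ A}
  obtain ⟨p1, s, hs, p2⟩ := h1.1
  obtain ⟨p3, t, ht, p4⟩ := h2.1
  have hle := hK.gen M (fun g hg z hz => by
      induction hz using Subgroup.closure_induction with
      | mem z hz => exact Subgroup.subset_closure (hAi g hg _ hz)
      | one => simp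
      | mul z k _ _ h1 h2 =>
        have := mul_mem h1 h2
        rwa [show g * z * g⁻¹ * (g * k * g⁻¹) = g * (z * k) * g⁻¹ by group] at this
      | inv z _ h1 =>
        have := inv_mem h1
        rwa [show (g * z * g⁻¹)⁻¹ = g * z⁻¹ * g⁻¹ by group] at this)
    (s * t) (K.mul_mem hs ht) (Subgroup.subset_closure (by
      change ((s * t : GL ι F) : Matrix ι ι F) ∈ A
      rw [Units.val_mul, p2.coe_eq, p4.coe_eq, e]
      exact A.add_mem (A.add_mem A.one_mem (A.smul_mem (Algebra.subset_adjoin ha) c))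
        (A.smul_mem (Algebra.subset_adjoin hb) d))) (by
      obtain ⟨i, -⟩ := Function.ne_iff.1 h1.2.1
      have : Nonempty ι := ⟨i⟩
      rw [mem_scalars']
      rintro ⟨l, hl⟩
      have e : ∀ v, ac (s * t) v = l • v := fun v => by rw [ac, hl, smul_mulVec, one_mulVec]
      have e1 := congrArg (θ ⬝ᵥ ·) (e u)
      simp only [ac_mul, p4 u, p3, zero_smul, add_zero, p2 u, dotProduct_add, dotProduct_smul,
        smul_eq_mul, mul_zero, zero_add] at e1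
      exact mul_ne_zero hm hm' e1)
  refine hK.nonab fun a ha b hb => ?_
  have := Subgroup.isMulCommutative_closure (k := {g : GL ι F | (g : Matrix ι ι F) ∈ A})
    fun a ha b hb => Units.ext (hA _ ha _ hb)
  exact setLike_mul_comm (s := M) (hle ha) (hle hb)

end TS

end CL.Zs
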