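/-
The field of definition of the transvection groups.
-/
import Cfsg.Agent.CLAS.Zs2

set_option autoImplicit false

namespace CL.Zs

open Matrix Cfsg.Geo CL.Asch

variable {F : Type*} [Field F] {ι : Type} [Fintype ι] [DecidableEq ι]

omit [Fintype ι] [DecidableEq ι] in
theorem Big.self {T : (ι → F) → (ι → F) → Prop} {k : Subfield F} {x φ : ι → F} (h : Big T k x φ) :
    T x φ := by
  have := (h 1).2 k.one_mem
  rwa [one_smul] at this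

omit [DecidableEq ι] in
theorem DualB.dot_sum {κ : Type} [Fintype κ] [DecidableEq κ] {b β : κ → ι → F} (h : DualB b β)
    (α a : κ → F) : (∑ i, α i • β i) ⬝ᵥ (∑ j, a j • b j) = α ⬝ᵥ a := by
  simp only [sum_dotProduct, dotProduct_sum, smul_dotProduct, dotProduct_smul, h _ _, smul_eq_mul,
    mul_ite, mul_one, mul_zero, Finset.sum_ite_eq', Finset.mem_univ, if_true]
  exact Finset.sum_congr rfl fun i _ => mul_comm _ _

omit [DecidableEq ι] in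
theorem exists_dual {κ : Type} [Fintype κ] [DecidableEq κ] (x φ : κ → ι → F)
    (hd : (Matrix.of fun i j => φ i ⬝ᵥ x j).det ≠ 0) :
    ∃ β, DualB x β ∧ ∀ j, φ j = ∑ i, (φ j ⬝ᵥ x i) • β i := by
  set G : Matrix κ κ F := Matrix.of fun i j => φ i ⬝ᵥ x j with hG
  have hu : IsUnit G.det := hd.isUnit
  refine ⟨fun i => ∑ j, G⁻¹ i j • φ j, fun i l => ?_, fun j => ?_⟩
  · have := congrFun (congrFun (nonsing_inv_mul G hu) i) l
    rw [mul_apply, one_apply] at this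
    rw [← this, sum_dotProduct]
    exact Finset.sum_congr rfl fun j _ => by rw [smul_dotProduct]; rfl
  · have e : ∀ l, ∑ i, (φ j ⬝ᵥ x i) * G⁻¹ i l = if j = l then 1 else 0 := fun l => by
      have := congrFun (congrFun (mul_nonsing_inv G hu) j) l
      rw [mul_apply, one_apply] at this
      exact this
    simp only [Finset.smul_sum, smul_smul]
    rw [Finset.sum_comm]
    simp only [← Finset.sum_smul, e, ite_smul, one_smul, zero_smul, Finset.sum_ite_eq,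
      Finset.mem_univ, if_true]

omit [DecidableEq ι] in
theorem det_gram3 {x u y φ θ η : ι → F} (h1 : φ ⬝ᵥ x = 0) (h2 : θ ⬝ᵥ u = 0) (h3 : η ⬝ᵥ y = 0) :
    (Matrix.of fun i j => ![φ, θ, η] i ⬝ᵥ ![x, u, y] j).det =
      (φ ⬝ᵥ u) * (θ ⬝ᵥ y) * (η ⬝ᵥ x) + (φ ⬝ᵥ y) * (η ⬝ᵥ u) * (θ ⬝ᵥ x) := by
  rw [det_fin_three]
  simp [h1, h2, h3]
  ring

/-- the prime field in characteristic two -/
def primeTwo (F : Type*) [Field F] (h2 : (2 : F) = 0) : Subfield F where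
  carrier := {a | a = 0 ∨ a = 1}
  mul_mem' := by rintro a b (rfl | rfl) (rfl | rfl) <;> simp
  one_mem' := Or.inr rfl
  add_mem' := by
    rintro a b (rfl | rfl) (rfl | rfl)
    exacts [Or.inl (add_zero _), Or.inr (zero_add _), Or.inr (add_zero _),
      Or.inl (by linear_combination h2)]
  zero_mem' := Or.inl rfl
  neg_mem' := by
    rintro a (rfl | rfl)
    exacts [Or.inl neg_zero, Or.inr (by linear_combination -h2)]
  inv_mem' := by rintro a (rfl | rfl) <;> simp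

theorem ac_of_plane {g : GL ι F} {x φ u θ : ι → F} (h1 : φ ⬝ᵥ x = 0) (h2 : θ ⬝ᵥ u = 0)
    (e1 : φ ⬝ᵥ u ≠ 0) (e2 : θ ⬝ᵥ x ≠ 0) (hz : ∀ w, φ ⬝ᵥ w = 0 → θ ⬝ᵥ w = 0 → ac g w = w) (v : ι → F) :
    ac g v = v + (θ ⬝ᵥ v / θ ⬝ᵥ x) • (ac g x - x) + (φ ⬝ᵥ v / φ ⬝ᵥ u) • (ac g u - u) := by
  have := hz (v - (θ ⬝ᵥ v / θ ⬝ᵥ x) • x - (φ ⬝ᵥ v / φ ⬝ᵥ u) • u)
    (by simp only [dotProduct_sub, dotProduct_smul, smul_eq_mul, h1]; field_simp; ring)
    (by simp only [dotProduct_sub, dotProduct_smul, smul_eq_mul, h2]; field_simp; ring)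
  rw [ac_sub, ac_sub, ac_smul, ac_smul] at this
  linear_combination (norm := module) this

omit [DecidableEq ι] in
theorem span_pair_ne_top (hn : 3 ≤ Fintype.card ι) (x u : ι → F) :
    Submodule.span F {x, u} ≠ ⊤ := by
  classical
  intro h
  have := finrank_span_finset_le_card (R := F) ({x, u} : Finset (ι → F))
  rw [Set.finrank, Finset.coe_pair, h, finrank_top, Module.finrank_fintype_fun_eq_card] at this
  have := Finset.card_le_two (a := x) (b := u)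
  omega

namespace TS

variable {T : (ι → F) → (ι → F) → Prop} (S : TS T) {x x' u y φ φ' θ η : ι → F} {k : Subfield F}
include S

theorem big_flip : Big (fun φ x => T x φ) k φ x ↔ Big T k x φ := by
  simp only [Big, S.smul]

theorem exists_opp (hx : x ≠ 0) (hφ : φ ≠ 0) : ∃ u θ, NT T u θ ∧ φ ⬝ᵥ u ≠ 0 ∧ θ ⬝ᵥ x ≠ 0 :=
  S.avoid hφ hx

variable [Finite F]

theorem opp_of_sup (hk : MH.NS k) (h : ∀ a ∈ k, T x (a • φ)) (h' : T u θ)
    (hm : (φ ⬝ᵥ u) * (θ ⬝ᵥ x) ≠ 0) :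
    ∃ k' : Subfield F, (φ ⬝ᵥ u) * (θ ⬝ᵥ x) ∈ k' ∧ Big T k' x φ ∧ Big T k' u θ := by
  have h1 : T x φ := by simpa using h 1 k.one_mem
  rcases S.pair h1 h' hm with h2 | ⟨h2, h3, -⟩ | ⟨h2, -, h3, -⟩
  · exact h2
  · obtain ⟨a, ha, a0, a1⟩ := hk.1 h2
    exact ((h3 a (h a ha)).elim a0 a1).elim
  · obtain ⟨a, ha, a0⟩ := hk.2 h2
    exact (a0 (h3 a (h a ha))).elim

theorem big_opp (hk : MH.NS k) (h : Big T k x φ) (h' : T u θ) (hm : (φ ⬝ᵥ u) * (θ ⬝ᵥ x) ≠ 0) :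
    Big T k u θ ∧ (φ ⬝ᵥ u) * (θ ⬝ᵥ x) ∈ k := by
  obtain ⟨k', h1, h2, h3⟩ := S.opp_of_sup hk (fun a ha => (h a).2 ha) h' hm
  have : k' = k := SetLike.ext fun a => (h2 a).symm.trans (h a)
  subst this
  exact ⟨h3, h1⟩

theorem sup_centre (hk : MH.NS k) (h : Big T k x φ) (hx : x ≠ 0) (hφ : φ ≠ 0) (h' : T x φ') :
    ∀ a ∈ k, T x (a • φ') := by
  obtain ⟨u, θ, h1, e1, e2⟩ := S.exists_opp hx hφ
  have hu := (S.big_opp hk h h1.1 (mul_ne_zero e1 e2)).1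
  intro a ha
  by_cases e3 : φ' ⬝ᵥ u = 0
  · have h2 := (S.big_opp hk hu (S.add_right h.self h') (mul_ne_zero e2 (by
      rwa [add_dotProduct, e3, add_zero]))).1
    have := S.sub_right ((h2 a).2 ha) ((h a).2 ha)
    rwa [smul_add, add_sub_cancel_left] at this
  · exact ((S.big_opp hk hu h' (mul_ne_zero e2 e3)).1 a).2 ha

theorem big_centre (hk : MH.NS k) (h : Big T k x φ) (hx : x ≠ 0) (hφ : φ ≠ 0) (h' : T x φ')
    (hφ' : φ' ≠ 0) : Big T k x φ' := by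
  have h1 := S.sup_centre hk h hx hφ h'
  obtain ⟨u, θ, h2, e1, e2⟩ := S.exists_opp hx hφ'
  obtain ⟨k', -, h3, -⟩ := S.opp_of_sup hk h1 h2.1 (mul_ne_zero e1 e2)
  have hle : k ≤ k' := fun a ha => (h3 a).1 (h1 a ha)
  have h4 := S.sup_centre (hk.mono hle) h3 hx hφ' h.self
  have : k' = k := le_antisymm (fun a ha => (h a).1 (h4 a ha)) hle
  exact this ▸ h3

theorem big_axis (hk : MH.NS k) (h : Big T k x φ) (hx : x ≠ 0) (hφ : φ ≠ 0) (h' : T x' φ)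
    (hx' : x' ≠ 0) : Big T k x' φ :=
  S.big_flip.1 (S.flip.big_centre hk (S.big_flip.2 h) hφ hx h' hx')

theorem big_left (hk : MH.NS k) (h : Big T k x φ) (hx : x ≠ 0) (hφ : φ ≠ 0) (h' : NT T u θ)
    (e2 : θ ⬝ᵥ x ≠ 0) : Big T k u θ := by
  by_cases e1 : φ ⬝ᵥ u = 0
  · have h1 := S.comm_left h.self h'.1 e1
    have h2 := S.big_axis hk h hx hφ ((S.smul _).2 h1) (smul_ne_zero e2 h'.2.1)
    refine S.big_centre hk (φ := (θ ⬝ᵥ x) • φ) (fun a => ?_) h'.2.1 (smul_ne_zero e2 hφ) h'.1 h'.2.2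
    rw [smul_comm, ← S.smul]
    exact h2 a
  · exact (S.big_opp hk h h'.1 (mul_ne_zero e1 e2)).1

theorem big_all (hk : MH.NS k) (h : Big T k x φ) (hx : x ≠ 0) (hφ : φ ≠ 0) (h' : NT T u θ) :
    Big T k u θ := by
  obtain ⟨y, η, h1, e1, e2⟩ := S.avoid h'.2.2 hx
  exact S.big_left hk (S.big_left hk h hx hφ h1 e2) h1.2.1 h1.2.2 h' e1

theorem rm_of_big (hk : MH.NS k) (h : Big T k x φ) (hx : x ≠ 0) (hφ : φ ≠ 0) : RM T k where
  big h' := S.big_all hk h hx hφ h'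
  mem {y η u θ} h1 h2 := by
    by_cases hm : (η ⬝ᵥ u) * (θ ⬝ᵥ y) = 0
    · rw [hm]; exact k.zero_mem
    · exact (S.big_opp hk (S.big_all hk h hx hφ ⟨h1, ne_right (right_ne_zero_of_mul hm),
        ne_left (left_ne_zero_of_mul hm)⟩) h2 hm).2

omit [Finite F]

theorem kill_of_rm (h : RM T k) : Kill T := by
  rintro x u θ hx ⟨φ, φ', h1, h2, h3, h4⟩ h' e
  by_cases e1 : φ ⬝ᵥ u = 0
  · exact ⟨φ, h3, h1, e1⟩
  refine ⟨((φ' ⬝ᵥ u) * (θ ⬝ᵥ x)) • φ - ((φ ⬝ᵥ u) * (θ ⬝ᵥ x)) • φ', fun e2 => ?_,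
    S.sub_right ((h.big ⟨h1, hx, h3⟩ _).2 (h.mem h2 h'))
      ((h.big ⟨h2, hx, by simpa using h4 0⟩ _).2 (h.mem h1 h')), ?_⟩
  · refine h4 ((φ' ⬝ᵥ u) / (φ ⬝ᵥ u)) (smul_right_injective _ (mul_ne_zero e1 e) ?_)
    simp only [← sub_eq_zero.1 e2, smul_smul]
    congr 1
    field_simp
  · simp only [sub_dotProduct, smul_dotProduct, smul_eq_mul]; ring

theorem twoAx_step (hK : Kill T) (hx : x ≠ 0) (h : TwoAx T x) (h' : T u θ) (e : θ ⬝ᵥ x ≠ 0) :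
    TwoAx T u := by
  obtain ⟨ψ, h1, h2, h3⟩ := hK x u θ hx h h' e
  refine ⟨θ, _, h', S.comm_left h2 h' h3, ne_left e, fun c hc => ?_⟩
  have := congrArg (· ⬝ᵥ x) hc
  simp only [smul_dotProduct, S.dot h2, smul_eq_mul, mul_zero] at this
  rw [(mul_eq_zero.1 this.symm).resolve_right e, zero_smul, smul_eq_zero] at hc
  exact hc.elim e h1

theorem twoAx_all (hK : Kill T) (hA : ¬ Uni T) (h' : NT T u θ) : TwoAx T u := by
  simp only [Uni, not_forall, not_not] at hA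
  obtain ⟨x, hx, h⟩ := hA
  obtain ⟨y, η, h1, e1, e2⟩ := S.avoid h'.2.2 hx
  exact S.twoAx_step hK h1.2.1 (S.twoAx_step hK hx h h1.1 e2) h'.1 e1

theorem kill_all (hK : Kill T) (hA : ¬ Uni T) (h : NT T x φ) (h' : T u θ) (e : θ ⬝ᵥ x ≠ 0) :
    ∃ ψ, ψ ≠ 0 ∧ T x ψ ∧ ψ ⬝ᵥ u = 0 :=
  hK x u θ h.2.1 (S.twoAx_all hK hA h) h' e

theorem smul_of_kill (hK : Kill T) (hA : ¬ Uni T) (h : NT T x φ) (h' : T u θ) (e : θ ⬝ᵥ x ≠ 0) :
    ∃ ψ, NT T x ψ ∧ T x (((φ ⬝ᵥ u) * (θ ⬝ᵥ x)) • ψ) := by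
  obtain ⟨ψ, h1, h2, h4⟩ := S.kill_all hK hA h h' e
  have h5 := S.comm_left (S.comm_left h2 h' h4) h.1 (by rw [smul_dotProduct, S.dot h2, smul_zero])
  rw [smul_smul] at h5
  exact ⟨ψ, ⟨h2, h.2.1, h1⟩, h5⟩

/-- restriction to a non-degenerate subspace of dimension three -/
theorem restrict3 [Finite F] {b β : Fin 3 → ι → F} (hb : DualB b β) {A : Fin 3 → Fin 3 → F}
    (hA : ∀ j, T (b j) (∑ i, A j i • β i)) (hd : (Matrix.of A).det ≠ 0) :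
    MH.TS (fun a α : MH.V3 F => T (∑ i, a i • b i) (∑ i, α i • β i)) := by
  have e1 : ∀ (c : Fin 3 → ι → F) (j : Fin 3), ∑ i, (Pi.single j 1 : Fin 3 → F) i • c i = c j :=
    fun c j => by simp [Pi.single_apply]
  have e2 : ∀ (c : Fin 3 → ι → F) (a a' : Fin 3 → F),
      ∑ i, (a + a') i • c i = ∑ i, a i • c i + ∑ i, a' i • c i := fun c a a' => by
    simp only [Pi.add_apply, add_smul, Finset.sum_add_distrib]
  have e3 : ∀ (c : Fin 3 → ι → F) (r : F) (a : Fin 3 → F),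
      ∑ i, (r • a) i • c i = r • ∑ i, a i • c i := fun c r a => by
    simp only [Pi.smul_apply, smul_eq_mul, Finset.smul_sum, smul_smul]
  have e4 : ∀ (c : Fin 3 → ι → F) (a : Fin 3 → F), ∑ i, (-a) i • c i = -∑ i, a i • c i :=
    fun c a => by simp only [Pi.neg_apply, neg_smul, Finset.sum_neg_distrib]
  exact
  { dot := fun h => by rw [← hb.dot_sum]; exact S.dot h
    smul := fun c => by rw [e3, e3, S.smul]
    zero := fun x => by simpa using S.zero _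
    add_right := fun h h' => by rw [e2]; exact S.add_right h h'
    add_left := fun h h' => by rw [e2]; exact S.add_left h h'
    neg := fun h => by rw [e4]; exact S.neg h
    conj := fun h h' => by
      have := S.conj h h'
      rwa [hb.dot_sum, hb.dot_sum, ← e3, ← e3, ← e2, sub_eq_add_neg, ← e4, ← e2,
        ← sub_eq_add_neg] at this
    pair := fun h h' hm => by
      have := S.pair h h' (by rwa [hb.dot_sum, hb.dot_sum])
      simpa only [hb.dot_sum, e3, Big] using this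
    hP := fun v hv => by
      obtain ⟨j, hj⟩ := Function.ne_iff.1 fun e => hv (eq_zero_of_mulVec_eq_zero hd e)
      exact ⟨Pi.single j 1, A j, by rw [e1]; exact hA j, by simp, hj⟩
    hL := fun ψ hψ => by
      obtain ⟨j, hj⟩ := Function.ne_iff.1 hψ
      refine ⟨Pi.single j 1, A j, by rw [e1]; exact hA j, fun e => hd ?_, by simpa using hj⟩
      exact det_eq_zero_of_row_eq_zero j fun i => congrFun e i }

theorem small3_val [Finite F] (h3 : (3 : F) = 0) (hs : Small3 T) (h : T x φ) (h' : T u θ) :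
    ((φ ⬝ᵥ u) * (θ ⬝ᵥ x)) ^ 3 = (φ ⬝ᵥ u) * (θ ⬝ᵥ x) ∨ ((φ ⬝ᵥ u) * (θ ⬝ᵥ x)) ^ 2 = -1 := by
  by_cases hm : (φ ⬝ᵥ u) * (θ ⬝ᵥ x) = 0
  · left; rw [hm]; simp
  rcases S.pair h h' hm with ⟨k, h1, h2, -⟩ | ⟨h2, -⟩ | ⟨-, h2, -⟩
  · exact Or.inl (hs x φ _ ⟨h, ne_right (right_ne_zero_of_mul hm),
      ne_left (left_ne_zero_of_mul hm)⟩ ((h2 _).2 h1))
  · exact absurd (by linear_combination h3 - h2 : (1 : F) = 0) one_ne_zero
  · exact Or.inr h2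

theorem small3_four [Finite F] (h3 : (3 : F) = 0) (hs : Small3 T) (h : T x φ) (h' : T u θ)
    (hm : (φ ⬝ᵥ u) * (θ ⬝ᵥ x) ≠ 0) : ((φ ⬝ᵥ u) * (θ ⬝ᵥ x)) ^ 4 = 1 := by
  rcases S.small3_val h3 hs h h' with e | e
  · rcases MH.cube_eq_self_iff.1 e with e | e | e
    · exact absurd e hm
    · rw [e]; ring
    · rw [e]; ring
  · linear_combination (((φ ⬝ᵥ u) * (θ ⬝ᵥ x)) ^ 2 - 1) * e

theorem kill_of_small3 [Finite F] (h3 : (3 : F) = 0) (hs : Small3 T) : Kill T := by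
  rintro x u θ hx ⟨φ, φ', h1, h2, hφ, hc⟩ h' e
  by_contra hn
  push Not at hn
  have key : ∀ ψ, ψ ≠ 0 → T x ψ → ((ψ ⬝ᵥ u) * (θ ⬝ᵥ x)) ^ 4 = 1 := fun ψ a b =>
    S.small3_four h3 hs b h' (mul_ne_zero (hn ψ a b) e)
  have a1 := key φ hφ h1
  have a2 := key φ' (by simpa using hc 0) h2
  have a3 := key (φ + φ') (fun e => hc (-1) (by linear_combination (norm := module) e))
    (S.add_right h1 h2)
  have a4 := key (φ - φ') (fun e => hc 1 (by linear_combination (norm := module) -e))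
    (S.sub_right h1 h2)
  rw [add_dotProduct] at a3
  rw [sub_dotProduct] at a4
  apply one_ne_zero (α := F)
  linear_combination 2 * a1 + 2 * a2 - a3 - a4 +
    (4 * ((φ ⬝ᵥ u) * (θ ⬝ᵥ x)) ^ 2 * ((φ' ⬝ᵥ u) * (θ ⬝ᵥ x)) ^ 2 + 1) * h3

theorem not_exc_A [Finite F] (h3 : (3 : F) = 0) (hs : Small3 T) (hA : ¬ Uni T) (h : T x φ)
    (h' : T u θ) : ((φ ⬝ᵥ u) * (θ ⬝ᵥ x)) ^ 2 ≠ -1 := by
  intro e
  have hm : (φ ⬝ᵥ u) * (θ ⬝ᵥ x) ≠ 0 := fun e' => by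
    rw [e'] at e; exact one_ne_zero (by linear_combination e : (1 : F) = 0)
  obtain ⟨ψ, h1, h2⟩ := S.smul_of_kill (S.kill_of_small3 h3 hs) hA
    ⟨h, ne_right (right_ne_zero_of_mul hm), ne_left (left_ne_zero_of_mul hm)⟩ h'
    (right_ne_zero_of_mul hm)
  have h6 := hs x ψ _ h1 h2
  apply hm
  linear_combination h6 - ((φ ⬝ᵥ u) * (θ ⬝ᵥ x)) * e + ((φ ⬝ᵥ u) * (θ ⬝ᵥ x)) * h3

/-- the central involution of `SL₂(5)` -/
theorem zconj (h3 : (3 : F) = 0) (h : T x φ) (h' : T u θ) (e : ((φ ⬝ᵥ u) * (θ ⬝ᵥ x)) ^ 2 = -1)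
    (h1 : T y η) : T (y + ((θ ⬝ᵥ y / θ ⬝ᵥ x) • x + (φ ⬝ᵥ y / φ ⬝ᵥ u) • u))
      (η + ((η ⬝ᵥ x / θ ⬝ᵥ x) • θ + (η ⬝ᵥ u / φ ⬝ᵥ u) • φ)) := by
  have hm : (φ ⬝ᵥ u) * (θ ⬝ᵥ x) ≠ 0 := fun e' => by
    rw [e'] at e; exact one_ne_zero (by linear_combination e : (1 : F) = 0)
  have e1 := left_ne_zero_of_mul hm
  have e2 := right_ne_zero_of_mul hm
  obtain ⟨K, -, rfl⟩ := S.grp
  obtain ⟨p1, s, hs, p2⟩ := h
  obtain ⟨p3, t, ht, p4⟩ := h'
  have p5 := p4.inv p3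
  set g := s * t * s * t⁻¹ with hg
  have gx : ac g x = (1 - (φ ⬝ᵥ u) * (θ ⬝ᵥ x) - ((φ ⬝ᵥ u) * (θ ⬝ᵥ x)) ^ 2) • x +
      (-((θ ⬝ᵥ x) * ((φ ⬝ᵥ u) * (θ ⬝ᵥ x)))) • u := by
    rw [hg, ac_mul, ac_mul, ac_mul, p5, p2, p4, p2]
    simp only [dotProduct_add, dotProduct_smul, neg_dotProduct, smul_eq_mul, p1, p3]
    module
  have gu : ac g u = ((2 + (φ ⬝ᵥ u) * (θ ⬝ᵥ x)) * (φ ⬝ᵥ u)) • x + (1 + (φ ⬝ᵥ u) * (θ ⬝ᵥ x)) • u := by
    rw [hg, ac_mul, ac_mul, ac_mul, p5, p2, p4, p2]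
    simp only [dotProduct_add, dotProduct_smul, neg_dotProduct, smul_eq_mul, p1, p3]
    module
  have gz : ∀ w, φ ⬝ᵥ w = 0 → θ ⬝ᵥ w = 0 → ac (g * g) w = w := fun w a1 a2 => by
    have : ac g w = w := by
      rw [hg, ac_mul, ac_mul, ac_mul, p5, p2, p4, p2]
      simp [a1, a2]
    rw [ac_mul, this, this]
  set m := (φ ⬝ᵥ u) * (θ ⬝ᵥ x) with hmd
  have gx2 : ac (g * g) x - x = x := by
    rw [ac_mul, gx, ac_add, ac_smul, ac_smul, gx, gu]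
    match_scalars
    · linear_combination (m ^ 2 + m - 4) * e + (-m + 1) * h3 + (m * (2 + m)) * hmd
    · linear_combination (θ ⬝ᵥ x * m) * e + (-(θ ⬝ᵥ x * m)) * h3
  have gu2 : ac (g * g) u - u = u := by
    rw [ac_mul, gu, ac_add, ac_smul, ac_smul, gx, gu]
    match_scalars
    · linear_combination (-(2 + m) * φ ⬝ᵥ u) * e + ((2 + m) * φ ⬝ᵥ u) * h3
    · linear_combination (-m - 1) * e + m * h3 + (m * (2 + m)) * hmd
  have gv := ac_of_plane p1 p3 e1 e2 gz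
  simp only [gx2, gu2] at gv
  have hgK : g ∈ K := K.mul_mem (K.mul_mem (K.mul_mem hs ht) hs) (K.inv_mem ht)
  have := h1.conj (K.mul_mem hgK hgK)
  rw [gv, add_assoc, dc_eq_of (ψ := η + ((η ⬝ᵥ x / θ ⬝ᵥ x) • θ + (η ⬝ᵥ u / φ ⬝ᵥ u) • φ))] at this
  · exact this
  intro v
  rw [gv]
  simp only [dotProduct_add, dotProduct_smul, add_dotProduct, smul_dotProduct, smul_eq_mul, p1, p3]
  field_simp
  linear_combination (θ ⬝ᵥ v * η ⬝ᵥ x * φ ⬝ᵥ u + φ ⬝ᵥ v * η ⬝ᵥ u * θ ⬝ᵥ x) * h3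

end TS

end CL.Zs
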