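/-
Transvection groups: characteristic three, rationality, and the linear case.
-/
import Cfsg.Agent.CLAS.Zs3

set_option autoImplicit false

namespace CL.Zs

open Matrix Cfsg.Geo CL.Asch

variable {F : Type*} [Field F] {ι : Type} [Fintype ι] [DecidableEq ι]

namespace TS

variable {T : (ι → F) → (ι → F) → Prop} (S : TS T) {x x' u y φ φ' θ η : ι → F} {k : Subfield F}
include S

theorem exc_degen [Finite F] (h3 : (3 : F) = 0) (hs : Small3 T) (h : T x φ) (h' : T u θ)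
    (e : ((φ ⬝ᵥ u) * (θ ⬝ᵥ x)) ^ 2 = -1) (h1 : T y η) :
    (φ ⬝ᵥ u) * (θ ⬝ᵥ y) * (η ⬝ᵥ x) + (φ ⬝ᵥ y) * (η ⬝ᵥ u) * (θ ⬝ᵥ x) = 0 := by
  by_contra hd
  rw [← Ne, ← det_gram3 (S.dot h) (S.dot h') (S.dot h1)] at hd
  obtain ⟨β, hb, hβ⟩ := exists_dual ![x, u, y] ![φ, θ, η] hd
  have hA : ∀ j, T (![x, u, y] j) (∑ i, (![φ, θ, η] j ⬝ᵥ ![x, u, y] i) • β i) := fun j => by
    rw [← hβ]
    fin_cases j
    exacts [h, h', h1]
  have S3 := S.restrict3 hb hA hd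
  have e1 : ∀ j : Fin 3, ∑ i, (Pi.single j 1 : Fin 3 → F) i • ![x, u, y] i = ![x, u, y] j :=
    fun j => by simp [Pi.single_apply]
  have := (S3.rm_of_small3 h3 fun a α c b1 b2 b3 b4 => hs _ _ c ⟨b1, fun e => ?_, fun e => ?_⟩ ?_).mem
    (x := Pi.single 0 1) (φ := fun i => ![φ, θ, η] 0 ⬝ᵥ ![x, u, y] i) (u := Pi.single 1 1)
    (θ := fun i => ![φ, θ, η] 1 ⬝ᵥ ![x, u, y] i) (by rw [e1]; exact hA 0) (by rw [e1]; exact hA 1)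
  · rw [MH.mem_primeThree] at this
    simp only [dotProduct_single, mul_one, cons_val_zero, cons_val_one] at this
    have hm : (φ ⬝ᵥ u) * (θ ⬝ᵥ x) = 0 := by
      linear_combination this - ((φ ⬝ᵥ u) * (θ ⬝ᵥ x)) * e + ((φ ⬝ᵥ u) * (θ ⬝ᵥ x)) * h3
    rw [hm] at e
    exact one_ne_zero (by linear_combination e : (1 : F) = 0)
  · obtain ⟨α', h0⟩ := exists_dot b2
    exact h0 (by rw [← hb.dot_sum, e, dotProduct_zero])
  · obtain ⟨a', h0⟩ := exists_dot' b3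
    exact h0 (by rw [← hb.dot_sum, e, zero_dotProduct])
  · simpa only [Pi.smul_apply, smul_eq_mul, Finset.smul_sum, smul_smul] using b4

theorem exists_out (hn : 3 ≤ Fintype.card ι) (h : NT T x φ) (h' : NT T u θ) (e1 : φ ⬝ᵥ u ≠ 0)
    (e2 : θ ⬝ᵥ x ≠ 0) :
    ∃ y η, NT T y η ∧ η ⬝ᵥ x ≠ 0 ∧ η ⬝ᵥ u ≠ 0 ∧ y ∉ Submodule.span F {x, u} := by
  have hx : x ∈ Submodule.span F {x, u} := Submodule.subset_span (by simp)
  have hu : u ∈ Submodule.span F {x, u} := Submodule.subset_span (by simp)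
  obtain ⟨y, η, h1, v, hv, a1, a2⟩ : ∃ y η, NT T y η ∧ ∃ v ∈ Submodule.span F {x, u},
      η ⬝ᵥ v ≠ 0 ∧ y ∉ Submodule.span F {x, u} := by
    by_contra hc
    push Not at hc
    rcases S.inv _ hc with e | e
    · exact h.2.1 ((Submodule.eq_bot_iff _).1 e x hx)
    · exact span_pair_ne_top hn x u e
  by_cases b1 : η ⬝ᵥ x = 0 <;> by_cases b2 : η ⬝ᵥ u = 0
  · exact (a1 (dot_span (by simp [b1, b2]) hv)).elim
  · refine ⟨_, _, S.NT_conj h1 h'.1, ?_, ?_, fun e => a2 ?_⟩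
    · rw [sub_dotProduct, smul_dotProduct, b1, zero_sub, neg_ne_zero]; exact mul_ne_zero b2 e2
    · rwa [sub_dotProduct, smul_dotProduct, S.dot h'.1, smul_zero, sub_zero]
    · simpa using Submodule.sub_mem _ e (Submodule.smul_mem _ (θ ⬝ᵥ y) hu)
  · refine ⟨_, _, S.NT_conj h1 h.1, ?_, ?_, fun e => a2 ?_⟩
    · rwa [sub_dotProduct, smul_dotProduct, S.dot h.1, smul_zero, sub_zero]
    · rw [sub_dotProduct, smul_dotProduct, b2, zero_sub, neg_ne_zero]; exact mul_ne_zero b1 e1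
    · simpa using Submodule.sub_mem _ e (Submodule.smul_mem _ (φ ⬝ᵥ y) hx)
  · exact ⟨y, η, h1, b1, b2, a2⟩

theorem not_exc_B [Finite F] (hn : 3 ≤ Fintype.card ι) (h3 : (3 : F) = 0) (hs : Small3 T)
    (hU : Uni T) (hU' : Uni (fun φ x => T x φ)) (h : T x φ) (h' : T u θ) :
    ((φ ⬝ᵥ u) * (θ ⬝ᵥ x)) ^ 2 ≠ -1 := by
  intro e
  have hm : (φ ⬝ᵥ u) * (θ ⬝ᵥ x) ≠ 0 := fun e' => by
    rw [e'] at e; exact one_ne_zero (by linear_combination e : (1 : F) = 0)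
  have e1 := left_ne_zero_of_mul hm
  have e2 := right_ne_zero_of_mul hm
  have n1 : NT T x φ := ⟨h, ne_right e2, ne_left e1⟩
  have n2 : NT T u θ := ⟨h', ne_right e1, ne_left e2⟩
  obtain ⟨y, η, h1, a1, a2, a3⟩ := S.exists_out hn n1 n2 e1 e2
  have hS := S.sym_of_uni hU
  have a4 : φ ⬝ᵥ y ≠ 0 := fun e => a1 (hS _ _ _ _ n1 h1 e)
  have a5 : θ ⬝ᵥ y ≠ 0 := fun e => a2 (hS _ _ _ _ n2 h1 e)
  have hd := S.exc_degen h3 hs h h' e h1.1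
  have p1 := S.dot h
  have p2 := S.dot h'
  have p3 := S.dot h1.1
  obtain ⟨w, hw⟩ : ∃ w, w = (θ ⬝ᵥ y / θ ⬝ᵥ x) • x + (φ ⬝ᵥ y / φ ⬝ᵥ u) • u := ⟨_, rfl⟩
  obtain ⟨ω, hω⟩ : ∃ ω, ω = (η ⬝ᵥ x / θ ⬝ᵥ x) • θ + (η ⬝ᵥ u / φ ⬝ᵥ u) • φ := ⟨_, rfl⟩
  obtain ⟨y', hy'⟩ : ∃ y', y' = y - w := ⟨_, rfl⟩
  obtain ⟨η', hη'⟩ : ∃ η', η' = η - ω := ⟨_, rfl⟩
  have c1 : φ ⬝ᵥ w = φ ⬝ᵥ y := by rw [hw]; simp [p1, e1]
  have c2 : θ ⬝ᵥ w = θ ⬝ᵥ y := by rw [hw]; simp [p2, e2]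
  have c3 : ω ⬝ᵥ x = η ⬝ᵥ x := by rw [hω]; simp [p1, e2]
  have c4 : ω ⬝ᵥ u = η ⬝ᵥ u := by rw [hω]; simp [p2, e1]
  have c5 : φ ⬝ᵥ y' = 0 := by rw [hy', dotProduct_sub, c1, sub_self]
  have c6 : θ ⬝ᵥ y' = 0 := by rw [hy', dotProduct_sub, c2, sub_self]
  have c7 : η' ⬝ᵥ x = 0 := by rw [hη', sub_dotProduct, c3, sub_self]
  have c8 : η' ⬝ᵥ u = 0 := by rw [hη', sub_dotProduct, c4, sub_self]
  have c9 : ω ⬝ᵥ y' = 0 := by rw [hω]; simp [c5, c6]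
  have c10 : η' ⬝ᵥ w = 0 := by rw [hw]; simp [c7, c8]
  have c11 : ω ⬝ᵥ w = 0 := by
    rw [hw, dotProduct_add, dotProduct_smul, dotProduct_smul, c3, c4, smul_eq_mul, smul_eq_mul]
    field_simp
    linear_combination hd
  have ey : y = w + y' := by rw [hy']; abel
  have eη : η = ω + η' := by rw [hη']; abel
  have c12 : η' ⬝ᵥ y' = 0 := by
    rw [ey, eη] at p3
    simpa only [add_dotProduct, dotProduct_add, c9, c10, c11, zero_add] using p3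
  have hy0 : y' ≠ 0 := fun e => a3 (by
    rw [ey, e, add_zero, hw]
    exact Submodule.add_mem _ (Submodule.smul_mem _ _ (Submodule.subset_span (by simp)))
      (Submodule.smul_mem _ _ (Submodule.subset_span (by simp))))
  have zc : ∀ a b c d : F, T (a • x + b • u + y') (c • θ + d • φ + η') →
      T ((-1 : F) • (a • x + b • u) + y') ((-1 : F)⁻¹ • (c • θ + d • φ) + η') := by
    intro a b c d h0
    have := S.zconj h3 h h' e h0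
    simp only [dotProduct_add, add_dotProduct, dotProduct_smul, smul_dotProduct, p1, p2, c5, c6, c7,
      c8, smul_eq_mul, mul_zero, add_zero, zero_add, mul_div_cancel_right₀ _ e1,
      mul_div_cancel_right₀ _ e2] at this
    convert this using 1
    · linear_combination (norm := module) -h3 • (a • x + b • u)
    · rw [inv_neg_one]
      linear_combination (norm := module) -h3 • (c • θ + d • φ)
  have h1' : T (w + y') (ω + η') := by rw [← ey, ← eη]; exact h1.1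
  have z1 : T ((-1 : F) • w + y') ((-1 : F)⁻¹ • ω + η') := by
    rw [hw, hω] at h1' ⊢
    exact zc _ _ _ _ h1'
  have hη0 : η' ≠ 0 := by
    rintro rfl
    rw [add_zero] at h1' z1 eη
    rw [← S.smul, inv_neg_one] at z1
    obtain ⟨c, hc⟩ := hU'.eq (x := ω) (φ := w + y') ⟨h1', eη ▸ h1.2.2, ey ▸ h1.2.1⟩ z1
    have := congrArg (θ ⬝ᵥ ·) hc
    simp only [dotProduct_add, dotProduct_smul, c6, c2, smul_eq_mul, add_zero] at this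
    have hc1 : c = 1 := mul_right_cancel₀ a5 (by linear_combination -this)
    rw [hc1] at hc
    exact hy0 (by linear_combination (norm := module) hc + h3 • y')
  have key : ∀ a b c d : F, T (y + (a • x + b • u)) (η + (c • θ + d • φ)) →
      T y' ((a * η ⬝ᵥ x + b * η ⬝ᵥ u - (c * θ ⬝ᵥ y + d * φ ⬝ᵥ y)) • η') := by
    intro a b c d h0
    have h0' : T ((θ ⬝ᵥ y / θ ⬝ᵥ x + a) • x + (φ ⬝ᵥ y / φ ⬝ᵥ u + b) • u + y')
        ((η ⬝ᵥ x / θ ⬝ᵥ x + c) • θ + (η ⬝ᵥ u / φ ⬝ᵥ u + d) • φ + η') := by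
      convert h0 using 1
      · rw [hy', hw]; module
      · rw [hη', hω]; module
    have := S.op (neg_ne_zero.2 one_ne_zero) c12 c10 (by simp [c7, c8]) c9 (by simp [c5, c6]) h1' z1
      h0' (zc _ _ _ _ h0')
    convert this using 2
    have f1 : ω ⬝ᵥ ((θ ⬝ᵥ y / θ ⬝ᵥ x + a) • x + (φ ⬝ᵥ y / φ ⬝ᵥ u + b) • u) =
        a * η ⬝ᵥ x + b * η ⬝ᵥ u := by
      rw [show (θ ⬝ᵥ y / θ ⬝ᵥ x + a) • x + (φ ⬝ᵥ y / φ ⬝ᵥ u + b) • u = w + (a • x + b • u) by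
        rw [hw]; module]
      simp [c11, c3, c4]
    have f2 : ((η ⬝ᵥ x / θ ⬝ᵥ x + c) • θ + (η ⬝ᵥ u / φ ⬝ᵥ u + d) • φ) ⬝ᵥ w =
        c * θ ⬝ᵥ y + d * φ ⬝ᵥ y := by
      rw [show (η ⬝ᵥ x / θ ⬝ᵥ x + c) • θ + (η ⬝ᵥ u / φ ⬝ᵥ u + d) • φ = ω + (c • θ + d • φ) by
        rw [hω]; module]
      simp [c11, c1, c2]
    rw [f1, f2, inv_neg_one]
    linear_combination -(a * η ⬝ᵥ x + b * η ⬝ᵥ u - (c * θ ⬝ᵥ y + d * φ ⬝ᵥ y)) * h3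
  have k1 := key (φ ⬝ᵥ y) 0 0 (-(η ⬝ᵥ x)) (by convert S.conj h1.1 h using 1 <;> module)
  have k2 := key 0 (θ ⬝ᵥ y) (-(η ⬝ᵥ u)) 0 (by convert S.conj h1.1 h' using 1 <;> module)
  have k3 := key (φ ⬝ᵥ y) (θ ⬝ᵥ y + φ ⬝ᵥ y * θ ⬝ᵥ x) (-(η ⬝ᵥ u - η ⬝ᵥ x * φ ⬝ᵥ u)) (-(η ⬝ᵥ x)) (by
    have := S.conj (S.conj h1.1 h) h'
    simp only [dotProduct_add, sub_dotProduct, dotProduct_smul, smul_dotProduct, smul_eq_mul] at this
    convert this using 1 <;> module)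
  have k4 := S.sub_right (S.sub_right k3 k1) k2
  rw [← sub_smul, ← sub_smul] at k4
  have h2 : (2 : F) ≠ 0 := fun h2 => one_ne_zero (by linear_combination h3 - h2 : (1 : F) = 0)
  have ms : 2 * (φ ⬝ᵥ y * η ⬝ᵥ x) ≠ 0 := mul_ne_zero h2 (mul_ne_zero a4 a1)
  have n0 : NT T y' ((2 * (φ ⬝ᵥ y * η ⬝ᵥ x)) • η') :=
    ⟨by convert k1 using 2; ring, hy0, smul_ne_zero ms hη0⟩
  have q1 := hs _ _ ((θ ⬝ᵥ y * η ⬝ᵥ u) / (φ ⬝ᵥ y * η ⬝ᵥ x)) n0 (by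
    rw [smul_smul]; convert k2 using 2; field_simp; ring)
  have q2 := hs _ _ ((φ ⬝ᵥ y * η ⬝ᵥ u * θ ⬝ᵥ x) / (φ ⬝ᵥ y * η ⬝ᵥ x)) n0 (by
    rw [smul_smul]; convert k4 using 2; field_simp; linear_combination hd)
  have r1 : (θ ⬝ᵥ y * η ⬝ᵥ u) ^ 2 = (φ ⬝ᵥ y * η ⬝ᵥ x) ^ 2 := by
    field_simp at q1
    linear_combination (η ⬝ᵥ u) ^ 0 * q1
  have r2 : (η ⬝ᵥ u * θ ⬝ᵥ x) ^ 2 = (η ⬝ᵥ x) ^ 2 := by
    field_simp at q2
    linear_combination q2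
  have r3 : (φ ⬝ᵥ u * θ ⬝ᵥ y * η ⬝ᵥ x) ^ 2 = (φ ⬝ᵥ y * η ⬝ᵥ u * θ ⬝ᵥ x) ^ 2 := by
    linear_combination (φ ⬝ᵥ u * θ ⬝ᵥ y * η ⬝ᵥ x - φ ⬝ᵥ y * η ⬝ᵥ u * θ ⬝ᵥ x) * hd
  have : (φ ⬝ᵥ y * η ⬝ᵥ x) ^ 2 * (η ⬝ᵥ u) ^ 2 * 2 = 0 := by
    have r4 : (φ ⬝ᵥ u * θ ⬝ᵥ y) ^ 2 = (φ ⬝ᵥ y) ^ 2 := by
      refine mul_right_cancel₀ (pow_ne_zero 2 a1) ?_
      linear_combination r3 + (φ ⬝ᵥ y) ^ 2 * r2
    have r5 : (φ ⬝ᵥ u * η ⬝ᵥ x) ^ 2 = (η ⬝ᵥ u) ^ 2 := by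
      refine mul_right_cancel₀ (pow_ne_zero 2 a4) ?_
      linear_combination (η ⬝ᵥ u) ^ 2 * r4 - (φ ⬝ᵥ u) ^ 2 * r1
    have r6 : (η ⬝ᵥ u) ^ 2 * 2 = 0 := by
      linear_combination -r5 + (η ⬝ᵥ u) ^ 2 * e - (φ ⬝ᵥ u) ^ 2 * r2
    linear_combination (φ ⬝ᵥ y * η ⬝ᵥ x) ^ 2 * r6
  exact mul_ne_zero (mul_ne_zero (pow_ne_zero 2 (mul_ne_zero a4 a1)) (pow_ne_zero 2 a2)) h2 this

theorem rm_of_small3 [Finite F] (hn : 3 ≤ Fintype.card ι) (h3 : (3 : F) = 0) (hs : Small3 T) :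
    RM T (MH.primeThree F h3) where
  big {x φ} h a := by
    refine ⟨hs x φ a h, fun ha => ?_⟩
    rcases MH.cube_eq_self_iff.1 ha with rfl | rfl | rfl
    · rw [zero_smul]; exact S.zero x
    · rw [one_smul]; exact h.1
    · rw [neg_one_smul]; exact S.neg h.1
  mem {x φ u θ} h h' := by
    refine (S.small3_val h3 hs h h').resolve_right ?_
    by_cases hU : Uni T
    · by_cases hU' : Uni (fun φ x => T x φ)
      · exact S.not_exc_B hn h3 hs hU hU' h h'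
      · have := S.flip.not_exc_A h3 (S.small3_flip hs) hU' h h'
        rwa [mul_comm, dotProduct_comm, dotProduct_comm x] at this
    · exact S.not_exc_A h3 hs hU h h'

theorem rm_or_small2 [Finite F] (hn : 3 ≤ Fintype.card ι) :
    (∃ k : Subfield F, RM T k) ∨ ((2 : F) = 0 ∧ Small2 T) := by
  by_cases h2 : (2 : F) = 0
  · by_cases hs : Small2 T
    · exact Or.inr ⟨h2, hs⟩
    left
    simp only [Small2, not_forall, not_or] at hs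
    obtain ⟨x, φ, a, h, ha, a0, a1⟩ := hs
    obtain ⟨u, θ, h', e1, e2⟩ := S.exists_opp h.2.1 h.2.2
    have h3 : (3 : F) ≠ 0 := fun h3 => one_ne_zero (by linear_combination h3 - h2 : (1 : F) = 0)
    rcases S.pair h.1 h'.1 (mul_ne_zero e1 e2) with ⟨k, -, h4, -⟩ | ⟨-, h4, -⟩ | ⟨h4, -⟩
    · exact ⟨k, S.rm_of_big ⟨fun _ => ⟨a, (h4 a).1 ha, a0, a1⟩, fun e => absurd e h3⟩ h4 h.2.1 h.2.2⟩
    · exact ((h4 a ha).elim a0 a1).elim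
    · exact absurd h4 h3
  left
  by_cases h3 : (3 : F) = 0
  · by_cases hs : Small3 T
    · exact ⟨_, S.rm_of_small3 hn h3 hs⟩
    simp only [Small3, not_forall] at hs
    obtain ⟨x, φ, a, h, ha, a0⟩ := hs
    obtain ⟨u, θ, h', e1, e2⟩ := S.exists_opp h.2.1 h.2.2
    rcases S.pair h.1 h'.1 (mul_ne_zero e1 e2) with ⟨k, -, h4, -⟩ | ⟨h4, -⟩ | ⟨-, -, h4, -⟩
    · exact ⟨k, S.rm_of_big ⟨fun e => absurd e h2, fun _ => ⟨a, (h4 a).1 ha, a0⟩⟩ h4 h.2.1 h.2.2⟩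
    · exact absurd h4 h2
    · exact absurd (h4 a ha) a0
  obtain ⟨x, φ, h⟩ := S.ex
  obtain ⟨u, θ, h', e1, e2⟩ := S.exists_opp h.2.1 h.2.2
  rcases S.pair h.1 h'.1 (mul_ne_zero e1 e2) with ⟨k, -, h4, -⟩ | ⟨h4, -⟩ | ⟨h4, -⟩
  · exact ⟨k, S.rm_of_big ⟨fun e => absurd e h2, fun e => absurd e h3⟩ h4 h.2.1 h.2.2⟩
  · exact absurd h4 h2
  · exact absurd h4 h3

theorem rm_two (h2 : (2 : F) = 0) (hs : Small2 T)
    (hm : ∀ x φ u θ, T x φ → T u θ → (φ ⬝ᵥ u) * (θ ⬝ᵥ x) = 0 ∨ (φ ⬝ᵥ u) * (θ ⬝ᵥ x) = 1) :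
    RM T (primeTwo F h2) where
  big {x φ} h a := by
    refine ⟨hs x φ a h, ?_⟩
    rintro (rfl | rfl)
    · rw [zero_smul]; exact S.zero x
    · rw [one_smul]; exact h.1
  mem h h' := hm _ _ _ _ h h'

end TS

end CL.Zs
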