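/-
Transvection groups over a common field: rationality, the linear case, invariant forms.
-/
import Cfsg.Agent.CLAS.Zs4

set_option autoImplicit false

namespace CL.Zs

open Matrix Cfsg.Geo CL.Asch

variable {F : Type*} [Field F] {ι : Type} [Fintype ι] [DecidableEq ι]

namespace TS

variable {T : (ι → F) → (ι → F) → Prop} (S : TS T) {x x' u y φ φ' θ η : ι → F} {k : Subfield F}
include S

theorem trip_sub (h : RM T k) (h1 : T x φ) (h2 : T u θ) (h3 : T y η) :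
    (φ ⬝ᵥ u) * (θ ⬝ᵥ y) * (η ⬝ᵥ x) - (φ ⬝ᵥ y) * (η ⬝ᵥ u) * (θ ⬝ᵥ x) ∈ k := by
  have m4 := h.mem h1 (S.conj h3 h2)
  rw [dotProduct_add, dotProduct_smul, sub_dotProduct, smul_dotProduct, smul_eq_mul,
    smul_eq_mul] at m4
  convert k.add_mem (k.sub_mem m4 (h.mem h1 h3)) (k.mul_mem (h.mem h1 h2) (h.mem h2 h3)) using 1
  ring

theorem trip_mem_A (h : RM T k) (hA : ¬ Uni T) (h1 : NT T x φ) (h2 : NT T u θ) (h3 : NT T y η) :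
    (φ ⬝ᵥ u) * (θ ⬝ᵥ y) * (η ⬝ᵥ x) ∈ k := by
  by_cases e0 : η ⬝ᵥ x = 0
  · rw [e0, mul_zero]; exact k.zero_mem
  suffices (φ ⬝ᵥ y) * (η ⬝ᵥ u) * (θ ⬝ᵥ x) ∈ k by
    simpa using k.add_mem (S.trip_sub h h1.1 h2.1 h3.1) this
  by_cases e1 : θ ⬝ᵥ x = 0
  · rw [e1, mul_zero]; exact k.zero_mem
  by_cases e2 : η ⬝ᵥ u = 0
  · rw [e2, mul_zero, zero_mul]; exact k.zero_mem
  obtain ⟨ψ, a1, a2, a3⟩ := S.kill_all (S.kill_of_rm h) hA h1 h2.1 e1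
  by_cases e3 : ψ ⬝ᵥ y = 0
  · have b1 := S.comm_left a2 h3.1 e3
    have b2 := S.comm_left (S.comm_left a2 h2.1 a3) h3.1 (by rw [smul_dotProduct, e3, smul_zero])
    have b3 := (h.big ⟨b1, h3.2.1, smul_ne_zero e0 a1⟩ ((η ⬝ᵥ u) * (θ ⬝ᵥ x) / (η ⬝ᵥ x))).1 (by
      rw [smul_smul] at b2 ⊢
      rwa [div_mul_cancel₀ _ e0])
    convert k.mul_mem (h.mem h1.1 h3.1) b3 using 1
    field_simp
  · have b1 := k.neg_mem (S.trip_sub h a2 h2.1 h3.1)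
    rw [a3, zero_mul, zero_mul, zero_sub, neg_neg] at b1
    convert k.div_mem (k.mul_mem b1 (h.mem h1.1 h3.1)) (h.mem a2 h3.1) using 1
    field_simp

theorem exists_axis (h : RM T k) (h1 : NT T x φ) (h2 : NT T u θ) (e : φ ⬝ᵥ u ≠ 0) :
    ∃ θ', NT T u θ' ∧ θ' ⬝ᵥ x ≠ 0 := by
  by_cases e1 : θ ⬝ᵥ x = 0
  swap
  · exact ⟨θ, h2, e1⟩
  obtain ⟨z, ζ, h3, e2, e3⟩ := S.avoid h2.2.2 h1.2.1
  have b1 := S.comm_right h1.1 h2.1 e1
  have ha : (ζ ⬝ᵥ u) / ((φ ⬝ᵥ u) * (ζ ⬝ᵥ x)) ∈ k := by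
    have := k.div_mem (h.mem h2.1 h3.1) (h.mem b1 h3.1)
    rw [smul_dotProduct, smul_eq_mul] at this
    convert this using 1
    field_simp
  set a := (ζ ⬝ᵥ u) / ((φ ⬝ᵥ u) * (ζ ⬝ᵥ x)) with had
  have b2 := (h.big ⟨b1, h1.2.1, smul_ne_zero e h2.2.2⟩ a).2 ha
  rw [smul_smul, ← S.smul] at b2
  have b3 := S.comm_right (S.sub_left h2.1 b2) h3.1 (by
    rw [dotProduct_sub, dotProduct_smul, smul_eq_mul, had]; field_simp; ring)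
  have b4 := S.conj b3 ((h.big h1 a).2 ha)
  have b5 : ((θ ⬝ᵥ z) • ζ - (((θ ⬝ᵥ z) • ζ) ⬝ᵥ x) • a • φ) ⬝ᵥ x ≠ 0 := by
    simp only [sub_dotProduct, smul_dotProduct, S.dot h1.1, smul_eq_mul, mul_zero, sub_zero]
    exact mul_ne_zero e2 e3
  refine ⟨_, ⟨?_, h2.2.1, ne_left b5⟩, b5⟩
  convert b4 using 1
  simp only [smul_dotProduct, dotProduct_sub, dotProduct_smul, S.dot h1.1, smul_eq_mul, mul_zero,
    sub_zero]
  module

theorem exists_centre (h : RM T k) (h1 : NT T x φ) (h2 : NT T u θ) (e : θ ⬝ᵥ x ≠ 0) :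
    ∃ u', NT T u' θ ∧ φ ⬝ᵥ u' ≠ 0 := by
  obtain ⟨u', a, b⟩ := S.flip.exists_axis (S.rm_flip h) h1.flip h2.flip (by rwa [dotProduct_comm])
  exact ⟨u', a.flip, by rwa [dotProduct_comm]⟩

theorem top_of_trip [Finite F] (h : RM T k) (hN : NoRat T) {K : Subfield F} (hle : k ≤ K)
    (ht : ∀ x φ u θ y η, NT T x φ → NT T u θ → NT T y η → (φ ⬝ᵥ u) * (θ ⬝ᵥ y) * (η ⬝ᵥ x) ∈ K) :
    K = ⊤ := by
  obtain ⟨x0, φ0, h0⟩ := S.ex
  obtain ⟨σ, -, hσ⟩ := MH.exists_frob K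
  have hX : ∀ u θ, NT T u θ → φ0 ⬝ᵥ u = 1 → ∀ y η, NT T y η →
      (φ0 ⬝ᵥ y) * (η ⬝ᵥ u) ∈ K := by
    intro u θ h1 e y η h2
    obtain ⟨θ', h3, e'⟩ := S.exists_axis h h0 h1 (by rw [e]; exact one_ne_zero)
    have := K.div_mem (ht _ _ _ _ _ _ h0 h2 h3) (hle (h.mem h0.1 h3.1))
    rwa [e, one_mul, mul_div_cancel_right₀ _ e'] at this
  have hP : ∀ u θ, NT T u θ → φ0 ⬝ᵥ u = 1 → ∀ y η, NT T y η → η ⬝ᵥ x0 = 1 → η ⬝ᵥ u ∈ K := by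
    intro u θ h1 e y η h2 e'
    obtain ⟨y', h3, e''⟩ := S.exists_centre h h0 h2 (by rw [e']; exact one_ne_zero)
    have := K.div_mem (hX u θ h1 e y' η h3) (hle (h.mem h0.1 h3.1))
    rwa [e', mul_one, mul_div_cancel_left₀ _ e''] at this
  have hP' : ∀ u θ, NT T u θ → φ0 ⬝ᵥ u ≠ 0 → ∀ y η, NT T y η → η ⬝ᵥ x0 = 1 →
      η ⬝ᵥ u / φ0 ⬝ᵥ u ∈ K := by
    intro u θ h1 e y η h2 e'
    have := hP _ _ (S.NT_smul (inv_ne_zero e) h1) (by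
      rw [dotProduct_smul, smul_eq_mul, inv_mul_cancel₀ e]) y η h2 e'
    rwa [dotProduct_smul, smul_eq_mul, ← div_eq_inv_mul] at this
  obtain ⟨b, β, hb, hbX⟩ := exists_dualB (S := {u | (∃ θ, NT T u θ) ∧ φ0 ⬝ᵥ u = 1})
    (span_eq_top fun ξ hξ => S.eq_zero_of_centres h0.2.2 fun u θ h1 e => by
      have := hξ _ ⟨⟨_, S.NT_smul (inv_ne_zero e) h1⟩, by
        rw [dotProduct_smul, smul_eq_mul, inv_mul_cancel₀ e]⟩
      rw [dotProduct_smul, smul_eq_zero] at this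
      exact this.resolve_left (inv_ne_zero e))
  have coord : ∀ v, (∀ y η, NT T y η → η ⬝ᵥ x0 = 1 → η ⬝ᵥ v ∈ K) → ∀ i, β i ⬝ᵥ v ∈ K := by
    intro v hv i
    have : ∑ j, (σ (β j ⬝ᵥ v) - β j ⬝ᵥ v) • b j = 0 := S.eq_zero_of_axes h0.2.1 fun y η h1 e => by
      have h2 := S.NT_smul e h1
      have e' : ((η ⬝ᵥ x0)⁻¹ • η) ⬝ᵥ x0 = 1 := by
        rw [smul_dotProduct, smul_eq_mul, inv_mul_cancel₀ e]
      have a1 := (hσ _).2 (hv _ _ h2 e')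
      have a2 : ∀ j, σ (((η ⬝ᵥ x0)⁻¹ • η) ⬝ᵥ b j) = ((η ⬝ᵥ x0)⁻¹ • η) ⬝ᵥ b j := fun j =>
        let ⟨⟨θ, h3⟩, h4⟩ := hbX j; (hσ _).2 (hP _ θ h3 h4 _ _ h2 e')
      refine mul_left_cancel₀ (inv_ne_zero e) ?_
      rw [mul_zero, ← smul_eq_mul, ← smul_dotProduct]
      generalize (η ⬝ᵥ x0)⁻¹ • η = ξ at a1 a2
      rw [hb.sum_eq v, dotProduct_sum, map_sum] at a1
      simp only [dotProduct_smul, smul_eq_mul, map_mul, a2] at a1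
      simp only [dotProduct_sum, dotProduct_smul, smul_eq_mul, sub_mul, Finset.sum_sub_distrib, a1,
        sub_self]
    have := congrArg (β i ⬝ᵥ ·) this
    simp only [dotProduct_sum, dotProduct_smul, hb _ _, smul_eq_mul, mul_ite, mul_one, mul_zero,
      Finset.sum_ite_eq, Finset.mem_univ, if_true, dotProduct_zero] at this
    exact (hσ _).1 (sub_eq_zero.1 this)
  refine hN K b β hb fun x φ hx i j => ?_
  by_cases hx0 : x = 0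
  · rw [hx0, dotProduct_zero, zero_mul]; exact K.zero_mem
  by_cases hφ0 : φ = 0
  · rw [hφ0, zero_dotProduct, mul_zero]; exact K.zero_mem
  have h1 : NT T x φ := ⟨hx, hx0, hφ0⟩
  obtain ⟨⟨θ, h3⟩, h4⟩ := hbX j
  have := coord ((φ ⬝ᵥ b j) • x) (fun y η h2 e => ?_) i
  · rwa [dotProduct_smul, smul_eq_mul, mul_comm] at this
  rw [dotProduct_smul, smul_eq_mul]
  have a1 := hX _ θ h3 h4 x φ h1
  by_cases e1 : 1 + (φ ⬝ᵥ b j) * (φ0 ⬝ᵥ x) = 0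
  · have e2 : φ0 ⬝ᵥ x ≠ 0 := fun e2 => by rw [e2, mul_zero, add_zero] at e1; exact one_ne_zero e1
    convert K.mul_mem a1 (hP' x φ h1 e2 y η h2 e) using 1
    field_simp
  · have e2 : φ0 ⬝ᵥ (b j + (φ ⬝ᵥ b j) • x) = 1 + (φ ⬝ᵥ b j) * (φ0 ⬝ᵥ x) := by
      rw [dotProduct_add, dotProduct_smul, h4, smul_eq_mul]
    have a2 := hP' _ _ (S.NT_conj h3 hx) (by rwa [e2]) y η h2 e
    rw [e2, dotProduct_add, dotProduct_smul, smul_eq_mul] at a2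
    convert K.sub_mem (K.mul_mem a2 (K.add_mem K.one_mem a1)) (hP _ θ h3 h4 y η h2 e) using 1
    rw [mul_comm (φ0 ⬝ᵥ x), div_mul_cancel₀ _ e1]
    ring

theorem smul_of_top (h : RM T ⊤) (h1 : T x φ) (a : F) : T x (a • φ) := by
  by_cases hx0 : x = 0
  · rw [hx0]; exact S.zero_left _
  by_cases hφ0 : φ = 0
  · rw [hφ0, smul_zero]; exact S.zero _
  exact (h.big ⟨h1, hx0, hφ0⟩ a).2 (Subfield.mem_top a)

theorem sub_axes_aux (h : RM T ⊤) {ψ z ζ : ι → F} (h1 : T x φ) (h2 : T x ψ) (h3 : T u θ)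
    (h4 : T z ζ) (e1 : θ ⬝ᵥ x = 1) (e2 : ζ ⬝ᵥ x = 1) (e3 : φ ⬝ᵥ u ≠ 0) (e4 : ψ ⬝ᵥ u = 0)
    (e5 : ψ ⬝ᵥ z ≠ 0) : T x (ζ - θ) := by
  obtain ⟨a, ha⟩ : ∃ a : F, ζ ⬝ᵥ u - a * φ ⬝ᵥ u ≠ 0 := ⟨(ζ ⬝ᵥ u - 1) / φ ⬝ᵥ u, by
    rw [div_mul_cancel₀ _ e3, sub_sub_cancel]; exact one_ne_zero⟩
  obtain ⟨b, hb⟩ : ∃ b : F, θ ⬝ᵥ z + (a * φ ⬝ᵥ z + b * ψ ⬝ᵥ z) = 0 :=
    ⟨-(θ ⬝ᵥ z + a * φ ⬝ᵥ z) / ψ ⬝ᵥ z, by rw [div_mul_cancel₀ _ e5]; ring⟩
  have a0 := S.add_right (S.smul_of_top h h1 a) (S.smul_of_top h h2 b)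
  have a1 := S.conj h4 a0
  rw [e2, one_smul] at a1
  have a2 := S.comm_right a1 h3 (by
    simpa only [dotProduct_add, dotProduct_smul, add_dotProduct, smul_dotProduct, smul_eq_mul, e1,
      mul_one] using hb)
  have a3 := S.smul_of_top h a2 (ζ ⬝ᵥ u - a * φ ⬝ᵥ u)⁻¹
  simp only [sub_dotProduct, add_dotProduct, smul_dotProduct, e4, smul_eq_mul, mul_zero, add_zero,
    smul_smul, inv_mul_cancel₀ ha, one_smul] at a1 a3
  have a4 := S.comm_right h2 (S.sub_right a1 a3) (by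
    simp only [sub_dotProduct, add_dotProduct, smul_dotProduct, e1, e2, S.dot h1, S.dot h2]; simp)
  have a5 := S.add_right (S.smul_of_top h a4 (ψ ⬝ᵥ z)⁻¹) a0
  simp only [dotProduct_add, dotProduct_smul, S.dot h2, smul_eq_mul, mul_zero, add_zero, smul_smul,
    inv_mul_cancel₀ e5, one_smul] at a5
  convert a5 using 1
  abel

theorem sub_axes (h : RM T ⊤) (hA : ¬ Uni T) (h1 : NT T x φ) (h2 : NT T u θ) (h3 : NT T y η)
    (e1 : θ ⬝ᵥ x = 1) (e2 : η ⬝ᵥ x = 1) : T x (η - θ) := by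
  obtain ⟨u, h2, e3⟩ := S.exists_centre h h1 h2 (by rw [e1]; exact one_ne_zero)
  obtain ⟨y, h3, e4⟩ := S.exists_centre h h1 h3 (by rw [e2]; exact one_ne_zero)
  obtain ⟨ψ, a1, a2, a3⟩ := S.kill_all (S.kill_of_rm h) hA h1 h2.1 (by rw [e1]; exact one_ne_zero)
  by_cases e5 : ψ ⬝ᵥ y = 0
  · obtain ⟨z, ζ, h4, b1, b2⟩ := S.avoid a1 h1.2.1
    have h5 := S.smul_of_top h h4.1 (ζ ⬝ᵥ x)⁻¹
    have b3 : ((ζ ⬝ᵥ x)⁻¹ • ζ) ⬝ᵥ x = 1 := by rw [smul_dotProduct, smul_eq_mul, inv_mul_cancel₀ b2]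
    have := S.sub_right (S.sub_axes_aux h h1.1 a2 h2.1 h5 e1 b3 e3 a3 b1)
      (S.sub_axes_aux h h1.1 a2 h3.1 h5 e2 b3 e4 e5 b1)
    rwa [sub_sub_sub_cancel_left] at this
  · exact S.sub_axes_aux h h1.1 a2 h2.1 h3.1 e1 e2 e3 a3 e5

theorem full_of_top (h : RM T ⊤) (hA : ¬ Uni T) (h1 : NT T x φ) {ξ : ι → F} (e : ξ ⬝ᵥ x = 0) :
    T x ξ := by
  obtain ⟨u, θ', h2', -, e0⟩ := S.exists_opp h1.2.1 h1.2.2
  have h2 := S.NT_smul e0 h2'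
  have e1 : ((θ' ⬝ᵥ x)⁻¹ • θ') ⬝ᵥ x = 1 := by rw [smul_dotProduct, smul_eq_mul, inv_mul_cancel₀ e0]
  generalize (θ' ⬝ᵥ x)⁻¹ • θ' = θ at h2 e1
  let W : Submodule F (ι → F) :=
    { carrier := {ξ | T x (ξ - (ξ ⬝ᵥ x) • θ)}
      add_mem' := fun {a b} ha hb => by
        change T x _
        convert S.add_right ha hb using 1
        rw [add_dotProduct]; module
      zero_mem' := by simpa using S.zero x
      smul_mem' := fun c a ha => by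
        change T x _
        convert S.smul_of_top h ha c using 1
        rw [smul_dotProduct, smul_eq_mul]; module }
  have : Submodule.span F {η | (∃ y, NT T y η) ∧ η ⬝ᵥ x = 1} = ⊤ :=
    span_eq_top fun v hv => S.eq_zero_of_axes h1.2.1 fun y η h3 e2 => by
      have := hv _ ⟨⟨_, S.NT_smul e2 h3⟩, by rw [smul_dotProduct, smul_eq_mul, inv_mul_cancel₀ e2]⟩
      rw [dotProduct_smul, smul_eq_zero, dotProduct_comm v] at this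
      exact this.resolve_left (inv_ne_zero e2)
  have hW : ξ ∈ W := (Submodule.span_le.2 (by
    rintro η ⟨⟨y, h3⟩, e2⟩
    change T x _
    rw [e2, one_smul]
    exact S.sub_axes h hA h1 h2 h3 e1 e2) : Submodule.span F _ ≤ W) (this.ge Submodule.mem_top)
  change T x _ at hW
  rwa [e, zero_smul, sub_zero] at hW

theorem all_of_full (hx : x ≠ 0) (h : ∀ ξ, ξ ⬝ᵥ x = 0 → T x ξ) {v ξ : ι → F} (e : ξ ⬝ᵥ v = 0) :
    T v ξ := by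
  obtain ⟨K, hK, rfl⟩ := S.grp
  have h1 : x ∈ Tv.full K := fun φ hφ => by
    obtain ⟨-, g, hg, h1⟩ := h _ ((dual_eq_dot φ x).trans hφ)
    exact ⟨g, hg, fun v => by rw [Tv.act_apply, ← dual_eq_dot]; exact h1 v⟩
  rcases hK.irr (Tv.full K) (fun g hg v hv => Tv.act_mem_full hv hg) with e' | e'
  · exact absurd ((Submodule.eq_bot_iff _).1 e' x h1) hx
  · obtain ⟨g, hg, h2⟩ := Tv.mem_full.1 (e'.ge (Submodule.mem_top : v ∈ ⊤))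
      (dotProductBilin F F ξ) e
    exact ⟨e, g, hg, h2⟩

/-- the linear case -/
theorem all_of_A [Finite F] (h : RM T k) (hN : NoRat T) (hA : ¬ Uni T) {v ξ : ι → F}
    (e : ξ ⬝ᵥ v = 0) : T v ξ := by
  obtain rfl := S.top_of_trip h hN le_rfl fun _ _ _ _ _ _ => S.trip_mem_A h hA
  obtain ⟨x, φ, h1⟩ := S.ex
  exact S.all_of_full h1.2.1 (fun ξ => S.full_of_top h hA h1) e

theorem all_of_A' [Finite F] (h : RM T k) (hN : NoRat T) (hA : ¬ Uni (fun φ x => T x φ))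
    {v ξ : ι → F} (e : ξ ⬝ᵥ v = 0) : T v ξ :=
  S.flip.all_of_A (S.rm_flip h) hN.flip hA (by rwa [dotProduct_comm])

/-! ### the symmetric case -/

theorem trip_of_mem (h : RM T k) (hB : Sym T) (h1 : NT T x φ) (h2 : NT T u θ) (h3 : NT T y η)
    (hc : (φ ⬝ᵥ u) * (θ ⬝ᵥ y) * (η ⬝ᵥ x) ∈ k) :
    (φ ⬝ᵥ u) * (θ ⬝ᵥ y) * (η ⬝ᵥ x) + (φ ⬝ᵥ y) * (η ⬝ᵥ u) * (θ ⬝ᵥ x) = 0 := by
  by_cases h0 : (φ ⬝ᵥ u) * (θ ⬝ᵥ y) * (η ⬝ᵥ x) = 0
  · rw [h0, zero_add]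
    rcases mul_eq_zero.1 h0 with e | e
    · rcases mul_eq_zero.1 e with e | e
      · rw [hB _ _ _ _ h1 h2 e, mul_zero]
      · rw [hB _ _ _ _ h2 h3 e, mul_zero, zero_mul]
    · rw [hB _ _ _ _ h3 h1 e, zero_mul, zero_mul]
  set c := (φ ⬝ᵥ u) * (θ ⬝ᵥ y) * (η ⬝ᵥ x) with hcd
  set a := -((φ ⬝ᵥ y) * (η ⬝ᵥ x)) / c with had
  have ha : a ∈ k := k.div_mem (k.neg_mem (h.mem h1.1 h3.1)) hc
  have h4 := S.NT_conj h3 ((h.big h2 a).2 ha)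
  have hη : η ⬝ᵥ x ≠ 0 := right_ne_zero_of_mul h0
  have e2 := hB _ _ _ _ h1 h4 (by
    rw [dotProduct_add, dotProduct_smul, smul_dotProduct, smul_eq_mul, smul_eq_mul, had]
    field_simp
    rw [hcd]; ring)
  rw [sub_dotProduct, smul_dotProduct, smul_dotProduct, smul_eq_mul, smul_eq_mul, had] at e2
  field_simp at e2
  refine mul_left_cancel₀ hη ?_
  linear_combination e2

theorem trip_sigma (h : RM T k) (hB : Sym T) {σ : F →+* F} (hσ : ∀ a, σ a = a ↔ a ∈ k)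
    (h1 : NT T x φ) (h2 : NT T u θ) (h3 : NT T y η) :
    σ ((φ ⬝ᵥ u) * (θ ⬝ᵥ y) * (η ⬝ᵥ x)) = -((φ ⬝ᵥ y) * (η ⬝ᵥ u) * (θ ⬝ᵥ x)) := by
  by_cases hc : (φ ⬝ᵥ u) * (θ ⬝ᵥ y) * (η ⬝ᵥ x) ∈ k
  · rw [(hσ _).2 hc]
    linear_combination S.trip_of_mem h hB h1 h2 h3 hc
  have s1 := S.trip_sub h h1.1 h2.1 h3.1
  set c := (φ ⬝ᵥ u) * (θ ⬝ᵥ y) * (η ⬝ᵥ x) with hcd
  set c' := (φ ⬝ᵥ y) * (η ⬝ᵥ u) * (θ ⬝ᵥ x) with hcd'
  have s2 : c * c' ∈ k := by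
    convert k.mul_mem (k.mul_mem (h.mem h1.1 h2.1) (h.mem h2.1 h3.1)) (h.mem h1.1 h3.1) using 1
    rw [hcd, hcd']; ring
  have e1 := (hσ _).2 s1
  have e2 := (hσ _).2 s2
  rw [map_sub] at e1
  rw [map_mul] at e2
  have : (σ c - c) * (σ c + c') = 0 := by linear_combination (σ c) * e1 + e2
  rcases mul_eq_zero.1 this with e | e
  · exact absurd ((hσ _).1 (sub_eq_zero.1 e)) hc
  · linear_combination e

theorem sigma_sq [Finite F] (h : RM T k) (hN : NoRat T) (hB : Sym T) {σ : F →+* F}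
    (hσ : ∀ a, σ a = a ↔ a ∈ k) (a : F) : σ (σ a) = a := by
  have := S.top_of_trip h hN (K := RingHom.eqLocusField (σ.comp σ) (RingHom.id F))
    (fun a ha => by
      change σ (σ a) = a
      rw [(hσ a).2 ha, (hσ a).2 ha])
    (fun x φ u θ y η h1 h2 h3 => by
      change σ (σ _) = (φ ⬝ᵥ u) * (θ ⬝ᵥ y) * (η ⬝ᵥ x)
      rw [S.trip_sigma h hB hσ h1 h2 h3, map_neg, S.trip_sigma h hB hσ h1 h3 h2, neg_neg])
  have ha : a ∈ RingHom.eqLocusField (σ.comp σ) (RingHom.id F) := this ▸ Subfield.mem_top a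
  exact ha

/-- the invariant skew-hermitian form -/
theorem exists_form (hB : Sym T) {σ : F →+* F} (hσ2 : ∀ a, σ (σ a) = a) (h0 : NT T x φ)
    (hm : ∀ u θ, NT T u θ → σ ((φ ⬝ᵥ u) * (θ ⬝ᵥ x)) = (φ ⬝ᵥ u) * (θ ⬝ᵥ x))
    (ht : ∀ u θ y η, NT T u θ → NT T y η →
      σ ((φ ⬝ᵥ u) * (θ ⬝ᵥ y) * (η ⬝ᵥ x)) = -((φ ⬝ᵥ y) * (η ⬝ᵥ u) * (θ ⬝ᵥ x))) :
    ∃ τ : (ι → F) →ₛₗ[σ] (ι → F), (∀ v w, σ (τ v ⬝ᵥ w) = -(τ w ⬝ᵥ v)) ∧ (∀ v, τ v = 0 → v = 0) ∧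
      ((∀ a, σ a = a) → ∀ v, τ v ⬝ᵥ v = 0) ∧ ∀ u θ, NT T u θ → ∃ c, σ c = c ∧ θ = c • τ u := by
  -- normalised pairs
  let N : (ι → F) → (ι → F) → Prop := fun y η => ∃ c, σ c = c ∧ NT T y (c • η) ∧ φ ⬝ᵥ y = 1 ∧
    η ⬝ᵥ x = -1
  have norm : ∀ u θ, NT T u θ → φ ⬝ᵥ u ≠ 0 → N ((φ ⬝ᵥ u)⁻¹ • u) ((-(θ ⬝ᵥ x)⁻¹) • θ) := by
    intro u θ h1 e
    have e' : θ ⬝ᵥ x ≠ 0 := fun e' => e (hB _ _ _ _ h1 h0 e')
    refine ⟨-((φ ⬝ᵥ u) * (θ ⬝ᵥ x)), by rw [map_neg, hm u θ h1], ?_,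
      by rw [dotProduct_smul, smul_eq_mul, inv_mul_cancel₀ e],
      by rw [smul_dotProduct, smul_eq_mul, neg_mul, inv_mul_cancel₀ e']⟩
    convert S.NT_smul (inv_ne_zero e) h1 using 1
    rw [smul_smul]
    congr 1
    field_simp
  have key : ∀ u θ y η, N u θ → N y η → σ (θ ⬝ᵥ y) = -(η ⬝ᵥ u) := by
    rintro u θ y η ⟨c, c1, c2, c3, c4⟩ ⟨d, d1, d2, d3, d4⟩
    have := ht _ _ _ _ c2 d2
    simp only [smul_dotProduct, smul_eq_mul, c3, c4, d3, d4, map_mul, map_neg, map_one, c1, d1]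
      at this
    refine mul_left_cancel₀ (mul_ne_zero (left_ne_zero_of_smul c2.2.2)
      (left_ne_zero_of_smul d2.2.2)) ?_
    linear_combination -this
  have hsp : ∀ ξ : ι → F, (∀ y η, N y η → ξ ⬝ᵥ y = 0) → ξ = 0 := fun ξ hξ =>
    S.eq_zero_of_centres h0.2.2 fun u θ h1 e => by
      have := hξ _ _ (norm u θ h1 e)
      rw [dotProduct_smul, smul_eq_zero] at this
      exact this.resolve_left (inv_ne_zero e)
  obtain ⟨b, β, hb, hbX⟩ := exists_dualB (S := {u | ∃ θ, N u θ})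
    (span_eq_top fun ξ hξ => hsp ξ fun y η h => hξ y ⟨η, h⟩)
  choose γ hγ using hbX
  let τ : (ι → F) →ₛₗ[σ] (ι → F) :=
    { toFun := fun v => ∑ i, σ (β i ⬝ᵥ v) • γ i
      map_add' := fun v w => by
        simp only [dotProduct_add, map_add, add_smul, Finset.sum_add_distrib]
      map_smul' := fun c v => by
        simp only [dotProduct_smul, smul_eq_mul, map_mul, Finset.smul_sum, smul_smul] }
  have t1 : ∀ v u θ, N u θ → τ v ⬝ᵥ u = -σ (θ ⬝ᵥ v) := fun v u θ h1 => by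
    change (∑ i, σ (β i ⬝ᵥ v) • γ i) ⬝ᵥ u = _
    conv_rhs => rw [hb.sum_eq v]
    simp only [sum_dotProduct, dotProduct_sum, smul_dotProduct, dotProduct_smul, smul_eq_mul,
      map_sum, map_mul, key _ _ _ _ h1 (hγ _), mul_neg, Finset.sum_neg_distrib, neg_neg]
  have t2 : ∀ y η, N y η → τ y = η := fun y η h1 => sub_eq_zero.1 (hsp _ fun u θ h2 => by
    rw [sub_dotProduct, t1 _ _ _ h2, key _ _ _ _ h2 h1, neg_neg, sub_self])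
  have t3 : ∀ v w, σ (τ v ⬝ᵥ w) = -(τ w ⬝ᵥ v) := fun v w => by
    conv_lhs => rw [hb.sum_eq w]
    change _ = -((∑ i, σ (β i ⬝ᵥ w) • γ i) ⬝ᵥ v)
    simp only [sum_dotProduct, dotProduct_sum, smul_dotProduct, dotProduct_smul, smul_eq_mul,
      map_sum, map_mul, t1 _ _ _ (hγ _), map_neg, hσ2, mul_neg, Finset.sum_neg_distrib]
  have t4 : ∀ u θ, NT T u θ → φ ⬝ᵥ u ≠ 0 → ∃ c, σ c = c ∧ θ = c • τ u := fun u θ h1 e => by
    have e' : θ ⬝ᵥ x ≠ 0 := fun e' => e (hB _ _ _ _ h1 h0 e')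
    have e'' : σ (φ ⬝ᵥ u) ≠ 0 := (map_ne_zero σ).2 e
    have := t2 _ _ (norm u θ h1 e)
    rw [map_smulₛₗ, map_inv₀] at this
    refine ⟨-((φ ⬝ᵥ u) * (θ ⬝ᵥ x)) / ((φ ⬝ᵥ u) * σ (φ ⬝ᵥ u)), ?_, ?_⟩
    · rw [map_div₀, map_neg, hm u θ h1, map_mul, hσ2, mul_comm (σ _)]
    · refine smul_right_injective _ (neg_ne_zero.2 (inv_ne_zero e')) ?_
      simp only [← this, smul_smul]
      congr 1
      field_simp
  refine ⟨τ, t3, fun v hv => S.eq_zero_of_axes h0.2.1 fun u θ h1 e => ?_, fun hid v => ?_,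
    fun u θ h1 => ?_⟩
  · have := t1 v _ _ (norm u θ h1 fun e' => e (hB _ _ _ _ h0 h1 e'))
    rw [hv, zero_dotProduct, eq_comm, neg_eq_zero, map_eq_zero, smul_dotProduct, smul_eq_zero] at this
    exact this.resolve_left (neg_ne_zero.2 (inv_ne_zero e))
  · have hv : v ∈ Submodule.span F (Set.range b) := by
      rw [hb.sum_eq v]
      exact Submodule.sum_mem _ fun i _ => Submodule.smul_mem _ _ (Submodule.subset_span ⟨i, rfl⟩)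
    induction hv using Submodule.span_induction with
    | mem y hy =>
      obtain ⟨i, rfl⟩ := hy
      obtain ⟨c, -, c2, -⟩ := id (hγ i)
      have := S.dot c2.1
      rw [smul_dotProduct, smul_eq_zero] at this
      rw [t2 _ _ (hγ i)]
      exact this.resolve_left (left_ne_zero_of_smul c2.2.2)
    | zero => exact dotProduct_zero _
    | add y z _ _ h1 h2 =>
      have := t3 y z
      rw [hid] at this
      rw [map_add, add_dotProduct, dotProduct_add, dotProduct_add, h1, h2, this]; ring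
    | smul c y _ h1 => rw [map_smulₛₗ, smul_dotProduct, dotProduct_smul, h1, smul_zero, smul_zero]
  · by_cases e : φ ⬝ᵥ u = 0
    swap
    · exact t4 u θ h1 e
    obtain ⟨y, η, h2, a1, a2⟩ := S.avoid h0.2.2 h1.2.1
    obtain ⟨c, c1, c2⟩ := t4 y η h2 a1
    obtain ⟨d, d1, d2⟩ := t4 _ _ (S.NT_conj h1 h2.1) (by
      rw [dotProduct_add, dotProduct_smul, e, zero_add]; exact mul_ne_zero a2 a1)
    have b1 : τ y ⬝ᵥ y = 0 := by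
      have := S.dot h2.1
      rw [c2, smul_dotProduct, smul_eq_zero] at this
      exact this.resolve_left (left_ne_zero_of_smul (c2 ▸ h2.2.2))
    have b2 : σ (η ⬝ᵥ u) = -(c * τ u ⬝ᵥ y) := by
      rw [c2, smul_dotProduct, smul_eq_mul, map_mul, c1, t3, mul_neg]
    rw [map_add, map_smulₛₗ, b2] at d2
    have b3 := congrArg (· ⬝ᵥ y) d2
    simp only [sub_dotProduct, add_dotProduct, smul_dotProduct, S.dot h2.1, b1, smul_eq_mul,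
      mul_zero, sub_zero, add_zero] at b3
    refine ⟨d, d1, ?_⟩
    rw [b3] at d2
    linear_combination (norm := module) d2 + (d * τ u ⬝ᵥ y) • c2

end TS

end CL.Zs
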