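/-
Characteristic two, transvection groups of order two: the monomial configuration does not occur.
-/
import Cfsg.Agent.CLAS.Zs5
import Cfsg.Agent.CLAS.ZsM

set_option autoImplicit false

namespace CL.Zs

open Matrix Cfsg.Geo CL.Asch

variable {F : Type*} [Field F] {ι : Type} [Fintype ι] [DecidableEq ι]

/-- powers of `ζ` -/
def Pw (ζ a : F) : Prop := ∃ j : ℤ, a = ζ ^ j

theorem Pw.one (ζ : F) : Pw ζ 1 := ⟨0, (zpow_zero ζ).symm⟩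

theorem Pw.self (ζ : F) : Pw ζ ζ := ⟨1, (zpow_one ζ).symm⟩

theorem Pw.pow (ζ : F) (j : ℕ) : Pw ζ (ζ ^ j) := ⟨j, (zpow_natCast ζ j).symm⟩

theorem Pw.inv {ζ a : F} (h : Pw ζ a) : Pw ζ a⁻¹ := let ⟨j, e⟩ := h; ⟨-j, by rw [e, _root_.zpow_neg]⟩

theorem Pw.mul {ζ a b : F} (h0 : ζ ≠ 0) (h : Pw ζ a) (h' : Pw ζ b) : Pw ζ (a * b) :=
  let ⟨j, e⟩ := h; let ⟨i, e'⟩ := h'; ⟨j + i, by rw [e, e', zpow_add₀ h0]⟩

theorem Pw.ne {ζ a : F} (h0 : ζ ≠ 0) (h : Pw ζ a) : a ≠ 0 :=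
  let ⟨j, e⟩ := h; e ▸ zpow_ne_zero j h0

theorem five (h2 : (2 : F) = 0) {ζ κ : F} (h0 : ζ ≠ 0) (h3 : ζ ^ 3 ≠ 1) (hκ : κ ≠ 0)
    (p : Polynomial F) (hp : p.natDegree ≤ 4) (h : ∀ j : ℕ, p.eval (ζ ^ j * κ) = 0) :
    p.eval 0 = 0 := by
  have h1 : ζ ≠ 1 := fun e => h3 (by rw [e, one_pow])
  have h1' : ζ ^ 2 ≠ 1 := fun e => h1 (by
    have : (ζ - 1) ^ 2 = 0 := by linear_combination e + (1 - ζ) * h2
    exact sub_eq_zero.1 (pow_eq_zero_iff two_ne_zero |>.1 this))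
  have h4 : ζ ^ 4 ≠ 1 := fun e => h1' (by
    have : (ζ ^ 2 - 1) ^ 2 = 0 := by linear_combination e + (1 - ζ ^ 2) * h2
    exact sub_eq_zero.1 (pow_eq_zero_iff two_ne_zero |>.1 this))
  have key : ∀ i j : ℕ, i < j → j < 5 → ζ ^ i ≠ ζ ^ j := fun i j hij hj e => by
    obtain ⟨d, rfl⟩ := Nat.exists_eq_add_of_lt hij
    have : ζ ^ (d + 1) = 1 := mul_left_cancel₀ (pow_ne_zero i h0) (by
      rw [← pow_add, ← add_assoc, ← e, mul_one])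
    have hd : d < 4 := by omega
    interval_cases d
    exacts [h1 (by simpa using this), h1' this, h3 this, h4 this]
  rw [Polynomial.eq_zero_of_natDegree_lt_card_of_eval_eq_zero p
    (f := fun j : Fin 5 => ζ ^ (j : ℕ) * κ) (fun i j e => ?_) (fun j => h j) (by simp; omega),
    Polynomial.eval_zero]
  have e' := mul_right_cancel₀ hκ e
  rcases lt_trichotomy (i : ℕ) j with h | h | h
  · exact absurd e' (key _ _ h j.2)
  · exact Fin.ext h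
  · exact absurd e'.symm (key _ _ h i.2)

theorem conj_vmv (y η e ε : ι → F) : (1 + vecMulVec y η) * vecMulVec e ε * (1 - vecMulVec y η) =
    vecMulVec (e + (η ⬝ᵥ e) • y) (ε - (ε ⬝ᵥ y) • η) := eq_of_mulVec fun v => by
  simp only [← mulVec_mulVec, add_mulVec, sub_mulVec, one_mulVec, vmv_mulVec, dotProduct_sub,
    dotProduct_smul, sub_dotProduct, smul_dotProduct, smul_eq_mul]
  module

/-- the transvections of a dihedral group interchanging two points -/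
structure Sw (T : (ι → F) → (ι → F) → Prop) (ζ : F) (e ε e' ε' : ι → F) : Prop where
  d11 : ε ⬝ᵥ e = 1
  d22 : ε' ⬝ᵥ e' = 1
  d12 : ε ⬝ᵥ e' = 0
  d21 : ε' ⬝ᵥ e = 0
  t : ∀ a, Pw ζ a → T (e + a • e') (ε + a⁻¹ • ε')

/-- the standing hypotheses -/
structure Hard (T : (ι → F) → (ι → F) → Prop) : Prop where
  S : TS T
  h2 : (2 : F) = 0
  hs : Small2 T
  hU : Uni T
  hU' : Uni (fun φ x => T x φ)

namespace Hard

variable {T : (ι → F) → (ι → F) → Prop} (H : Hard T) {x u y φ θ η e ε e' ε' : ι → F} {ζ a : F}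
  {e1 ε1 e2 ε2 e3 ε3 : ι → F}
include H

theorem sym : Sym T := H.S.sym_of_uni H.hU

theorem conj (h : T x φ) (h' : T u θ) : T (x + (θ ⬝ᵥ x) • u) (φ + (φ ⬝ᵥ u) • θ) := by
  convert H.S.conj h h' using 1
  linear_combination (norm := module) H.h2 • (φ ⬝ᵥ u) • θ

theorem NT_conj (h : NT T x φ) (h' : T u θ) : NT T (x + (θ ⬝ᵥ x) • u) (φ + (φ ⬝ᵥ u) • θ) := by
  convert H.S.NT_conj h h' using 1
  linear_combination (norm := module) H.h2 • (φ ⬝ᵥ u) • θ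

theorem rescale {c : F} (hc : c ≠ 0) (h : T x φ) : T (c • x) (c⁻¹ • φ) := by
  rwa [H.S.smul, smul_smul, mul_inv_cancel₀ hc, one_smul]

theorem sw_of (h0 : ζ ≠ 0) (d11 : ε ⬝ᵥ e = 1) (d22 : ε' ⬝ᵥ e' = 1) (d12 : ε ⬝ᵥ e' = 0)
    (d21 : ε' ⬝ᵥ e = 0) (t1 : T (e + e') (ε + ε')) (t2 : T (e + ζ • e') (ε + ζ⁻¹ • ε')) :
    Sw T ζ e ε e' ε' := by
  have step : ∀ a b : F, a ≠ 0 → b ≠ 0 → T (e + a • e') (ε + a⁻¹ • ε') →
      T (e + b • e') (ε + b⁻¹ • ε') → T (e + (b * b / a) • e') (ε + (b * b / a)⁻¹ • ε') := by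
    intro a b ha hb h1 h2
    have := H.rescale (div_ne_zero hb ha) (H.conj h1 h2)
    simp only [dotProduct_add, add_dotProduct, dotProduct_smul, smul_dotProduct, d11, d22, d12, d21,
      smul_eq_mul] at this
    convert this using 1
    · match_scalars <;> field_simp
      · linear_combination -b * H.h2
      · linear_combination -a * H.h2
    · match_scalars <;> field_simp
      · linear_combination -a * H.h2
      · linear_combination -b * H.h2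
  have key : ∀ j : ℤ, T (e + ζ ^ j • e') (ε + (ζ ^ j)⁻¹ • ε') ∧
      T (e + ζ ^ (j + 1) • e') (ε + (ζ ^ (j + 1))⁻¹ • ε') := by
    intro j
    induction j with
    | zero => exact ⟨by simpa using t1, by simpa using t2⟩
    | succ i ih =>
      refine ⟨ih.2, ?_⟩
      have := step _ _ (zpow_ne_zero _ h0) (zpow_ne_zero _ h0) ih.1 ih.2
      rwa [← zpow_add₀ h0, ← zpow_sub₀ h0, show (i : ℤ) + 1 + (i + 1) - i = i + 1 + 1 by ring] at this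
    | pred i ih =>
      refine ⟨?_, by rw [sub_add_cancel]; exact ih.1⟩
      have := step _ _ (zpow_ne_zero _ h0) (zpow_ne_zero _ h0) ih.2 ih.1
      rwa [← zpow_add₀ h0, ← zpow_sub₀ h0, show -(i : ℤ) + -i - (-i + 1) = -i - 1 by ring] at this
  exact ⟨d11, d22, d12, d21, by rintro _ ⟨j, rfl⟩; exact (key j).1⟩

theorem symm (h0 : ζ ≠ 0) (h : Sw T ζ e ε e' ε') : Sw T ζ e' ε' e ε :=
  ⟨h.d22, h.d11, h.d21, h.d12, fun a ha => by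
    have := H.rescale (ha.ne h0) (h.t _ ha.inv)
    simp only [smul_add, smul_smul, inv_inv, mul_inv_cancel₀ (ha.ne h0), inv_mul_cancel₀ (ha.ne h0),
      one_smul] at this
    rwa [add_comm e', add_comm ε']⟩

omit H [DecidableEq ι] in
theorem nt (h : Sw T ζ e ε e' ε') (ha : Pw ζ a) : NT T (e + a • e') (ε + a⁻¹ • ε') :=
  ⟨h.t a ha, ne_right (φ := ε) (by simp [h.d11, h.d12]), ne_left (x := e) (by simp [h.d11, h.d21])⟩

theorem tor (h0 : ζ ≠ 0) (h : Sw T ζ e ε e' ε') (ha : Pw ζ a) (h1 : T y η) :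
    T (y + ((a + 1) * ε ⬝ᵥ y) • e + ((a⁻¹ + 1) * ε' ⬝ᵥ y) • e')
      (η + ((a⁻¹ + 1) * η ⬝ᵥ e) • ε + ((a + 1) * η ⬝ᵥ e') • ε') := by
  have := H.conj (H.conj h1 (h.t 1 (Pw.one ζ))) (h.t _ ha.inv)
  have ha0 := ha.ne h0
  simp only [dotProduct_add, add_dotProduct, dotProduct_smul, smul_dotProduct, h.d11, h.d22, h.d12,
    h.d21, smul_eq_mul, inv_inv, inv_one] at this
  convert this using 1
  · match_scalars
    · rfl
    · linear_combination -(ε ⬝ᵥ y + ε' ⬝ᵥ y + a * ε' ⬝ᵥ y) * H.h2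
    · field_simp
      linear_combination -(ε ⬝ᵥ y + a * ε ⬝ᵥ y + a * ε' ⬝ᵥ y) * H.h2
  · match_scalars
    · rfl
    · linear_combination -(η ⬝ᵥ e + η ⬝ᵥ e' + a⁻¹ * η ⬝ᵥ e') * H.h2
    · field_simp
      linear_combination -(a * η ⬝ᵥ e + η ⬝ᵥ e + η ⬝ᵥ e') * H.h2

/-- the third side of the triangle -/
theorem third (h0 : ζ ≠ 0) (h : Sw T ζ e1 ε1 e2 ε2) (d33 : ε3 ⬝ᵥ e3 = 1) (d13 : ε1 ⬝ᵥ e3 = 0)
    (d31 : ε3 ⬝ᵥ e1 = 0) (d23 : ε2 ⬝ᵥ e3 = 0) (d32 : ε3 ⬝ᵥ e2 = 0) (t : T (e1 + e3) (ε1 + ε3)) :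
    Sw T ζ e1 ε1 e3 ε3 ∧ Sw T ζ e2 ε2 e3 ε3 := by
  have a1 : Sw T ζ e1 ε1 e3 ε3 := ⟨h.d11, d33, d13, d31, fun a ha => by
    have ha0 := ha.ne h0
    have := H.rescale ha0 (H.tor h0 h ha.inv t)
    simp only [dotProduct_add, add_dotProduct, h.d11, h.d12, h.d21, d13, d31, d23, d32,
      inv_inv] at this
    convert this using 1
    · match_scalars <;> field_simp
      · linear_combination -a * H.h2
      · ring
    · match_scalars <;> field_simp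
      · linear_combination -H.h2
      · ring⟩
  refine ⟨a1, h.d22, d33, d23, d32, fun a ha => ?_⟩
  have := H.conj (a1.t a ha) (h.t 1 (Pw.one ζ))
  simp only [dotProduct_add, add_dotProduct, dotProduct_smul, smul_dotProduct, h.d11, h.d12, h.d21,
    d13, d31, d23, d32, inv_one, smul_eq_mul] at this
  convert this using 1
  · linear_combination (norm := module) -H.h2 • e1
  · linear_combination (norm := module) -H.h2 • ε1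

variable [Finite F]

theorem m_one (h0 : ζ ≠ 0) (h3 : ζ ^ 3 ≠ 1) (h : Sw T ζ e ε e' ε') (ha : Pw ζ a) (h1 : NT T y η)
    (hc : (ε ⬝ᵥ y) * (η ⬝ᵥ e) ≠ (ε' ⬝ᵥ y) * (η ⬝ᵥ e')) :
    (ε ⬝ᵥ y + a⁻¹ * ε' ⬝ᵥ y) * (η ⬝ᵥ e + a * η ⬝ᵥ e') = 1 := by
  have ha0 := ha.ne h0
  have hζ : 1 + ζ ≠ 0 := fun e => h3 (by linear_combination (ζ ^ 2 - ζ + 1) * e - H.h2)
  have := (H.S.mono3 H.h2 H.hs H.hU H.hU' (nt h ha) (nt h (ha.mul h0 (Pw.self ζ))) h1 ?_ ?_ ?_).1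
  · simpa only [dotProduct_add, add_dotProduct, dotProduct_smul, smul_dotProduct, smul_eq_mul]
      using this
  all_goals
    simp only [dotProduct_add, add_dotProduct, dotProduct_smul, smul_dotProduct, h.d11, h.d22,
      h.d12, h.d21, smul_eq_mul, mul_inv]
    have h2 := H.h2
    have a1 := mul_inv_cancel₀ ha0
    have a2 := mul_inv_cancel₀ h0
    generalize a⁻¹ = b at a1 ⊢
    generalize ζ⁻¹ = z at a2 ⊢
    grind

theorem pik (h0 : ζ ≠ 0) (h3 : ζ ^ 3 ≠ 1) (h : Sw T ζ e ε e' ε') (h1 : NT T y η) :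
    (ε ⬝ᵥ y) * (η ⬝ᵥ e) = (ε' ⬝ᵥ y) * (η ⬝ᵥ e') ∨ ((ε ⬝ᵥ y) * (η ⬝ᵥ e') = 0 ∧
      (ε' ⬝ᵥ y) * (η ⬝ᵥ e) = 0 ∧ (ε ⬝ᵥ y) * (η ⬝ᵥ e) + (ε' ⬝ᵥ y) * (η ⬝ᵥ e') = 1) := by
  refine or_iff_not_imp_left.2 fun hc => ?_
  have a1 := H.m_one h0 h3 h (Pw.one ζ) h1 hc
  have a2 := H.m_one h0 h3 h (Pw.self ζ) h1 hc
  have a3 := H.m_one h0 h3 h (Pw.self ζ).inv h1 hc
  rw [inv_inv] at a3
  rw [inv_one] at a1
  have h2 := H.h2
  have a4 := mul_inv_cancel₀ h0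
  generalize ζ⁻¹ = z at a2 a3 a4
  have hζ : 1 + ζ ≠ 0 := fun e => h3 (by linear_combination (ζ ^ 2 - ζ + 1) * e - H.h2)
  have b1 : (ε ⬝ᵥ y) * (η ⬝ᵥ e') = 0 := by grind
  have b2 : (ε' ⬝ᵥ y) * (η ⬝ᵥ e) = 0 := by grind
  exact ⟨b1, b2, by linear_combination a1 - b1 - b2⟩

omit [Finite F] in
theorem sym_sw (h : Sw T ζ e ε e' ε') (ha : Pw ζ a) (h1 : NT T y η) :
    ε ⬝ᵥ y + a⁻¹ * ε' ⬝ᵥ y = 0 ↔ η ⬝ᵥ e + a * η ⬝ᵥ e' = 0 := by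
  have a1 := H.sym _ _ _ _ (nt h ha) h1
  have a2 := H.sym _ _ _ _ h1 (nt h ha)
  simp only [dotProduct_add, add_dotProduct, dotProduct_smul, smul_dotProduct, smul_eq_mul] at a1 a2
  exact ⟨a1, a2⟩

theorem not_four (h0 : ζ ≠ 0) (h3 : ζ ^ 3 ≠ 1) (s12 : Sw T ζ e1 ε1 e2 ε2)
    (s13 : Sw T ζ e1 ε1 e3 ε3) (s23 : Sw T ζ e2 ε2 e3 ε3) (h1 : NT T y η) {c : F} (hc : c ≠ 0)
    (c1 : (ε1 ⬝ᵥ y) * (η ⬝ᵥ e1) = c) (c2 : (ε2 ⬝ᵥ y) * (η ⬝ᵥ e2) = c)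
    (c3 : (ε3 ⬝ᵥ y) * (η ⬝ᵥ e3) = c) : False := by
  have h2 := H.h2
  have y1 : ε1 ⬝ᵥ y ≠ 0 := left_ne_zero_of_mul (c1 ▸ hc)
  have y2 : ε2 ⬝ᵥ y ≠ 0 := left_ne_zero_of_mul (c2 ▸ hc)
  have y3 : ε3 ⬝ᵥ y ≠ 0 := left_ne_zero_of_mul (c3 ▸ hc)
  obtain ⟨j, hj⟩ : ∃ j : ℕ, (ζ ^ j * (ε1 ⬝ᵥ y / ε2 ⬝ᵥ y) + 1) *
      (c * (ζ ^ j * (ε1 ⬝ᵥ y / ε2 ⬝ᵥ y)) ^ 2 + ζ ^ j * (ε1 ⬝ᵥ y / ε2 ⬝ᵥ y) + c) ≠ 0 := by
    by_contra hn
    push Not at hn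
    have := five h2 h0 h3 (div_ne_zero y1 y2)
      ((Polynomial.X + 1) * (Polynomial.C c * Polynomial.X ^ 2 + Polynomial.X + Polynomial.C c))
      (by compute_degree; omega) (fun j => by simpa using hn j)
    exact hc (by simpa using this)
  have pa := Pw.pow ζ j
  generalize ζ ^ j = a at hj pa
  have ha := pa.ne h0
  obtain ⟨ρ, hρ⟩ : ∃ ρ, ρ = a * (ε1 ⬝ᵥ y / ε2 ⬝ᵥ y) := ⟨_, rfl⟩
  rw [← hρ] at hj
  have hρ0 : ρ ≠ 0 := hρ ▸ mul_ne_zero ha (div_ne_zero y1 y2)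
  have hρ' : ρ * ε2 ⬝ᵥ y = a * ε1 ⬝ᵥ y := by rw [hρ]; field_simp
  have := five h2 h0 h3 (div_ne_zero y1 y3) ((Polynomial.X + 1) * (Polynomial.X + Polynomial.C ρ) *
    (Polynomial.C c * Polynomial.X ^ 2 + Polynomial.X + Polynomial.C c))
    (by compute_degree) (fun i => ?_)
  · exact mul_ne_zero hρ0 hc (by simpa using this)
  have pb := Pw.pow ζ i
  generalize ζ ^ i = b at pb
  have hb := pb.ne h0
  obtain ⟨r, hr⟩ : ∃ r, r = b * (ε1 ⬝ᵥ y / ε3 ⬝ᵥ y) := ⟨_, rfl⟩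
  rw [← hr]
  have hr' : r * ε3 ⬝ᵥ y = b * ε1 ⬝ᵥ y := by rw [hr]; field_simp
  simp only [Polynomial.eval_mul, Polynomial.eval_add, Polynomial.eval_X, Polynomial.eval_C,
    Polynomial.eval_one, Polynomial.eval_pow]
  by_contra hn
  have a1 := mul_inv_cancel₀ ha
  have a2 := mul_inv_cancel₀ hb
  have n1 := left_ne_zero_of_mul hj
  have n2 := right_ne_zero_of_mul hj
  have n3 := left_ne_zero_of_mul (left_ne_zero_of_mul hn)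
  have n4 := right_ne_zero_of_mul (left_ne_zero_of_mul hn)
  have n5 := right_ne_zero_of_mul hn
  have f1 : η ⬝ᵥ e1 + a * η ⬝ᵥ e2 = η ⬝ᵥ e1 * (1 + ρ) := by
    refine mul_left_cancel₀ (mul_ne_zero y1 y2) ?_
    linear_combination (a * ε1 ⬝ᵥ y) * c2 - (ε1 ⬝ᵥ y * η ⬝ᵥ e1) * hρ' - (a * ε1 ⬝ᵥ y) * c1
  have f2 : η ⬝ᵥ e1 + b * η ⬝ᵥ e3 = η ⬝ᵥ e1 * (1 + r) := by
    refine mul_left_cancel₀ (mul_ne_zero y1 y3) ?_
    linear_combination (b * ε1 ⬝ᵥ y) * c3 - (ε1 ⬝ᵥ y * η ⬝ᵥ e1) * hr' - (b * ε1 ⬝ᵥ y) * c1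
  have hr0 : r ≠ 0 := hr ▸ mul_ne_zero hb (div_ne_zero y1 y3)
  have f3 : ε1 ⬝ᵥ y + a⁻¹ * ε2 ⬝ᵥ y = ε1 ⬝ᵥ y * (1 + ρ⁻¹) := by
    field_simp
    linear_combination hρ'
  have f4 : ε1 ⬝ᵥ y + b⁻¹ * ε3 ⬝ᵥ y = ε1 ⬝ᵥ y * (1 + r⁻¹) := by
    field_simp
    linear_combination hr'
  have a3 := mul_inv_cancel₀ hρ0
  have a4 := mul_inv_cancel₀ hr0
  have := (H.S.mono3 H.h2 H.hs H.hU H.hU' h1 (nt s12 pa) (nt s13 pb) ?_ ?_ ?_).1
  all_goals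
    simp only [dotProduct_add, add_dotProduct, dotProduct_smul, smul_dotProduct, s12.d11, s12.d12,
      s12.d21, s13.d12, s13.d21, s23.d12, s23.d21, smul_eq_mul, f1, f2, f3, f4, mul_zero,
      add_zero] at *
    generalize ρ⁻¹ = ρ' at *
    generalize r⁻¹ = r' at *
    clear hρ hr hρ' hr' hj hn a1 a2 c2 c3
    grind

omit [Finite F] in
theorem inside (h0 : ζ ≠ 0) (h3 : ζ ^ 3 ≠ 1) (s12 : Sw T ζ e1 ε1 e2 ε2)
    (s13 : Sw T ζ e1 ε1 e3 ε3) (s23 : Sw T ζ e2 ε2 e3 ε3) (h1 : NT T y η)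
    (c1 : (ε1 ⬝ᵥ y) * (η ⬝ᵥ e1) = 1) (c2 : (ε2 ⬝ᵥ y) * (η ⬝ᵥ e2) = 1)
    (c3 : ε3 ⬝ᵥ y = 0) (c4 : η ⬝ᵥ e3 = 0) :
    y = (ε1 ⬝ᵥ y) • e1 + (ε2 ⬝ᵥ y) • e2 ∧ η = (η ⬝ᵥ e1) • ε1 + (η ⬝ᵥ e2) • ε2 := by
  have h2 := H.h2
  obtain ⟨y', hy'⟩ : ∃ y', y' = y - ((ε1 ⬝ᵥ y) • e1 + (ε2 ⬝ᵥ y) • e2) := ⟨_, rfl⟩
  obtain ⟨η', hη'⟩ : ∃ η', η' = η - ((η ⬝ᵥ e1) • ε1 + (η ⬝ᵥ e2) • ε2) := ⟨_, rfl⟩
  have p1 : ε1 ⬝ᵥ y' = 0 := by rw [hy']; simp [s12.d11, s12.d12]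
  have p2 : ε2 ⬝ᵥ y' = 0 := by rw [hy']; simp [s12.d21, s12.d22]
  have p3 : ε3 ⬝ᵥ y' = 0 := by rw [hy']; simp [s13.d21, s23.d21, c3]
  have q1 : η' ⬝ᵥ e1 = 0 := by rw [hη']; simp [s12.d11, s12.d21]
  have q2 : η' ⬝ᵥ e2 = 0 := by rw [hη']; simp [s12.d12, s12.d22]
  have q3 : η' ⬝ᵥ e3 = 0 := by rw [hη']; simp [s13.d12, s23.d12, c4]
  have ey : y = (ε1 ⬝ᵥ y) • e1 + (ε2 ⬝ᵥ y) • e2 + y' := by rw [hy']; abel
  have eη : η = (η ⬝ᵥ e1) • ε1 + (η ⬝ᵥ e2) • ε2 + η' := by rw [hη']; abel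
  generalize ε1 ⬝ᵥ y = y1 at *
  generalize ε2 ⬝ᵥ y = y2 at *
  generalize η ⬝ᵥ e1 = η1 at *
  generalize η ⬝ᵥ e2 = η2 at *
  clear hy' hη'
  subst ey eη
  have p4 : η' ⬝ᵥ y' = 0 := by
    have := H.S.dot h1.1
    simp only [dotProduct_add, add_dotProduct, dotProduct_smul, smul_dotProduct, s12.d11, s12.d12,
      s12.d21, s12.d22, p1, p2, q1, q2, smul_eq_mul] at this
    linear_combination this - c1 - c2 - h2
  have t1 : ∀ {a b c d ξ : F}, Pw ζ ξ → T (a • e1 + b • e2 + y') (c • ε1 + d • ε2 + η') →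
      T ((ξ * a) • e1 + b • e2 + y') ((ξ⁻¹ * c) • ε1 + d • ε2 + η') := by
    intro a b c d ξ hξ h
    have := H.tor h0 s13 hξ h
    simp only [dotProduct_add, add_dotProduct, dotProduct_smul, smul_dotProduct, s12.d11, s12.d12,
      s12.d21, s13.d12, s13.d21, s23.d12, s23.d21, p1, p3, q1, q3, smul_eq_mul] at this
    convert this using 1
    · linear_combination (norm := module) -h2 • a • e1
    · linear_combination (norm := module) -h2 • c • ε1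
  have t2 : ∀ {a b c d ξ : F}, Pw ζ ξ → T (a • e1 + b • e2 + y') (c • ε1 + d • ε2 + η') →
      T (ξ • (a • e1 + b • e2) + y') (ξ⁻¹ • (c • ε1 + d • ε2) + η') := by
    intro a b c d ξ hξ h
    have := H.tor h0 s23 hξ (t1 hξ h)
    simp only [dotProduct_add, add_dotProduct, dotProduct_smul, smul_dotProduct, s12.d22, s12.d12,
      s12.d21, s13.d12, s13.d21, s23.d12, s23.d21, p2, p3, q2, q3, smul_eq_mul] at this
    convert this using 1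
    · linear_combination (norm := module) -h2 • b • e2
    · linear_combination (norm := module) -h2 • d • ε2
  have hζ : 1 + ζ ≠ 0 := fun e => h3 (by linear_combination (ζ ^ 2 - ζ + 1) * e - H.h2)
  have hy1 : y1 ≠ 0 := left_ne_zero_of_mul_eq_one c1
  have hη1 : η1 ≠ 0 := right_ne_zero_of_mul_eq_one c1
  have z1 := t2 (Pw.self ζ) h1.1
  have k1 : y' = 0 → η' = 0 := by
    rintro rfl
    rw [add_zero, H.S.smul] at z1
    rw [add_zero] at h1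
    obtain ⟨c, hc⟩ := H.hU.eq h1 z1
    have := congrArg (· ⬝ᵥ e1) hc
    simp only [add_dotProduct, smul_dotProduct, s12.d11, s12.d21, q1, smul_eq_mul] at this
    have hc1 : c = 1 := mul_right_cancel₀ hη1 (by field_simp at this; linear_combination -this)
    rw [hc1, smul_add, smul_smul, mul_inv_cancel₀ h0] at hc
    refine smul_right_injective _ hζ ?_
    linear_combination (norm := module) hc + h2 • η'
  have k2 : η' = 0 → y' = 0 := by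
    rintro rfl
    rw [add_zero, ← H.S.smul] at z1
    rw [add_zero] at h1
    obtain ⟨c, hc⟩ := H.hU'.eq h1.flip z1
    have := congrArg (ε1 ⬝ᵥ ·) hc
    simp only [dotProduct_add, dotProduct_smul, s12.d11, s12.d12, p1, smul_eq_mul] at this
    have hc1 : c = 1 := mul_right_cancel₀ hy1 (by
      linear_combination -this + y1 * inv_mul_cancel₀ h0)
    rw [hc1, smul_add, smul_smul, inv_mul_cancel₀ h0] at hc
    have := congrArg (ζ • ·) hc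
    simp only [smul_add, smul_smul, mul_inv_cancel₀ h0] at this
    refine smul_right_injective _ hζ ?_
    linear_combination (norm := module) this + h2 • ζ • y'
  suffices y' = 0 by rw [k1 this, this]; simp
  by_contra hy0
  have hη0 : η' ≠ 0 := fun e => hy0 (k2 e)
  have key : ∀ ξ, Pw ζ ξ → T y' (((1 - ζ) * (1 - ζ⁻¹) * (ξ - ξ⁻¹)) • η') := fun ξ hξ => by
    have := H.S.op h0 p4 (by simp [q1, q2]) (by simp [q1, q2]) (by simp [p1, p2]) (by simp [p1, p2])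
      h1.1 z1 (t1 hξ h1.1) (t2 (Pw.self ζ) (t1 hξ h1.1))
    simp only [dotProduct_add, add_dotProduct, dotProduct_smul, smul_dotProduct, s12.d11, s12.d12,
      s12.d21, s12.d22, smul_eq_mul] at this
    convert this using 3
    linear_combination (ξ⁻¹ - ξ) * c1
  have a1 := mul_inv_cancel₀ h0
  have n1 : (1 - ζ) * (1 - ζ⁻¹) * (ζ - ζ⁻¹) ≠ 0 := by
    generalize ζ⁻¹ = z at a1
    grind
  have := H.hs _ _ (ζ + ζ⁻¹) ⟨key ζ (Pw.self ζ), hy0, smul_ne_zero n1 hη0⟩ (by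
    convert key _ (Pw.pow ζ 2) using 1
    rw [smul_smul, ← inv_pow]
    congr 1
    ring)
  generalize ζ⁻¹ = z at a1 this
  grind

theorem cls (h0 : ζ ≠ 0) (h3 : ζ ^ 3 ≠ 1) (s12 : Sw T ζ e1 ε1 e2 ε2)
    (s13 : Sw T ζ e1 ε1 e3 ε3) (s23 : Sw T ζ e2 ε2 e3 ε3) (h1 : NT T y η) :
    (ε1 ⬝ᵥ y = 0 ∧ η ⬝ᵥ e1 = 0) ∨ ((ε1 ⬝ᵥ y) * (η ⬝ᵥ e1) = 1 ∧
      ((ε2 ⬝ᵥ y = 0 ∧ η ⬝ᵥ e2 = 0 ∧ ε3 ⬝ᵥ y = 0 ∧ η ⬝ᵥ e3 = 0) ∨
      (y = (ε1 ⬝ᵥ y) • e1 + (ε2 ⬝ᵥ y) • e2 ∧ η = (η ⬝ᵥ e1) • ε1 + (η ⬝ᵥ e2) • ε2) ∨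
      (y = (ε1 ⬝ᵥ y) • e1 + (ε3 ⬝ᵥ y) • e3 ∧ η = (η ⬝ᵥ e1) • ε1 + (η ⬝ᵥ e3) • ε3))) := by
  have h2 := H.h2
  have hζ : 1 + ζ ≠ 0 := fun e => h3 (by linear_combination (ζ ^ 2 - ζ + 1) * e - H.h2)
  have p12 := H.pik h0 h3 s12 h1
  have p13 := H.pik h0 h3 s13 h1
  refine or_iff_not_imp_left.2 fun hn => ?_
  by_cases c0 : (ε1 ⬝ᵥ y) * (η ⬝ᵥ e1) = 0
  · exfalso
    have a1 := H.sym_sw s12 (Pw.one ζ) h1
    have a2 := H.sym_sw s12 (Pw.self ζ) h1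
    have a3 := H.sym_sw s13 (Pw.one ζ) h1
    have a4 := H.sym_sw s13 (Pw.self ζ) h1
    have a5 := H.sym_sw s23 (Pw.one ζ) h1
    have a6 := H.sym_sw s23 (Pw.self ζ) h1
    have a7 := mul_inv_cancel₀ h0
    rw [inv_one] at a1 a3 a5
    generalize ζ⁻¹ = z at *
    rcases mul_eq_zero.1 c0 with b | b
    · have b0 : η ⬝ᵥ e1 ≠ 0 := fun e => hn ⟨b, e⟩
      have b1 : ε2 ⬝ᵥ y * η ⬝ᵥ e2 = 0 := by grind
      have b2 : ε3 ⬝ᵥ y * η ⬝ᵥ e3 = 0 := by grind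
      have b3 : η ⬝ᵥ e2 = 0 := by
        refine (mul_eq_zero.1 b1).resolve_left fun e => ?_
        have := a1.1 (by rw [b, e]; simp)
        have := a2.1 (by rw [b, e]; simp)
        grind
      have b4 : η ⬝ᵥ e3 = 0 := by
        refine (mul_eq_zero.1 b2).resolve_left fun e => ?_
        have := a3.1 (by rw [b, e]; simp)
        have := a4.1 (by rw [b, e]; simp)
        grind
      have := a5.2 (by rw [b3, b4]; simp)
      have := a6.2 (by rw [b3, b4]; simp)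
      have : ε2 ⬝ᵥ y = 0 := by grind
      have := a1.1 (by rw [b, this]; simp)
      grind
    · have b0 : ε1 ⬝ᵥ y ≠ 0 := fun e => hn ⟨e, b⟩
      have b1 : ε2 ⬝ᵥ y * η ⬝ᵥ e2 = 0 := by grind
      have b2 : ε3 ⬝ᵥ y * η ⬝ᵥ e3 = 0 := by grind
      have b3 : ε2 ⬝ᵥ y = 0 := by
        refine (mul_eq_zero.1 b1).resolve_right fun e => ?_
        have := a1.2 (by rw [b, e]; simp)
        have := a2.2 (by rw [b, e]; simp)
        grind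
      have b4 : ε3 ⬝ᵥ y = 0 := by
        refine (mul_eq_zero.1 b2).resolve_right fun e => ?_
        have := a3.2 (by rw [b, e]; simp)
        have := a4.2 (by rw [b, e]; simp)
        grind
      have := a5.1 (by rw [b3, b4]; simp)
      have := a6.1 (by rw [b3, b4]; simp)
      have : η ⬝ᵥ e2 = 0 := by grind
      have := a1.2 (by rw [b, this]; simp)
      grind
  have y1 := left_ne_zero_of_mul c0
  have η1 := right_ne_zero_of_mul c0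
  rcases p12 with p | ⟨p1, p2, p3⟩ <;> rcases p13 with q | ⟨q1, q2, q3⟩
  · exact (H.not_four h0 h3 s12 s13 s23 h1 c0 rfl p.symm q.symm).elim
  · have b1 := (mul_eq_zero.1 q1).resolve_left y1
    have b2 := (mul_eq_zero.1 q2).resolve_right η1
    rw [b1, mul_zero, add_zero] at q3
    exact ⟨q3, Or.inr (Or.inl (H.inside h0 h3 s12 s13 s23 h1 q3 (p ▸ q3) b2 b1))⟩
  · have b1 := (mul_eq_zero.1 p1).resolve_left y1
    have b2 := (mul_eq_zero.1 p2).resolve_right η1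
    rw [b1, mul_zero, add_zero] at p3
    exact ⟨p3, Or.inr (Or.inr (H.inside h0 h3 s13 s12 (H.symm h0 s23) h1 p3 (q ▸ p3) b2 b1))⟩
  · have b1 := (mul_eq_zero.1 p1).resolve_left y1
    rw [b1, mul_zero, add_zero] at p3
    exact ⟨p3, Or.inl ⟨(mul_eq_zero.1 p2).resolve_right η1, b1, (mul_eq_zero.1 q2).resolve_right η1,
      (mul_eq_zero.1 q1).resolve_left y1⟩⟩

end Hard

/-- a point interchanged with the first point of the frame -/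
structure Nb (T : (ι → F) → (ι → F) → Prop) (e1 ε1 e ε : ι → F) : Prop where
  d1 : ε1 ⬝ᵥ e = 0
  d2 : ε ⬝ᵥ e1 = 0
  d3 : ε ⬝ᵥ e = 1
  t : T (e1 + e) (ε1 + ε)

namespace Hard

variable [Finite F] {T : (ι → F) → (ι → F) → Prop} (H : Hard T) {x u y φ θ η e ε e' ε' : ι → F}
  {ζ a : F} {e1 ε1 e2 ε2 e3 ε3 : ι → F}
include H

theorem nb_cases (h0 : ζ ≠ 0) (h3 : ζ ^ 3 ≠ 1) (s12 : Sw T ζ e1 ε1 e2 ε2)
    (s13 : Sw T ζ e1 ε1 e3 ε3) (s23 : Sw T ζ e2 ε2 e3 ε3) (h : Nb T e1 ε1 e ε) :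
    (ε2 ⬝ᵥ e = 0 ∧ ε ⬝ᵥ e2 = 0 ∧ ε3 ⬝ᵥ e = 0 ∧ ε ⬝ᵥ e3 = 0) ∨
      (∃ a b : F, a * b = 1 ∧ e = a • e2 ∧ ε = b • ε2) ∨
      (∃ a b : F, a * b = 1 ∧ e = a • e3 ∧ ε = b • ε3) := by
  have := H.cls h0 h3 s12 s13 s23 (y := e1 + e) (η := ε1 + ε) ⟨h.t,
    ne_right (φ := ε1) (by simp [s12.d11, h.d1]), ne_left (x := e1) (by simp [s12.d11, h.d2])⟩
  simp only [dotProduct_add, add_dotProduct, s12.d11, s12.d12, s12.d21, s13.d12, s13.d21, h.d1, h.d2,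
    add_zero, zero_add, one_ne_zero, false_or, false_and, one_smul, add_right_inj] at this
  rcases this.2 with h1 | ⟨h1, h2⟩ | ⟨h1, h2⟩
  · exact Or.inl h1
  · refine Or.inr (Or.inl ⟨_, _, ?_, h1, h2⟩)
    have := h.d3
    rwa [h1, dotProduct_smul, smul_eq_mul] at this
  · refine Or.inr (Or.inr ⟨_, _, ?_, h1, h2⟩)
    have := h.d3
    rwa [h1, dotProduct_smul, smul_eq_mul] at this

theorem orth_aux (h0 : ζ ≠ 0) (h3 : ζ ^ 3 ≠ 1) (s12 : Sw T ζ e1 ε1 e2 ε2)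
    (s13 : Sw T ζ e1 ε1 e3 ε3) (s23 : Sw T ζ e2 ε2 e3 ε3) {a b : F} (hab : a * b = 1)
    (h : Nb T e1 ε1 e ε) : vecMulVec (a • e3) (b • ε3) = vecMulVec e ε ∨
      ((b • ε3) ⬝ᵥ e = 0 ∧ ε ⬝ᵥ (a • e3) = 0) := by
  rcases H.nb_cases h0 h3 s12 s13 s23 h with ⟨-, -, h1, h2⟩ | ⟨c, d, -, rfl, rfl⟩ |
    ⟨c, d, hcd, rfl, rfl⟩
  · right; simp [h1, h2]
  · right; simp [s23.d12, s23.d21]
  · left
    simp only [smul_vecMulVec, vecMulVec_smul, smul_smul, hab, hcd, mul_comm b, mul_comm d]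

theorem orth (h0 : ζ ≠ 0) (h3 : ζ ^ 3 ≠ 1) (s12 : Sw T ζ e1 ε1 e2 ε2)
    (s13 : Sw T ζ e1 ε1 e3 ε3) (s23 : Sw T ζ e2 ε2 e3 ε3) (h : Nb T e1 ε1 e ε)
    (h' : Nb T e1 ε1 e' ε') : vecMulVec e ε = vecMulVec e' ε' ∨ (ε ⬝ᵥ e' = 0 ∧ ε' ⬝ᵥ e = 0) := by
  rcases H.nb_cases h0 h3 s12 s13 s23 h with ⟨h1, h2, -⟩ | ⟨c, d, hcd, rfl, rfl⟩ |
    ⟨c, d, hcd, rfl, rfl⟩
  · obtain ⟨a1, a2⟩ := H.third h0 s12 h.d3 h.d1 h.d2 h1 h2 h.t
    simpa using H.orth_aux h0 h3 s12 a1 a2 (one_mul 1) h'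
  · exact H.orth_aux h0 h3 s13 s12 (H.symm h0 s23) hcd h'
  · exact H.orth_aux h0 h3 s12 s13 s23 hcd h'

theorem no_frame (h0 : ζ ≠ 0) (h3 : ζ ^ 3 ≠ 1) (s12 : Sw T ζ e1 ε1 e2 ε2)
    (s13 : Sw T ζ e1 ε1 e3 ε3) (s23 : Sw T ζ e2 ε2 e3 ε3) : False := by
  have h2 := H.h2
  have hζ : 1 + ζ ≠ 0 := fun e => h3 (by linear_combination (ζ ^ 2 - ζ + 1) * e - H.h2)
  have mul0 : ∀ {e ε e' ε' : ι → F}, ε ⬝ᵥ e' = 0 → vecMulVec e ε * vecMulVec e' ε' = 0 :=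
    fun {e ε e' ε'} h => by rw [vecMulVec_mul_vecMulVec, h]; simp
  refine H.S.endgame {A | A = vecMulVec e1 ε1 ∨ ∃ e ε, Nb T e1 ε1 e ε ∧ A = vecMulVec e ε} ?_ ?_
    (nt s12 (Pw.one ζ)) (nt s12 (Pw.self ζ)) ?_ ?_ (Or.inl rfl) (Or.inr ⟨e2, ε2,
      ⟨s12.d12, s12.d21, s12.d22, by simpa using s12.t 1 (Pw.one ζ)⟩, rfl⟩)
    (c := ζ + 1) (d := ζ⁻¹ + 1) (eq_of_mulVec fun v => ?_)
  · rintro _ (rfl | ⟨e, ε, h, rfl⟩) _ (rfl | ⟨e', ε', h', rfl⟩)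
    · rfl
    · rw [mul0 h'.d1, mul0 h'.d2]
    · rw [mul0 h.d1, mul0 h.d2]
    · rcases H.orth h0 h3 s12 s13 s23 h h' with e | ⟨a, b⟩
      · rw [e]
      · rw [mul0 a, mul0 b]
  · intro y η h1 A hA
    rcases H.cls h0 h3 s12 s13 s23 h1 with ⟨a, b⟩ | ⟨c, -⟩
    · rcases hA with rfl | ⟨e, ε, h, rfl⟩
      · left; rw [conj_vmv, a, b]; simp
      · refine Or.inr ⟨_, _, ⟨?_, ?_, ?_, ?_⟩, conj_vmv _ _ _ _⟩
        · simp [h.d1, a]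
        · simp [h.d2, b]
        · simp only [dotProduct_add, sub_dotProduct, dotProduct_smul, smul_dotProduct, h.d3,
            H.S.dot h1.1, smul_eq_mul]
          ring
        · have := H.S.conj h.t h1.1
          simp only [dotProduct_add, add_dotProduct, a, b, zero_add] at this
          convert this using 1 <;> abel
    have y1 : ε1 ⬝ᵥ y ≠ 0 := left_ne_zero_of_mul_eq_one c
    obtain ⟨f, hf⟩ : ∃ f, f = (ε1 ⬝ᵥ y)⁻¹ • y - e1 := ⟨_, rfl⟩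
    obtain ⟨ψ, hψ⟩ : ∃ ψ, ψ = (ε1 ⬝ᵥ y) • η - ε1 := ⟨_, rfl⟩
    have hN : Nb T e1 ε1 f ψ := ⟨by rw [hf]; simp [y1, s12.d11], by rw [hψ]; simp [c, s12.d11], by
      rw [hf, hψ]
      simp only [dotProduct_sub, sub_dotProduct, dotProduct_smul, smul_dotProduct, s12.d11,
        H.S.dot h1.1, smul_eq_mul, c]
      linear_combination -h2 - mul_inv_cancel₀ y1, by
      rw [hf, hψ, add_sub_cancel, add_sub_cancel]
      simpa using H.rescale (inv_ne_zero y1) h1.1⟩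
    have : vecMulVec y η = vecMulVec (e1 + f) (ε1 + ψ) := by
      rw [hf, hψ, add_sub_cancel, add_sub_cancel, smul_vecMulVec, vecMulVec_smul, smul_smul,
        inv_mul_cancel₀ y1, one_smul]
    rw [this]
    rcases hA with rfl | ⟨e, ε, h, rfl⟩
    · refine Or.inr ⟨f, ψ, hN, ?_⟩
      rw [conj_vmv]
      simp only [dotProduct_add, add_dotProduct, s12.d11, hN.d1, hN.d2]
      congr 1
      · linear_combination (norm := module) h2 • e1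
      · linear_combination (norm := module) -h2 • ψ
    rcases H.orth h0 h3 s12 s13 s23 h hN with e | ⟨a, b⟩
    · left
      rw [e, conj_vmv]
      simp only [dotProduct_add, add_dotProduct, hN.d1, hN.d2, hN.d3]
      congr 1
      · linear_combination (norm := module) h2 • f
      · linear_combination (norm := module) -h2 • ε1
    · refine Or.inr ⟨e, ε, h, ?_⟩
      rw [conj_vmv]
      simp [h.d1, h.d2, a, b]
  · simpa [s12.d11, s12.d12, s12.d21, s12.d22] using hζ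
  · have : 1 + ζ⁻¹ ≠ 0 := fun e => hζ (by field_simp at e; linear_combination e)
    simpa [s12.d11, s12.d12, s12.d21, s12.d22] using this
  · have a1 := mul_inv_cancel₀ h0
    simp only [← mulVec_mulVec, add_mulVec, one_mulVec, smul_mulVec, vmv_mulVec, dotProduct_add,
      add_dotProduct, dotProduct_smul, smul_dotProduct, s12.d11, s12.d12, s12.d21, s12.d22,
      smul_eq_mul, inv_one]
    generalize ζ⁻¹ = z at a1
    match_scalars <;> grind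

/-- a pair whose product has order at least five lies in no non-degenerate triple -/
theorem degen (h1 : NT T x φ) (h1' : NT T u θ) (h1'' : NT T y η)
    (m0 : (φ ⬝ᵥ u) * (θ ⬝ᵥ x) ≠ 0) (m1 : (φ ⬝ᵥ u) * (θ ⬝ᵥ x) ≠ 1) :
    (φ ⬝ᵥ u) * (θ ⬝ᵥ y) * (η ⬝ᵥ x) + (φ ⬝ᵥ y) * (η ⬝ᵥ u) * (θ ⬝ᵥ x) = 0 := by
  by_contra hd
  obtain ⟨-, e, ε, ζ, hb, h0, h3, t1, t2, t3⟩ := H.S.mono3 H.h2 H.hs H.hU H.hU' h1 h1' h1'' m0 m1 hd
  have s12 := H.sw_of h0 (hb 0 0) (hb 1 1) (hb 0 1) (hb 1 0) t1 t2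
  obtain ⟨s13, s23⟩ := H.third h0 s12 (hb 2 2) (hb 0 2) (hb 2 0) (hb 1 2) (hb 2 1) t3
  exact H.no_frame h0 h3 s12 s13 s23

theorem trip_of_long {z ζ' : ι → F} (h1 : NT T x φ) (h1' : NT T u θ)
    (m0 : (φ ⬝ᵥ u) * (θ ⬝ᵥ x) ≠ 0) (m1 : (φ ⬝ᵥ u) * (θ ⬝ᵥ x) ≠ 1) (a1 : NT T y η) (a2 : NT T z ζ') :
    (φ ⬝ᵥ y) * (η ⬝ᵥ z) * (ζ' ⬝ᵥ x) + (φ ⬝ᵥ z) * (ζ' ⬝ᵥ y) * (η ⬝ᵥ x) = 0 := by
  have h2 := H.h2
  have hS := H.sym
  have z0 : ∀ {x φ u θ : ι → F}, NT T x φ → NT T u θ → (φ ⬝ᵥ u) * (θ ⬝ᵥ x) = 0 →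
      φ ⬝ᵥ u = 0 ∧ θ ⬝ᵥ x = 0 := fun h h' e => (mul_eq_zero.1 e).elim
    (fun e => ⟨e, hS _ _ _ _ h h' e⟩) (fun e => ⟨hS _ _ _ _ h' h e, e⟩)
  by_contra hd
  have one : ∀ {x φ u θ y η : ι → F}, NT T x φ → NT T u θ → NT T y η →
      (φ ⬝ᵥ u) * (θ ⬝ᵥ y) * (η ⬝ᵥ x) + (φ ⬝ᵥ y) * (η ⬝ᵥ u) * (θ ⬝ᵥ x) ≠ 0 →
      (φ ⬝ᵥ u) * (θ ⬝ᵥ x) = 1 := fun h h' h'' e => by
    by_contra e1
    refine e (H.degen h h' h'' (fun e0 => e ?_) e1)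
    rw [(z0 h h' e0).1, (z0 h h' e0).2]; simp
  have b1 := one h1 a1 a2 hd
  have b2 := one h1 a2 a1 (by rwa [add_comm])
  have b3 := one a1 a2 h1 (fun e => hd (by linear_combination e))
  have c1 := H.NT_conj a1 a2.1
  have c2 := H.NT_conj a2 (H.conj a1.1 h1.1)
  have b4 := one h1 c1 a2
  have d1 := H.degen h1 h1' a1 m0 m1
  have d2 := H.degen h1 h1' a2 m0 m1
  have d3 := H.degen h1 h1' c1 m0 m1
  have d4 := H.degen h1 h1' c2 m0 m1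
  simp only [dotProduct_add, add_dotProduct, dotProduct_smul, smul_dotProduct, smul_eq_mul,
    H.S.dot h1.1, H.S.dot a2.1] at b4 d3 d4
  have b5 := b4 (fun e => hd (by grind))
  grind

end Hard

end CL.Zs
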