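/-
Linear groups of degree three in characteristic two normalised by transvections.
-/
import Cfsg.Agent.CLAS.Zs3

set_option autoImplicit false

namespace CL.Zs.ZM

open Matrix Cfsg.Geo CL.Asch

variable {F : Type*} [Field F]

section General

variable {ι : Type} [Fintype ι] [DecidableEq ι]

theorem scal_ac [Nonempty ι] {z : GL ι F} (hz : z ∈ scalars ι F) :
    ∃ c : F, (z : Matrix ι ι F) = c • (1 : Matrix ι ι F) ∧ ∀ v, ac z v = c • v := by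
  obtain ⟨c, hc⟩ := mem_scalars'.1 hz
  exact ⟨c, hc, fun v => by rw [ac, hc, smul_mulVec, one_mulVec]⟩

theorem scal_fix {z : GL ι F} (hz : z ∈ scalars ι F) {x : ι → F} (hx : x ≠ 0) (h : ac z x = x) :
    z = 1 := by
  obtain ⟨i, -⟩ := Function.ne_iff.1 hx
  have : Nonempty ι := ⟨i⟩
  obtain ⟨c, -, hc⟩ := scal_ac hz
  have hc1 : c = 1 := smul_left_injective F hx (by simpa [hc] using h)
  exact ext_ac fun v => by rw [hc, hc1, one_smul, ac_one]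

theorem scal_sq [Nonempty ι] (h2 : (2 : F) = 0) {z : GL ι F} (hz : z ∈ scalars ι F)
    (h : z * z = 1) : z = 1 := by
  obtain ⟨c, -, hc⟩ := scal_ac hz
  obtain ⟨i⟩ := ‹Nonempty ι›
  have hx : (Pi.single i 1 : ι → F) ≠ 0 := by simp
  have e : ac (z * z) (Pi.single i 1) = Pi.single i 1 := by rw [h, ac_one]
  rw [ac_mul, hc, hc, smul_smul] at e
  have e1 : c * c = 1 := smul_left_injective F hx (by simpa using e)
  have e2 : c = 1 := by
    have : (c - 1) ^ 2 = 0 := by linear_combination e1 + (1 - c) * h2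
    exact sub_eq_zero.1 (pow_eq_zero_iff two_ne_zero |>.1 this)
  exact ext_ac fun v => by rw [hc, e2, one_smul, ac_one]

theorem comm_fix {a b : GL ι F} (hz : a * b * a⁻¹ * b⁻¹ ∈ scalars ι F) {w : ι → F} (hw : w ≠ 0)
    {c d : F} (ha : ac a w = c • w) (hb : ac b w = d • w) : a * b = b * a := by
  have e : ac (a * b) w = ac (b * a) w := by
    rw [ac_mul, ac_mul, ha, hb, ac_smul, ac_smul, ha, hb, smul_comm]
  have := scal_fix hz (ac_ne_zero (b * a) hw) (by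
    rw [← ac_mul, show a * b * a⁻¹ * b⁻¹ * (b * a) = a * b by group, e])
  calc a * b = a * b * a⁻¹ * b⁻¹ * (b * a) := by group
    _ = b * a := by rw [this, one_mul]

theorem eig_of_comm {s : GL ι F} {x φ : ι → F} (hs : IsT s x φ) (hφ : φ ≠ 0) {z : Matrix ι ι F}
    (h : z * s = s * z) : ∃ μ : F, z *ᵥ x = μ • x := by
  obtain ⟨v, hv⟩ := exists_dot' hφ
  have e := congrArg (· *ᵥ v) h
  simp only [← mulVec_mulVec] at e
  rw [show (s : Matrix ι ι F) *ᵥ v = _ from hs v, show (s : Matrix ι ι F) *ᵥ (z *ᵥ v) = _ from hs _,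
    mulVec_add, mulVec_smul, add_right_inj] at e
  refine ⟨(φ ⬝ᵥ v)⁻¹ * (φ ⬝ᵥ z *ᵥ v), ?_⟩
  rw [← smul_smul, ← e, smul_smul, inv_mul_cancel₀ hv, one_smul]

theorem eig_of_comm' {s a : GL ι F} {x φ : ι → F} (hs : IsT s x φ) (hφ : φ ≠ 0)
    (h : a * s = s * a) : ∃ μ : F, ac a x = μ • x :=
  eig_of_comm hs hφ (by rw [← Units.val_mul, h, Units.val_mul])

theorem dot_of_comm {s t : GL ι F} {x φ u θ : ι → F} (hs : IsT s x φ) (ht : IsT t u θ)
    (hφ : φ ≠ 0) (hu : u ≠ 0) (h0 : θ ⬝ᵥ u = 0) (h : t * s = s * t) : θ ⬝ᵥ x = 0 := by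
  obtain ⟨μ, e⟩ := eig_of_comm' hs hφ h
  rw [ht] at e
  by_contra hn
  have e1 := congrArg (θ ⬝ᵥ ·) e
  simp only [dotProduct_add, dotProduct_smul, h0, smul_eq_mul, mul_zero, add_zero] at e1
  have e2 : μ = 1 := mul_right_cancel₀ hn (by rw [← e1, one_mul])
  rw [e2, one_smul, add_eq_left, smul_eq_zero] at e
  exact e.elim hn hu

theorem sq_one (h2 : (2 : F) = 0) {s : GL ι F} {x φ : ι → F} (hs : IsT s x φ) (h0 : φ ⬝ᵥ x = 0) :
    s * s = 1 := by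
  refine (hs.mul_right hs h0).eq_one_iff.2 (Or.inr ?_)
  rw [← two_smul F φ, h2, zero_smul]

/-- step (4): a transvection inverts a normalised group of class two with scalar centre -/
theorem inv_mod (h2 : (2 : F) = 0) {A : Subgroup (GL ι F)}
    (hc : ∀ a ∈ A, ∀ b ∈ A, a * b * a⁻¹ * b⁻¹ ∈ scalars ι F)
    (hZ : ∀ c ∈ A, (∀ b ∈ A, c * b = b * c) → c ∈ scalars ι F)
    {s : GL ι F} {x φ : ι → F} (hs : IsT s x φ) (h0 : φ ⬝ᵥ x = 0) (hx : x ≠ 0) (hφ : φ ≠ 0)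
    (hn : ∀ b ∈ A, s * b * s⁻¹ ∈ A) : ∀ b ∈ A, b * (s * b * s⁻¹) ∈ scalars ι F := by
  obtain ⟨i, -⟩ := Function.ne_iff.1 hx
  have : Nonempty ι := ⟨i⟩
  have hss := sq_one h2 hs h0
  have hinv : s⁻¹ = s := inv_eq_of_mul_eq_one_right hss
  have k1 : ∀ c : GL ι F, s * c * s⁻¹ * c⁻¹ ∈ scalars ι F → c * s = s * c := by
    intro c hz
    have e1 : s * c * s⁻¹ * c⁻¹ * (c * s * c⁻¹) = s := by group
    have e2 : (c * s * c⁻¹) * (c * s * c⁻¹) = 1 := by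
      rw [show (c * s * c⁻¹) * (c * s * c⁻¹) = c * (s * s) * c⁻¹ by group, hss]; group
    set z := s * c * s⁻¹ * c⁻¹ with hzd
    have e3 : z * z = 1 := by
      have := hss
      rw [← e1] at this
      generalize c * s * c⁻¹ = y at this e2
      calc z * z = z * z * (y * y) := by rw [e2, mul_one]
        _ = z * (z * y) * y := by simp only [mul_assoc]
        _ = z * y * (z * y) := by rw [scalars_comm hz y]; simp only [mul_assoc, scalars_comm hz]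
        _ = 1 := this
    have e4 := scal_sq h2 hz e3
    rw [e4, one_mul] at e1
    calc c * s = c * s * c⁻¹ * c := by group
      _ = s * c := by rw [e1]
  have k2 : ∀ b ∈ A, b * (s * b * s⁻¹) * s = s * (b * (s * b * s⁻¹)) := by
    intro b hb
    apply k1
    have := hc _ (hn b hb) b hb
    have e : s * (b * (s * b * s⁻¹)) * s⁻¹ = (s * b * s⁻¹) * ((s * s) * b * (s * s)⁻¹) := by group
    rw [e, hss]
    convert this using 1
    group
  have k3 : ∀ c ∈ A, ∀ c' ∈ A, c * s = s * c → c' * s = s * c' → c * c' = c' * c := by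
    intro c h1 c' h3 h4 h5
    obtain ⟨μ, e1⟩ := eig_of_comm' hs hφ h4
    obtain ⟨ν, e2⟩ := eig_of_comm' hs hφ h5
    exact comm_fix (hc c h1 c' h3) hx e1 e2
  intro b0 hb0
  refine hZ _ (A.mul_mem hb0 (hn b0 hb0)) fun b hb => ?_
  have hcA := A.mul_mem hb0 (hn b0 hb0)
  have hcs := k2 b0 hb0
  generalize b0 * (s * b0 * s⁻¹) = c at hcA hcs
  have hz := hc c hcA b hb
  set z := c * b * c⁻¹ * b⁻¹ with hzd
  have e1 : c * b * c⁻¹ = z * b := by rw [hzd]; group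
  have e0 : c * s * c⁻¹ = s := by rw [hcs]; group
  have e2 : c * (s * b * s⁻¹) * c⁻¹ = z * (s * b * s⁻¹) := by
    calc c * (s * b * s⁻¹) * c⁻¹ = (c * s * c⁻¹) * (c * b * c⁻¹) * (c * s * c⁻¹)⁻¹ := by group
      _ = (s * z) * b * s⁻¹ := by rw [e0, e1]; group
      _ = z * (s * b * s⁻¹) := by rw [← scalars_comm hz]; group
  have e3 := k3 c hcA _ (A.mul_mem hb (hn b hb)) hcs (k2 b hb)
  have e4 : z * z = 1 := by
    have : c * (b * (s * b * s⁻¹)) * c⁻¹ = (c * b * c⁻¹) * (c * (s * b * s⁻¹) * c⁻¹) := by group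
    rw [e3, e1, e2, mul_assoc z b, ← mul_assoc b z, ← scalars_comm hz, mul_assoc z b,
      ← mul_assoc z z, mul_inv_cancel_right] at this
    exact (mul_eq_right.1 this.symm)
  have e5 := scal_sq h2 hz e4
  rw [e5, one_mul] at e1
  calc c * b = c * b * c⁻¹ * c := by group
    _ = b * c := by rw [e1]

theorem fix3 (h2 : (2 : F) = 0) {s t : GL ι F} {x φ u θ : ι → F} (hs : IsT s x φ) (ht : IsT t u θ)
    (h0 : φ ⬝ᵥ x = 0) (h0' : θ ⬝ᵥ u = 0) (m0 : (φ ⬝ᵥ u) * (θ ⬝ᵥ x) ≠ 0)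
    (m1 : (φ ⬝ᵥ u) * (θ ⬝ᵥ x) ≠ 1) {v : ι → F} (h : ac ((s * t) ^ 3) v = v) :
    φ ⬝ᵥ v = 0 ∧ θ ⬝ᵥ v = 0 := by
  have e1 : ∀ w, φ ⬝ᵥ ac (s * t) w = φ ⬝ᵥ w + (φ ⬝ᵥ u) * (θ ⬝ᵥ w) := fun w => by
    rw [ac_mul, hs, ht]
    simp only [dotProduct_add, dotProduct_smul, h0, smul_eq_mul]
    ring
  have e2 : ∀ w, θ ⬝ᵥ ac (s * t) w =
      θ ⬝ᵥ w + (θ ⬝ᵥ x) * (φ ⬝ᵥ w + (φ ⬝ᵥ u) * (θ ⬝ᵥ w)) := fun w => by
    rw [ac_mul, hs, ht]
    simp only [dotProduct_add, dotProduct_smul, h0', smul_eq_mul]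
    ring
  rw [pow_succ, pow_two, ac_mul, ac_mul] at h
  have a1 := congrArg (φ ⬝ᵥ ·) h
  have a2 := congrArg (θ ⬝ᵥ ·) h
  simp only [e1, e2] at a1 a2
  have ha := left_ne_zero_of_mul m0
  have hb := right_ne_zero_of_mul m0
  have hm : (φ ⬝ᵥ u) * (θ ⬝ᵥ x) - 1 ≠ 0 := sub_ne_zero.2 m1
  generalize φ ⬝ᵥ u = a at *
  generalize θ ⬝ᵥ x = b at *
  generalize φ ⬝ᵥ v = p at *
  generalize θ ⬝ᵥ v = q at *
  have n1 : a * b * p + (a * b + 1) * a * q = 0 := (mul_eq_zero.1 (by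
    linear_combination a1 + ((-2) * a * b * p + (-2) * a * q + (-2) * a ^ 2 * b * q) * h2 :
      (a * b - 1) * (a * b * p + (a * b + 1) * a * q) = 0)).resolve_left hm
  have n2 : (a * b + 1) * b * p + a * b * (a * b) * q = 0 := (mul_eq_zero.1 (by
    linear_combination a2 + ((-3) * a * b * q + (-2) * a * b ^ 2 * p + (-3) * a ^ 2 * b ^ 2 * q +
      (-2) * b * p) * h2 :
      (a * b - 1) * ((a * b + 1) * b * p + a * b * (a * b) * q) = 0)).resolve_left hm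
  constructor
  · refine (mul_eq_zero.1 (?_ : a * b * p = 0)).resolve_left m0
    linear_combination (a * b * (a * b)) * n1 + ((a * b + 1) * a) * n2 + ((-1) * a ^ 2 * b ^ 2 * p +
      (-1) * a ^ 3 * b ^ 2 * q + (-1) * a ^ 3 * b ^ 3 * p + (-1) * a ^ 4 * b ^ 3 * q) * h2
  · refine (mul_eq_zero.1 (?_ : a * b * q = 0)).resolve_left m0
    linear_combination ((a * b + 1) * b) * n1 + (a * b) * n2 + ((-1) * a * b ^ 2 * p +
      (-1) * a ^ 2 * b ^ 2 * q + (-1) * a ^ 2 * b ^ 3 * p + (-1) * a ^ 3 * b ^ 3 * q) * h2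

theorem sing {Z : Subalgebra F (Matrix ι ι F)} (hinv : ∀ z ∈ Z, z ≠ 0 → ∃ y ∈ Z, z * y = 1)
    {z : Matrix ι ι F} (hz : z ∈ Z) {v : ι → F} (hv : v ≠ 0) {c : F} (h : z *ᵥ v = c • v) :
    z = c • (1 : Matrix ι ι F) := by
  by_contra hn
  obtain ⟨y, -, e⟩ := hinv _ (Z.sub_mem hz (Z.smul_mem Z.one_mem c)) (sub_ne_zero.2 hn)
  have := congrArg (· *ᵥ v) (mul_eq_one_comm.1 e)
  simp only [← mulVec_mulVec, sub_mulVec, h, smul_mulVec, one_mulVec, sub_self, mulVec_zero] at this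
  exact hv this.symm

theorem sing' {Z : Subalgebra F (Matrix ι ι F)} (hinv : ∀ z ∈ Z, z ≠ 0 → ∃ y ∈ Z, z * y = 1)
    {z : Matrix ι ι F} (hz : z ∈ Z) {v : ι → F} (hv : v ≠ 0) {c : F} (h : v ᵥ* z = c • v) :
    z = c • (1 : Matrix ι ι F) := by
  by_contra hn
  obtain ⟨y, -, e⟩ := hinv _ (Z.sub_mem hz (Z.smul_mem Z.one_mem c)) (sub_ne_zero.2 hn)
  have := congrArg (v ᵥ* ·) e
  simp only [← vecMul_vecMul, vecMul_sub, h, vecMul_smul, vecMul_one, sub_self, zero_vecMul] at this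
  exact hv this.symm

end General

open MH (cr trip)

theorem comm_cube {a b : GL (Fin 3) F} (hz : a * b * a⁻¹ * b⁻¹ ∈ scalars (Fin 3) F) :
    (a * b * a⁻¹ * b⁻¹) ^ 3 = 1 := by
  obtain ⟨c, hc, -⟩ := scal_ac hz
  have e : GeneralLinearGroup.det (a * b * a⁻¹ * b⁻¹) = 1 := by
    simp only [map_mul, map_inv]
    rw [mul_comm (GeneralLinearGroup.det a), mul_inv_cancel_right, mul_inv_cancel]
  have e1 : ((a * b * a⁻¹ * b⁻¹ : GL (Fin 3) F) : Matrix (Fin 3) (Fin 3) F).det = 1 := by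
    rw [← GeneralLinearGroup.val_det_apply, e, Units.val_one]
  rw [hc, det_smul, det_one, mul_one, Fintype.card_fin] at e1
  apply Units.ext
  rw [Units.val_pow_eq_pow_val, hc, _root_.smul_pow, e1, one_pow, one_smul, Units.val_one]

/-- step (4) -/
theorem abelian_of (h2 : (2 : F) = 0) {A : Subgroup (GL (Fin 3) F)}
    (hc : ∀ a ∈ A, ∀ b ∈ A, a * b * a⁻¹ * b⁻¹ ∈ scalars (Fin 3) F)
    (hZ : ∀ c ∈ A, (∀ b ∈ A, c * b = b * c) → c ∈ scalars (Fin 3) F)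
    {s t : GL (Fin 3) F} {x φ u θ : Fin 3 → F} (hs : IsT s x φ) (ht : IsT t u θ)
    (h0 : φ ⬝ᵥ x = 0) (h0' : θ ⬝ᵥ u = 0) (m0 : (φ ⬝ᵥ u) * (θ ⬝ᵥ x) ≠ 0)
    (m1 : (φ ⬝ᵥ u) * (θ ⬝ᵥ x) ≠ 1)
    (hn : ∀ b ∈ A, s * b * s⁻¹ ∈ A) (hn' : ∀ b ∈ A, t * b * t⁻¹ ∈ A) :
    ∀ a ∈ A, ∀ b ∈ A, a * b = b * a := by
  have ha := left_ne_zero_of_mul m0
  have hb := right_ne_zero_of_mul m0
  have i1 := inv_mod h2 hc hZ hs h0 (ne_right hb) (ne_left ha) hn
  have i2 := inv_mod h2 hc hZ ht h0' (ne_right ha) (ne_left hb) hn'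
  have hw : cr θ φ ≠ 0 := MH.cr_ne_zero_of_dot' (ne_left ha) h0 hb
  have hfix : ac (s * t) (cr θ φ) = cr θ φ := by
    rw [ac_mul, ht, MH.dot_cr_left, zero_smul, add_zero, hs, MH.dot_cr_right, zero_smul, add_zero]
  have key : ∀ a ∈ A, ∃ c : F, ac a (cr θ φ) = c • cr θ φ := by
    intro a haA
    have hz : s * t * a * (s * t)⁻¹ * a⁻¹ ∈ scalars (Fin 3) F := by
      have z1 := i2 a haA
      have z2 := i1 _ (hn' a haA)
      have e : s * t * a * (s * t)⁻¹ * a⁻¹ =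
          (t * a * t⁻¹)⁻¹ * (t * a * t⁻¹ * (s * (t * a * t⁻¹) * s⁻¹)) * a⁻¹ := by group
      rw [e, ← scalars_comm z2, mul_assoc, ← _root_.mul_inv_rev]
      exact mul_mem z2 (inv_mem z1)
    have e3 := comm_cube hz
    set z := s * t * a * (s * t)⁻¹ * a⁻¹ with hzd
    have e1 : s * t * a = z * a * (s * t) := by rw [hzd]; group
    have e2 : ∀ n : ℕ, (s * t) ^ n * a = z ^ n * a * (s * t) ^ n := by
      intro n
      induction n with
      | zero => simp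
      | succ n ih =>
        rw [pow_succ', mul_assoc, ih, ← mul_assoc, ← mul_assoc,
          ← scalars_comm (pow_mem hz n) (s * t), mul_assoc (z ^ n), e1, pow_succ z]
        simp only [mul_assoc]
    have e4 := e2 3
    rw [e3, one_mul] at e4
    have e5 : ac ((s * t) ^ 3) (ac a (cr θ φ)) = ac a (cr θ φ) := by
      rw [← ac_mul, e4, ac_mul, pow_succ, pow_two, ac_mul, ac_mul, hfix, hfix, hfix]
    obtain ⟨f1, f2⟩ := fix3 h2 hs ht h0 h0' m0 m1 e5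
    refine MH.exists_smul_of_cr hw (MH.cr_cr_eq_zero ?_ ?_) <;> rwa [dotProduct_comm]
  intro a haA b hbA
  obtain ⟨c, e1⟩ := key a haA
  obtain ⟨d, e2⟩ := key b hbA
  exact comm_fix (hc a haA b hbA) hw e1 e2

/-- step (5), field case -/
theorem field_case (h2 : (2 : F) = 0) {A : Subgroup (GL (Fin 3) F)}
    (hc : ∀ a ∈ A, ∀ b ∈ A, a * b = b * a)
    (hinv : ∀ z ∈ alg A, z ≠ 0 → ∃ y ∈ alg A, z * y = 1)
    {s : GL (Fin 3) F} {x φ : Fin 3 → F} (hs : IsT s x φ) (h0 : φ ⬝ᵥ x = 0) (hx : x ≠ 0)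
    (hφ : φ ≠ 0) (hn : ∀ b ∈ A, s * b * s⁻¹ ∈ A) : A ≤ scalars (Fin 3) F := by
  intro a ha
  have hss := sq_one h2 hs h0
  have hi : s⁻¹ = s := inv_eq_of_mul_eq_one_right hss
  set a' := s * a * s⁻¹ with ha'
  have e1 : a * s = s * a' := by rw [ha', ← mul_assoc, ← mul_assoc, hss, one_mul, hi]
  have e2 : a' * s = s * a := by rw [ha']; group
  obtain ⟨l, hl⟩ := eig_of_comm hs hφ (z := (a : Matrix (Fin 3) (Fin 3) F) + a') (by
    rw [add_mul, mul_add, ← Units.val_mul, ← Units.val_mul, e1, e2, add_comm]; rfl)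
  obtain ⟨μ, hμ⟩ := eig_of_comm' hs hφ (a := a * a') (by
    rw [mul_assoc, e2, ← mul_assoc, e1, mul_assoc, ← hc a ha a' (hn a ha)])
  have f1 := sing hinv ((alg A).add_mem (mem_alg ha) (mem_alg (hn a ha))) hx hl
  have f2 := sing hinv (mem_alg (A.mul_mem ha (hn a ha))) hx hμ
  have f3 : (a : Matrix (Fin 3) (Fin 3) F) * a =
      l • (a : Matrix (Fin 3) (Fin 3) F) - μ • (1 : Matrix (Fin 3) (Fin 3) F) := by
    rw [← f2, Units.val_mul, eq_sub_iff_add_eq, ← mul_add, f1, Matrix.mul_smul, mul_one]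
  rw [mem_scalars']
  by_cases e : cr (ac a x) x = 0
  · obtain ⟨c, hc⟩ := MH.exists_smul_of_cr hx e
    exact ⟨c, sing hinv (mem_alg ha) hx hc⟩
  · obtain ⟨c, hc⟩ := MH.exists_smul_of_cr e
      (MH.cr_cr_eq_zero (φ := cr (ac a x) x ᵥ* (a : Matrix (Fin 3) (Fin 3) F)) (by
        rw [← dotProduct_mulVec, mulVec_mulVec, f3, sub_mulVec, smul_mulVec, smul_mulVec, one_mulVec,
          dotProduct_sub, dotProduct_smul, dotProduct_smul, MH.cr_dot_left, MH.cr_dot_right]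
        simp) (by rw [← dotProduct_mulVec, MH.cr_dot_left]))
    exact ⟨c, sing' hinv (mem_alg ha) e hc⟩

/-- step (5), a frame permuted by the group -/
theorem frame_of_idem {X : Subgroup (GL (Fin 3) F)} {t : ℕ} {e : Fin t → Matrix (Fin 3) (Fin 3) F}
    (ht : 2 ≤ t) (he : IdemFam X e) : ∃ b β : Fin 3 → Fin 3 → F, DualB b β ∧
      ∀ g ∈ X, ∀ i, ∃ (j : Fin 3) (c : F), ac g (b i) = c • b j := by
  obtain ⟨m, hm⟩ := he.isMDecomposition ht
  have hc := card_eq_of_isMDecomposition hm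
  rw [Fintype.card_fin] at hc
  have hm0 := hm.pos
  have h3 : t = 3 ∧ m = 1 := by
    have : t ≤ 3 := by nlinarith
    interval_cases t <;> omega
  obtain ⟨rfl, rfl⟩ := h3
  have : ∀ i, ∃ v : Fin 3 → F, v ≠ 0 ∧ e i *ᵥ v = v ∧ ∀ w, e i *ᵥ w = w → ∃ c : F, w = c • v := by
    intro i
    obtain ⟨v, hv, h⟩ := finrank_eq_one_iff'.1 (hm.finrank_eq i)
    refine ⟨v, fun e => hv (Subtype.ext e), (mem_rg_idem (he.idem i)).1 v.2, fun w hw => ?_⟩
    obtain ⟨c, hc⟩ := h ⟨w, (mem_rg_idem (he.idem i)).2 hw⟩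
    exact ⟨c, (congrArg Subtype.val hc).symm⟩
  choose b hb0 hb1 hb2 using this
  choose ψ hψ using fun i => exists_dot (hb0 i)
  refine ⟨b, fun i => (ψ i ⬝ᵥ b i)⁻¹ • (ψ i ᵥ* e i), fun i j => ?_, fun g hg i => ?_⟩
  · rw [smul_dotProduct, ← dotProduct_mulVec]
    split_ifs with h
    · subst h
      rw [hb1, smul_eq_mul, inv_mul_cancel₀ (hψ i)]
    · rw [← hb1 j, mulVec_mulVec, he.orth i j h, zero_mulVec, dotProduct_zero, smul_zero]
  · obtain ⟨σ, hσ⟩ := he.perm g hg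
    refine ⟨σ i, hb2 _ _ ?_⟩
    rw [← hσ, conj_mulVec, hb1]

theorem shape_alg (h2 : (2 : F) = 0) {p q : Fin 3 → F} (hs : ∑ i, p i * q i = 0) (hp : p ≠ 0)
    (hq : q ≠ 0) (H : ∀ i, ∃ j, ∀ k, k ≠ j → (if k = i then 1 else 0) + q i * p k = 0) :
    ∃ l, p l = 0 ∧ q l = 0 ∧ ∀ i, i ≠ l → p i * q i = 1 := by
  have A : ∀ i, q i ≠ 0 → p i * q i = 1 ∧ ∃ l, l ≠ i ∧ p l = 0 := by
    intro i hi
    obtain ⟨j, hj⟩ := H i
    have h1 : ∀ k, k ≠ j → k ≠ i → p k = 0 := fun k a b => by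
      have := hj k a
      rw [if_neg b, zero_add] at this
      exact (mul_eq_zero.1 this).resolve_left hi
    by_cases e : i = j
    · subst e
      rw [Finset.sum_eq_single i (fun k _ a => by rw [h1 k a a, zero_mul]) (by simp)] at hs
      refine absurd (funext fun k => ?_) hp
      by_cases a : k = i
      · rw [a]; exact (mul_eq_zero.1 hs).resolve_right hi
      · exact h1 k a a
    · have := hj i e
      rw [if_pos rfl] at this
      refine ⟨by linear_combination this - h2, ?_⟩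
      obtain ⟨l, a, b⟩ := (by decide : ∀ i j : Fin 3, ∃ l, l ≠ j ∧ l ≠ i) i j
      exact ⟨l, b, h1 l a b⟩
  obtain ⟨i, hi⟩ := Function.ne_iff.1 hq
  obtain ⟨a1, l, a2, a3⟩ := A i hi
  refine ⟨l, a3, ?_, fun k hk => ?_⟩
  · by_contra h
    have := (A l h).1
    rw [a3, zero_mul] at this
    exact zero_ne_one this
  · by_cases a : k = i
    · rw [a, a1]
    · have e : (Finset.univ : Finset (Fin 3)) = {i, k, l} :=
        (by decide : ∀ i k l : Fin 3, l ≠ i → k ≠ l → k ≠ i → Finset.univ = {i, k, l}) i k l a2 hk a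
      rw [e, Finset.sum_insert (by simp [Ne.symm a, Ne.symm a2]), Finset.sum_pair hk, a1, a3] at hs
      linear_combination hs - h2

/-- the transvection interchanges two points of the frame -/
def Sh (b β : Fin 3 → Fin 3 → F) (x φ : Fin 3 → F) (l : Fin 3) : Prop :=
  β l ⬝ᵥ x = 0 ∧ φ ⬝ᵥ b l = 0 ∧ ∀ i, i ≠ l → (β i ⬝ᵥ x) * (φ ⬝ᵥ b i) = 1

theorem dot_eq {b β : Fin 3 → Fin 3 → F} (h : DualB b β) (φ v : Fin 3 → F) :
    φ ⬝ᵥ v = ∑ i, (β i ⬝ᵥ v) * (φ ⬝ᵥ b i) := by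
  conv_lhs => rw [h.sum_eq v]
  simp only [dotProduct_sum, dotProduct_smul, smul_eq_mul]

theorem shape (h2 : (2 : F) = 0) {b β : Fin 3 → Fin 3 → F} (h : DualB b β) {g : GL (Fin 3) F}
    {x φ : Fin 3 → F} (hg : IsT g x φ) (h0 : φ ⬝ᵥ x = 0) (hx : x ≠ 0) (hφ : φ ≠ 0)
    (H : ∀ i, ∃ (j : Fin 3) (c : F), ac g (b i) = c • b j) : ∃ l, Sh b β x φ l := by
  refine shape_alg h2 (p := fun i => β i ⬝ᵥ x) (q := fun i => φ ⬝ᵥ b i) (by rw [← dot_eq h, h0])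
    (fun e => hx ?_) (fun e => hφ ?_) fun i => ?_
  · rw [h.sum_eq x]
    exact Finset.sum_eq_zero fun i _ => by rw [show β i ⬝ᵥ x = 0 from congrFun e i, zero_smul]
  · rw [h.flip.sum_eq φ]
    exact Finset.sum_eq_zero fun i _ => by
      rw [dotProduct_comm, show φ ⬝ᵥ b i = 0 from congrFun e i, zero_smul]
  · obtain ⟨j, c, e⟩ := H i
    refine ⟨j, fun k hk => ?_⟩
    have := congrArg (β k ⬝ᵥ ·) e
    simp only [hg (b i), dotProduct_add, dotProduct_smul, h k, if_neg hk, smul_eq_mul,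
      mul_zero] at this
    exact this

theorem Sh.perm {b β : Fin 3 → Fin 3 → F} {x φ : Fin 3 → F} {σ : Fin 3 → Fin 3}
    (hσ : Function.Injective σ) {l : Fin 3} (h : Sh b β x φ (σ l)) :
    Sh (fun i => b (σ i)) (fun i => β (σ i)) x φ l :=
  ⟨h.1, h.2.1, fun _ hi => h.2.2 _ (hσ.ne hi)⟩

theorem dual_perm {b β : Fin 3 → Fin 3 → F} (h : DualB b β) {σ : Fin 3 → Fin 3}
    (hσ : Function.Injective σ) : DualB (fun i => b (σ i)) (fun i => β (σ i)) :=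
  fun i j => by rw [h]; simp only [hσ.eq_iff]

theorem exists_perm : ∀ l l' : Fin 3, l ≠ l' →
    ∃ σ : Fin 3 → Fin 3, Function.Injective σ ∧ σ 2 = l ∧ σ 1 = l' := by decide

theorem pair_std {b β : Fin 3 → Fin 3 → F} (h : DualB b β) {x φ u θ : Fin 3 → F}
    (h1 : Sh b β x φ 2) (h2 : Sh b β u θ 1) : (φ ⬝ᵥ u) * (θ ⬝ᵥ x) = 1 := by
  rw [dot_eq h φ u, dot_eq h θ x, Fin.sum_univ_three, Fin.sum_univ_three, h1.1, h1.2.1, h2.1, h2.2.1]
  linear_combination (β 0 ⬝ᵥ u) * (θ ⬝ᵥ b 0) * h1.2.2 0 (by decide) + h2.2.2 0 (by decide)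

theorem pair_one {b β : Fin 3 → Fin 3 → F} (h : DualB b β) {x φ u θ : Fin 3 → F} {l l' : Fin 3}
    (hl : l ≠ l') (h1 : Sh b β x φ l) (h2 : Sh b β u θ l') : (φ ⬝ᵥ u) * (θ ⬝ᵥ x) = 1 := by
  obtain ⟨σ, hσ, rfl, rfl⟩ := exists_perm l l' hl
  exact pair_std (dual_perm h hσ) (h1.perm hσ) (h2.perm hσ)

theorem frame_std (h2 : (2 : F) = 0) {T : (Fin 3 → F) → (Fin 3 → F) → Prop}
    (hT : ∀ (c : F) x φ, T (c • x) φ ↔ T x (c • φ)) {b β : Fin 3 → Fin 3 → F} (h : DualB b β)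
    {x φ u θ y η : Fin 3 → F} (t1 : T x φ) (t2 : T u θ) (t3 : T y η)
    (h1 : Sh b β x φ 2) (h1' : Sh b β u θ 2) (h1'' : Sh b β y η 1)
    (m1 : (φ ⬝ᵥ u) * (θ ⬝ᵥ x) ≠ 1) (m0 : (φ ⬝ᵥ u) * (θ ⬝ᵥ x) ≠ 0) :
    ∃ (e ε : Fin 3 → Fin 3 → F) (ζ : F), DualB e ε ∧ ζ ≠ 0 ∧ ζ ^ 3 ≠ 1 ∧
      T (e 0 + e 1) (ε 0 + ε 1) ∧ T (e 0 + ζ • e 1) (ε 0 + ζ⁻¹ • ε 1) ∧
      T (e 0 + e 2) (ε 0 + ε 2) := by
  have a0 := h1.2.2 0 (by decide)
  have a1 := h1.2.2 1 (by decide)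
  have b0 := h1'.2.2 0 (by decide)
  have b1 := h1'.2.2 1 (by decide)
  have c0 := h1''.2.2 0 (by decide)
  have c2 := h1''.2.2 2 (by decide)
  have ex := h.sum_eq x
  have eu := h.sum_eq u
  have ey := h.sum_eq y
  have eφ := h.flip.sum_eq φ
  have eθ := h.flip.sum_eq θ
  have eη := h.flip.sum_eq η
  rw [dot_eq h φ u, dot_eq h θ x] at m0 m1
  simp only [Fin.sum_univ_three, dotProduct_comm (b _), h1.1, h1.2.1, h1'.1, h1'.2.1, h1''.1,
    h1''.2.1, zero_smul, add_zero, zero_mul] at ex eu ey eφ eθ eη m0 m1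
  rw [eq_inv_of_mul_eq_one_right a0, eq_inv_of_mul_eq_one_right a1] at eφ m0 m1
  rw [eq_inv_of_mul_eq_one_right b0, eq_inv_of_mul_eq_one_right b1] at eθ m0 m1
  rw [eq_inv_of_mul_eq_one_right c0, eq_inv_of_mul_eq_one_right c2] at eη
  have n0 := left_ne_zero_of_mul_eq_one a0
  have n1 := left_ne_zero_of_mul_eq_one a1
  have n2 := left_ne_zero_of_mul_eq_one b0
  have n3 := left_ne_zero_of_mul_eq_one b1
  have n4 := left_ne_zero_of_mul_eq_one c0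
  have n5 := left_ne_zero_of_mul_eq_one c2
  clear a0 a1 b0 b1 c0 c2 h1 h1' h1''
  generalize β 0 ⬝ᵥ x = p0 at *
  generalize β 1 ⬝ᵥ x = p1 at *
  generalize β 0 ⬝ᵥ u = q0 at *
  generalize β 1 ⬝ᵥ u = q1 at *
  generalize β 0 ⬝ᵥ y = r0 at *
  generalize β 2 ⬝ᵥ y = r2 at *
  have hsc : ∀ (c : F) x φ, c ≠ 0 → T x φ → T (c • x) (c⁻¹ • φ) := fun c x φ hc ht => by
    rwa [hT, smul_smul, mul_inv_cancel₀ hc, one_smul]
  let d : Fin 3 → F := ![p0, p1, p0 * r2 / r0]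
  have hd : ∀ i, d i ≠ 0 := fun i => by
    fin_cases i
    exacts [n0, n1, div_ne_zero (mul_ne_zero n0 n5) n4]
  have hz : p0 * q1 / (q0 * p1) ≠ 0 := div_ne_zero (mul_ne_zero n0 n3) (mul_ne_zero n2 n1)
  have hm : (q0 * p0⁻¹ + q1 * p1⁻¹) * (p0 * q0⁻¹ + p1 * q1⁻¹) =
      p0 * q1 / (q0 * p1) + (p0 * q1 / (q0 * p1))⁻¹ := by
    have : (q0 * p0⁻¹ + q1 * p1⁻¹) * (p0 * q0⁻¹ + p1 * q1⁻¹) =
      p0 * q1 / (q0 * p1) + (p0 * q1 / (q0 * p1))⁻¹ + 2 := by field_simp; ring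
    rw [this, h2, add_zero]
  refine ⟨fun i => d i • b i, fun i => (d i)⁻¹ • β i, p0 * q1 / (q0 * p1), fun i j => ?_, hz,
    fun e => ?_, ?_, ?_, ?_⟩
  · rw [smul_dotProduct, dotProduct_smul, h]
    split_ifs with e
    · rw [e, smul_eq_mul, smul_eq_mul, mul_one, inv_mul_cancel₀ (hd j)]
    · simp
  · rw [hm] at m0 m1
    generalize p0 * q1 / (q0 * p1) = ζ at *
    have hi := mul_inv_cancel₀ hz
    rcases mul_eq_zero.1 (by linear_combination e : (ζ - 1) * (ζ ^ 2 + ζ + 1) = 0) with f | f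
    · apply m0
      rw [sub_eq_zero.1 f, inv_one]
      linear_combination h2
    · apply m1
      linear_combination ζ⁻¹ * f - (ζ + 1) * hi - h2
  · rw [ex, eφ] at t1
    exact t1
  · have := hsc (p0 / q0) _ _ (div_ne_zero n0 n2) t2
    rw [eu, eθ] at this
    convert this using 1 <;> simp only [d, Matrix.cons_val] <;> match_scalars <;> field_simp
  · have := hsc (p0 / r0) _ _ (div_ne_zero n0 n4) t3
    rw [ey, eη] at this
    convert this using 1 <;> simp only [d, Matrix.cons_val] <;> match_scalars <;> field_simp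

end CL.Zs.ZM
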