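/-
Sets of isotropic vectors closed under hyperbolic lines: transitivity and extension.
-/
import Cfsg.Agent.CLAS.Zs2

set_option autoImplicit false
set_option maxHeartbeats 200000

namespace CL.ZsU

variable {F : Type*} [Field F] {V : Type*} [AddCommGroup V] [Module F V] {σ : F →+* F}

/-- a non-degenerate hermitian form over a field with surjective norm -/
structure HF (σ : F →+* F) (B : V →ₛₗ[σ] V →ₗ[F] F) : Prop where
  s2 : ∀ a, σ (σ a) = a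
  ne : ∃ a, σ a ≠ a
  nrm : ∀ b, σ b = b → ∃ c, σ c * c = b
  hs : ∀ x y, σ (B x y) = B y x
  nd : ∀ x, (∀ y, B x y = 0) → x = 0

variable {B : V →ₛₗ[σ] V →ₗ[F] F}

theorem exp2 (x y : V) (a : F) :
    B (x + a • y) (x + a • y) = B x x + a * B x y + σ a * B y x + σ a * a * B y y := by
  simp only [map_add, map_smulₛₗ, LinearMap.add_apply, LinearMap.smul_apply, smul_eq_mul,
    RingHom.id_apply]
  ring

theorem exp1 (x y : V) : B (x + y) (x + y) = B x x + B x y + B y x + B y y := by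
  simp only [map_add, LinearMap.add_apply]
  ring

theorem li_of_dual {κ : Type} [Fintype κ] (b β : κ → V) (h : ∀ i j, i ≠ j → B (β i) (b j) = 0)
    (h' : ∀ i, B (β i) (b i) ≠ 0) : LinearIndependent F b := by
  rw [Fintype.linearIndependent_iff]
  intro g hg i
  have := congrArg (B (β i)) hg
  rw [map_sum, map_zero, Finset.sum_eq_single i (fun j _ hj => by
    rw [map_smul, h i j (Ne.symm hj), smul_zero]) (by simp), map_smul, smul_eq_mul] at this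
  exact (mul_eq_zero.1 this).resolve_right (h' i)

theorem exists_ker {m : ℕ} (U : Submodule F V) (b β : Fin (m + 1) → V) (hb : ∀ i, b i ∈ U)
    (h : ∀ i j, i ≠ j → B (β i) (b j) = 0) (h' : ∀ i, B (β i) (b i) ≠ 0) (u : Fin m → V) :
    ∃ r ∈ U, r ≠ 0 ∧ ∀ k, B (u k) r = 0 := by
  let f : (Fin (m + 1) → F) →ₗ[F] (Fin m → F) :=
    (LinearMap.pi fun k => B (u k)) ∘ₗ Fintype.linearCombination F b
  obtain ⟨c, hc, hc0⟩ := (Submodule.ne_bot_iff _).1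
    (LinearMap.ker_ne_bot_of_finrank_lt (f := f) (by simp))
  refine ⟨∑ i, c i • b i, U.sum_mem fun i _ => U.smul_mem _ (hb i), fun e => hc0 ?_, fun k => ?_⟩
  · exact funext (Fintype.linearIndependent_iff.1 (li_of_dual b β h h') c e)
  · exact congrFun (LinearMap.mem_ker.1 hc) k

namespace HF

variable (H : HF σ B)
include H

theorem sym0 {x y : V} (h : B x y = 0) : B y x = 0 := by rw [← H.hs, h, map_zero]

theorem sym1 {x y : V} (h : B x y = 1) : B y x = 1 := by rw [← H.hs, h, map_one]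

theorem symn {x y : V} (h : B x y ≠ 0) : B y x ≠ 0 := fun e => h (H.sym0 e)

theorem tr {a : F} (ha : σ a = a) : ∃ l, l + σ l = a := by
  obtain ⟨t, ht⟩ : ∃ t, t + σ t ≠ 0 := by
    obtain ⟨g, hg⟩ := H.ne
    by_cases h2 : (1 : F) + σ 1 = 0
    · refine ⟨g, fun e => hg ?_⟩
      rw [map_one] at h2
      linear_combination e - g * h2
    · exact ⟨1, h2⟩
  refine ⟨a * t / (t + σ t), ?_⟩
  rw [map_div₀, map_mul, map_add, H.s2, ha, add_comm (σ t)]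
  field_simp

theorem delta : ∃ δ : F, δ ≠ 0 ∧ δ + σ δ = 0 := by
  obtain ⟨g, hg⟩ := H.ne
  exact ⟨σ g - g, sub_ne_zero.2 hg, by rw [map_sub, H.s2]; ring⟩

theorem hit_aniso {z : V} (hz : B z z ≠ 0) (w : V) {n : F} (hn : σ n = n) :
    ∃ l : F, B (w + l • z) (w + l • z) = n := by
  obtain ⟨μ, hμ⟩ := H.nrm ((n - B w w + B z w * B w z / B z z) / B z z) (by
    simp only [map_div₀, map_add, map_sub, map_mul, H.hs, hn]; ring)
  refine ⟨μ - B z w / B z z, ?_⟩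
  rw [exp2, map_sub, map_div₀, H.hs, H.hs]
  rw [eq_div_iff hz] at hμ
  field_simp at hμ ⊢
  linear_combination hμ

theorem hit_iso {r w : V} (hr : B r r = 0) (h : B r w ≠ 0) {n : F} (hn : σ n = n) :
    ∃ l : F, B (w + l • r) (w + l • r) = n := by
  obtain ⟨t, ht⟩ := H.tr (a := n - B w w) (by rw [map_sub, H.hs, hn])
  have h' := H.symn h
  refine ⟨t / B w r, ?_⟩
  rw [exp2, map_div₀, H.hs, hr, div_mul_cancel₀ _ h, div_mul_cancel₀ _ h']
  linear_combination ht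

theorem aniso (Z : Submodule F V) {r u : V} (hr : r ∈ Z) (hu : u ∈ Z) (h : B r u ≠ 0) :
    ∃ z ∈ Z, B z z ≠ 0 := by
  by_cases h0 : B r r = 0
  · obtain ⟨l, hl⟩ := H.hit_iso h0 h (map_one σ)
    exact ⟨_, Z.add_mem hu (Z.smul_mem l hr), by rw [hl]; exact one_ne_zero⟩
  · exact ⟨r, hr, h0⟩

/-- a further point on a hyperbolic line -/
theorem third {y v : V} (hy : B y y = 0) (hv : B v v = 0) (h : B y v ≠ 0) :
    ∃ a : F, a ≠ 0 ∧ B (y + a • v) (y + a • v) = 0 := by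
  obtain ⟨δ, h0, h1⟩ := H.delta
  have h' := H.symn h
  refine ⟨δ / B y v, div_ne_zero h0 h, ?_⟩
  rw [exp2, map_div₀, H.hs, hy, hv, div_mul_cancel₀ _ h, div_mul_cancel₀ _ h']
  linear_combination h1

end HF

/-- a non-degenerate subspace of dimension at least three -/
structure Sub (B : V →ₛₗ[σ] V →ₗ[F] F) (U : Submodule F V) : Prop where
  dec : ∀ v, ∃ w ∈ U, ∀ u ∈ U, B u (v - w) = 0
  hyp : ∃ e ∈ U, ∃ f ∈ U, ∃ z ∈ U, B e e = 0 ∧ B f f = 0 ∧ B e f = 1 ∧ B z e = 0 ∧ B z f = 0 ∧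
    B z z ≠ 0

/-- dimension at least four -/
def D4 (B : V →ₛₗ[σ] V →ₗ[F] F) (U : Submodule F V) : Prop :=
  ∀ u₁ u₂ u₃, ∃ r ∈ U, r ≠ 0 ∧ B u₁ r = 0 ∧ B u₂ r = 0 ∧ B u₃ r = 0

/-- the fixed field is not the field with two elements -/
def Q3 (σ : F →+* F) : Prop := ∃ a, σ a = a ∧ a ≠ 0 ∧ a ≠ 1

/-- the difference is isotropic and not orthogonal -/
def Adj (B : V →ₛₗ[σ] V →ₗ[F] F) (w w' : V) : Prop :=
  B w' w' = B w w ∧ ∃ c, c ≠ 0 ∧ c + σ c = 0 ∧ B w w' = B w w + c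

theorem Adj.symm (H : HF σ B) {w w' : V} (h : Adj B w w') : Adj B w' w := by
  obtain ⟨h1, c, h2, h3, h4⟩ := h
  refine ⟨h1.symm, σ c, (map_ne_zero σ).2 h2, by rw [H.s2, add_comm, h3], ?_⟩
  rw [← H.hs, h4, map_add, H.hs, h1]

namespace Sub

variable {U : Submodule F V} (H : HF σ B) (hU : Sub B U)
include H hU

theorem nd {r : V} (hr : r ∈ U) (h0 : r ≠ 0) : ∃ u ∈ U, B r u ≠ 0 := by
  by_contra hn
  push Not at hn
  refine h0 (H.nd r fun v => ?_)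
  obtain ⟨w, hw, h⟩ := hU.dec v
  have := h r hr
  rwa [map_sub, hn w hw, sub_zero] at this

theorem nd1 {r : V} (hr : r ∈ U) (h0 : r ≠ 0) : ∃ u ∈ U, B r u = 1 := by
  obtain ⟨u, hu, h⟩ := hU.nd H hr h0
  exact ⟨(B r u)⁻¹ • u, U.smul_mem _ hu, by rw [map_smul, smul_eq_mul, inv_mul_cancel₀ h]⟩

theorem d3 (u₁ u₂ : V) : ∃ r ∈ U, r ≠ 0 ∧ B u₁ r = 0 ∧ B u₂ r = 0 := by
  obtain ⟨e, he, f, hf, z, hz, a1, a2, a3, a4, a5, a6⟩ := hU.hyp
  obtain ⟨r, h1, h2, h3⟩ := exists_ker (B := B) U ![e, f, z] ![f, e, z]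
    (fun i => by fin_cases i <;> simpa)
    (fun i j h => by
      fin_cases i <;> fin_cases j <;> simp at h ⊢ <;>
        first | assumption | exact H.sym0 a4 | exact H.sym0 a5)
    (fun i => by fin_cases i <;> simp [a3, a6, H.sym1 a3]) ![u₁, u₂]
  exact ⟨r, h1, h2, h3 0, h3 1⟩

theorem dual {w₁ w₂ : V} (h1 : w₁ ∈ U) (h2 : w₂ ∈ U) (h0 : w₁ ≠ 0) (ind : ∀ μ : F, w₂ ≠ μ • w₁) :
    ∃ d ∈ U, ∃ d' ∈ U, B w₁ d = 1 ∧ B w₂ d = 0 ∧ B w₁ d' = 0 ∧ B w₂ d' = 1 := by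
  obtain ⟨u, hu, a1⟩ := hU.nd1 H h1 h0
  obtain ⟨u', hu', a2⟩ := hU.nd1 H (U.sub_mem h2 (U.smul_mem (σ (B w₂ u)) h1))
    (sub_ne_zero.2 (ind _))
  simp only [map_sub, map_smulₛₗ, LinearMap.sub_apply, LinearMap.smul_apply, smul_eq_mul,
    H.s2] at a2
  refine ⟨u - B w₂ u • (u' - B w₁ u' • u), U.sub_mem hu (U.smul_mem _
    (U.sub_mem hu' (U.smul_mem _ hu))), u' - B w₁ u' • u, U.sub_mem hu' (U.smul_mem _ hu),
    ?_, ?_, ?_, ?_⟩ <;> simp only [map_sub, map_smul, smul_eq_mul, a1]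
  · ring
  · linear_combination (-B w₂ u) * a2
  · ring
  · linear_combination a2

theorem step {w₁ w₂ : V} (h1 : w₁ ∈ U) (h2 : w₂ ∈ U) (h0 : w₁ ≠ 0) (ind : ∀ μ : F, w₂ ≠ μ • w₁)
    (hn : B w₂ w₂ = B w₁ w₁) (g : Q3 σ ∨ D4 B U ∨ B w₁ w₁ = 0) :
    ∃ w ∈ U, Adj B w₁ w ∧ Adj B w₂ w := by
  obtain ⟨d, hd, d', hd', a1, a2, a3, a4⟩ := hU.dual H h1 h2 h0 ind
  obtain ⟨δ, δ0, δ1⟩ := H.delta
  have fin : ∀ (c₁ c₂ : F) (z : V), c₁ ≠ 0 → c₁ + σ c₁ = 0 → c₂ ≠ 0 → c₂ + σ c₂ = 0 → z ∈ U →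
      B w₁ z = 0 → B w₂ z = 0 → (B z z ≠ 0 ∨ (B z z = 0 ∧
        (B w₁ w₁ + c₁) * B z d + (B w₁ w₁ + c₂) * B z d' ≠ 0)) →
      ∃ w ∈ U, Adj B w₁ w ∧ Adj B w₂ w := by
    intro c₁ c₂ z b1 b2 b3 b4 hz b5 b6 b7
    obtain ⟨l, hl⟩ : ∃ l : F, B ((B w₁ w₁ + c₁) • d + (B w₁ w₁ + c₂) • d' + l • z)
        ((B w₁ w₁ + c₁) • d + (B w₁ w₁ + c₂) • d' + l • z) = B w₁ w₁ := by
      rcases b7 with b7 | ⟨b7, b8⟩
      · exact H.hit_aniso b7 _ (H.hs _ _)
      · exact H.hit_iso b7 (by simpa only [map_add, map_smul, smul_eq_mul] using b8) (H.hs _ _)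
    refine ⟨_, U.add_mem (U.add_mem (U.smul_mem _ hd) (U.smul_mem _ hd')) (U.smul_mem l hz),
      ⟨hl, c₁, b1, b2, ?_⟩, ⟨hl.trans hn.symm, c₂, b3, b4, ?_⟩⟩
    · simp only [map_add, map_smul, smul_eq_mul, a1, a3, b5]; ring
    · simp only [map_add, map_smul, smul_eq_mul, a2, a4, b6, hn]; ring
  by_cases hA : ∃ z ∈ U, B w₁ z = 0 ∧ B w₂ z = 0 ∧ B z z ≠ 0
  · obtain ⟨z, hz, b1, b2, b3⟩ := hA
    exact fin δ δ z δ0 δ1 δ0 δ1 hz b1 b2 (Or.inl b3)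
  push Not at hA
  have ex : ∀ r ∈ U, B w₁ r = 0 → B w₂ r = 0 → ∀ u ∈ U,
      B r u = B w₁ u * B r d + B w₂ u * B r d' := by
    intro r hr b1 b2 u hu
    by_contra hne
    obtain ⟨z, hz, b3⟩ := H.aniso (U ⊓ LinearMap.ker (B w₁) ⊓ LinearMap.ker (B w₂)) (r := r)
      (u := u - B w₁ u • d - B w₂ u • d') ⟨⟨hr, b1⟩, b2⟩
      ⟨⟨U.sub_mem (U.sub_mem hu (U.smul_mem _ hd)) (U.smul_mem _ hd'), by
        simp [a1, a3]⟩, by simp [a2, a4]⟩ (fun e => hne (by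
          simp only [map_sub, map_smul, smul_eq_mul] at e
          linear_combination e))
    exact b3 (hA z hz.1.1 hz.1.2 hz.2)
  have nz : ∀ r ∈ U, B w₁ r = 0 → B w₂ r = 0 → r ≠ 0 → B r d = 0 → B r d' ≠ 0 := by
    intro r hr b1 b2 b3 b4 b5
    obtain ⟨u, hu, b6⟩ := hU.nd H hr b3
    exact b6 (by rw [ex r hr b1 b2 u hu, b4, b5]; ring)
  rcases g with ⟨a, g1, g2, g3⟩ | g | g
  · obtain ⟨r, hr, b1, b2, b3⟩ := hU.d3 H w₁ w₂
    have t : a * δ + σ (a * δ) = 0 := by rw [map_mul, g1, ← mul_add, δ1, mul_zero]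
    have t0 := mul_ne_zero g2 δ0
    have t1 := mul_ne_zero (sub_ne_zero.2 g3) δ0
    by_cases e1 : (B w₁ w₁ + δ) * B r d + (B w₁ w₁ + δ) * B r d' = 0
    · by_cases e2 : B r d = 0
      · exact fin δ (a * δ) r δ0 δ1 t0 t hr b2 b3 (Or.inr ⟨hA r hr b2 b3, fun e =>
          mul_ne_zero t1 (nz r hr b2 b3 b1 e2) (by linear_combination e - e1)⟩)
      · exact fin (a * δ) δ r t0 t δ0 δ1 hr b2 b3 (Or.inr ⟨hA r hr b2 b3, fun e =>
          mul_ne_zero t1 e2 (by linear_combination e - e1)⟩)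
    · exact fin δ δ r δ0 δ1 δ0 δ1 hr b2 b3 (Or.inr ⟨hA r hr b2 b3, e1⟩)
  · obtain ⟨r, hr, b1, b2, b3, b4⟩ := g w₁ w₂ d
    have b5 := nz r hr b2 b3 b1 (H.sym0 b4)
    have b6 := ex r hr b2 b3 w₂ h2
    rw [H.sym0 b3, H.sym0 b4, hn] at b6
    exact fin δ δ r δ0 δ1 δ0 δ1 hr b2 b3 (Or.inr ⟨hA r hr b2 b3, fun e =>
      mul_ne_zero δ0 b5 (by rw [H.sym0 b4] at e; linear_combination e + b6)⟩)
  · obtain ⟨r, hr, b1, b2, b3⟩ := hU.d3 H w₁ w₂
    have b4 := ex r hr b2 b3 w₁ h1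
    have b5 := ex r hr b2 b3 w₂ h2
    rw [H.sym0 b2, g, zero_mul, zero_add] at b4
    rw [H.sym0 b3, hn, g, zero_mul, add_zero] at b5
    have b6 : B w₂ w₁ = 0 := by
      by_contra b6
      exact nz r hr b2 b3 b1 ((mul_eq_zero.1 b5.symm).resolve_left (H.symn b6))
        ((mul_eq_zero.1 b4.symm).resolve_left b6)
    exact fin δ δ w₁ δ0 δ1 δ0 δ1 h1 g b6 (Or.inr ⟨g, by simpa [g, a1, a3] using δ0⟩)

/-- a vector of given norm outside a line -/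
theorem other {w : V} (n : F) (hn : σ n = n) :
    ∃ v ∈ U, v ≠ 0 ∧ B v v = n ∧ ∀ μ : F, v ≠ μ • w := by
  obtain ⟨e, he, f, hf, z, hz, a1, a2, a3, a4, a5, a6⟩ := hU.hyp
  have a7 := H.sym1 a3
  by_cases h : B z w = 0
  · obtain ⟨l, hl⟩ := H.hit_iso (r := f) (w := e + z) a2 (by simp [a7, H.sym0 a5]) hn
    have b : B z (e + z + l • f) ≠ 0 := by simpa [a4, a5] using a6
    exact ⟨_, U.add_mem (U.add_mem he hz) (U.smul_mem l hf), fun e => b (by rw [e, map_zero]), hl,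
      fun μ e => b (by rw [e, map_smul, h, smul_zero])⟩
  · obtain ⟨l, hl⟩ := H.hit_iso (r := f) (w := e) a2 (by simp [a7]) hn
    have b : B f (e + l • f) ≠ 0 := by simp [a7, a2]
    have b' : B z (e + l • f) = 0 := by simp [a4, a5]
    refine ⟨_, U.add_mem he (U.smul_mem l hf), fun e => b (by rw [e, map_zero]), hl,
      fun μ e => b ?_⟩
    rw [e, map_smul, smul_eq_mul] at b'
    rw [e, (mul_eq_zero.1 b').resolve_right h, zero_smul, map_zero]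

/-- two vectors with prescribed Gram matrix -/
theorem pair {n₁ n₂ : F} (h1 : σ n₁ = n₁) (h2 : σ n₂ = n₂) (b : F) :
    ∃ w₁ ∈ U, ∃ w₂ ∈ U, w₁ ≠ 0 ∧ w₂ ≠ 0 ∧ w₁ + w₂ ≠ 0 ∧ B w₁ w₁ = n₁ ∧ B w₂ w₂ = n₂ ∧
      B w₁ w₂ = b := by
  obtain ⟨e, he, f, hf, z, hz, a1, a2, a3, a4, a5, a6⟩ := hU.hyp
  have a7 := H.sym1 a3
  obtain ⟨ξ, hξ⟩ := H.ne
  have ξ0 : ξ ≠ 0 := by rintro rfl; simp at hξ
  have ξ1 : 1 + ξ ≠ 0 := fun e => hξ (by rw [show ξ = -1 by linear_combination e]; simp)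
  obtain ⟨l, hl⟩ := H.hit_iso (r := f) (w := e) a2 (by simp [a7]) h1
  obtain ⟨m, hm⟩ := H.hit_aniso a6 (ξ • e + (b - σ l * ξ) • f) h2
  have b1 : B f (e + l • f) = 1 := by simp [a7, a2]
  have b2 : B f (ξ • e + (b - σ l * ξ) • f + m • z) = ξ := by simp [a7, a2, H.sym0 a5]
  refine ⟨_, U.add_mem he (U.smul_mem l hf), _,
    U.add_mem (U.add_mem (U.smul_mem _ he) (U.smul_mem _ hf)) (U.smul_mem m hz),
    fun e => by simp [e] at b1, fun e => ξ0 (by rw [← b2, e, map_zero]),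
    fun e => ξ1 (by rw [← b1, ← b2, ← map_add, e, map_zero]), hl, hm, ?_⟩
  simp [a1, a2, a3, a7, H.sym0 a4, H.sym0 a5]

end Sub

/-- an irreducible set of isotropic vectors closed under hyperbolic lines -/
structure Cl (σ : F →+* F) (B : V →ₛₗ[σ] V →ₗ[F] F) (D : V → Prop) : Prop where
  hf : HF σ B
  iso : ∀ {x}, D x → B x x = 0
  zero : D 0
  smul : ∀ {x} (a : F), D x → D (a • x)
  line : ∀ {x u}, D x → D u → B u x ≠ 0 → B (x + u) (x + u) = 0 → D (x + u)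
  inv : ∀ W : Submodule F V, (∀ y, D y → ∀ v ∈ W, B y v ≠ 0 → y ∈ W) → W = ⊥ ∨ W = ⊤
  avoid : ∀ {p v}, p ≠ 0 → v ≠ 0 → ∃ u, D u ∧ B p u ≠ 0 ∧ B u v ≠ 0

namespace Cl

variable {D : V → Prop} (C : Cl σ B D) {U : Submodule F V}
include C

theorem conj {x u : V} (hx : D x) (hu : D u) {c : F} (hc : c + σ c = 0) :
    D (x + (c * B u x) • u) := by
  by_cases h : c * B u x = 0
  · rwa [h, zero_smul, add_zero]
  refine C.line hx (C.smul _ hu) ?_ ?_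
  · rw [map_smulₛₗ, LinearMap.smul_apply, smul_eq_mul]
    exact mul_ne_zero ((map_ne_zero σ).2 h) (right_ne_zero_of_mul h)
  · rw [exp2, C.iso hx, C.iso hu, map_mul, C.hf.hs]
    linear_combination (B u x * B x u) * hc

theorem adj (full : ∀ u ∈ U, B u u = 0 → D u) {w₁ w₂ w' : V} (h1 : w₁ ∈ U) (h2 : w₂ ∈ U)
    (h' : ∀ u ∈ U, B u w' = 0) (h : Adj B w₁ w₂) (hD : D (w₁ + w')) : D (w₂ + w') := by
  obtain ⟨a1, c, a2, a3, a4⟩ := h
  have a5 : B w₂ w₁ = B w₁ w₁ + σ c := by rw [← C.hf.hs, a4, map_add, C.hf.hs]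
  have a6 := C.iso hD
  have e : w₁ + w' + (w₂ - w₁) = w₂ + w' := by abel
  rw [← e]
  refine C.line hD (full _ (U.sub_mem h2 h1) ?_) ?_ ?_
  · simp only [map_sub, LinearMap.sub_apply]
    linear_combination a1 - a4 - a5 - a3
  · rw [map_add, h' _ (U.sub_mem h2 h1), map_sub, LinearMap.sub_apply, a5]
    simpa using a2
  · rw [exp1, h' _ h1, C.hf.sym0 (h' _ h1)] at a6
    rw [e, exp1, h' _ h2, C.hf.sym0 (h' _ h2), a1, a6]

theorem trans (hU : Sub B U) (full : ∀ u ∈ U, B u u = 0 → D u) {w₁ w₂ w' : V} (h1 : w₁ ∈ U)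
    (h2 : w₂ ∈ U) (n1 : w₁ ≠ 0) (n2 : w₂ ≠ 0) (h' : ∀ u ∈ U, B u w' = 0)
    (hn : B w₂ w₂ = B w₁ w₁) (g : Q3 σ ∨ D4 B U ∨ B w₁ w₁ = 0) (hD : D (w₁ + w')) :
    D (w₂ + w') := by
  have key : ∀ {w₁ w₂ : V}, w₁ ∈ U → w₂ ∈ U → w₁ ≠ 0 → (∀ μ : F, w₂ ≠ μ • w₁) →
      B w₂ w₂ = B w₁ w₁ → (Q3 σ ∨ D4 B U ∨ B w₁ w₁ = 0) → D (w₁ + w') → D (w₂ + w') := by
    intro w₁ w₂ h1 h2 n1 ind hn g hD
    obtain ⟨w, hw, b1, b2⟩ := hU.step C.hf h1 h2 n1 ind hn g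
    exact C.adj full hw h2 h' (b2.symm C.hf) (C.adj full h1 hw h' b1 hD)
  by_cases ind : ∀ μ : F, w₂ ≠ μ • w₁
  · exact key h1 h2 n1 ind hn g hD
  push Not at ind
  obtain ⟨μ, rfl⟩ := ind
  obtain ⟨v, hv, b1, b2, b3⟩ := hU.other C.hf (w := w₁) (B w₁ w₁) (C.hf.hs _ _)
  refine key hv h2 b1 (fun ν e => ?_) (hn.trans b2.symm) (by rwa [b2]) (key h1 hv n1 b3 b2 g hD)
  have : ν ≠ 0 := by rintro rfl; exact n2 (by rw [e, zero_smul])
  exact b3 (ν⁻¹ * μ) (by rw [mul_smul, e, smul_smul, inv_mul_cancel₀ this, one_smul])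

theorem norm_of {w w' : V} (hw : w ∈ U) (h' : ∀ u ∈ U, B u w' = 0)
    (h : B (w + w') (w + w') = 0) : B w w = -B w' w' := by
  rw [exp1, h' _ hw, C.hf.sym0 (h' _ hw)] at h
  linear_combination h

/-- extension from a full subspace to the whole space -/
theorem ext (hU : Sub B U) (full : ∀ u ∈ U, B u u = 0 → D u) (g : Q3 σ ∨ D4 B U) (v : V)
    (hv : B v v = 0) : D v := by
  have H := C.hf
  have g' : ∀ w : V, Q3 σ ∨ D4 B U ∨ B w w = 0 := fun w => g.imp_right Or.inl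
  obtain ⟨e, he, e0, e1, -⟩ := hU.other H (w := 0) 0 (map_zero σ)
  obtain ⟨δ, δ0, δ1⟩ := H.delta
  let M : Submodule F V :=
    { carrier := {v | ∃ w', (∀ u ∈ U, B u w' = 0) ∧ v - w' ∈ U ∧ ∃ w ∈ U, w ≠ 0 ∧ D (w + w')}
      zero_mem' := ⟨0, fun u _ => map_zero _, by simp, e, he, e0, by
        rw [add_zero]; exact full e he e1⟩
      add_mem' := by
        rintro a b ⟨a', a1, a2, w₁, a3, a4, a5⟩ ⟨b', b1, b2, w₂, b3, b4, b5⟩
        obtain ⟨v₁, c1, v₂, c2, c3, c4, c5, c6, c7, c8⟩ :=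
          hU.pair H (H.hs w₁ w₁) (H.hs w₂ w₂) (δ - B a' b')
        have d1 := C.trans hU full a3 c1 a4 c3 a1 c6 (g' _) a5
        have d2 := C.trans hU full b3 c2 b4 c4 b1 c7 (g' _) b5
        have d3 : B (v₁ + a') (v₂ + b') = δ := by
          simp only [map_add, LinearMap.add_apply, c8, b1 _ c1, H.sym0 (a1 _ c2)]; ring
        refine ⟨a' + b', fun u hu => by rw [map_add, a1 u hu, b1 u hu, add_zero], ?_, v₁ + v₂,
          U.add_mem c1 c2, c5, ?_⟩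
        · rw [add_sub_add_comm]; exact U.add_mem a2 b2
        · rw [add_add_add_comm]
          refine C.line d1 d2 (H.symn (by rwa [d3])) ?_
          rw [exp1, C.iso d1, C.iso d2, ← H.hs (v₁ + a'), d3]
          linear_combination δ1
      smul_mem' := by
        rintro c a ⟨a', a1, a2, w, a3, a4, a5⟩
        by_cases hc : c = 0
        · exact ⟨0, fun u _ => map_zero _, by simp [hc], e, he, e0, by
            rw [add_zero]; exact full e he e1⟩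
        refine ⟨c • a', fun u hu => by rw [map_smul, a1 u hu, smul_zero], ?_, c • w,
          U.smul_mem c a3, smul_ne_zero hc a4, ?_⟩
        · rw [← smul_sub]; exact U.smul_mem c a2
        · rw [← smul_add]; exact C.smul c a5 }
  have hM : M = ⊤ := by
    refine (C.inv M fun y hy v ⟨v', a1, a2, w₁, a3, a4, a5⟩ hB => ?_).resolve_left fun h => ?_
    · obtain ⟨w, hw, b1⟩ := hU.dec y
      by_cases h0 : w = 0
      · rw [h0, sub_zero] at b1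
        have b2 : B (w₁ + v') y ≠ 0 := by
          refine H.symn fun e => hB ?_
          have := H.sym0 (b1 _ a2)
          rw [map_sub] at this
          rw [map_add, H.sym0 (b1 _ a3)] at e
          linear_combination this + e
        obtain ⟨a, a0, b3⟩ := H.third (C.iso a5) (C.iso hy) b2
        have b4 := C.line a5 (C.smul a hy) (H.symn (by
          rw [map_smul, smul_eq_mul]; exact mul_ne_zero a0 b2)) b3
        have m1 : v' + a • y ∈ M := ⟨v' + a • y, fun u hu => by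
          rw [map_add, map_smul, a1 u hu, b1 u hu, smul_zero, add_zero], by simp, w₁, a3, a4, by
            rwa [← add_assoc]⟩
        have m2 : v' ∈ M := ⟨v', a1, by simp, w₁, a3, a4, a5⟩
        have := M.smul_mem a⁻¹ (M.sub_mem m1 m2)
        rwa [add_sub_cancel_left, smul_smul, inv_mul_cancel₀ a0, one_smul] at this
      · exact ⟨y - w, b1, by simpa using hw, w, hw, h0, by simpa using hy⟩
    · have : e ∈ M := ⟨0, fun u _ => map_zero _, by simpa using he, e, he, e0, by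
        rw [add_zero]; exact full e he e1⟩
      rw [h] at this
      exact e0 this
  have out : ∀ v, B v v = 0 → B e v ≠ 0 → D v := by
    intro v hv h
    obtain ⟨v', a1, a2, w, a3, a4, a5⟩ : v ∈ M := hM ▸ Submodule.mem_top
    have := C.trans hU full a3 a2 a4 (fun e' => h (by
      rw [sub_eq_zero.1 e', a1 e he])) a1 (by
        rw [C.norm_of a3 a1 (C.iso a5), C.norm_of a2 a1 (by rwa [sub_add_cancel])]) (g' _) a5
    rwa [sub_add_cancel] at this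
  by_cases h : B e v = 0
  swap
  · exact out v hv h
  by_cases v0 : v = 0
  · rw [v0]; exact C.zero
  obtain ⟨y, hy, b1, b2⟩ := C.avoid e0 v0
  obtain ⟨a, a0, b3⟩ := H.third (C.iso hy) hv b2
  have b4 := out _ b3 (by rwa [map_add, map_smul, h, smul_zero, add_zero])
  have e' : y + a • v + (-1 : F) • y = a • v := by module
  have b5 := C.line b4 (C.smul (-1) hy) (by
    simpa [C.iso hy, a0] using b2) (by rw [e']; simp [hv])
  have := C.smul a⁻¹ b5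
  rwa [e', smul_smul, inv_mul_cancel₀ a0, one_smul] at this

end Cl

end CL.ZsU
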