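/-
Sets of isotropic vectors closed under hyperbolic lines: the unital, and frames over four elements.
-/
import Cfsg.Agent.CLAS.ZsU1

set_option autoImplicit false
set_option maxHeartbeats 200000

namespace CL.ZsU

variable {F : Type*} [Field F] {V : Type*} [AddCommGroup V] [Module F V] {σ : F →+* F}
  {B : V →ₛₗ[σ] V →ₗ[F] F}

namespace Cl

variable {D : V → Prop} (C : Cl σ B D) {U : Submodule F V}
include C

theorem plane {e f z : V} (he : D e) (hf : D f) (a3 : B e f = 1) (a4 : B z e = 0) (a5 : B z f = 0)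
    (a6 : B z z ≠ 0) {s t : F} (h : D (s • e + t • f + z)) (a b c : F)
    (hv : B (a • e + b • f + c • z) (a • e + b • f + c • z) = 0) : D (a • e + b • f + c • z) := by
  have H := C.hf
  have a1 := C.iso he
  have a2 := C.iso hf
  have a7 := H.sym1 a3
  have a8 := H.sym0 a4
  have a9 := H.sym0 a5
  have N : ∀ a b c : F, B (a • e + b • f + c • z) (a • e + b • f + c • z) =
      σ a * b + σ b * a + σ c * c * B z z := fun a b c => by
    simp only [map_add, map_smulₛₗ, LinearMap.add_apply, LinearMap.smul_apply, smul_eq_mul,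
      RingHom.id_apply, a1, a2, a3, a4, a5, a7, a8, a9]
    ring
  have m1 : ∀ {s t : F} (c : F), c + σ c = 0 → D (s • e + t • f + z) →
      D ((s + c * t) • e + t • f + z) := by
    intro s t c hc h
    have := C.conj h he hc
    simp only [map_add, map_smul, smul_eq_mul, a1, a3, a8] at this
    convert this using 1
    module
  have m2 : ∀ {s t : F} (c : F), c + σ c = 0 → D (s • e + t • f + z) →
      D (s • e + (t + c * s) • f + z) := by
    intro s t c hc h
    have := C.conj h hf hc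
    simp only [map_add, map_smul, smul_eq_mul, a2, a7, a9] at this
    convert this using 1
    module
  have Q1 : ∀ α β γ ε : F, σ α = α → σ γ = -γ → σ ε = ε → α * ε - β * γ = 1 → γ ≠ 0 →
      D ((α * s + β * t) • e + (γ * s + ε * t) • f + z) := by
    intro α β γ ε b1 b2 b3 b4 b5
    have := m1 ((α - 1) / γ) (by rw [map_div₀, map_sub, b1, b2, map_one]; ring)
      (m2 γ (by rw [b2]; ring) (m1 ((ε - 1) / γ)
        (by rw [map_div₀, map_sub, b3, b2, map_one]; ring) h))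
    convert this using 4
    · field_simp
      linear_combination (-t) * b4
    · field_simp
      ring
  have hm := N s t 1
  rw [one_smul, C.iso h, map_one] at hm
  have m0 : σ s * t + σ t * s ≠ 0 := fun e => a6 (by linear_combination -hm - e)
  have Q2 : ∀ s' t' : F, σ s' * t' + σ t' * s' = σ s * t + σ t * s → D (s' • e + t' • f + z) := by
    intro s' t' h'
    have sm : σ (σ s * t + σ t * s) = σ s * t + σ t * s := by
      simp only [map_add, map_mul, H.s2]; ring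
    obtain ⟨α, β, γ, ε, b1, b2, b3, b4, rfl, rfl⟩ : ∃ α β γ ε : F, σ α = α ∧ σ β = -β ∧ σ γ = -γ ∧
        σ ε = ε ∧ s' = α * s + β * t ∧ t' = γ * s + ε * t := by
      refine ⟨(σ s' * t + σ t * s') / (σ s * t + σ t * s), (σ s * s' - σ s' * s) / (σ s * t + σ t * s),
        (σ t * t' - σ t' * t) / (σ s * t + σ t * s), (σ s * t' + σ t' * s) / (σ s * t + σ t * s),
        ?_, ?_, ?_, ?_, ?_, ?_⟩
      iterate 4
        rw [map_div₀, sm]
        simp only [map_add, map_sub, map_mul, H.s2]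
        ring
      all_goals
        rw [div_mul_eq_mul_div, div_mul_eq_mul_div, ← add_div, eq_div_iff m0]
        ring
    simp only [map_add, map_mul, b1, b2, b3, b4] at h'
    have det : α * ε - β * γ = 1 := mul_right_cancel₀ m0 (by linear_combination h')
    by_cases h0 : γ = 0
    · obtain ⟨δ, δ0, δ1⟩ := H.delta
      have α0 : α ≠ 0 := by rintro rfl; simp [h0] at det
      have δ2 : σ δ = -δ := by linear_combination δ1
      have := m2 (-δ) (by rw [map_neg]; linear_combination -δ1) (Q1 α β (γ + δ * α) (ε + δ * β) b1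
        (by rw [map_add, map_mul, b1, b3, δ2]; ring) (by rw [map_add, map_mul, b2, b4, δ2]; ring)
        (by linear_combination det) (by rw [h0, zero_add]; exact mul_ne_zero δ0 α0))
      convert this using 4
      ring
    · exact Q1 α β γ ε b1 b3 b4 det h0
  by_cases hc : c = 0
  · rw [hc, zero_smul, add_zero] at hv ⊢
    by_cases ha : a = 0
    · rw [ha, zero_smul, zero_add]; exact C.smul _ hf
    by_cases hb : b = 0
    · rw [hb, zero_smul, add_zero]; exact C.smul _ he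
    exact C.line (C.smul _ he) (C.smul _ hf) (by simp [a7, ha, hb]) hv
  · have hc' : σ c ≠ 0 := (map_ne_zero σ).2 hc
    rw [N] at hv
    have := C.smul c (Q2 (a / c) (b / c) (by
      rw [map_div₀, map_div₀]
      field_simp
      linear_combination hv + σ c * c * hm))
    convert this using 1
    match_scalars <;> field_simp

/-- three centres with non-zero Gram determinant span a full subspace -/
theorem exists_full {x u y : V} (hx : D x) (hu : D u) (hy : D y)
    (hP : B x u * B u y * B y x + σ (B x u * B u y * B y x) ≠ 0) :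
    ∃ W : Submodule F V, Sub B W ∧ (∀ u ∈ W, B u u = 0 → D u) ∧
      (D4 B ⊤ → ∃ v, v ≠ 0 ∧ ∀ u ∈ W, B u v = 0) := by
  have H := C.hf
  have h0 : B x u ≠ 0 := fun e => hP (by simp [e])
  have h0' := H.symn h0
  obtain ⟨f, hf, a3, a0⟩ : ∃ f, D f ∧ B x f = 1 ∧ B f y * B y x + σ (B f y * B y x) ≠ 0 := by
    refine ⟨(B x u)⁻¹ • u, C.smul _ hu, by simp [h0], fun e => hP ?_⟩
    simp only [map_mul, map_smulₛₗ, LinearMap.smul_apply, smul_eq_mul, map_inv₀, H.hs] at e ⊢
    field_simp at e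
    linear_combination e
  have a1 := C.iso hx
  have a2 := C.iso hf
  have a7 := H.sym1 a3
  obtain ⟨z, hz⟩ : ∃ z, z = y - B f y • x - B x y • f := ⟨_, rfl⟩
  have a8 : B x z = 0 := by simp [hz, a1, a3]
  have a9 : B f z = 0 := by simp [hz, a2, a7]
  have a4 := H.sym0 a8
  have a5 := H.sym0 a9
  have e : B f y • x + B x y • f + z = y := by rw [hz]; abel
  have a6 : B z z ≠ 0 := fun h => a0 (by
    have := C.iso hy
    rw [← e] at this
    simp only [map_add, map_smulₛₗ, LinearMap.add_apply, LinearMap.smul_apply, smul_eq_mul,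
      RingHom.id_apply, a1, a2, a3, a4, a5, a7, a8, a9, h, H.hs] at this
    rw [map_mul, H.hs, H.hs]
    linear_combination this)
  let W : Submodule F V :=
    { carrier := {v | ∃ a b c : F, v = a • x + b • f + c • z}
      zero_mem' := ⟨0, 0, 0, by simp⟩
      add_mem' := by
        rintro _ _ ⟨a, b, c, rfl⟩ ⟨a', b', c', rfl⟩
        exact ⟨a + a', b + b', c + c', by module⟩
      smul_mem' := by
        rintro l _ ⟨a, b, c, rfl⟩
        exact ⟨l * a, l * b, l * c, by module⟩ }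
  have perp : ∀ v, B x v = 0 → B f v = 0 → B z v = 0 → ∀ u ∈ W, B u v = 0 := by
    rintro v b1 b2 b3 _ ⟨a, b, c, rfl⟩
    simp [b1, b2, b3]
  refine ⟨W, ⟨fun v => ⟨_, ⟨B f v, B x v, B z v / B z z, rfl⟩, perp _ ?_ ?_ ?_⟩,
    x, ⟨1, 0, 0, by simp⟩, f, ⟨0, 1, 0, by simp⟩, z, ⟨0, 0, 1, by simp⟩, a1, a2, a3, a4, a5, a6⟩,
    ?_, fun h => ?_⟩
  · simp [a1, a3, a8]
  · simp [a2, a7, a9]
  · simp [a4, a5, a6]
  · rintro _ ⟨a, b, c, rfl⟩ h
    exact C.plane hx hf a3 a4 a5 a6 (e ▸ hy) a b c h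
  · obtain ⟨r, -, b1, b2, b3, b4⟩ := h x f z
    exact ⟨r, b1, perp r b2 b3 b4⟩

theorem comp (hU : Sub B U) {p v : V} (hp : p ∈ U) (p0 : p ≠ 0) (v0 : v ≠ 0)
    (hv : ∀ u ∈ U, B u v = 0) :
    ∃ w ∈ U, ∃ w', (∀ u ∈ U, B u w' = 0) ∧ D (w + w') ∧ B w p ≠ 0 ∧ B w' v ≠ 0 := by
  obtain ⟨y, hy, b1, b2⟩ := C.avoid p0 v0
  obtain ⟨w, hw, b3⟩ := hU.dec y
  refine ⟨w, hw, y - w, b3, by simpa using hy, C.hf.symn fun e => b1 ?_, ?_⟩
  · have := b3 p hp
    rwa [map_sub, e, sub_zero] at this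
  · rwa [map_sub, LinearMap.sub_apply, hv w hw, sub_zero]

/-- a centre with anisotropic components -/
theorem exists_aniso (h2 : (2 : F) = 0) (hU : Sub B U) (full : ∀ u ∈ U, B u u = 0 → D u)
    {v : V} (v0 : v ≠ 0) (hv : ∀ u ∈ U, B u v = 0) :
    ∃ w ∈ U, ∃ w', (∀ u ∈ U, B u w' = 0) ∧ D (w + w') ∧ B w' w' ≠ 0 := by
  have H := C.hf
  obtain ⟨e, he, e0, -⟩ := hU.other H (w := 0) 0 (map_zero σ)
  obtain ⟨w₁, a1, w₁', a2, a3, a4, a5⟩ := C.comp hU he e0 v0 hv
  by_cases n1 : B w₁' w₁' = 0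
  swap
  · exact ⟨w₁, a1, w₁', a2, a3, n1⟩
  have a6 : w₁ ≠ 0 := by rintro rfl; simp at a4
  have a7 : w₁' ≠ 0 := by rintro rfl; simp at a5
  obtain ⟨w₂, b1, w₂', b2, b3, b4, b5⟩ := C.comp hU a1 a6 a7 a2
  by_cases n2 : B w₂' w₂' = 0
  swap
  · exact ⟨w₂, b1, w₂', b2, b3, n2⟩
  obtain ⟨t, ht⟩ := H.tr (map_one σ)
  have t0 : t ≠ 0 := by rintro rfl; simp at ht
  have b6 := H.symn b5
  have n3 : B w₁ w₁ = 0 := by rw [C.norm_of a1 a2 (C.iso a3), n1, neg_zero]
  have c1 := C.trans hU full a1 (U.smul_mem (t / (B w₂ w₁ * B w₁' w₂')) a1) a6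
    (smul_ne_zero (div_ne_zero t0 (mul_ne_zero b4 b6)) a6) a2 (by simp [n3]) (Or.inr (Or.inr n3)) a3
  have c2 := C.conj c1 b3 (c := 1) (by rw [map_one]; linear_combination h2)
  have c3 : 1 * B (w₂ + w₂') ((t / (B w₂ w₁ * B w₁' w₂')) • w₁ + w₁') =
      t / B w₁' w₂' + B w₂' w₁' := by
    simp only [map_add, map_smul, LinearMap.add_apply, smul_eq_mul, a2 _ b1, H.sym0 (b2 _ a1)]
    field_simp
    ring
  rw [c3, smul_add, add_add_add_comm] at c2
  refine ⟨_, U.add_mem (U.smul_mem _ a1) (U.smul_mem _ b1), _, fun u hu => by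
    rw [map_add, map_smul, a2 u hu, b2 u hu, smul_zero, add_zero], c2, ?_⟩
  rw [exp2, n1, n2, map_add, map_div₀, H.hs, H.hs, add_mul, add_mul, div_mul_cancel₀ _ b5,
    div_mul_cancel₀ _ b6]
  intro e
  exact one_ne_zero (by linear_combination e - ht - (B w₂' w₁' * B w₁' w₂') * h2 : (1 : F) = 0)

end Cl

theorem Sub.unit {U : Submodule F V} (H : HF σ B) (hU : Sub B U) {a b : V} (ha : a ∈ U)
    (hb : b ∈ U) (h1 : B a a = 1) (h2 : B b b = 1 ∨ b = 0) (h3 : B a b = 0) :
    ∃ z ∈ U, B a z = 0 ∧ B b z = 0 ∧ B z z ≠ 0 := by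
  obtain ⟨r, hr, b1, b2, b3⟩ := hU.d3 H a b
  obtain ⟨u, hu, b4⟩ := hU.nd H hr b1
  obtain ⟨z, hz, b5⟩ := H.aniso (U ⊓ LinearMap.ker (B a) ⊓ LinearMap.ker (B b)) (r := r)
    (u := u - B a u • a - B b u • b) ⟨⟨hr, b2⟩, b3⟩
    ⟨⟨U.sub_mem (U.sub_mem hu (U.smul_mem _ ha)) (U.smul_mem _ hb), by simp [h1, h3]⟩, by
      rcases h2 with h2 | rfl
      · simp [h2, H.sym0 h3]
      · simp⟩ (by simpa [H.sym0 b2, H.sym0 b3] using b4)
  exact ⟨z, hz.1.1, hz.1.2, hz.2, b5⟩

theorem HF.more (H : HF σ B) {m : ℕ} (e : Fin m → V) (h : ∀ i j, i ≠ j → B (e i) (e j) = 0)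
    (h' : ∀ i, B (e i) (e i) = 1) {v : V} (hv : v ≠ ∑ i, B (e i) v • e i) :
    ∃ z, (∀ i, B (e i) z = 0) ∧ B z z ≠ 0 := by
  have pr : ∀ v i, B (e i) (v - ∑ i, B (e i) v • e i) = 0 := fun v i => by
    rw [map_sub, map_sum, Finset.sum_eq_single i (fun j _ hj => by
      rw [map_smul, h i j (Ne.symm hj), smul_zero]) (by simp), map_smul, h', smul_eq_mul]
    ring
  obtain ⟨u, hu⟩ : ∃ u, B (v - ∑ i, B (e i) v • e i) u ≠ 0 := by
    by_contra hn
    push Not at hn
    exact hv (sub_eq_zero.1 (H.nd _ hn))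
  obtain ⟨z, hz, b⟩ := H.aniso (⨅ i, LinearMap.ker (B (e i))) (r := v - ∑ i, B (e i) v • e i)
    (u := u - ∑ i, B (e i) u • e i) ((Submodule.mem_iInf _).2 (pr v))
    ((Submodule.mem_iInf _).2 (pr u)) (by
      have := fun i => H.sym0 (pr v i)
      generalize v - ∑ i, B (e i) v • e i = r at hu this ⊢
      rwa [map_sub, map_sum, Finset.sum_eq_zero (fun i _ => by
        rw [map_smul, this, smul_zero]), sub_zero])
  exact ⟨z, (Submodule.mem_iInf _).1 hz, b⟩

theorem HF.orth_snoc (H : HF σ B) {m : ℕ} {e : Fin m → V} (h : ∀ i j, i ≠ j → B (e i) (e j) = 0)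
    {z : V} (hz : ∀ i, B (e i) z = 0) :
    ∀ i j, i ≠ j → B (Fin.snoc (α := fun _ => V) e z i) (Fin.snoc (α := fun _ => V) e z j) = 0 := by
  intro i j hij
  induction i using Fin.lastCases <;> induction j using Fin.lastCases <;>
    simp only [Fin.snoc_last, Fin.snoc_castSucc]
  · exact absurd rfl hij
  · exact H.sym0 (hz _)
  · exact hz _
  · exact h _ _ fun e => hij (by rw [e])

/-- an orthonormal frame adapted to the centres -/
structure Fr (B : V →ₛₗ[σ] V →ₗ[F] F) (D : V → Prop) (e : Fin 5 → V) : Prop where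
  o : ∀ i j, i ≠ j → B (e i) (e j) = 0
  n : ∀ i, i ≠ 4 → B (e i) (e i) = 1
  n4 : B (e 4) (e 4) = 1 ∨ e 4 = 0
  sp : ∀ v, v = ∑ i, B (e i) v • e i
  w : ∀ a b c : F, σ a * a + σ b * b + σ c * c = 0 → D (a • e 0 + b • e 1 + c • e 2)
  y : D (e 0 + e 3)

theorem Cl.exists_fr [FiniteDimensional F V] {D : V → Prop} (C : Cl σ B D) {U : Submodule F V}
    (hq : ∀ a, σ a = a → a = 0 ∨ a = 1) (h2 : (2 : F) = 0) (h5 : Module.finrank F V ≤ 5)
    (hU : Sub B U) (full : ∀ u ∈ U, B u u = 0 → D u) {v : V} (v0 : v ≠ 0)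
    (hv : ∀ u ∈ U, B u v = 0) : ∃ e, Fr B D e := by
  have H := C.hf
  have one : ∀ z, B z z ≠ 0 → B z z = 1 := fun z h => (hq _ (H.hs z z)).resolve_left h
  obtain ⟨a, ha, d, hd, hD, nd⟩ := C.exists_aniso h2 hU full v0 hv
  have na : B a a = 1 := one a (by rwa [C.norm_of ha hd (C.iso hD), neg_ne_zero])
  obtain ⟨b, hb, ab, -, nb⟩ := hU.unit H ha U.zero_mem na (Or.inr rfl) (map_zero _)
  obtain ⟨c, hc, ac, bc, nc⟩ := hU.unit H ha hb na (Or.inl (one b nb)) ab
  have o4 : ∀ i j, i ≠ j → B (![a, b, c, d] i) (![a, b, c, d] j) = 0 := fun i j h => by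
    fin_cases i <;> fin_cases j <;> simp at h ⊢ <;>
      simp [ab, ac, bc, hd, ha, hb, hc, H.sym0 ab, H.sym0 ac, H.sym0 bc, H.sym0 (hd _ ha),
        H.sym0 (hd _ hb), H.sym0 (hd _ hc)]
  have n4 : ∀ i, B (![a, b, c, d] i) (![a, b, c, d] i) = 1 := fun i => by
    fin_cases i <;> simp [na, one, nb, nc, nd]
  have key : ∀ z, (∀ i, B (![a, b, c, d] i) z = 0) → (B z z = 1 ∨ z = 0) →
      (∀ v, v = ∑ i, B (Fin.snoc (α := fun _ => V) ![a, b, c, d] z i) v •
        Fin.snoc (α := fun _ => V) ![a, b, c, d] z i) → ∃ e, Fr B D e := by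
    intro z h1 h2 h3
    refine ⟨_, H.orth_snoc o4 h1, fun i hi => ?_, h2, h3, fun s t u h => ?_, hD⟩
    · induction i using Fin.lastCases
      · exact absurd rfl hi
      · simp only [Fin.snoc_castSucc]; exact n4 _
    · refine full (s • a + t • b + u • c)
        (U.add_mem (U.add_mem (U.smul_mem _ ha) (U.smul_mem _ hb)) (U.smul_mem _ hc)) ?_
      simp only [map_add, map_smulₛₗ, LinearMap.add_apply, LinearMap.smul_apply, smul_eq_mul,
        RingHom.id_apply, na, one b nb, one c nc, ab, ac, bc, H.sym0 ab, H.sym0 ac, H.sym0 bc]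
      linear_combination h
  by_cases h : ∀ v, v = ∑ i, B (![a, b, c, d] i) v • ![a, b, c, d] i
  · refine key 0 (fun i => map_zero _) (Or.inr rfl) fun v => ?_
    rw [Fin.sum_univ_castSucc]
    simp only [Fin.snoc_last, Fin.snoc_castSucc, smul_zero, add_zero]
    exact h v
  push Not at h
  obtain ⟨v, hv⟩ := h
  obtain ⟨z, z1, z2⟩ := H.more _ o4 n4 hv
  refine key z z1 (Or.inl (one z z2)) fun v => ?_
  by_contra hv
  have n5 : ∀ i, B (Fin.snoc (α := fun _ => V) ![a, b, c, d] z i)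
      (Fin.snoc (α := fun _ => V) ![a, b, c, d] z i) = 1 := fun i => by
    induction i using Fin.lastCases
    · simp only [Fin.snoc_last]; exact one z z2
    · simp only [Fin.snoc_castSucc]; exact n4 _
  obtain ⟨z', z3, z4⟩ := H.more _ (H.orth_snoc o4 z1) n5 hv
  have := (li_of_dual _ _ (H.orth_snoc (H.orth_snoc o4 z1) z3) fun i => by
    induction i using Fin.lastCases
    · simpa only [Fin.snoc_last] using z4
    · simp only [Fin.snoc_castSucc, n5]; exact one_ne_zero).fintype_card_le_finrank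
  rw [Fintype.card_fin] at this
  omega

end CL.ZsU
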