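/-
Sets of isotropic vectors closed under hyperbolic lines: the field with four elements.
-/
import Cfsg.Agent.CLAS.ZsU2

set_option autoImplicit false
set_option maxHeartbeats 200000

namespace CL.ZsU

variable {F : Type*} [Field F] {V : Type*} [AddCommGroup V] [Module F V] {σ : F →+* F}
  {B : V →ₛₗ[σ] V →ₗ[F] F}

/-- the fixed field has two elements -/
def Q2 (σ : F →+* F) : Prop := ∀ a, σ a = a → a = 0 ∨ a = 1

theorem Q2.two (hq : Q2 σ) : (2 : F) = 0 := by
  rcases hq (1 + 1) (by simp) with h | h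
  · linear_combination h
  · exact absurd (by linear_combination h) (one_ne_zero (α := F))

theorem Q2.nrm (hq : Q2 σ) (H : HF σ B) {a : F} (ha : a ≠ 0) : σ a * a = 1 :=
  (hq _ (by rw [map_mul, H.s2, mul_comm])).resolve_left (mul_ne_zero ((map_ne_zero σ).2 ha) ha)

theorem Q2.inv (hq : Q2 σ) (H : HF σ B) (a : F) : σ a = a⁻¹ := by
  by_cases ha : a = 0
  · simp [ha]
  · exact eq_inv_of_mul_eq_one_left (hq.nrm H ha)

theorem Q2.cube (hq : Q2 σ) (H : HF σ B) {a : F} (ha : a ≠ 0) : a ^ 3 = 1 := by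
  have h2 := hq.two
  have h1 := hq.nrm H ha
  rcases hq (a + σ a) (by rw [map_add, H.s2, add_comm]) with h | h
  · rcases hq a (by linear_combination h - a * h2) with h | h
    · exact absurd h ha
    · rw [h, one_pow]
  · linear_combination (a + 1) * (a * h - h1) - h2 + (1 - a) * h2 + a * h2 - h2

theorem Q2.omega (hq : Q2 σ) (H : HF σ B) : ∃ ω : F, ω ≠ 0 ∧ σ ω = 1 + ω ∧ ω * (1 + ω) = 1 := by
  obtain ⟨t, ht⟩ := H.tr (map_one σ)
  have t0 : t ≠ 0 := by rintro rfl; simp at ht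
  have e : σ t = 1 + t := by linear_combination ht - t * hq.two
  exact ⟨t, t0, e, by rw [← e, mul_comm]; exact hq.nrm H t0⟩

/-- coordinates in a frame -/
def cmb (e : Fin 5 → V) (a b c d f : F) : V := a • e 0 + b • e 1 + c • e 2 + d • e 3 + f • e 4

namespace Fr

variable {D : V → Prop} {e : Fin 5 → V} (C : Cl σ B D) (hq : Q2 σ) (R : Fr B D e)
  {a b c d f : F}
include R

theorem c0 : B (e 0) (cmb e a b c d f) = a := by simp [cmb, R.o, R.n]
theorem c1 : B (e 1) (cmb e a b c d f) = b := by simp [cmb, R.o, R.n]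
theorem c2 : B (e 2) (cmb e a b c d f) = c := by simp [cmb, R.o, R.n]
theorem c3 : B (e 3) (cmb e a b c d f) = d := by simp [cmb, R.o, R.n]
theorem c4 : B (e 4) (cmb e a b c d f) = f * B (e 4) (e 4) := by simp [cmb, R.o]

theorem sp' (v : V) : v = cmb e (B (e 0) v) (B (e 1) v) (B (e 2) v) (B (e 3) v) (B (e 4) v) := by
  have := R.sp v
  rwa [Fin.sum_univ_five] at this

theorem bb (a' b' c' d' f' : F) : B (cmb e a' b' c' d' f') (cmb e a b c d f) =
    σ a' * a + σ b' * b + σ c' * c + σ d' * d + σ f' * f * B (e 4) (e 4) := by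
  conv_lhs => enter [1]; rw [cmb]
  simp only [map_add, map_smulₛₗ, LinearMap.add_apply, LinearMap.smul_apply, smul_eq_mul, R.c0,
    R.c1, R.c2, R.c3, R.c4]
  ring

include C hq

theorem mv {a' b' c' d' f' : F} (h : D (cmb e a b c d f)) (h' : D (cmb e a' b' c' d' f')) {l : F}
    (hl : l = σ a' * a + σ b' * b + σ c' * c + σ d' * d + σ f' * f * B (e 4) (e 4)) :
    D (cmb e (a + l * a') (b + l * b') (c + l * c') (d + l * d') (f + l * f')) := by
  have := C.conj h h' (c := 1) (by rw [map_one]; linear_combination hq.two)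
  rw [one_mul, R.bb, ← hl] at this
  convert this using 1
  simp only [cmb]
  module

omit hq R in
theorem sc (l : F) (h : D (cmb e a b c d f)) : D (cmb e (l * a) (l * b) (l * c) (l * d) (l * f)) := by
  convert C.smul l h using 1
  simp only [cmb]
  module

omit C hq in
theorem w3 (h : σ a * a + σ b * b + σ c * c = 0) : D (cmb e a b c 0 0) := by
  simpa [cmb] using R.w a b c h

theorem m01 {ζ : F} (h0 : ζ ≠ 0) (h : D (cmb e a b c d f)) :
    D (cmb e (ζ⁻¹ * b) (ζ * a) c d f) := by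
  have h2 := hq.two
  have := R.mv C hq h (R.w3 (a := 1) (b := ζ) (c := 0) (by
    simp only [map_one, map_zero, hq.nrm C.hf h0]; linear_combination h2)) rfl
  simp only [map_one, map_zero, hq.inv C.hf ζ] at this
  convert this using 2
  · linear_combination (-a) * h2
  · field_simp; linear_combination (-b) * h2
  all_goals ring

theorem m12 {ζ : F} (h0 : ζ ≠ 0) (h : D (cmb e a b c d f)) :
    D (cmb e a (ζ⁻¹ * c) (ζ * b) d f) := by
  have h2 := hq.two
  have := R.mv C hq h (R.w3 (a := 0) (b := 1) (c := ζ) (by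
    simp only [map_one, map_zero, hq.nrm C.hf h0]; linear_combination h2)) rfl
  simp only [map_one, map_zero, hq.inv C.hf ζ] at this
  convert this using 2
  · ring
  · linear_combination (-b) * h2
  · field_simp; linear_combination (-c) * h2
  all_goals ring

theorem m23 {ζ : F} (h0 : ζ ≠ 0) (h : D (cmb e a b c d f)) :
    D (cmb e a b (ζ⁻¹ * d) (ζ * c) f) := by
  have h2 := hq.two
  have y0 : D (cmb e (1 : F) 0 0 1 0) := by simpa [cmb] using R.y
  have y1 := sc C ζ (R.m12 C hq one_ne_zero (R.m01 C hq (inv_ne_zero h0) y0))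
  simp only [mul_zero, mul_one, one_mul, mul_inv_cancel₀ h0] at y1
  have := R.mv C hq h y1 rfl
  simp only [map_one, map_zero, hq.inv C.hf ζ] at this
  convert this using 2
  · ring
  · ring
  · linear_combination (-c) * h2
  · field_simp; linear_combination (-d) * h2
  · ring

theorem s01 (h : D (cmb e a b c d f)) : D (cmb e b a c d f) := by
  simpa using R.m01 C hq one_ne_zero h

theorem s12 (h : D (cmb e a b c d f)) : D (cmb e a c b d f) := by
  simpa using R.m12 C hq one_ne_zero h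

theorem s23 (h : D (cmb e a b c d f)) : D (cmb e a b d c f) := by
  simpa using R.m23 C hq one_ne_zero h

theorem torus {α β γ : F} (h1 : α ≠ 0) (h2 : β ≠ 0) (h3 : γ ≠ 0) (h : D (cmb e a b c d f)) :
    D (cmb e (α * a) (β * b) (γ * c) ((α * β * γ)⁻¹ * d) f) := by
  have := R.s23 C hq (R.m23 C hq (mul_ne_zero (mul_ne_zero h1 h2) h3) (R.s12 C hq
    (R.m12 C hq (mul_ne_zero h1 h2) (R.s01 C hq (R.m01 C hq h1 h)))))
  convert this using 2 <;> field_simp

theorem nf4 (h : D (cmb e a b c d 0)) (ha : a ≠ 0) (hb : b ≠ 0) (hc : c ≠ 0) (hd : d ≠ 0)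
    {a' b' c' d' : F} (ha' : a' ≠ 0) (hb' : b' ≠ 0) (hc' : c' ≠ 0) (hd' : d' ≠ 0) :
    D (cmb e a' b' c' d' 0) := by
  obtain ⟨l, hl⟩ : ∃ l, l = a' * b' * c' * d' / (a * b * c * d) := ⟨_, rfl⟩
  have l0 : l ≠ 0 := by rw [hl]; positivity
  have l3 := hq.cube C.hf l0
  have := R.torus C hq (α := a' / (l * a)) (β := b' / (l * b)) (γ := c' / (l * c))
    (by positivity) (by positivity) (by positivity) (sc C l h)
  convert this using 2
  · field_simp
  · field_simp
  · field_simp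
  · field_simp at hl ⊢
    linear_combination (-1 : F) * hl - (l * a * b * c * d) * l3
  · ring

theorem n5 (h : D (cmb e a b c 0 f)) (ha : a ≠ 0) (hb : b ≠ 0) (hc : c ≠ 0) (hf : f ≠ 0)
    {a' b' c' f' : F} (ha' : a' ≠ 0) (hb' : b' ≠ 0) (hc' : c' ≠ 0) (hf' : f' ≠ 0) :
    D (cmb e a' b' c' 0 f') := by
  have := R.torus C hq (α := a' * f / (f' * a)) (β := b' * f / (f' * b)) (γ := c' * f / (f' * c))
    (by positivity) (by positivity) (by positivity) (sc C (f' / f) h)
  rw [mul_zero, mul_zero] at this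
  convert this using 2 <;> field_simp

theorem of5 (h : D (cmb e a b c 0 f)) (ha : a ≠ 0) (hb : b ≠ 0) (hc : c ≠ 0) (hf : f ≠ 0)
    (h4 : B (e 4) (e 4) = 1) : D (cmb e (1 : F) 1 1 1 0) := by
  obtain ⟨ω, ω0, ω1, ω2⟩ := hq.omega C.hf
  have h2 := hq.two
  have o := one_ne_zero (α := F)
  have := R.mv C hq (R.n5 C hq h ha hb hc hf o o o o) (R.s23 C hq (R.n5 C hq h ha hb hc hf o o o ω0))
    (l := 1 + ω) (by simp only [map_one, map_zero, h4, ω1]; linear_combination -h2)
  rw [show 1 + (1 + ω) * ω = 0 by linear_combination ω2 + h2,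
    show 1 + (1 + ω) * 1 = ω by linear_combination h2] at this
  exact R.nf4 C hq this ω0 ω0 (by simp) (by simpa using right_ne_zero_of_mul (ω2 ▸ o)) o o o o

theorem all4 (h : D (cmb e (1 : F) 1 1 1 0)) (v : V) (hv : B v v = 0) : D v := by
  have H := C.hf
  have o := one_ne_zero (α := F)
  obtain ⟨ω, ω0, ω1, ω2⟩ := hq.omega C.hf
  have h2 := hq.two
  let U : Submodule F V :=
    { carrier := {v | ∃ a b c d : F, v = cmb e a b c d 0}
      zero_mem' := ⟨0, 0, 0, 0, by simp [cmb]⟩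
      add_mem' := by
        rintro _ _ ⟨a, b, c, d, rfl⟩ ⟨a', b', c', d', rfl⟩
        exact ⟨a + a', b + b', c + c', d + d', by simp only [cmb]; module⟩
      smul_mem' := by
        rintro l _ ⟨a, b, c, d, rfl⟩
        exact ⟨l * a, l * b, l * c, l * d, by simp only [cmb]; module⟩ }
  refine C.ext (U := U) ⟨fun v => ⟨_, ⟨B (e 0) v, B (e 1) v, B (e 2) v, B (e 3) v, rfl⟩, ?_⟩,
    _, ⟨1, 1, 0, 0, rfl⟩, _, ⟨ω, ω * ω, 0, 0, rfl⟩, _, ⟨0, 0, 1, 0, rfl⟩, ?_⟩ ?_ (Or.inr ?_) v hv
  · rintro _ ⟨a, b, c, d, rfl⟩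
    rw [map_sub]
    nth_rewrite 1 [R.sp' v]
    simp [R.bb]
  · simp only [R.bb, map_one, map_zero, map_mul, ω1]
    refine ⟨?_, ?_, ?_, ?_, ?_, by simp⟩
    · linear_combination h2
    · linear_combination (ω * (1 + ω) + 2) * ω2 + h2
    · linear_combination ω2
    · ring
    · ring
  · rintro _ ⟨a, b, c, d, rfl⟩ hv
    rw [R.bb] at hv
    by_cases hd : d = 0
    · subst hd; exact R.w3 (by simpa using hv)
    by_cases hc : c = 0
    · subst hc; exact R.s23 C hq (R.w3 (by simpa using hv))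
    by_cases hb : b = 0
    · subst hb; exact R.s12 C hq (R.s23 C hq (R.w3 (by simpa using hv)))
    by_cases ha : a = 0
    · subst ha; exact R.s01 C hq (R.s12 C hq (R.s23 C hq (R.w3 (by simpa using hv))))
    exact R.nf4 C hq h o o o o ha hb hc hd
  · intro u₁ u₂ u₃
    obtain ⟨r, h1, h2, h3⟩ := exists_ker (B := B) U ![e 0, e 1, e 2, e 3] ![e 0, e 1, e 2, e 3]
      (fun i => by
        fin_cases i
        exacts [⟨1, 0, 0, 0, by simp [cmb]⟩, ⟨0, 1, 0, 0, by simp [cmb]⟩,
          ⟨0, 0, 1, 0, by simp [cmb]⟩, ⟨0, 0, 0, 1, by simp [cmb]⟩])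
      (fun i j h => by fin_cases i <;> fin_cases j <;> simp at h ⊢ <;> simp [R.o])
      (fun i => by fin_cases i <;> simp [R.n]) ![u₁, u₂, u₃]
    exact ⟨r, h1, h2, h3 0, h3 1, h3 2⟩

omit C in
theorem two {i j : Fin 5} (hij : i ≠ j) (hi : B (e i) (e i) = 1) (hj : B (e j) (e j) = 1)
    (ha : σ a * a = 1) (hb : σ b * b = 1) (k : Fin 5) :
    ∃ l, ∃ μ : F, e k + B (a • e i + b • e j) (e k) • (a • e i + b • e j) = μ • e l := by
  have h2 := hq.two
  simp only [map_add, map_smulₛₗ, LinearMap.add_apply, LinearMap.smul_apply, smul_eq_mul]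
  by_cases h : k = i
  · refine ⟨j, σ a * b, ?_⟩
    rw [h, hi, R.o j i hij.symm]
    match_scalars
    · linear_combination ha + h2
    · ring
  by_cases h' : k = j
  · refine ⟨i, σ b * a, ?_⟩
    rw [h', hj, R.o i j hij]
    match_scalars
    · linear_combination hb + h2
    · ring
  · exact ⟨k, 1, by simp [R.o i k (Ne.symm h), R.o j k (Ne.symm h')]⟩

theorem dich : (∀ v, B v v = 0 → D v) ∨
    ∀ y, D y → ∀ k, ∃ l, ∃ μ : F, e k + B y (e k) • y = μ • e l := by
  classical
  by_cases h : D (cmb e (1 : F) 1 1 1 0)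
  · exact Or.inl (R.all4 C hq h)
  refine Or.inr fun y hy k => ?_
  have H := C.hf
  have o := one_ne_zero (α := F)
  have : CharP F 2 := CharTwo.of_one_ne_zero_of_two_eq_zero o hq.two
  let S : Finset (Fin 5) := Finset.univ.filter fun i => B (e i) y ≠ 0
  have mem : ∀ i, i ∈ S ↔ B (e i) y ≠ 0 := fun i => by simp [S]
  have nS : ∀ i ∈ S, B (e i) (e i) = 1 := fun i hi => by
    by_cases h4 : i = 4
    · subst h4
      exact R.n4.resolve_right fun e => (mem _).1 hi (by simp [e])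
    · exact R.n i h4
  have ey : y = ∑ i ∈ S, B (e i) y • e i := by
    rw [Finset.sum_subset (Finset.subset_univ S) fun i _ hi => by
      rw [not_not.1 (mt (mem i).2 hi), zero_smul]]
    exact R.sp y
  have ev : (S.card : F) = 0 := by
    have := C.iso hy
    nth_rewrite 2 [ey] at this
    rw [map_sum, Finset.sum_congr rfl (g := fun _ => 1) fun i hi => by
      rw [map_smul, smul_eq_mul, ← H.hs (e i) y, mul_comm]; exact hq.nrm H ((mem i).1 hi)] at this
    simpa using this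
  rw [CharP.cast_eq_zero_iff F 2] at ev
  have le : S.card ≤ 5 := S.card_le_univ
  rcases (by omega : S.card = 0 ∨ S.card = 2 ∨ S.card = 4) with e0 | e0 | e0
  · rw [Finset.card_eq_zero.1 e0, Finset.sum_empty] at ey
    exact ⟨k, 1, by simp [ey]⟩
  · obtain ⟨i, j, hij, e1⟩ := Finset.card_eq_two.1 e0
    have hi : i ∈ S := by simp [e1]
    have hj : j ∈ S := by simp [e1]
    rw [e1, Finset.sum_pair hij] at ey
    have := R.two hq hij (nS i hi) (nS j hj) (hq.nrm H ((mem i).1 hi)) (hq.nrm H ((mem j).1 hj)) k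
    rwa [← ey] at this
  · obtain ⟨i, e1⟩ := Finset.card_eq_one.1 (show Sᶜ.card = 1 by
      rw [Finset.card_compl, e0]; rfl)
    have z : ∀ j, B (e j) y = 0 ↔ j = i := fun j => by
      rw [← Finset.mem_singleton (b := j), ← e1, Finset.mem_compl, mem, not_not]
    have nz : ∀ j, j ≠ i → B (e j) y ≠ 0 := fun j hj => mt (z j).1 hj
    have n4 : i ≠ 4 → B (e 4) (e 4) = 1 := fun hi => nS 4 ((mem 4).2 (nz 4 hi.symm))
    have z0 := (z i).2 rfl
    rw [R.sp' y] at hy
    refine absurd ?_ h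
    fin_cases i <;> simp only [Fin.reduceFinMk, Fin.zero_eta, Fin.mk_one] at z0 nz n4 <;>
      rw [z0] at hy
    · exact R.of5 C hq (R.s23 C hq (R.s12 C hq (R.s01 C hq hy))) (nz 1 (by decide))
        (nz 2 (by decide)) (nz 3 (by decide)) (nz 4 (by decide)) (n4 (by decide))
    · exact R.of5 C hq (R.s23 C hq (R.s12 C hq hy)) (nz 0 (by decide))
        (nz 2 (by decide)) (nz 3 (by decide)) (nz 4 (by decide)) (n4 (by decide))
    · exact R.of5 C hq (R.s23 C hq hy) (nz 0 (by decide))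
        (nz 1 (by decide)) (nz 3 (by decide)) (nz 4 (by decide)) (n4 (by decide))
    · exact R.of5 C hq hy (nz 0 (by decide))
        (nz 1 (by decide)) (nz 2 (by decide)) (nz 4 (by decide)) (n4 (by decide))
    · exact R.nf4 C hq hy (nz 0 (by decide)) (nz 1 (by decide)) (nz 2 (by decide))
        (nz 3 (by decide)) o o o o

theorem diag : ∃ x u, D x ∧ D u ∧ B x u ≠ 0 ∧ ∀ k, ∃ μ : F,
    e k + B u (e k) • u + B x (e k + B u (e k) • u) • x = μ • e k := by
  obtain ⟨ω, ω0, ω1, ω2⟩ := hq.omega C.hf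
  have h2 := hq.two
  refine ⟨e 0 + e 1, e 0 + ω • e 1, by
    simpa using R.w 1 1 0 (by simp only [map_one, map_zero]; linear_combination h2), by
    simpa using R.w 1 ω 0 (by simp only [map_one, map_zero, ω1]; linear_combination ω2 + h2), ?_,
    fun k => ?_⟩
  · simpa [R.o, R.n] using right_ne_zero_of_mul (ω2 ▸ one_ne_zero)
  by_cases h0 : k = 0
  · refine ⟨ω, ?_⟩
    simp [h0, R.o, R.n]
    match_scalars
    · linear_combination 2 * h2
    · linear_combination (1 + ω) * h2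
  by_cases h1 : k = 1
  · refine ⟨1 + ω, ?_⟩
    simp [h1, R.o, R.n, ω1]
    match_scalars
    · linear_combination 2 * ω2 + 2 * h2
    · linear_combination ω2 + (2 + ω) * h2
  · exact ⟨1, by simp [R.o 0 k (Ne.symm h0), R.o 1 k (Ne.symm h1)]⟩

end Fr

theorem Cl.main [FiniteDimensional F V] {D : V → Prop} (C : Cl σ B D)
    (h4 : 4 ≤ Module.finrank F V) (h5 : Module.finrank F V ≤ 5) {x u y : V} (hx : D x) (hu : D u)
    (hy : D y) (hP : B x u * B u y * B y x + σ (B x u * B u y * B y x) ≠ 0) :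
    (∀ v, B v v = 0 → D v) ∨ (Q2 σ ∧ ∃ e : Fin 5 → V, (∀ v, v = ∑ i, B (e i) v • e i) ∧
      (∀ y, D y → ∀ k, ∃ l, ∃ μ : F, e k + B y (e k) • y = μ • e l) ∧
      ∃ x u, D x ∧ D u ∧ B x u ≠ 0 ∧ ∀ k, ∃ μ : F,
        e k + B u (e k) • u + B x (e k + B u (e k) • u) • x = μ • e k) := by
  obtain ⟨W, hW, full, perp⟩ := C.exists_full hx hu hy hP
  by_cases h3 : Q3 σ
  · exact Or.inl (C.ext hW full (Or.inl h3))
  have hq : Q2 σ := fun a ha => by
    by_contra hn
    push Not at hn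
    exact h3 ⟨a, ha, hn⟩
  obtain ⟨v, v0, hv⟩ := perp fun u₁ u₂ u₃ => by
    obtain ⟨r, hr, r0⟩ := (Submodule.ne_bot_iff _).1 (LinearMap.ker_ne_bot_of_finrank_lt
      (f := LinearMap.pi fun k => B (![u₁, u₂, u₃] k)) (by simp; omega))
    have := congrFun (LinearMap.mem_ker.1 hr)
    exact ⟨r, trivial, r0, this 0, this 1, this 2⟩
  obtain ⟨e, R⟩ := C.exists_fr hq hq.two h5 hW full v0 hv
  exact (R.dich C hq).imp_right fun h => ⟨hq, e, R.sp, h, R.diag C hq⟩

end CL.ZsU
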